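import Mathlib
import Cfsg.Statements.S3784


set_option autoImplicit false
open Cfsg

namespace Cfsg.Agent.S3784

theorem odd_geom (x : ℤ) (hx : Odd x) (n : ℕ) (hn : Odd n) : Odd (∑ i ∈ Finset.range n, x ^ i) := by
  have key : ∀ m : ℕ, (∑ i ∈ Finset.range m, x ^ i) % 2 = (m : ℤ) % 2 := by
    intro m
    induction m with
    | zero => simp
    | succ m ih =>
      rw [Finset.sum_range_succ]
      have : (x ^ m) % 2 = 1 := Int.odd_iff.mp hx.pow
      push_cast
      omega
  rw [Int.odd_iff, key]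
  obtain ⟨k, rfl⟩ := hn
  push_cast
  omega

theorem unit_of_odd_dvd (S : ℤ) (hS : Odd S) (b : ℕ) (h : S ∣ 2 ^ b) : S = 1 ∨ S = -1 := by
  have h1 : S.natAbs ∣ 2 ^ b := by
    have := Int.natAbs_dvd_natAbs.mpr h
    simpa [Int.natAbs_pow] using this
  obtain ⟨k, -, hk⟩ := (Nat.dvd_prime_pow Nat.prime_two).mp h1
  have ho : Odd S.natAbs := Int.natAbs_odd.mpr hS
  rcases k with _ | k
  · simp at hk; omega
  · rw [hk] at ho
    exact absurd ho (by rw [Nat.not_odd_iff_even]; exact Nat.even_pow.mpr ⟨even_two, by omega⟩)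

/-- Let p, q be primes and a, b positive integers with p^a = q^b + 1. Then either p = 2, b = 1, a is prime and q = 2^a − 1; or q = 2, a = 1, b is a power of 2 and p = 2^b + 1; or p^a = 9 and q^b = 8. -/
theorem result (p q a b : ℕ) (hp : p.Prime) (hq : q.Prime) (ha : 1 ≤ a) (hb : 1 ≤ b) (h : p ^ a = q ^ b + 1) : (p = 2 ∧ b = 1 ∧ a.Prime ∧ q + 1 = 2 ^ a) ∨ (q = 2 ∧ a = 1 ∧ (∃ m : ℕ, b = 2 ^ m) ∧ p = 2 ^ b + 1) ∨ (p ^ a = 9 ∧ q ^ b = 8) := by
  by_cases hp2 : p = 2
  · subst hp2
    have hqo : Odd q := by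
      rcases hq.eq_two_or_odd' with rfl | h1
      · exfalso
        have h1 : 2 ∣ 2 ^ a := dvd_pow_self 2 (by omega)
        have h2 : 2 ∣ 2 ^ b := dvd_pow_self 2 (by omega)
        omega
      · exact h1
    have hb1 : b = 1 := by
      rcases Nat.even_or_odd b with ⟨c, rfl⟩ | hbo
      · exfalso
        obtain ⟨k, hk⟩ : Odd (q ^ c) := hqo.pow
        rw [pow_add, hk] at h
        have h4 : a = 1 := by
          by_contra hne
          obtain ⟨a', rfl⟩ : ∃ a', a = a' + 2 := ⟨a - 2, by omega⟩
          have : (2 * k + 1) * (2 * k + 1) + 1 = 4 * (k * k + k) + 2 := by ring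
          rw [this, pow_add] at h
          omega
        subst h4
        have h5 : 1 < q ^ c := Nat.one_lt_pow (by omega) hq.one_lt
        nlinarith
      · have hS := odd_geom (-(q : ℤ)) (by simpa using hqo) b hbo
        have e := mul_neg_geom_sum (-(q : ℤ)) b
        rw [hbo.neg_pow] at e
        have h' : (2 : ℤ) ^ a = (q : ℤ) ^ b + 1 := by exact_mod_cast h
        have hd : (∑ i ∈ Finset.range b, (-(q : ℤ)) ^ i) ∣ 2 ^ a :=
          ⟨1 + q, by rw [h']; linarith⟩
        have hq0 : (0 : ℤ) < q := by exact_mod_cast hq.pos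
        have hqb : (0 : ℤ) < (q : ℤ) ^ b := pow_pos hq0 b
        rcases unit_of_odd_dvd _ hS a hd with h1 | h1
        · rw [h1] at e
          have : q ^ b = q ^ 1 := by
            have : (q : ℤ) ^ b = (q : ℤ) ^ 1 := by linarith
            exact_mod_cast this
          exact Nat.pow_right_injective hq.two_le this
        · rw [h1] at e; linarith
    subst hb1
    left
    refine ⟨rfl, rfl, ?_, by simpa using h.symm⟩
    have : 2 ^ a - 1 = q := by simp at h; omega
    refine (Nat.prime_of_pow_sub_one_prime (a := 2) ?_ (this ▸ hq)).2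
    rintro rfl
    have := hq.two_le
    omega
  · have hpo : Odd p := hp.odd_of_ne_two hp2
    have hq2 : q = 2 := by
      by_contra hne
      have h1 : Odd (q ^ b) := (hq.odd_of_ne_two hne).pow
      have h2 : Odd (p ^ a) := hpo.pow
      rw [Nat.odd_iff] at h1 h2
      omega
    subst hq2
    right
    rcases Nat.even_or_odd a with ⟨c, rfl⟩ | hao
    · right
      obtain ⟨k, hk⟩ : Odd (p ^ c) := hpo.pow
      have h5 : 1 < p ^ c := Nat.one_lt_pow (by omega) hp.one_lt
      rw [pow_add, hk] at h ⊢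
      have e : 2 ^ b = 4 * (k * (k + 1)) := by nlinarith
      have hk1 : k = 1 := by
        have d1 : k ∣ 2 ^ b := ⟨4 * (k + 1), by rw [e]; ring⟩
        have d2 : k + 1 ∣ 2 ^ b := ⟨4 * k, by rw [e]; ring⟩
        obtain ⟨i, -, hi⟩ := (Nat.dvd_prime_pow Nat.prime_two).mp d1
        obtain ⟨j, -, hj⟩ := (Nat.dvd_prime_pow Nat.prime_two).mp d2
        rcases i with _ | i
        · simpa using hi
        · rcases j with _ | j
          · simp at hj; omega
          · rw [pow_succ] at hi hj; omega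
      subst hk1
      omega
    · left
      have hS := odd_geom (p : ℤ) (by simpa using hpo) a hao
      have e := mul_geom_sum (p : ℤ) a
      have h' : (p : ℤ) ^ a = (2 : ℤ) ^ b + 1 := by exact_mod_cast h
      have hd : (∑ i ∈ Finset.range a, (p : ℤ) ^ i) ∣ 2 ^ b :=
        ⟨p - 1, by rw [mul_comm, e, h']; ring⟩
      have hp0 : (1 : ℤ) < p := by exact_mod_cast hp.one_lt
      have hqb : (0 : ℤ) < (2 : ℤ) ^ b := pow_pos (by norm_num) b
      have ha1 : a = 1 := by
        rcases unit_of_odd_dvd _ hS b hd with h1 | h1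
        · rw [h1] at e
          have : p ^ a = p ^ 1 := by
            have : (p : ℤ) ^ a = (p : ℤ) ^ 1 := by linarith
            exact_mod_cast this
          exact Nat.pow_right_injective hp.two_le this
        · rw [h1] at e; linarith
      subst ha1
      rw [pow_one] at h
      exact ⟨rfl, rfl, Nat.pow_of_pow_add_prime (a := 2) (by norm_num) (by omega) (h ▸ hp), h⟩

end Cfsg.Agent.S3784
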