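import Cfsg.Statements.S0519
import Cfsg.Agent.H10.Local2
import Cfsg.Agent.H11.TwoGp
import Cfsg.Agent.H11.MC2
import Cfsg.Agent.BG.S04a

set_option autoImplicit false
open Cfsg

namespace Cfsg.Agent.S0519

/-- Let P be a finite p-group in which every abelian normal subgroup is cyclic, but which has a non-cyclic abelian
subgroup. Then p = 2 and P is generalized quaternion, dihedral of order at least 16, or quasi-dihedral. -/
theorem result {P : Type*} [Group P] [Finite P] (p : ℕ) [Fact p.Prime]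
    (hP : IsPGroup p P) (hn : ∀ A : Subgroup P, A.Normal → IsMulCommutative A → IsCyclic A)
    (hm : ∃ B : Subgroup P, IsMulCommutative B ∧ ¬ IsCyclic B) :
    p = 2 ∧ ((∃ n : ℕ, Nonempty (P ≃* QuaternionGroup n)) ∨ (∃ n : ℕ, 8 ≤ n ∧ Nonempty (P ≃* DihedralGroup n)) ∨
      Cfsg.IsQuasiDihedral P) := by
  open Subgroup Cfsg.Agent.H10 in
  obtain ⟨B, hB, hBc⟩ := hm
  have hnc : ¬ IsCyclic P := fun h => hBc inferInstance
  have hp : p = 2 := by
    by_contra h
    have hodd : Odd (Nat.card (⊤ : Subgroup P)) := by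
      obtain ⟨k, hk⟩ := IsPGroup.iff_card.1 (hP.to_subgroup ⊤)
      rw [hk]; exact ((Fact.out : p.Prime).odd_of_ne_two h).pow
    obtain ⟨E, hE, hE2⟩ := BG.ex_odd_normal_p2Elem (hP.to_subgroup ⊤) hodd
      (fun h => hnc (isCyclic_of_surjective _ Subgroup.topEquiv.surjective))
    exact hE2.not_cyclic le_rfl (hn E (normal_of_normalizer_top hE.2) hE2.comm)
  subst hp
  have hk : ∀ V : Subgroup P, V.Normal → ¬ IsKleinFour V := fun V hV hk =>
    IsKleinFour.not_isCyclic (G := V) (hn V hV (IsKleinFour.isMulCommutative))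
  refine ⟨rfl, ?_⟩
  obtain h | ⟨n, e, f, X, Y, h⟩ := H11.isCyclic_or_MC_of_no_normal_klein hP hk
  · exact absurd h hnc
  have h2 := h.two_le
  rcases h.he with rfl | ⟨h3, rfl⟩
  · rcases h.hf with rfl | rfl
    · refine Or.inr (Or.inl ⟨2 ^ n, ?_, ?_⟩)
      · by_contra hlt
        have hn2 : n = 2 := by
          by_contra h'
          exact hlt (by calc 8 = 2 ^ 3 := rfl
            _ ≤ _ := Nat.pow_le_pow_right (by norm_num) (by omega))
        subst hn2
        refine hk _ (normal_of_normalizer_top fun s hs => (h.normalizer_four hs).2 ?_)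
          (h.isKleinFour_four (a := 0) (by simp))
        rw [show H11.qq 2 = 1 from H11.MC.fr_self, ← h.eq_closure rfl]; trivial
      · obtain ⟨φ⟩ := h.nonempty_dihedral (c := 1) (k := 0) (by simp) (by simp)
        rw [← h.eq_closure rfl, h.orderOf_X_one] at φ
        exact ⟨Subgroup.topEquiv.symm.trans φ⟩
    · refine Or.inl ⟨2 ^ (n - 1), ?_⟩
      obtain ⟨φ⟩ := h.nonempty_quaternion (j := n - 1) (k := 0) (by omega) (by simp) (by simp)
      rw [show n - 1 + 1 = n by omega, H11.MC.fr_self, ← h.eq_closure rfl] at φ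
      exact ⟨Subgroup.topEquiv.symm.trans φ⟩
  · refine Or.inr (Or.inr ⟨n, h3, by rw [← h.card, Subgroup.card_top], ?_⟩)
    obtain ⟨k, hk⟩ : ∃ k, f + H11.hh n * k = 0 := by
      rcases h.hf with rfl | rfl
      · exact ⟨0, by simp⟩
      · exact ⟨1, by linear_combination h.hh2⟩
    refine ⟨X 1, Y k, h.orderOf_X_one, h.orderOf_Y_two.2 hk, ?_⟩
    rw [h.YXY, h.X_pow]
    congr 1
    rw [Nat.cast_sub (Nat.one_le_two_pow), H11.hh, H11.fr]; push_cast; ring

end Cfsg.Agent.S0519
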