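import Cfsg.Statements.S4966
import Mathlib

set_option autoImplicit false
open Cfsg

namespace Cfsg.Agent.S4966

open Module LinearMap

section
variable {F : Type*} [Field F] {G : Type*} [Group G] {V : Type*} [AddCommGroup V] [Module F V]
  (ρ : Representation F G V)

def Inv (U : Submodule F V) : Prop := ∀ g : G, ∀ u ∈ U, ρ g u ∈ U

structure Good (U : Submodule F V) (A : LinearMap.BilinForm F V) : Prop where
  inv : Inv ρ U
  form : ∀ g : G, ∀ x ∈ U, ∀ y ∈ U, A (ρ g x) (ρ g y) = A x y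
  nd : ∀ x ∈ U, (∀ y ∈ U, A x y = 0) → x = 0

variable {ρ}

theorem Inv.sup {U W : Submodule F V} (h : Inv ρ U) (h' : Inv ρ W) : Inv ρ (U ⊔ W) := fun g v hv => by
  obtain ⟨u, hu, w, hw, rfl⟩ := Submodule.mem_sup.1 hv
  rw [map_add]; exact Submodule.add_mem_sup (h g u hu) (h' g w hw)

theorem Inv.compl [Finite G] [NeZero (Nat.card G : F)] {U : Submodule F V} (h : Inv ρ U) :
    ∃ W, Inv ρ W ∧ IsCompl U W := by
  obtain ⟨W, hW⟩ := exists_isCompl (⟨U, fun g v => h g v⟩ : Subrepresentation ρ)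
  exact ⟨W.1, fun g v hv => W.2 g hv, disjoint_iff.2 (congrArg Subrepresentation.toSubmodule
    hW.inf_eq_bot), codisjoint_iff.2 (congrArg Subrepresentation.toSubmodule hW.sup_eq_top)⟩

theorem proj {U M : Submodule F V} (h : Disjoint U M) :
    ∃ π : V →ₗ[F] V, (∀ u ∈ U, π u = u) ∧ ∀ m ∈ M, π m = 0 := by
  obtain ⟨M', h1, h2⟩ := h.symm.exists_isCompl
  exact ⟨U.projection M' h2.symm, fun u hu => Submodule.projection_apply_of_mem_left _ hu,
    fun m hm => Submodule.projection_apply_of_mem_right _ (h1 hm)⟩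

theorem Good.add {U M : Submodule F V} {A B : LinearMap.BilinForm F V} (h : Good ρ U A)
    (h' : Good ρ M B) (hd : Disjoint U M) : ∃ C, Good ρ (U ⊔ M) C ∧
      ((∀ x, A x x = 0) → (∀ x, B x x = 0) → ∀ x, C x x = 0) ∧
      ((∀ x y, A x y = A y x) → (∀ x y, B x y = B y x) → ∀ x y, C x y = C y x) := by
  obtain ⟨π, h1, h2⟩ := proj hd
  have key : ∀ u ∈ U, ∀ m ∈ M, ∀ u' ∈ U, ∀ m' ∈ M, (A.compl₁₂ π π + B.compl₁₂ (1 - π) (1 - π) :
      LinearMap.BilinForm F V) (u + m) (u' + m') = A u u' + B m m' := fun u hu m hm u' hu' m' hm' => by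
    simp [h1 u hu, h1 u' hu', h2 m hm, h2 m' hm']
  refine ⟨A.compl₁₂ π π + B.compl₁₂ (1 - π) (1 - π), ⟨h.inv.sup h'.inv, fun g x hx y hy => ?_,
    fun x hx e => ?_⟩, fun a b x => by simp only [LinearMap.add_apply, compl₁₂_apply, a, b, add_zero],
    fun a b x y => by simp only [LinearMap.add_apply, compl₁₂_apply]; rw [a, b]⟩
  · obtain ⟨u, hu, m, hm, rfl⟩ := Submodule.mem_sup.1 hx
    obtain ⟨u', hu', m', hm', rfl⟩ := Submodule.mem_sup.1 hy
    rw [key u hu m hm u' hu' m' hm', map_add (ρ g), map_add (ρ g), key _ (h.inv g u hu) _ (h'.inv g m hm)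
      _ (h.inv g _ hu') _ (h'.inv g _ hm'), h.form g u hu _ hu', h'.form g m hm _ hm']
  · obtain ⟨u, hu, m, hm, rfl⟩ := Submodule.mem_sup.1 hx
    rw [h.nd u hu fun y hy => by
      simpa using (key u hu m hm y hy 0 M.zero_mem).symm.trans (e _ (by simpa using Submodule.mem_sup_left hy)),
      h'.nd m hm fun y hy => by
      simpa using (key u hu m hm 0 U.zero_mem y hy).symm.trans (e _ (by simpa using Submodule.mem_sup_right hy)),
      add_zero]

theorem shift {B : LinearMap.BilinForm F V} {g : G} {x y : V} (h : B (ρ g x) (ρ g (ρ g⁻¹ y)) =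
    B x (ρ g⁻¹ y)) : B (ρ g x) y = B x (ρ g⁻¹ y) := by
  simpa [← End.mul_apply, ← map_mul] using h

theorem pairing [FiniteDimensional F V] {B C : LinearMap.BilinForm F V} (hB : B.Nondegenerate)
    (hi : ∀ g x y, B (ρ g x) (ρ g y) = B x y) {P Q : Submodule F V} (hP : Good ρ P C)
    (hc : IsCompl P Q) {m : V} (hm : m ∉ P) : ∃ h : V →ₗ[F] V,
      (∀ g v, h (ρ g v) = ρ g (h v)) ∧ ∃ q ∈ Q, B (h m) q ≠ 0 := by
  by_contra hn
  push Not at hn
  let T : Submodule F V :=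
    { carrier := {v | ∀ h : V →ₗ[F] V, (∀ g v, h (ρ g v) = ρ g (h v)) → ∀ q ∈ Q, B (h v) q = 0}
      zero_mem' := fun h _ q _ => by simp
      add_mem' := fun ha hb h hh q hq => by simp [ha h hh q hq, hb h hh q hq]
      smul_mem' := fun c a ha h hh q hq => by simp [ha h hh q hq] }
  have inj : Function.Injective (C.domRestrict₁₂ P P) := (injective_iff_map_eq_zero _).2
    fun x e => Subtype.ext (hP.nd x x.2 fun y hy => LinearMap.congr_fun e ⟨y, hy⟩)
  let e := linearEquivOfInjective _ inj Subspace.dual_finrank_eq.symm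
  let k : V →ₗ[F] V := P.subtype ∘ₗ e.symm.toLinearMap ∘ₗ (B.compl₂ P.subtype)
  have k1 : ∀ v, k v ∈ P := fun v => Subtype.prop _
  have k2 : ∀ v, ∀ y ∈ P, C (k v) y = B v y := fun v y hy =>
    LinearMap.congr_fun (e.apply_symm_apply (B.compl₂ P.subtype v)) ⟨y, hy⟩
  have k3 : ∀ g v, k (ρ g v) = ρ g (k v) := fun g v => sub_eq_zero.1 (hP.nd _
    (sub_mem (k1 _) (hP.inv g _ (k1 v))) fun y hy => by
      rw [map_sub, LinearMap.sub_apply, k2 _ y hy, shift (hi _ _ _), shift (hP.form g _ (k1 v) _ (hP.inv _ y hy)),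
        k2 _ _ (hP.inv _ y hy), sub_self])
  have := finrank_le_finrank_of_injective (f := k.restrict (p := T) (q := T ⊓ P) fun v hv =>
    ⟨fun h hh q hq => hv (h ∘ₗ k) (fun g v => by simp [k3, hh]) q hq, k1 v⟩)
    ((injective_iff_map_eq_zero _).2 fun v e => Subtype.ext (hB.1 _ fun y => by
      obtain ⟨a, ha, b, hb, rfl⟩ := Submodule.mem_sup.1 (hc.sup_eq_top.ge (Submodule.mem_top (x := y)))
      have e' : k v = 0 := congrArg Subtype.val e
      rw [map_add, ← k2 _ a ha, e', show B v b = 0 from v.2 LinearMap.id (fun _ _ => rfl) b hb]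
      simp))
  exact hm ((Submodule.eq_of_le_of_finrank_le inf_le_left this).ge hn).2

theorem piece [Finite G] [NeZero (Nat.card G : F)] [FiniteDimensional F V]
    {B C : LinearMap.BilinForm F V} (hB : B.Nondegenerate)
    (hi : ∀ g x y, B (ρ g x) (ρ g y) = B x y) {P : Submodule F V} (hP : Good ρ P C) (h : P ≠ ⊤) :
    ∃ M A, M ≠ ⊥ ∧ Disjoint P M ∧ Good ρ M A ∧ ((∀ x, A x x = 0) ∨
      ((∀ x y, A x y = A y x) ∧ ((2 : F) = 0 → ∀ g, ∀ w ∈ M, ρ g w = w))) := by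
  obtain ⟨Q, hQ, hc⟩ := hP.inv.compl
  obtain ⟨M, ⟨m1, m2, m3⟩, hmin⟩ := WellFoundedLT.exists_minimal inferInstance
    (fun M : Submodule F V => M ≠ ⊥ ∧ M ≤ Q ∧ Inv ρ M)
    ⟨Q, fun e => h (by simpa [e] using hc.sup_eq_top), le_rfl, hQ⟩
  have hd : Disjoint P M := hc.disjoint.mono_right m2
  have nd : ∀ (K : Submodule F V), Inv ρ K → ¬ M ≤ K → ∀ x ∈ M, x ∈ K → x = 0 := fun K h1 h2 x a b => by
    by_contra hx
    exact h2 ((hmin (y := M ⊓ K) ⟨fun e => hx (e.le ⟨a, b⟩), inf_le_left.trans m2, fun g v hv =>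
      ⟨m3 g v hv.1, h1 g v hv.2⟩⟩ inf_le_left).trans inf_le_right)
  obtain ⟨m, hm, m0⟩ := Submodule.exists_mem_ne_zero_of_ne_bot m1
  obtain ⟨k, k1, q, hq, k2⟩ := pairing hB hi hP hc fun e => m0 (hd.le_bot ⟨e, hm⟩)
  let π := Q.projection P hc.symm
  have π1 : ∀ u ∈ Q, π u = u := fun u hu => Submodule.projection_apply_of_mem_left _ hu
  have π2 : ∀ u ∈ P, π u = 0 := fun u hu => Submodule.projection_apply_of_mem_right _ hu
  let β := B.compl₁₂ k π
  have β1 : ∀ g x y, β (ρ g x) (ρ g y) = β x y := fun g x y => by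
    obtain ⟨a, ha, b, hb, rfl⟩ := Submodule.mem_sup.1 (hc.sup_eq_top.ge (Submodule.mem_top (x := y)))
    simp [β, k1, π1 b hb, π1 _ (hQ g b hb), π2 a ha, π2 _ (hP.inv g a ha), hi]
  have β2 : β m q ≠ 0 := by simpa [β, π1 q hq] using k2
  have β3 : ∀ x, ∀ y ∈ P, β x y = 0 := fun x y hy => by simp [β, π2 y hy]
  clear_value β
  have good : ∀ γ : LinearMap.BilinForm F V, (∀ g x y, γ (ρ g x) (ρ g y) = γ x y) →
      ¬ (∀ x ∈ M, ∀ y ∈ M, γ x y = 0) → Good ρ M γ := fun γ h1 h2 => ⟨m3, fun g x _ y _ => h1 g x y,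
    fun x hx e => nd (ker (γ.compl₂ M.subtype)) (fun g v hv => LinearMap.ext fun y =>
      (shift (h1 _ _ _)).trans (LinearMap.congr_fun hv ⟨_, m3 _ _ y.2⟩))
      (fun hh => h2 fun x hx y hy => LinearMap.congr_fun (hh hx) ⟨y, hy⟩) x hx
      (LinearMap.ext fun y => e y y.2)⟩
  by_cases h0 : ∀ x ∈ M, ∀ y ∈ M, β x y = 0
  · let K := ker (β.flip.compl₂ M.subtype)
    have hK : ∀ y, y ∈ K ↔ ∀ x ∈ M, β x y = 0 := fun y =>
      ⟨fun e x hx => LinearMap.congr_fun e ⟨x, hx⟩, fun e => LinearMap.ext fun x => e x x.2⟩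
    obtain ⟨N, hN, hc'⟩ := Inv.compl (ρ := ρ) (U := K) fun g v hv => (hK _).2 fun x hx => by
      rw [← (hK v).1 hv _ (m3 g⁻¹ x hx), ← β1 g (ρ g⁻¹ x)]; simp [← End.mul_apply, ← map_mul]
    have hMK : M ≤ K := fun y hy => (hK y).2 fun x hx => h0 x hx y hy
    obtain ⟨τ, τ1, τ2⟩ := proj (hc'.disjoint.mono_left hMK)
    have key : ∀ u ∈ M, ∀ n ∈ N, ∀ u' ∈ M, ∀ n' ∈ N, (β.compl₁₂ τ 1 - β.flip.compl₁₂ 1 τ :
        LinearMap.BilinForm F V) (u + n) (u' + n') = β u n' - β u' n := fun u hu n hn u' hu' n' hn' => by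
      simp [τ1 u hu, τ1 u' hu', τ2 n hn, τ2 n' hn', h0 u hu u' hu', h0 u' hu' u hu]
    refine ⟨M ⊔ N, β.compl₁₂ τ 1 - β.flip.compl₁₂ 1 τ, fun e => m1 (eq_bot_iff.2 (le_sup_left.trans e.le)),
      ?_, ⟨m3.sup hN, fun g x hx y hy => ?_, fun x hx e => ?_⟩, .inl fun x => by simp⟩
    · rw [sup_comm]
      exact (hd.symm.disjoint_sup_left_of_disjoint_sup_right (hc'.disjoint.mono_left
        (sup_le hMK fun y hy => (hK y).2 fun x _ => β3 x y hy)).symm).symm
    · obtain ⟨u, hu, n, hn, rfl⟩ := Submodule.mem_sup.1 hx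
      obtain ⟨u', hu', n', hn', rfl⟩ := Submodule.mem_sup.1 hy
      rw [key u hu n hn u' hu' n' hn', map_add (ρ g), map_add (ρ g), key _ (m3 g u hu) _ (hN g n hn)
        _ (m3 g _ hu') _ (hN g _ hn'), β1, β1]
    · obtain ⟨u, hu, n, hn, rfl⟩ := Submodule.mem_sup.1 hx
      have n0 : n = 0 := hc'.disjoint.le_bot ⟨(hK n).2 fun y hy => by
        simpa using (key u hu n hn y hy 0 N.zero_mem).symm.trans
          (e _ (by simpa using Submodule.mem_sup_left hy)), hn⟩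
      rw [n0, add_zero]
      refine nd (ker β) (fun g v hv => LinearMap.ext fun y => (shift (β1 _ _ _)).trans
        (LinearMap.congr_fun hv _)) (fun hh => β2 (LinearMap.congr_fun (hh hm) q)) u hu
        (LinearMap.ext fun y => ?_)
      obtain ⟨a, ha, b, hb, rfl⟩ := Submodule.mem_sup.1 (hc'.sup_eq_top.ge (Submodule.mem_top (x := y)))
      simpa [(hK a).1 ha u hu] using (key u hu n hn 0 M.zero_mem b hb).symm.trans
        (e _ (by simpa using Submodule.mem_sup_right hb))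
  by_cases h1 : ∀ x ∈ M, ∀ y ∈ M, (β - β.flip) x y = 0
  swap
  · exact ⟨M, _, m1, hd, good _ (fun g x y => by simp [β1]) h1, .inl fun x => by simp⟩
  replace h1 : ∀ x ∈ M, ∀ y ∈ M, β x y = β y x := fun x a y b => sub_eq_zero.1 (h1 x a y b)
  obtain ⟨N, -, hN⟩ := m3.compl
  have τ := Submodule.projection_apply_mem hN
  have gd := good β β1 h0
  have gd' : Good ρ M (β.compl₁₂ (M.projection N hN) (M.projection N hN)) :=
    ⟨m3, fun g x a y b => by
      simp [Submodule.projection_apply_of_mem_left, a, b, m3 g x a, m3 g y b, β1], fun x a e =>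
      gd.nd x a fun y b => by simpa [Submodule.projection_apply_of_mem_left, a, b] using e y b⟩
  by_cases h2 : ∀ x ∈ M, β x x = 0
  · exact ⟨M, _, m1, hd, gd', .inl fun x => h2 _ (τ x)⟩
  refine ⟨M, _, m1, hd, gd', .inr ⟨fun x y => h1 _ (τ x) _ (τ y), fun h3 g w hw => ?_⟩⟩
  have ad : ∀ x ∈ M, ∀ y ∈ M, β (x + y) (x + y) = β x x + β y y := fun x a y b => by
    simp only [map_add, LinearMap.add_apply, h1 y b x a]; linear_combination β x y * h3
  have := nd
    { carrier := {x | x ∈ M ∧ β x x = 0}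
      zero_mem' := ⟨M.zero_mem, by simp⟩
      add_mem' := fun {x y} a b => ⟨add_mem a.1 b.1, by rw [ad x a.1 y b.1, a.2, b.2, add_zero]⟩
      smul_mem' := fun c x a => ⟨M.smul_mem c a.1, by simp [a.2]⟩ }
    (fun g v hv => ⟨m3 g v hv.1, (β1 g v v).trans hv.2⟩) (fun hh => h2 fun x hx => (hh hx).2)
    (ρ g w + -w) (add_mem (m3 g w hw) (neg_mem hw)) ⟨add_mem (m3 g w hw) (neg_mem hw), by
      rw [ad _ (m3 g w hw) _ (neg_mem hw), β1]; simp only [map_neg, LinearMap.neg_apply, neg_neg]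
      linear_combination β w w * h3⟩
  rwa [add_neg_eq_zero] at this
end

/-- Let F be a finite field of characteristic p, G a finite group of order prime to p, and V a finite-dimensional representation of G over F carrying a nondegenerate G-invariant bilinear form (equivalently, V is self-dual). Then V is the direct sum of two G-invariant subspaces U and W such that U carries a G-invariant alternating bilinear form that is nondegenerate on U and W carries a G-invariant symmetric bilinear form that is nondegenerate on W; moreover when p = 2 the decomposition can be chosen with G acting trivially on W. -/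
theorem result {F : Type*} [Field F] [Fintype F] (p : ℕ) [Fact p.Prime] [CharP F p] {G : Type*} [Group G] [Finite G] (hcop : ¬ p ∣ Nat.card G) {V : Type*} [AddCommGroup V] [Module F V] [FiniteDimensional F V] (ρ : Representation F G V) (B : LinearMap.BilinForm F V) (hB : B.Nondegenerate) (hBinv : ∀ g : G, ∀ x y : V, B (ρ g x) (ρ g y) = B x y) : ∃ U W : Submodule F V, IsCompl U W ∧ (∀ g : G, ∀ u ∈ U, ρ g u ∈ U) ∧ (∀ g : G, ∀ w ∈ W, ρ g w ∈ W) ∧ (∃ A : LinearMap.BilinForm F V, (∀ x : V, A x x = 0) ∧ (∀ g : G, ∀ x ∈ U, ∀ y ∈ U, A (ρ g x) (ρ g y) = A x y) ∧ (∀ x ∈ U, (∀ y ∈ U, A x y = 0) → x = 0)) ∧ (∃ S : LinearMap.BilinForm F V, (∀ x y : V, S x y = S y x) ∧ (∀ g : G, ∀ x ∈ W, ∀ y ∈ W, S (ρ g x) (ρ g y) = S x y) ∧ (∀ x ∈ W, (∀ y ∈ W, S x y = 0) → x = 0)) ∧ (p = 2 → ∀ g : G, ∀ w ∈ W, ρ g w = w) := by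
  haveI : NeZero (Nat.card G : F) := ⟨fun h => hcop ((CharP.cast_eq_zero_iff F p _).1 h)⟩
  have g0 : Good ρ ⊥ 0 := ⟨fun g u hu => by simp_all, by simp, fun x hx _ => hx⟩
  obtain ⟨P, ⟨U, W, A, S, rfl, hd, gU, gW, hA, hS, h2⟩, hmax⟩ := WellFoundedGT.exists_maximal
    inferInstance (fun P : Submodule F V => ∃ U W A S, P = U ⊔ W ∧ Disjoint U W ∧ Good ρ U A ∧
      Good ρ W S ∧ (∀ x, A x x = 0) ∧ (∀ x y, S x y = S y x) ∧ (p = 2 → ∀ g, ∀ w ∈ W, ρ g w = w))
    ⟨⊥, ⊥, ⊥, 0, 0, by simp, by simp, g0, g0, by simp, by simp, fun _ g w hw => by simp_all⟩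
  refine ⟨U, W, ⟨hd, codisjoint_iff.2 (by_contra fun h => ?_)⟩, gU.inv, gW.inv,
    ⟨A, hA, gU.form, gU.nd⟩, ⟨S, hS, gW.form, gW.nd⟩, h2⟩
  obtain ⟨C, gC, -⟩ := gU.add gW hd
  obtain ⟨M, D, m1, m2, m3, m4⟩ := piece hB hBinv gC h
  refine m1 (m2.eq_bot_of_ge (le_sup_right.trans (hmax (y := U ⊔ W ⊔ M) ?_ le_sup_left)))
  rcases m4 with m4 | ⟨m4, m5⟩
  · obtain ⟨E, e1, e2, -⟩ := gU.add m3 (m2.mono_left le_sup_left)
    exact ⟨U ⊔ M, W, E, S, sup_right_comm _ _ _, (hd.symm.disjoint_sup_right_of_disjoint_sup_left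
      (by rwa [sup_comm])).symm, e1, gW, e2 hA m4, hS, h2⟩
  · obtain ⟨E, e1, -, e2⟩ := gW.add m3 (m2.mono_left le_sup_right)
    refine ⟨U, W ⊔ M, A, E, sup_assoc _ _ _, hd.disjoint_sup_right_of_disjoint_sup_left m2, gU, e1,
      hA, e2 hS m4, fun h g w hw => ?_⟩
    obtain ⟨a, ha, b, hb, rfl⟩ := Submodule.mem_sup.1 hw
    rw [map_add, h2 h g a ha, m5 (by subst h; exact CharP.cast_eq_zero F 2) g b hb]

end Cfsg.Agent.S4966
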