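import Cfsg.Statements.S5552
import Cfsg.Agent.H21.Leech11

set_option autoImplicit false
set_option linter.style.haveILetI false
open Cfsg

namespace Cfsg.Agent.S5552

open Cfsg.Agent.LL Cfsg.Agent.H16

/-- On the Leech lattice of the definitions, let Q be a function to the field with two elements that is constant on cosets of twice the lattice, is a quadratic form there (Q(u+v+w) + Q(u) + Q(v) + Q(w) = Q(u+v) + Q(u+w) + Q(v+w) for all u, v, w), is invariant under every lattice automorphism, and is not identically zero. Then Q(v) is the squared length of v divided by 16, reduced modulo 2, for every lattice vector v (squared lengths of lattice vectors are multiples of 16). -/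
theorem result (Q : ↥Cfsg.leechLattice → ZMod 2) (hcoset : ∀ v w : ↥Cfsg.leechLattice, Q (v + (w + w)) = Q v) (hquad : ∀ u v w : ↥Cfsg.leechLattice, Q (u + v + w) + Q u + Q v + Q w = Q (u + v) + Q (u + w) + Q (v + w)) (hinv : ∀ (g : ↥Cfsg.Co0) (v : ↥Cfsg.leechLattice), Q (g • v) = Q v) (hne : ∃ v : ↥Cfsg.leechLattice, Q v ≠ 0) (v : ↥Cfsg.leechLattice) : Q v = ((Cfsg.sqNorm (v : Cfsg.GolayPt → ℤ) / 16 : ℤ) : ZMod 2) := by
  have h0 : Q 0 = 0 := by
    have := hquad 0 0 0
    simp only [add_zero] at this
    exact add_left_cancel (this.trans (add_zero _).symm)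
  have h4 : ∀ x : L, sqNorm (x : V) = 32 → Q x = Q U := fun x hx => by
    obtain ⟨g, e⟩ := to_U hx; rw [← e, hinv]
  have h6 : ∀ x : L, sqNorm (x : V) = 48 → Q x = Q Vv := fun x hx => by
    obtain ⟨g, e⟩ := to_V hx; rw [← e, hinv]
  have h8 : ∀ x : L, sqNorm (x : V) = 64 → Q x = Q (e8 pI) := fun x hx => by
    obtain ⟨g, e⟩ := to_e8 hx; rw [← e, hinv]
  have ha : (vL 519899659641680805127698729222554256 : V) = _ := coe_vL (by decide +kernel)
  have hb : (vL 688651922150796928539259723267459534 : V) = _ := coe_vL (by decide +kernel)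
  generalize vL 519899659641680805127698729222554256 = a at ha
  generalize vL 688651922150796928539259723267459534 = b at hb
  have e8 : Q (e8 pI) = 0 := by
    have := hquad a U U'
    rw [h4 (a + U + U'), h4 a, h4 U', h4 (a + U), h4 (a + U'), h8 (U + U')] at this
    · generalize Q U = s, Q (e8 pI) = t at this
      revert s t; decide
    all_goals (try simp only [AddSubgroup.coe_add, ha]); decide +kernel
  have e4 : Q U = 0 := by
    have := hquad b U a
    rw [h4 (b + U + a), h4 b, h4 a, h6 (b + U), h6 (b + a), h4 (U + a)] at this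
    · generalize Q U = s, Q Vv = t at this
      revert s t; decide
    all_goals simp only [AddSubgroup.coe_add, ha, hb]; decide +kernel
  have key : ∀ v : L, Q v = ((sqNorm (v : V) / 16 : ℤ) : ZMod 2) * Q Vv := fun v => by
    obtain ⟨y, hy, hn, z, hz, e⟩ := exists_short v.2
    have e1 : v = ⟨y, hy⟩ + (⟨z, hz⟩ + ⟨z, hz⟩) := Subtype.ext (by
      change (v : V) = y + (z + z); rw [← two_nsmul, ← e, add_sub_cancel])
    have e2 : ((sqNorm (v : V) / 16 : ℤ) : ZMod 2) = ((sqNorm y / 16 : ℤ) : ZMod 2) := by
      rw [ZMod.intCast_eq_intCast_iff_dvd_sub, e1]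
      change _ ∣ _ - sqNorm (y + (z + z)) / 16
      rw [sqNorm_add, dot_add_right, sqNorm_add, ← sqNorm_eq_dot]
      have := sixteen_dvd hy
      have := sixteen_dvd hz
      have := eight_dvd_dot hy hz
      omega
    rw [e2, e1, hcoset]
    by_cases a : y = 0
    · subst a; rw [sqNorm_zero]; exact h0.trans (by simp)
    have h1 := min_norm hy a
    have h3 := sixteen_dvd hy
    obtain a | a | a : sqNorm y = 32 ∨ sqNorm y = 48 ∨ sqNorm y = 64 := by omega
    · rw [h4 _ a, e4, a]; exact (mul_eq_zero_of_left (by decide) _).symm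
    · rw [h6 _ a, a]; exact (by decide : ∀ t : ZMod 2, t = ((48 / 16 : ℤ) : ZMod 2) * t) _
    · rw [h8 _ a, e8, a]; exact (mul_eq_zero_of_left (by decide) _).symm
  obtain ⟨w, hw⟩ := hne
  rw [key v, (by decide : ∀ t : ZMod 2, t ≠ 0 → t = 1) (Q Vv) fun e => hw (by rw [key, e, mul_zero]), mul_one]

end Cfsg.Agent.S5552
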