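import Cfsg.Statements.S5599
import Cfsg.Agent.H16.M24h
import Cfsg.Agent.H16.OutM

set_option autoImplicit false
open scoped Pointwise
open Cfsg

namespace Cfsg.Agent.S5599
open H16 in
theorem cent : ∀ g ∈ L22, (∀ x ∈ K22, g * x = x * g) → g = 1 :=
  cent_triv mulOk24 gpt_inj (faith_M24 _) K22_le_L22 (B := [1, 2, 7, 12, 20, 16]) (by decide)
    (SL := [22209722065409132058472680668828087, 21563612534784945301731306929037367, 977882756760545762751104706800191520,
      975726649136091593640438789241702432, 967327268362747623955654694630721568, 7287309987501919540748045868599351])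
    (inK_L22 (by decide +kernel)) card_L22.le out22_gen.1 (by decide +kernel)


/-- In the automorphism group of the length-24 code, the two-point Mathieu group (permutations of the code's group fixing the extra point and the residue 0) has index 2 in the setwise stabiliser of that pair of points, and an element of the code's group interchanging the two points normalises the two-point group and induces on it, by conjugation, an automorphism that is not inner. -/
theorem result (g : Equiv.Perm Cfsg.GolayPt) (hg : g ∈ Cfsg.M24) (h₁ : g none = some 0) (h₂ : g (some 0) = none) : Cfsg.Spor.M22.relIndex (Cfsg.M24 ⊓ MulAction.stabilizer (Equiv.Perm Cfsg.GolayPt) ({none, some 0} : Finset Cfsg.GolayPt)) = 2 ∧ (∀ x ∈ Cfsg.Spor.M22, g * x * g⁻¹ ∈ Cfsg.Spor.M22) ∧ ¬ ∃ h ∈ Cfsg.Spor.M22, ∀ x ∈ Cfsg.Spor.M22, g * x * g⁻¹ = h * x * h⁻¹ := by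
  have hK : ∀ x : M24, x ∈ H16.K22 ↔ (x : Equiv.Perm GolayPt) ∈ Spor.M22 := fun x =>
    ⟨fun h => ⟨⟨x.2, h.1⟩, h.2⟩, fun h => ⟨h.1.2, h.2⟩⟩
  have hL : (⟨g, hg⟩ : M24) ∈ H16.L22 := by
    change g • H16.toSet 8388609 = _
    rw [H16.toSet_pair, Finset.smul_finset_insert, Finset.smul_finset_singleton, Finset.pair_comm]
    exact congrArg₂ _ h₂ (congrArg _ h₁)
  refine ⟨?_, fun x hx => (hK (⟨g, hg⟩ * ⟨x, hx.1.1⟩ * ⟨g, hg⟩⁻¹)).mp (H16.normBy_L22 _ hL _ ((hK _).mpr hx)), ?_⟩
  · have e : ∀ x : M24, x ∈ H16.L22 ↔ (x : Equiv.Perm GolayPt) ∈ M24 ⊓ MulAction.stabilizer (Equiv.Perm GolayPt)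
        ({none, some 0} : Finset GolayPt) := fun x => by
      rw [H16.L22, H16.toSet_pair]
      exact ⟨fun h => ⟨x.2, h⟩, fun h => h.2⟩
    have hle : Spor.M22 ≤ M24 ⊓ MulAction.stabilizer (Equiv.Perm GolayPt) ({none, some 0} : Finset GolayPt) := fun x hx =>
      (e ⟨x, hx.1.1⟩).mp (H16.K22_le_L22 ((hK _).mpr hx))
    have := (Spor.M22.subgroupOf (M24 ⊓ MulAction.stabilizer (Equiv.Perm GolayPt)
      ({none, some 0} : Finset GolayPt))).index_mul_card
    rw [Nat.card_congr (Subgroup.subgroupOfEquivOfLe hle).toEquiv, ← Nat.card_congr H16.sporM22.toEquiv, H16.card_K22,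
      ← Nat.card_congr (H16.equivOfMap _ _ inf_le_left e).toEquiv, H16.card_L22] at this
    exact Nat.eq_of_mul_eq_mul_right (by norm_num : 0 < 443520) this
  · rintro ⟨h, hh, e⟩
    have := cent ((⟨h, hh.1.1⟩ : M24)⁻¹ * ⟨g, hg⟩) (H16.L22.mul_mem (H16.L22.inv_mem (H16.K22_le_L22 ((hK _).mpr hh))) hL)
      fun x hx => Subtype.ext (by
        have := e x ((hK _).mp hx)
        change h⁻¹ * g * x = x * (h⁻¹ * g)
        rw [show h⁻¹ * g * x = h⁻¹ * (g * x * g⁻¹) * g by group, this]; group)
    obtain rfl : h = g := inv_mul_eq_one.mp (congrArg Subtype.val this)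
    have h3 : h none = none := hh.1.2
    rw [h₁] at h3
    exact absurd h3 (by simp)

end Cfsg.Agent.S5599
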