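import Cfsg.Statements.S5564
import Cfsg.Agent.H21.Ja7

set_option autoImplicit false
set_option linter.style.haveILetI false
open Cfsg

namespace Cfsg.Agent.S5564

open Cfsg.Agent.LL Cfsg.Agent.LL.U6 Cfsg.Agent.H3 Cfsg.Agent.H10 Subgroup
open scoped Pointwise

/-- Let G be a finite non-abelian simple group of Janko-four type (an involution z whose centralizer H has an extraspecial largest normal 2-subgroup E of order 2^13 containing its centralizer in H, a normal subgroup N ≥ E of H with N/E of order 3 and H/N the automorphism group of M₂₂, and a subgroup P ≤ N of order 3 with C_E(P) = ⟨z⟩, N_H(P) ≠ C_H(P) and P ≤ C_H(P)′). Then G has exactly one conjugacy class of elements of order 3. -/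
theorem result {G : Type*} [Group G] [Finite G] [IsSimpleGroup G] (hG : ¬ IsMulCommutative G) (hJ : Cfsg.IsOfJankoFourType G) :
    ∀ x y : G, orderOf x = 3 → orderOf y = 3 → IsConj x y := by
  haveI : Fact (Nat.Prime 3) := ⟨Nat.prime_three⟩
  obtain ⟨z, P, h⟩ := hJ
  obtain ⟨ρ, p, m, x, j, -⟩ := exists_JF h
  obtain ⟨R, hR⟩ := exists_sylowIn 3 (centralizer {z})
  obtain ⟨ρ, p, m, x, j, h1, h2, h3⟩ := j.syl hR
  obtain ⟨b, d, t, Φ, k⟩ := j.exists_jc hG
  have h4 : SylowIn 3 R ⊤ := sylowIn_of_forall_eq hR.isPGroup le_top fun S hS _ e => by_contra fun n =>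
    (lt_inf_normalizer_of_lt hS (lt_of_le_of_ne e (Ne.symm n))).ne' (hR.eq_of_le hS.to_inf_left
      (inf_le_right.trans (k.norm_R hR.le h1 h2 h3)) (le_inf e le_normalizer))
  have l : ∀ y : G, orderOf y = 3 → IsConj (x : G) y := fun y hy => by
    obtain ⟨g, -, e⟩ := h4.exists_conj_le (IsPGroup.of_card (n := 1) ((Nat.card_zpowers y).trans hy)) le_top
    have a := e (conj_mem_conj_smul.mpr (mem_zpowers y))
    exact (k.conj3 (w := ⟨_, hR.le a⟩) (Subtype.ext (by simp [conj_pow, ← hy])) (fun f => by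
      simp [conj_eq_one_iff.mp (congrArg Subtype.val f)] at hy) (h2.le ⟨_, a, rfl⟩)).trans (isConj_iff.mpr ⟨g, rfl⟩).symm
  exact fun a b ha hb => (l a ha).symm.trans (l b hb)

end Cfsg.Agent.S5564
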