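import Cfsg.Statements.S5429
import Cfsg.Agent.H10.Xsp6

set_option autoImplicit false
open Cfsg

namespace Cfsg.Agent.S5429

/-- Let z be an involution of the finite group G with centralizer C whose generalized Fitting subgroup Q is extraspecial of width at least 3 (order 2^(2w+1), w ≥ 3); let g be an element of G with g z g⁻¹ in Q but outside the centre Z of Q, and t an involution lying in both Q and g Q g⁻¹ that is not conjugate to z; write P for the centralizer of t in Q and suppose that the elements of C acting trivially by conjugation on P modulo the subgroup generated by t and z are exactly the elements of Q. Then the image of P in the centralizer of t modulo the subgroup generated by t is a large extraspecial 2-subgroup there, and g z g⁻¹ is conjugate to z inside the subgroup generated by P and the centralizer of t in g Q g⁻¹. -/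
theorem result {G : Type*} [Group G] [Finite G] (z : G) (hz : orderOf z = 2) (Q : Subgroup G) (hQC : Q ≤ Subgroup.centralizer ({z} : Set G)) (hF : (Cfsg.generalizedFittingSubgroup ↥(Subgroup.centralizer ({z} : Set G))).map (Subgroup.centralizer ({z} : Set G)).subtype = Q) (hQ : Cfsg.IsExtraspecial 2 ↥Q) (w : ℕ) (hw : 3 ≤ w) (hcard : Nat.card ↥Q = 2 ^ (2 * w + 1)) (g : G) (hgQ : g * z * g⁻¹ ∈ Q) (hgZ : g * z * g⁻¹ ∉ ((Subgroup.center ↥Q).map Q.subtype)) (t : G) (ht : orderOf t = 2) (htQ : t ∈ Q ⊓ (Q).map (MulAut.conj g).toMonoidHom) (htz : ¬ IsConj z t) (P : Subgroup G) (hP : P = Q ⊓ Subgroup.centralizer ({t} : Set G)) (hCP : ∀ c ∈ Subgroup.centralizer ({z} : Set G), (∀ x ∈ P, ∃ y ∈ Subgroup.closure ({t, z} : Set G), c * x * c⁻¹ = x * y) ↔ c ∈ Q) [hn : ((Subgroup.zpowers t).subgroupOf (Subgroup.centralizer ({t} : Set G))).Normal] : Cfsg.IsLargeExtraspecial ((P.subgroupOf (Subgroup.centralizer ({t} : Set G))).map (QuotientGroup.mk' ((Subgroup.zpowers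 t).subgroupOf (Subgroup.centralizer ({t} : Set G))))) ∧ ∃ x ∈ P ⊔ ((Q).map (MulAut.conj g).toMonoidHom ⊓ Subgroup.centralizer ({t} : Set G)), x * (g * z * g⁻¹) * x⁻¹ = z := by
  open Subgroup Cfsg.Agent.H10 in
  have h0 := lx_of_fstar hz hF hQ
  rw [h0.center_eq] at hgZ
  have h := h0.lpr hgQ fun e => hgZ (by rw [e]; exact mem_zpowers _)
  set s := g * z * g⁻¹ with hs
  set Q' := Q.map (MulAut.conj g).toMonoidHom
  have ht2 := H11.mul_self_of_orderOf_two ht
  have hzs : IsConj z s := H11.isConj_conj g z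
  have key : ∀ {Q Q' : Subgroup G} {z s : G}, LPr Q Q' z s → t ∈ Q → ¬ IsConj s t → ¬ IsConj z t →
      (s ∉ zpowers z ∧ s * t ∉ zpowers z) ∧ ∃ q ∈ Q ⊓ centralizer ({t} : Set G), q * s ≠ s * q := by
    intro Q Q' z s h htQ h1 h2
    have h3 : t ∉ zpowers z := fun e => (h.hQ.mem_z.mp e).elim (H11.ne_one_of_orderOf_two ht)
      fun e => h2 (e ▸ IsConj.refl _)
    have h4 : s * t ∉ zpowers z := fun e => h1 (by
      rcases h.hQ.mem_z.mp e with e | e
      · rw [eq_inv_of_mul_eq_one_left e, inv_eq_of_mul_eq_one_left ht2]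
      · obtain ⟨q, hq, hqs⟩ := h.pr.exists_q
        refine isConj_iff.mpr ⟨q, ?_⟩
        rw [h.pr.conj_t hq hqs, ← h.pr.tz, ← e, ← mul_assoc, h.hP.zz, one_mul])
    refine ⟨⟨h.pr.t_not, h4⟩, ?_⟩
    by_contra hc
    push Not at hc
    exact (h.hQ.mem_of_cent_cent' htQ h3 h.tQ fun r hr e =>
      hc r ⟨hr, mem_centralizer_singleton_iff.mpr e⟩).elim h.pr.t_not h4
  have hst : ¬ IsConj s t := fun e => htz (hzs.trans e)
  obtain ⟨⟨h1, h2⟩, q, hq, hqs⟩ := key h htQ.1 hst htz
  obtain ⟨-, a, ha, haz⟩ := key h.symm htQ.2 htz hst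
  obtain ⟨e1, e2⟩ := h.pr.swap hq.1 hqs ha.1 haz
  refine ⟨?_, q * a * q, mul_mem (mul_mem (mem_sup_left (hP ▸ hq)) (mem_sup_right ha))
    (mem_sup_left (hP ▸ hq)), e2⟩
  set C := centralizer ({t} : Set G) with hC
  set f := QuotientGroup.mk' ((zpowers t).subgroupOf C) with hf
  have hf1 : ∀ x : C, f x = 1 ↔ (x : G) = 1 ∨ (x : G) = t := fun x =>
    (QuotientGroup.eq_one_iff x).trans (mem_zpowers_two ht)
  have hf2 : ∀ x y : C, f x = f y ↔ (x : G) = y ∨ (x : G) = t * y := fun x y => by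
    rw [← mul_inv_eq_one, ← map_inv, ← map_mul, hf1]
    simp [mul_inv_eq_iff_eq_mul]
  have hCt : ∀ x : C, (x : G) * t = t * x := fun x => mem_centralizer_singleton_iff.mp x.2
  have htz' : t ∉ zpowers z := fun e => (h.hQ.mem_z.mp e).elim (H11.ne_one_of_orderOf_two ht)
    fun e => htz (e ▸ IsConj.refl _)
  set z' : C := ⟨z, mem_centralizer_singleton_iff.mpr (h.hQ.cent t htQ.1).symm⟩ with hz'
  have hmem : ∀ x : C, x ∈ P.subgroupOf C ↔ (x : G) ∈ Q := fun x => by
    rw [mem_subgroupOf, hP]; exact ⟨fun e => e.1, fun e => ⟨e, x.2⟩⟩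
  have hzp : ∀ x : C, (x : G) ∈ zpowers z → f x ∈ zpowers (f z') := fun x e => by
    rcases h.hQ.mem_z.mp e with e | e
    · rw [(hf1 x).mpr (Or.inl e)]; exact one_mem _
    · rw [show x = z' from Subtype.ext e]; exact mem_zpowers _
  have hzc : ∀ x : C, (x : G) ∈ Q → (∀ q ∈ (P.subgroupOf C).map f, q * f x = f x * q) →
      f x ∈ zpowers (f z') := by
    intro x hx e
    rcases h.hQ.mem_of_cent_cent' htQ.1 htz' hx (fun r hr e' => by
      have := e (f ⟨r, mem_centralizer_singleton_iff.mpr e'⟩) ⟨_, (hmem _).mpr hr, rfl⟩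
      rw [← map_mul, ← map_mul, hf2] at this
      refine this.resolve_right fun e'' => htz' ?_
      have h3 : t = r * x * r⁻¹ * (x : G)⁻¹ := by
        rw [show r * x = t * (x * r) from e'']; group
      exact h3 ▸ h.hQ.comm_mem hr hx) with e' | e'
    · exact hzp x e'
    · have := hzp (x * ⟨t, mem_centralizer_singleton_iff.mpr rfl⟩) e'
      rwa [map_mul, (hf1 ⟨t, _⟩).mpr (Or.inr rfl), mul_one] at this
  have hcz : ∀ c : C, f c * f z' = f z' * f c → (c : G) * z = z * c := by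
    intro c e
    rw [← map_mul, ← map_mul, hf2] at e
    refine e.resolve_right fun e' => htz ?_
    obtain ⟨q, hq, hqt⟩ := h.hQ.exists_ne_comm htQ.1 htz'
    refine (H11.isConj_conj (c : G) z).trans (IsConj.symm (isConj_iff.mpr ⟨q, ?_⟩))
    rw [h.hQ.conj_eq_of_ne hq htQ.1 hqt, show (c : G) * z = t * (z * c) from e', ← h.hQ.cent t htQ.1]
    group
  have hz1 : f z' ≠ 1 := fun e => ((hf1 _).mp e).elim h.hQ.ne_one fun e => htz (e ▸ IsConj.refl _)
  have ho : orderOf (f z') = 2 := H11.orderOf_two_of hz1 (by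
    rw [← map_mul, hf1]; exact Or.inl h.hQ.zz)
  set s' : C := ⟨s, mem_centralizer_singleton_iff.mpr (h.hP.cent t htQ.2).symm⟩ with hs'
  have hsz : f s' ∉ zpowers (f z') := fun e => by
    rcases (mem_zpowers_two ho).mp e with e | e
    · exact ((hf1 _).mp e).elim h.hP.ne_one fun e => hst (e ▸ IsConj.refl _)
    · rcases (hf2 _ _).mp e with e | e
      · exact h.ne e
      · refine h2 ?_
        rw [show s = t * z from e, h.hQ.cent t htQ.1, mul_assoc, ht2, mul_one]
        exact mem_zpowers z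
  have hL : LX ((P.subgroupOf C).map f) (f z') := by
    refine ⟨⟨⟨ho, ⟨_, (hmem _).mpr h.hQ.mem, rfl⟩, ?_, ?_, ?_⟩, ?_,
      _, ⟨s', (hmem _).mpr h.tQ, rfl⟩, hsz⟩, fun c hc => ?_, fun c hc => ?_⟩
    · rintro _ ⟨x, hx, rfl⟩
      rw [← map_mul, ← map_mul]
      exact congrArg f (Subtype.ext (h.hQ.cent x ((hmem x).mp hx)))
    · rintro _ ⟨x, hx, rfl⟩
      rw [← map_mul]
      exact hzp _ (h.hQ.sq x ((hmem x).mp hx))
    · rintro _ ⟨x, hx, rfl⟩ e -
      exact hzc x ((hmem x).mp hx) e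
    · rintro _ ⟨x, hx, rfl⟩ e
      exact hzc x ((hmem x).mp hx) e
    · obtain ⟨c, rfl⟩ := QuotientGroup.mk'_surjective _ c
      have e := hcz c (hc _ ⟨_, (hmem _).mpr h.hQ.mem, rfl⟩).symm
      refine hzc c ((hCP c (mem_centralizer_singleton_iff.mpr e)).mp fun x hx => ?_) hc
      have hx' : x ∈ Q ⊓ C := hP ▸ hx
      have := hc (f ⟨x, hx'.2⟩) ⟨_, (hmem _).mpr hx'.1, rfl⟩
      rw [← map_mul, ← map_mul, eq_comm, hf2] at this
      rcases this with e' | e'
      · exact ⟨1, one_mem _, by rw [show (c : G) * x = x * c from e']; simp⟩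
      · refine ⟨t, Pr.z_mem, ?_⟩
        rw [show (c : G) * x = t * (x * c) from e', mem_centralizer_singleton_iff.mp hx'.2]
        group
    · obtain ⟨c, rfl⟩ := QuotientGroup.mk'_surjective _ c
      have e := hcz c (mem_centralizer_singleton_iff.mp hc)
      refine mem_normalizer_of_conj_le ?_
      rintro _ ⟨x, hx, rfl⟩
      exact ⟨c * x * c⁻¹, (hmem _).mpr (h.hQ.conj_mem e ((hmem x).mp hx)), by simp [hf]⟩
  have e3 : f ⟨q * a * q, mul_mem (mul_mem hq.2 ha.2) hq.2⟩ * f z' *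
      (f ⟨q * a * q, mul_mem (mul_mem hq.2 ha.2) hq.2⟩)⁻¹ = f s' := by
    rw [← map_inv, ← map_mul, ← map_mul]
    exact congrArg f (Subtype.ext e1)
  refine hL.large_of_conj (g := f ⟨q * a * q, mul_mem (mul_mem hq.2 ha.2) hq.2⟩) ?_ ?_ <;> rw [e3]
  · exact ⟨s', (hmem _).mpr h.tQ, rfl⟩
  · exact fun e => hsz (by rw [e]; exact mem_zpowers _)

end Cfsg.Agent.S5429
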