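import Cfsg.Statements.S0127
import Cfsg.Agent.H21.Top

set_option autoImplicit false
set_option linter.style.haveILetI false
open Cfsg

namespace Cfsg.Agent.S0127

open Cfsg.Agent.H20 Cfsg.Agent.H21 Cfsg.Agent.BG

/-- For odd p, in a non-cyclic p-group with a cyclic subgroup of index p, the elements of order dividing p generate an elementary abelian subgroup of order p^2. -/
theorem result {R : Type*} [Group R] [Finite R] {p : ℕ} [Fact p.Prime] (hp : p ≠ 2) (hR : IsPGroup p R) (hnc : ¬ IsCyclic R) (C : Subgroup R) (hC : IsCyclic C) (hCi : C.index = p) : Cfsg.IsElementaryAbelian p (Subgroup.closure {x : R | x ^ p = 1}) ∧ Nat.card (Subgroup.closure {x : R | x ^ p = 1}) = p ^ 2 := by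
  obtain ⟨x, rfl⟩ := exists_zpowers_of_cyclic hC
  have h := Ohm1_extremal_odd (x := x) (pgroup_top_iff.2 hR) (odd_top_of_pgroup hp hR)
    (mt cyclic_top_iff.1 hnc) trivial (by rwa [Subgroup.relIndex_top_right])
  rw [omegaOne_top_eq] at h
  exact ⟨h.elem, h.card⟩

end Cfsg.Agent.S0127
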