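import Cfsg.Statements.S2053
import Cfsg.Agent.H27.TFi22
import Cfsg.Agent.H27.CFi22

set_option autoImplicit false
open Cfsg

namespace Cfsg.Agent.S2053

open H27.Tl H27.TFi22 in

/-- The Schur multiplier of the Fischer group Fi₂₂ (the finitely presented group of the definitions) is cyclic of order 6; here the Schur multiplier is described through stem extensions, as in the definitions: surjective homomorphisms onto the group from a finite group, whose kernel is central in that finite group and contained in that finite group's commutator subgroup. -/
theorem result : Cfsg.HasCyclicSchurMultiplier Cfsg.Spor.Fi22 6 := by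
  haveI := H17.Fi22.simple
  have hc : CovD (2 * 3) _ := H27.CFi22.acov.mul H27.CFi22.bcov
    (perfect_of_simple H17.Fi22.faithB.card (by norm_num) (by norm_num)) (by norm_num)
  refine schur_of_cov (fun r hr => (sur_all crd [2, 3, 5] (7*11*13) 100 (by decide +kernel) ?_ r hr).congr
    Subgroup.topEquiv) (by simpa using hc.cov)
  simp only [List.forall_mem_cons, List.not_mem_nil, false_imp_iff, implies_true, and_true]
  exact ⟨⟨Nat.prime_two, bnd2.sur1.zmod (by norm_num)⟩, ⟨Nat.prime_three, bnd3.sur1.zmod (by norm_num)⟩,
    Nat.prime_five, bnd5.sur0 Nat.prime_five⟩

end Cfsg.Agent.S2053
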