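import Cfsg.Statements.S2091
import Cfsg.Agent.H27.CU62

set_option autoImplicit false
open Cfsg

namespace Cfsg.Agent.S2091

open H27.Tl H27.TU62 in

/-- Exceptional Schur multiplier: PSU₆(2), realised over the field with 4 elements, has Schur multiplier isomorphic to the product of cyclic groups of orders 3, 2 and 2 (order 12, not cyclic; here the Schur multiplier is described through stem extensions, as in the definitions). -/
theorem result {F : Type*} [Field F] [Fintype F] (hF : Fintype.card F = 4) : Cfsg.HasSchurMultiplier (Cfsg.PSU 6 F 2) (Multiplicative (ZMod 3 × ZMod 2 × ZMod 2)) := by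
  obtain ⟨e⟩ := H12.nonempty_ringEquiv_of_natCard_eq (F := H17.F4) (K := F)
    (by rw [Nat.card_eq_fintype_card, Nat.card_eq_fintype_card, hF, H17.card_F4])
  refine H27.hasSchur_congr (schur_of_cov (sur_all X.card [2, 3] (5 * 7 * 11) 100 (by decide +kernel) ?_)
    (by simpa using H27.CU62.cov)) (LL.equivU62.some.trans (H12.psuCongr 6 2 e))
  simp only [List.forall_mem_cons, List.not_mem_nil, false_imp_iff, implies_true, and_true]
  exact ⟨⟨Nat.prime_two, bnd2.sur2.snd⟩, Nat.prime_three, bnd3.sur1.fst⟩

end Cfsg.Agent.S2091
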