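import Cfsg.Statements.S4635
import Cfsg.Agent.H6.Cyc7
-- import your own Cfsg.Agent.* helpers here

set_option autoImplicit false
open Cfsg

namespace Cfsg.Agent.S4635

open Cfsg.Agent.H4 Cfsg.Agent.H6

open Cfsg.Agent.H7
attribute [local instance] H8.subFintype
set_option warn.classDefReducibility false


/-- Let B be a block of the finite group G relative to a maximal ideal M of the algebraic integers containing the prime p, with a nontrivial cyclic defect group P; let Z be the subgroup of order p of P and H = N_G(Z), which contains N_G(P). Let c be the block of H with defect group P that induces B. Then B and c contain the same number of irreducible characters, have the same p-regular rank, and there is a perfect isometry from c onto B. -/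
theorem result {G : Type*} [Group G] [Finite G] (p : ℕ) [Fact p.Prime] (M : Ideal Cfsg.AlgInt) (hM : Cfsg.IsPModular p M) (B : Set (Cfsg.IrrCharacter G)) (hB : Cfsg.IsPBlock M B) (P : Subgroup G) (hPD : Cfsg.IsDefectGroup p M B P) (hP1 : P ≠ ⊥) (hcyc : IsCyclic P) (Z : Subgroup G) (hZ : Z ≤ P) (hZcard : Nat.card Z = p) (H : Subgroup G) (hH : H = Subgroup.normalizer (Z : Set G)) (c : Set (Cfsg.IrrCharacter H)) (hcD : Cfsg.IsDefectGroup p M c (P.subgroupOf H)) (hc : Cfsg.IsInducedBlock M H c B) : Nat.card c = Nat.card B ∧ Cfsg.blockRank p c = Cfsg.blockRank p B ∧ ∃ (I : Cfsg.IrrCharacter H → Cfsg.IrrCharacter G) (ε : Cfsg.IrrCharacter H → ℤ), Cfsg.IsPerfectIsometry p M c B I ε := by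
  classical
  haveI := hM.2.1; haveI := H6.charP_res hM; haveI := Fintype.ofFinite G
  have hN : Subgroup.normalizer (P : Set G) ≤ H := hH ▸ normalizer_le_of_isCyclic hcyc hZ
  obtain ⟨e, S, S₁⟩ := maxP_top_of_ind hM hc hPD hcD (Subgroup.le_normalizer.trans hN)
    ((Subgroup.centralizer_le_normalizer _).trans hN)
  have hab := le_centralizer_of_isCyclic hcyc
  have hf := free_of_isCyclic hM S hcyc
  have hr := rank_eq_of_isCyclic hM S hcyc hB hP1
  obtain ⟨P', e', σ, S', hab', hf', hσ⟩ := exists_sub hM hab hf S₁ (inf_le_left.trans hN)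
  have h4 := Nat.card_congr σ.toEquiv
  have h1' : P' ≠ ⊥ := by
    rintro rfl
    exact hP1 (Subgroup.card_eq_one.1 (h4.trans Subgroup.card_bot))
  have hr' := rank_eq_of_isCyclic hM S' (σ.isCyclic.1 hcyc) hc.1 h1'
  obtain ⟨x, ψ, δ, δ₀, h, s⟩ := exists_fs_of_rank hM hab hf hB S hP1 hr (MulEquiv.refl _)
    fun _ => Iff.rfl
  obtain ⟨x', ψ', δ', δ₀', h', s'⟩ := exists_fs_of_rank hM hab' hf' hc.1 S' h1' hr' σ hσ
  obtain ⟨I, ε, h2, -⟩ := s.exists_perfect h hM h' s'
  have h5 := card_aut_congr σ hσ
  exact ⟨by rw [(card_eq_iff_rank hM hab hf hB S).2 hr, (card_eq_iff_rank hM hab' hf' hc.1 S').2 hr',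
    h4, h5], by rw [hr, hr', h5], I, ε, h2⟩

end Cfsg.Agent.S4635
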