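import Cfsg.Statements.S4696
import Cfsg.Agent.H6.Cyc7
import Cfsg.Agent.H6.Fr9
-- import your own Cfsg.Agent.* helpers here

set_option autoImplicit false
open Cfsg

namespace Cfsg.Agent.S4696

open Cfsg.Agent.H4 Cfsg.Agent.H6

open Cfsg.Agent.H7
set_option warn.classDefReducibility false
attribute [local instance] H8.subFintype


/-- Let p be a prime, M a maximal ideal of the algebraic integers containing p, and B a p-block of the finite group G whose defect group D is cyclic of order p^a with a ≥ 1. Let C = C_G(D), let b be a block of C inducing B, let T be the stabilizer of b in N_G(D) (the elements g of N_G(D) such that the g-conjugate of every member of b is again in b), and let e be the index of C in T (the inertial index of B). Then e divides p − 1, every irreducible character in B has height zero, and B is the disjoint union of a set X of e characters and a set Y of (p^a − 1)/e characters, the members of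 Y agreeing on p-regular elements, for which there are signs δ_χ = ±1 (χ ∈ X) and δ₀ = ±1 such that: for every ψ ∈ Y and every p-regular g, δ₀ ψ(g) + Σ_{χ ∈ X} δ_χ χ(g) = 0; for all χ, χ' ∈ X the integers δ_χ χ(1) and δ_χ' χ'(1) are congruent modulo p^a; and for ψ ∈ Y and χ ∈ X, ψ(1) ≡ −e δ₀ δ_χ χ(1) modulo p^a. -/
theorem result {G : Type*} [Group G] [Finite G] (p : ℕ) [Fact p.Prime] (M : Ideal Cfsg.AlgInt) (hM : Cfsg.IsPModular p M) (D : Subgroup G) (hD : IsCyclic D) (a : ℕ) (ha : 1 ≤ a) (hDa : Nat.card D = p ^ a) (B : Set (Cfsg.IrrCharacter G)) (hB : Cfsg.IsPBlock M B) (hBD : Cfsg.IsDefectGroup p M B D) (b : Set (Cfsg.IrrCharacter (Subgroup.centralizer (D : Set G)))) (hind : Cfsg.IsInducedBlock M (Subgroup.centralizer (D : Set G)) b B) (T : Subgroup G) (hT : ∀ g : G, g ∈ T ↔ (g ∈ Subgroup.normalizer (D : Set G) ∧ ∀ θ ∈ b, ∀ θ' : Cfsg.IrrCharacter (Subgroup.centralizer (D : Set G)), (∀ h h' : Subgroup.centralizer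 (D : Set G), (h' : G) = g * h * g⁻¹ → (θ' : Subgroup.centralizer (D : Set G) → ℂ) h' = (θ : Subgroup.centralizer (D : Set G) → ℂ) h) → θ' ∈ b)) (e : ℕ) (he : (Subgroup.centralizer (D : Set G)).relIndex T = e) : e ∣ p - 1 ∧ (∀ χ ∈ B, Cfsg.blockHeight p B (χ : G → ℂ) = 0) ∧ ∃ X Y : Set (Cfsg.IrrCharacter G), B = X ∪ Y ∧ Disjoint X Y ∧ Nat.card X = e ∧ Nat.card Y = (p ^ a - 1) / e ∧ (∀ ψ ∈ Y, ∀ ψ' ∈ Y, ∀ g : G, ¬ p ∣ orderOf g → (ψ : G → ℂ) g = (ψ' : G → ℂ) g) ∧ ∃ (δ : Cfsg.IrrCharacter G → ℤ) (δ₀ : ℤ), (∀ χ ∈ X, δ χ = 1 ∨ δ χ = -1) ∧ (δ₀ = 1 ∨ δ₀ = -1) ∧ (∀ ψ ∈ Y, ∀ g : G, ¬ p ∣ orderOf g → (δ₀ : ℂ) * (ψ : G → ℂ) g + ∑ᶠ χ ∈ X, (δ χ : ℂ) * (χ : G → ℂ) g = 0) ∧ (∀ χ ∈ X, ∀ χ' ∈ X, δ χ * (Cfsg.charDegree (χ : G → ℂ) : ℤ) ≡ δ χ' * (Cfsg.charDegree (χ' : G → ℂ) : ℤ) [ZMOD (p : ℤ) ^ a]) ∧ (∀ ψ ∈ Y, ∀ χ ∈ X, (Cfsg.charDegree (ψ : G → ℂ) : ℤ) ≡ -((e : ℤ) * δ₀ * δ χ * (Cfsg.charDegree (χ : G → ℂ) : ℤ)) [ZMOD (p : ℤ) ^ a]) :=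 by
  classical
  haveI := hM.2.1; haveI := H6.charP_res hM; haveI := Fintype.ofFinite G
  have S := maxP_of_induced hM hBD hind
  obtain rfl : T = NS ⊤ D (eb M _ b) := by
    ext g
    rw [hT, mem_NS]
    exact and_congr_right fun h => by
      rw [forall_conj_mem_iff (normalizer_le_normalizer_centralizer D h) hind.1]; simp
  have hp : p.Prime := Fact.out
  have h1 : D ≠ ⊥ := by
    rintro rfl
    exact (Nat.one_lt_pow (by omega) hp.one_lt).ne (Subgroup.card_bot.symm.trans hDa)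
  have hab := le_centralizer_of_isCyclic hD
  obtain ⟨x, ψ, δ, δ₀, h, s⟩ := exists_fs_of_rank hM hab (free_of_isCyclic hM S hD) hB S h1
    (rank_eq_of_isCyclic hM S hD hB h1) (MulEquiv.refl _) fun _ => Iff.rfl
  have hA := (card_autOf (inf_le_left : NS ⊤ D (eb M _ b) ≤ _)).trans he
  haveI : ((Subgroup.centralizer (D : Set G)).subgroupOf (NS ⊤ D (eb M _ b))).Normal :=
    Subgroup.normal_subgroupOf_of_le_normalizer
      (inf_le_left.trans (normalizer_le_normalizer_centralizer D))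
  have h2 : (p : ℤ) ^ a ∣ (p : ℤ) ^ (Nat.card G).factorization p := pow_dvd_pow _
    ((hp.pow_dvd_iff_le_factorization Nat.card_pos.ne').1 (hDa ▸ D.card_subgroup_dvd_card))
  have h3 : blockDefect p B = a :=
    Nat.pow_right_injective hp.two_le ((card_eq_pow_blockDefect hM hB S.isDef).symm.trans hDa)
  refine ⟨he ▸ (isCyclic_quotient_of_isCyclic S.isDef.isPGroup hD h1 inf_le_left
    (S.not_dvd_of_abelian hab)).2, fun χ => s.height_zero h (not_dvd_card_autOf hM S hab) (by omega),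
    B \ Set.range ψ, Set.range ψ, (Set.diff_union_of_subset (Set.range_subset_iff.2 s.mem)).symm,
    Set.disjoint_sdiff_left, s.card.trans hA, ?_, ?_, δ, δ₀, fun χ hχ => s.sign χ hχ.1, s.sign0, ?_,
    fun χ hχ χ' hχ' => (s.cong h hχ hχ').of_dvd h2, ?_⟩
  · rw [Nat.card_range_of_injective s.inj, Nat.card_eq_fintype_card, card_orb_eq h.comm h.free, hA, hDa]
  · rintro _ ⟨i, rfl⟩ _ ⟨j, rfl⟩ g hg
    exact mul_left_cancel₀ (left_ne_zero_of_mul_eq_one (sq_sign s.sign0))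
      (add_right_cancel ((s.reg i g hg).trans (s.reg j g hg).symm))
  · rintro _ ⟨i, rfl⟩ g hg
    rw [H8.finsum_mem_bfin, s.reg i g hg]
  · rintro _ ⟨i, rfl⟩ χ hχ
    exact hA ▸ (s.cong0 h i hχ).of_dvd h2

end Cfsg.Agent.S4696
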