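import Cfsg.Statements.S5394
import Cfsg.Agent.H16.M24g

set_option autoImplicit false
open Cfsg

namespace Cfsg.Agent.S5394
open H16 in
theorem fixA : fixSet t2A ∈ octads := by rw [rep2A.fixSet_eq]; exact mem_octads_of (by decide +kernel)

open H16 in
theorem key (c : M24) : (¬ ∀ p, ((c * t2A * c⁻¹ : M24) : Equiv.Perm GolayPt) p ≠ p) ∧
    ∀ p, ((c * t2B * c⁻¹ : M24) : Equiv.Perm GolayPt) p ≠ p := by
  simp only [← fixSet_eq_empty, ← Finset.card_eq_zero, fixSet_conj, Finset.card_smul_finset, card_fix2A, card_fix2B]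
  simp

/-- The automorphism group of the length-24 code built from the squares modulo 23 has exactly two conjugacy classes of involutions: an involution either fixes exactly the eight points of an octad or has no fixed points, both kinds occur, and any two involutions of the same kind are conjugate in the group. -/
theorem result : (∀ g ∈ Cfsg.M24, orderOf g = 2 → (Finset.univ.filter fun p => g p = p) ∈ Cfsg.octads ∨ ∀ p, g p ≠ p) ∧ (∃ g ∈ Cfsg.M24, orderOf g = 2 ∧ (Finset.univ.filter fun p => g p = p) ∈ Cfsg.octads) ∧ (∃ g ∈ Cfsg.M24, orderOf g = 2 ∧ ∀ p, g p ≠ p) ∧ ∀ g ∈ Cfsg.M24, ∀ h ∈ Cfsg.M24, orderOf g = 2 → orderOf h = 2 → ((∀ p, g p ≠ p) ↔ (∀ p, h p ≠ p)) → ∃ k ∈ Cfsg.M24, k * g * k⁻¹ = h := by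
  refine ⟨fun g hg h => ?_, ⟨H16.t2A, Subtype.property _, by rw [Subgroup.orderOf_coe, H16.orderOf_2A], fixA⟩,
    ⟨H16.t2B, Subtype.property _, by rw [Subgroup.orderOf_coe, H16.orderOf_2B], by simpa using (key 1).2⟩,
    fun g hg h hh h1 h2 e => ?_⟩
  · obtain ⟨c, h | h⟩ := H16.class2 (x := ⟨g, hg⟩) (by rw [← Subgroup.orderOf_coe, h])
    · left
      change H16.fixSet ⟨g, hg⟩ ∈ _
      rw [h, H16.fixSet_conj]
      exact H16.M24_smul_mem_octads c fixA
    · right
      rw [show g = _ from congrArg Subtype.val h]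
      exact (key c).2
  obtain ⟨c, a⟩ := H16.class2 (x := ⟨g, hg⟩) (by rw [← Subgroup.orderOf_coe, h1])
  obtain ⟨d, b⟩ := H16.class2 (x := ⟨h, hh⟩) (by rw [← Subgroup.orderOf_coe, h2])
  rcases a with a | a <;> rcases b with b | b <;>
    rw [show g = _ from congrArg Subtype.val a, show h = _ from congrArg Subtype.val b] at e ⊢
  · exact ⟨(d * c⁻¹ : M24), Subtype.property _, by push_cast; group⟩
  · exact absurd (e.mpr (key d).2) (key c).1
  · exact absurd (e.mp (key c).2) (key d).1
  · exact ⟨(d * c⁻¹ : M24), Subtype.property _, by push_cast; group⟩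

end Cfsg.Agent.S5394
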