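import Cfsg.Statements.S5607
import Cfsg.Agent.H16.M24g

set_option autoImplicit false
open scoped Pointwise
open Cfsg

namespace Cfsg.Agent.S5607
open H16 in
theorem base : C2B ≤ MulAction.stabilizer M24 (fam 6 (sx 381)) :=
  C2B_facts.2.le fun p hp g _ h => by
    obtain ⟨g', h1, h2⟩ := inK_fam (k := 6) (c := sx 381) (S := cS2B) (by decide +kernel) p hp
    rwa [h.M24_eq h2]

/-- For a fixed-point-free involution t of the group of the length-24 code: its centraliser in that group has order 7680, is transitive on the 24 points, and is contained, together with t, in the stabiliser of some sextet. -/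
theorem result (t : Equiv.Perm Cfsg.GolayPt) (ht : t ∈ Cfsg.M24) (h₂ : orderOf t = 2) (h₀ : ∀ p, t p ≠ p) : Nat.card {c : Equiv.Perm Cfsg.GolayPt // c ∈ Cfsg.M24 ∧ c * t = t * c} = 7680 ∧ (∀ p q : Cfsg.GolayPt, ∃ c ∈ Cfsg.M24, c * t = t * c ∧ c p = q) ∧ ∃ S ∈ Cfsg.sextets, t • S = S ∧ ∀ c ∈ Cfsg.M24, c * t = t * c → c • S = S := by
  obtain ⟨t, rfl⟩ : ∃ x : M24, x = t := ⟨⟨t, ht⟩, rfl⟩
  have hf : (H16.fixSet t).card = 0 := Finset.card_eq_zero.mpr (H16.fixSet_eq_empty.mpr h₀)
  obtain ⟨c, rfl | rfl⟩ := H16.class2 (x := t) (by rwa [← Subgroup.orderOf_coe])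
  · rw [H16.fixSet_conj, Finset.card_smul_finset, H16.card_fix2A] at hf
    omega
  have h := H16.conj_mem_centralizer c H16.t2B
  have e : ∀ (g t : M24), g ∈ Subgroup.centralizer {t} ↔ (g : Equiv.Perm GolayPt) * t = t * g := fun g t => by
    rw [Subgroup.mem_centralizer_singleton_iff, Subtype.ext_iff]; rfl
  refine ⟨?_, fun p q => ?_, c • H16.fam 6 (H16.sx 381), H16.M24_smul_mem_sextets c (H16.sx_mem (by norm_num)),
    H16.cj c (base (Subgroup.mem_centralizer_singleton_iff.mpr rfl)), fun g hg h' => ?_⟩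
  · rw [H16.card_sub_equiv _ (e · _), H16.card_conj h, H16.C2B_facts.1]
  · obtain ⟨p, rfl⟩ := MulAction.surjective c p
    obtain ⟨q, rfl⟩ := MulAction.surjective c q
    obtain ⟨g, h1, h2⟩ := H16.tabPt.trans H16.C2B_facts.2.1 (Q := fun _ => True) (fun _ => true) (fun _ _ _ => rfl) (b := 0)
      (by norm_num) (by decide +kernel) (x := p) (y := q) trivial trivial trivial trivial
    exact ⟨(c * g * c⁻¹ : M24), Subtype.property _, (e _ _).mp ((h g).mp h1), H16.cj c h2⟩
  · have h1 := (e ⟨g, hg⟩ _).mpr h'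
    obtain ⟨x, hx⟩ := (MulAut.conj c).surjective ⟨g, hg⟩
    rw [← hx] at h1
    have := H16.cj c (base ((h x).mpr h1))
    rw [show c * x * c⁻¹ = _ from hx] at this
    exact this

end Cfsg.Agent.S5607
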