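import Cfsg.Statements.S5608
import Cfsg.Agent.H16.M24g

set_option autoImplicit false
open scoped Pointwise
open Cfsg

namespace Cfsg.Agent.S5608
open H16 in
theorem base {t : M24} {B S : List ℕ} (hB : ∀ b ∈ B, b < 24) (hS : Gen gpt 24 5 (Subgroup.centralizer {t}) S) {M k : ℕ}
    (h : enumChk mul24 5 24 B S M (fun p => orB (Nat.beq (pc24 (fixMask 5 24 p)) k)
      (orB (eqP 5 24 p (pid 5 24)) (notB (eqP 5 24 (mul24 p p) (pid 5 24))))) = true) (c s : M24) (hs : orderOf s = 2)
    (hc : s ∈ Subgroup.centralizer {c * t * c⁻¹}) : (fixSet s).card = k := by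
  obtain ⟨s, rfl⟩ := (MulAut.conj c).surjective s
  rw [MulEquiv.orderOf_eq] at hs
  rw [MulAut.conj_apply, fixSet_conj, Finset.card_smul_finset]
  obtain ⟨p, hp, h'⟩ := (enum_gen mulOk24 gpt_inj hB (faith_M24 _) hS h).2 s ((conj_mem_centralizer c t s).mpr hc)
  rw [orB_iff, orB_iff, notB_iff] at h'
  rcases h' with h' | h' | h'
  · rw [hp.card_fixSet, Nat.eq_of_beq_eq_true h']
  · rw [eq_of_eqP (faith_M24 ⊤) trivial trivial hp (Rep.pid five_le) h'] at hs
    simp at hs
  · refine absurd (eqP_of_rep gpt_inj (hp.mulP mulOk24 hp) ?_) h'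
    rw [← sq, ← hs, pow_orderOf_eq_one]
    exact Rep.pid five_le

/-- If an element of order 3 and an involution of the group of the length-24 code commute, then either the element of order 3 has exactly 6 fixed points and the involution exactly 8, or both are fixed-point-free. -/
theorem result (x s : Equiv.Perm Cfsg.GolayPt) (hx : x ∈ Cfsg.M24) (hs : s ∈ Cfsg.M24) (h₃ : orderOf x = 3) (h₂ : orderOf s = 2) (hc : Commute x s) : ((Finset.univ.filter fun p => x p = p).card = 6 ∧ (Finset.univ.filter fun p => s p = p).card = 8) ∨ ((Finset.univ.filter fun p => x p = p).card = 0 ∧ (Finset.univ.filter fun p => s p = p).card = 0) := by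
  obtain ⟨x, rfl⟩ : ∃ y : M24, y = x := ⟨⟨x, hx⟩, rfl⟩
  obtain ⟨s, rfl⟩ : ∃ y : M24, y = s := ⟨⟨s, hs⟩, rfl⟩
  rw [Subgroup.orderOf_coe] at h₂ h₃
  have h : s ∈ Subgroup.centralizer {x} := Subgroup.mem_centralizer_singleton_iff.mpr (Subtype.ext hc.symm.eq)
  obtain ⟨c, rfl | rfl⟩ := H16.class3 h₃
  · left
    refine ⟨?_, base (B := H16.cB3A) (by decide) H16.C3A_facts.2 (M := 1080) (by decide +kernel) c s h₂ h⟩
    change (H16.fixSet _).card = _
    rw [H16.fixSet_conj, Finset.card_smul_finset, H16.card_fix3A]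
  · right
    refine ⟨?_, base (B := H16.cB3B) (by decide) H16.C3B_facts.2 (M := 504) (by decide +kernel) c s h₂ h⟩
    change (H16.fixSet _).card = _
    rw [H16.fixSet_conj, Finset.card_smul_finset, H16.card_fix3B]

end Cfsg.Agent.S5608
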