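import Cfsg.Statements.S0371
import Cfsg.Agent.H16.M24a

set_option autoImplicit false
open Cfsg

namespace Cfsg.Agent.S0371

/-- Multiplication by a nonzero square residue modulo 23, fixing the extra point, lies in the group of the length-24 code. -/
theorem result (u : (ZMod 23)ˣ) (hu : IsSquare u) : Equiv.optionCongr (Units.mulLeft u) ∈ Cfsg.M24 := by
  obtain ⟨r, rfl⟩ := hu
  have h : ∀ a : ZMod 23, a ≠ 0 →
      H16.presCode (H16.pk 5 24 fun i => H16.idx (Option.map (fun x => a * a * x) (H16.gpt i))) = true := by
    decide +kernel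
  have : Fact (1 < 23) := ⟨by norm_num⟩
  exact H16.mem_M24_of_fun _ (h r r.ne_zero)

end Cfsg.Agent.S0371
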