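import Cfsg.Statements.S0018
import Cfsg.Agent.H1.Cores

set_option autoImplicit false
open Cfsg

namespace Cfsg.Agent.S0018

/-- A finite solvable group whose Sylow p-subgroups are abelian has p-length one: a Sylow p-subgroup together with the largest normal subgroup of order prime to p generates a normal subgroup. -/
theorem result {G : Type*} [Group G] [Finite G] [Group.IsSolvable G]
    (p : ℕ) [Fact p.Prime] (P : Sylow p G) (hP : IsMulCommutative P) :
    ((P : Subgroup G) ⊔ Cfsg.pPrimeCore p G).Normal := by
  let f := QuotientGroup.mk' (pPrimeCore p G)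
  have hf : Function.Surjective f := QuotientGroup.mk'_surjective _
  let Q : Sylow p (G ⧸ pPrimeCore p G) := P.mapSurjective hf
  have hQ : (Q : Subgroup (G ⧸ pPrimeCore p G)) = (P : Subgroup G).map f := rfl
  have hPc : IsMulCommutative (P : Subgroup G) := hP
  have hcomm : IsMulCommutative ((P : Subgroup G).map f) := inferInstance
  have h1 : (P : Subgroup G).map f = pCore p (G ⧸ pPrimeCore p G) := by
    refine le_antisymm ?_ (hQ ▸ H1.pCore_le_sylow Q)
    refine le_trans ?_ (H1.centralizer_pCore_le_of_isSolvable inferInstance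
      (H1.pPrimeCore_quotient_pPrimeCore p))
    refine le_trans (Subgroup.le_centralizer _) (Subgroup.centralizer_le ?_)
    exact (hQ ▸ H1.pCore_le_sylow Q : pCore p (G ⧸ pPrimeCore p G) ≤ (P : Subgroup G).map f)
  have h2 : (P : Subgroup G) ⊔ pPrimeCore p G = (pCore p (G ⧸ pPrimeCore p G)).comap f := by
    rw [← h1, Subgroup.comap_map_eq, QuotientGroup.ker_mk']
  rw [h2]
  infer_instance

end Cfsg.Agent.S0018
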