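import Cfsg.Statements.S0031
import Cfsg.Agent.H1.Basic

set_option autoImplicit false
open Cfsg

namespace Cfsg.Agent.S0031

/-- A fixed-point-free automorphism of a finite group maps some Sylow p-subgroup to itself. -/
theorem result {G : Type*} [Group G] [Finite G] (φ : G ≃* G)
    (hφ : MonoidHom.FixedPointFree (φ : G →* G)) (p : ℕ) [Fact p.Prime] :
    ∃ P : Sylow p G, (P : Subgroup G).map (φ : G →* G) = P := by
  obtain ⟨P⟩ : Nonempty (Sylow p G) := inferInstance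
  obtain ⟨g, hg⟩ := MulAction.exists_smul_eq G ((show MulAut G from φ) • P) P
  obtain ⟨x, rfl⟩ := hφ.commutatorMap_surjective g
  refine ⟨x⁻¹ • P, ?_⟩
  have h1 : ∀ y, y ∈ (P : Subgroup G) ↔ φ.symm ((x / φ x)⁻¹ * y * (x / φ x)) ∈ (P : Subgroup G) := by
    intro y
    conv_lhs => rw [← hg]
    rw [Sylow.coe_subgroup_smul, H1.mem_conj_smul, Sylow.pointwise_smul_def,
      Subgroup.mem_pointwise_smul_iff_inv_smul_mem]
    rfl
  ext y
  rw [← MulEquiv.toMonoidHom_eq_coe, Subgroup.mem_map_equiv, Sylow.coe_subgroup_smul, H1.mem_conj_smul, H1.mem_conj_smul,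
    h1 (x⁻¹⁻¹ * y * x⁻¹)]
  simp [div_eq_mul_inv, mul_assoc]

end Cfsg.Agent.S0031
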