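import Cfsg.Statements.S0032
import Cfsg.Agent.H1.Basic

set_option autoImplicit false
open Cfsg

namespace Cfsg.Agent.S0032

/-- If an automorphism of a finite group fixes only the identity and maps a normal subgroup N into itself, then the only cosets of N it fixes are those in N: a fixed coset xN forces x ∈ N. -/
theorem result {G : Type*} [Group G] [Finite G] (φ : G ≃* G)
    (hφ : MonoidHom.FixedPointFree (φ : G →* G)) (N : Subgroup G) [N.Normal] (hN : ∀ n ∈ N, φ n ∈ N)
    (x : G) (hx : (φ x)⁻¹ * x ∈ N) : x ∈ N := by
  have hf : MonoidHom.FixedPointFree (((φ : G →* G).comp N.subtype).codRestrict N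
      fun n => hN n n.2) := fun n hn => Subtype.ext (hφ n (congrArg Subtype.val hn))
  obtain ⟨n, hn⟩ := hf.commutatorMap_surjective ⟨x * (φ x)⁻¹, by
    convert (inferInstance : N.Normal).conj_mem _ hx (φ x) using 1
    group⟩
  have h1 : MonoidHom.commutatorMap (φ : G →* G) n = MonoidHom.commutatorMap (φ : G →* G) x := by
    have h2 : (n : G) / φ n = x * (φ x)⁻¹ := congrArg Subtype.val hn
    simpa [div_eq_mul_inv] using h2
  exact hφ.commutatorMap_injective h1 ▸ n.2

end Cfsg.Agent.S0032
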