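import Cfsg.Statements.S0034
import Cfsg.Agent.H1.Frobenius

set_option autoImplicit false
open Cfsg

namespace Cfsg.Agent.S0034

/-- For a Frobenius complement H, the set of elements lying in no conjugate of H, together with 1, has exactly as many elements as the index of H, and that index is congruent to 1 modulo the order of H. -/
theorem result {G : Type*} [Group G] [Finite G] (H : Subgroup G) (hH : Cfsg.IsFrobeniusComplement H) :
    Nat.card (Cfsg.frobeniusKernel H) = H.index ∧ H.index % Nat.card H = 1 % Nat.card H := by
  obtain ⟨K, hK, hn, hc⟩ := H4.frobenius_theorem H hH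
  have h1 : Nat.card K = H.index := hc.index_eq_card.symm
  refine ⟨by rw [← hK, ← h1]; rfl, ?_⟩
  rw [← h1]
  exact H1.card_modEq_of_fpf Subgroup.le_normalizer_of_normal
    (H1.fpf_of_isFrobeniusComplement hH hc.disjoint)

end Cfsg.Agent.S0034
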