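import Cfsg.Statements.S0042
import Cfsg.Agent.H1.ThompsonFPF
import Cfsg.Agent.H4.Frobenius

set_option autoImplicit false
open Cfsg

namespace Cfsg.Agent.S0042

/-- In a finite Frobenius group, the Frobenius kernel is (the carrier of) a normal subgroup which is nilpotent. -/
theorem result {G : Type*} [Group G] [Finite G] (H : Subgroup G) (hH : Cfsg.IsFrobeniusComplement H) :
    ∃ N : Subgroup G, (N : Set G) = Cfsg.frobeniusKernel H ∧ N.Normal ∧ Group.IsNilpotent N := by
  open Subgroup in
  obtain ⟨N, h1, h2, h3⟩ := H4.frobenius_theorem H hH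
  refine ⟨N, h1, h2, ?_⟩
  obtain ⟨y, hy, hr⟩ := H1.exists_prime_orderOf_mem (H := H) hH.1
  refine H1.isNilpotent_of_fpf (y := y) (by rw [normalizer_eq_top]; trivial) hr ?_
  refine H1.fpf_of_isFrobeniusComplement hH h3.disjoint y hy ?_
  rintro rfl
  rw [orderOf_one] at hr
  exact Nat.not_prime_one hr

end Cfsg.Agent.S0042
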