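import Cfsg.Statements.S0054
import Cfsg.Agent.H1.Coprime

set_option autoImplicit false
open Cfsg

namespace Cfsg.Agent.S0054

/-- A regular normal subgroup of a finite 2-transitive group is elementary abelian: it is commutative and all its elements have order dividing one prime. -/
theorem result {G : Type*} [Group G] [Finite G]
    {X : Type*} [Nonempty X] [MulAction G X] (h2 : MulAction.IsMultiplyPretransitive G X 2)
    (N : Subgroup G) [N.Normal] (htrans : MulAction.IsPretransitive N X) (hreg : ∀ x : X, MulAction.stabilizer N x = ⊥) :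
    IsMulCommutative N ∧ ∃ p : ℕ, p.Prime ∧ ∀ n ∈ N, n ^ p = 1 := by
  obtain ⟨x⟩ := ‹Nonempty X›
  have h1 : ∀ n ∈ N, n • x = x → n = 1 := fun n hn h => by
    have h2 : (⟨n, hn⟩ : N) ∈ MulAction.stabilizer N x := h
    rw [hreg, Subgroup.mem_bot] at h2
    exact congrArg Subtype.val h2
  have h3 : ∀ n ∈ N, n ≠ 1 → ∀ m ∈ N, m ≠ 1 → ∃ g : G, g * n * g⁻¹ = m := by
    intro n hn hn1 m hm hm1
    obtain ⟨g, hg1, hg2⟩ := MulAction.is_two_pretransitive_iff.mp h2
      (fun h => hn1 (h1 n hn h.symm)) (fun h => hm1 (h1 m hm h.symm))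
    refine ⟨g, (inv_mul_eq_one.mp (h1 _ (N.mul_mem (N.inv_mem hm)
      (Subgroup.Normal.conj_mem inferInstance n hn g)) ?_)).symm⟩
    rw [mul_smul, mul_smul, mul_smul, inv_smul_eq_iff.mpr hg1.symm, hg2, inv_smul_smul]
  by_cases hN : N = ⊥
  · subst hN
    exact ⟨inferInstance, 2, Nat.prime_two, fun n hn => by simp [Subgroup.mem_bot.mp hn]⟩
  obtain ⟨a, ha, hp⟩ := H1.exists_prime_orderOf_mem hN
  have h4 : ∀ n ∈ N, n ^ orderOf a = 1 := fun n hn => by
    by_cases hn1 : n = 1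
    · simp [hn1]
    · obtain ⟨g, rfl⟩ := h3 a ha (by rintro rfl; simpa using hp.one_lt) n hn hn1
      simp
  refine ⟨?_, _, hp, h4⟩
  have := Fact.mk hp
  have hP : IsPGroup (orderOf a) N := fun n => ⟨1, Subtype.ext (by simpa using h4 n n.2)⟩
  obtain ⟨⟨z, hz, hz'⟩, hz1⟩ := Subgroup.ne_bot_iff_exists_ne_one.mp
    (H1.inf_centralizer_ne_bot_of_isPGroup hP hP Subgroup.le_normalizer hN)
  refine ⟨⟨fun n m => ?_⟩⟩
  by_cases hn1 : (n : G) = 1
  · simp [show n = 1 from Subtype.ext hn1]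
  · obtain ⟨g, hg⟩ := h3 z hz (fun h => hz1 (Subtype.ext h)) n n.2 hn1
    have h5 := Subgroup.mem_centralizer_iff.mp hz' _
      (Subgroup.Normal.conj_mem' inferInstance _ m.2 g)
    refine Subtype.ext ?_
    rw [Subgroup.coe_mul, Subgroup.coe_mul, ← hg]
    calc g * z * g⁻¹ * m = g * (z * (g⁻¹ * m * g)) * g⁻¹ := by group
      _ = m * (g * z * g⁻¹) := by rw [← h5]; group

end Cfsg.Agent.S0054
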