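import Cfsg.Statements.S0064
import Mathlib
import Cfsg.Agent.H2.Frattini

set_option autoImplicit false
open Cfsg

namespace Cfsg.Agent.S0064

/-- A finite group is nilpotent exactly when each of its subgroups is subnormal. -/
theorem result {G : Type*} [Group G] [Finite G] :
    Group.IsNilpotent G ↔ ∀ H : Subgroup G, H.IsSubnormal := by
  constructor
  · intro hG H
    induction H using WellFoundedGT.induction with
    | ind H ih =>
      by_cases h : H = ⊤
      · rw [h]; exact Subgroup.IsSubnormal.top
      · exact H10.IsSubnormal_of_le_normalizer Subgroup.le_normalizer le_rfl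
          (ih _ (Group.normalizerCondition_of_isNilpotent H (lt_top_iff_ne_top.mpr h)))
  · intro h
    apply H2.isNilpotent_of_forall_coatom_normal
    intro M hM
    obtain ⟨K, hK, h1, h2⟩ := (h M).exists_normal_and_le_and_lt_top_of_ne hM.1
    rwa [← (H2.eq_or_eq_top_of_coatom hM h1).resolve_right h2.ne]

end Cfsg.Agent.S0064
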