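import Cfsg.Statements.S0068
import Cfsg.Agent.H1.Frobenius

set_option autoImplicit false
open Cfsg

namespace Cfsg.Agent.S0068

/-- Frobenius complements of even order: if H complements a nontrivial normal subgroup K, each nonidentity element of H has trivial centraliser in K, and H has even order, then H contains a unique involution s, K is abelian, and s inverts every element of K. -/
theorem result {G : Type*} [Group G] [Finite G] (K H : Subgroup G) [K.Normal]
    (hc : Subgroup.IsComplement' K H) (hK : K ≠ ⊥) (hfpf : ∀ h ∈ H, h ≠ 1 → K ⊓ Subgroup.centralizer {h} = ⊥)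
    (heven : 2 ∣ Nat.card H) :
    (∃ s ∈ H, orderOf s = 2 ∧ (∀ t ∈ H, orderOf t = 2 → t = s) ∧ ∀ k ∈ K, s * k * s⁻¹ = k⁻¹) ∧ IsMulCommutative K := by
  obtain ⟨s, hs⟩ := exists_prime_orderOf_dvd_card' 2 heven
  have hs2 : orderOf (s : G) = 2 := by rwa [Subgroup.orderOf_coe]
  have h1 : ∀ k ∈ K, (s : G) * k * (s : G)⁻¹ = k⁻¹ := fun k hk =>
    H1.conj_eq_inv_of_fpf (Subgroup.le_normalizer_of_normal s.2)
      (by rw [← sq, ← hs2, pow_orderOf_eq_one])
      (hfpf s s.2 (fun h => by simp [h] at hs2)) hk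
  exact ⟨⟨s, s.2, hs2, fun t ht ht2 => H1.involution_unique_of_fpf hK
    Subgroup.le_normalizer_of_normal hfpf s.2 ht hs2 ht2, h1⟩, H1.isMulCommutative_of_conj_eq_inv h1⟩

end Cfsg.Agent.S0068
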