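import Cfsg.Statements.S0073
import Cfsg.Agent.H3.Action

set_option autoImplicit false
open Cfsg

namespace Cfsg.Agent.S0073

open Cfsg.Agent.H3

/-- For a finite non-abelian simple group, either the cube of the least prime divisor of the order divides the order, or 12 does. -/
theorem result {G : Type*} [Group G] [Finite G] [IsSimpleGroup G] (hG : ∃ x y : G, x * y ≠ y * x) : (Nat.card G).minFac ^ 3 ∣ Nat.card G ∨ 12 ∣ Nat.card G := by
  by_contra hne
  push Not at hne
  obtain ⟨x, y, hxy⟩ := hG
  have h0 : Nat.card G ≠ 1 := Finite.one_lt_card.ne'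
  set p := (Nat.card G).minFac with hpd
  have hp : Fact p.Prime := ⟨Nat.minFac_prime h0⟩
  obtain ⟨P⟩ : Nonempty (Sylow p G) := inferInstance
  obtain ⟨n, hn⟩ := P.2.exists_card_eq
  have hd : p ^ n ∣ Nat.card G := hn ▸ Subgroup.card_subgroup_dvd_card _
  have h2 : n ≤ 2 := by
    by_contra h
    exact hne.1 ((pow_dvd_pow p (by omega)).trans hd)
  have hP : IsMulCommutative P := by
    interval_cases n
    · have := (Nat.card_eq_one_iff_unique.mp hn).1
      exact ⟨⟨fun _ _ => Subsingleton.elim _ _⟩⟩
    · have := isCyclic_of_prime_card (p := p) (by simpa using hn)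
      exact IsCyclic.isMulCommutative
    · exact IsPGroup.isMulCommutative_of_card_eq_prime_sq hn
  have h3 : HasNormalPComplement p G := by
    refine hasNormalPComplement_of_forall_prime P hP fun q A hq h2 hqd hA hAn => ?_
    by_contra hne'
    obtain ⟨i, h4, h5, h6⟩ := exists_dvd_pow_sub_one hn hq h2 hA hAn hne'
    have h7 : p < q := lt_of_le_of_ne (Nat.minFac_le_of_dvd hq.two_le hqd) (Ne.symm h2)
    have h8 := hp.out.two_le
    have h9 : ¬ q ∣ p - 1 := fun h => by
      have := Nat.le_of_dvd (by omega) h
      omega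
    have hi : i ≤ 2 := h5.trans ‹n ≤ 2›
    interval_cases i
    · exact h9 (by simpa using h6)
    · rw [show p ^ 2 - 1 = (p + 1) * (p - 1) from Nat.sq_sub_sq p 1] at h6
      have h10 := Nat.le_of_dvd (by omega) (((Nat.Prime.dvd_mul hq).mp h6).resolve_right h9)
      obtain rfl : q = p + 1 := by omega
      have h11 : p = 2 := by
        rcases hp.out.eq_two_or_odd' with h | h
        · exact h
        · have := hq.eq_two_or_odd'.resolve_right (Nat.not_odd_iff_even.mpr h.add_one)
          omega
      obtain rfl : n = 2 := by omega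
      rw [h11] at hd hqd
      exact hne.2 (Nat.Coprime.mul_dvd_of_dvd_of_dvd (by norm_num : Nat.Coprime 4 3) hd hqd)
  rcases (pResidual_normal (p := p) (G := G)).eq_bot_or_eq_top with h | h
  · have h4 := (pResidual_eq_bot_iff.mp h).isNilpotent
    exact hxy (IsSimpleGroup.comm_iff_isSolvable.mpr inferInstance x y)
  · rw [hasNormalPComplement_iff_not_dvd, h, Subgroup.card_top] at h3
    exact h3 (Nat.minFac_dvd _)

end Cfsg.Agent.S0073
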