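import Cfsg.Statements.S0074
import Cfsg.Agent.H3.Fusion

set_option autoImplicit false
open Cfsg

namespace Cfsg.Agent.S0074

open Cfsg.Agent.H3

/-- For an abelian Sylow p-subgroup P, the intersection of P with the derived subgroup of G equals its intersection with the derived subgroup of the normalizer of P. -/
theorem result {G : Type*} [Group G] [Finite G] {p : ℕ} [Fact p.Prime] (P : Sylow p G) (hP : IsMulCommutative P) : commutator G ⊓ (P : Subgroup G) = ⁅Subgroup.normalizer (P : Set G), Subgroup.normalizer (P : Set G)⁆ ⊓ (P : Subgroup G) := by
  apply commutator_inf_eq_of_fusion P Subgroup.le_normalizer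
  intro x hx g hg
  exact exists_normalizer_conj_of_centralizer P (P.le_centralizer hx) (P.le_centralizer hg)

end Cfsg.Agent.S0074
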