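import Cfsg.Statements.S0075
import Cfsg.Agent.H3.Fusion

set_option autoImplicit false
open Cfsg

namespace Cfsg.Agent.S0075

open Cfsg.Agent.H3
open scoped commutatorElement

/-- For an abelian Sylow p-subgroup T, its intersection with the subgroup generated by the elements of order prime to p is the commutator of T with its normalizer. -/
theorem result {G : Type*} [Group G] [Finite G] {p : ℕ} [Fact p.Prime] (T : Sylow p G) (hT : IsMulCommutative T) : (T : Subgroup G) ⊓ Cfsg.pResidual p G = ⁅(T : Subgroup G), Subgroup.normalizer (T : Set G)⁆ := by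
  apply le_antisymm
  · refine le_trans (le_inf (inf_pResidual_le_commutator T.2) inf_le_left)
      (commutator_inf_sylow_le T fun x hx g hg => ?_)
    obtain ⟨n, hn, he⟩ :=
      exists_normalizer_conj_of_centralizer T (T.le_centralizer hx) (T.le_centralizer hg)
    exact he ▸ commutator_mem_of_mem hx hn
  · refine le_inf (Subgroup.le_normalizer_iff_commutator_le_left.mp le_rfl)
      (Subgroup.commutator_le.mpr fun t ht n _ => ?_)
    obtain ⟨m, hm, s, hs, rfl⟩ := exists_eq_pResidual_mul_sylow T n
    have h1 : s * t⁻¹ = t⁻¹ * s := T.le_centralizer (inv_mem ht) s hs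
    have : ⁅t, m * s⁆ = (t * m * t⁻¹) * m⁻¹ := by
      rw [commutatorElement_def]
      calc t * (m * s) * t⁻¹ * (m * s)⁻¹ = t * m * (s * t⁻¹) * s⁻¹ * m⁻¹ := by group
        _ = _ := by rw [h1]; group
    rw [this]
    exact mul_mem (pResidual_normal.conj_mem m hm t) (inv_mem hm)

end Cfsg.Agent.S0075
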