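import Cfsg.Statements.S0078
import Cfsg.Agent.H3.Fusion

set_option autoImplicit false
open Cfsg

namespace Cfsg.Agent.S0078

open Cfsg.Agent.H3

open scoped Pointwise

/-- In a p-normal group, a Sylow p-subgroup P meets O^p(G) exactly where it meets O^p(V), for any subgroup V containing the normalizer of the centre of P. -/
theorem result {G : Type*} [Group G] [Finite G] {p : ℕ} [Fact p.Prime] (P : Sylow p G) (hn : ∀ Q : Sylow p G, (P : Subgroup G) ⊓ Subgroup.centralizer (P : Set G) ≤ (Q : Subgroup G) → (Q : Subgroup G) ⊓ Subgroup.centralizer (Q : Set G) = (P : Subgroup G) ⊓ Subgroup.centralizer (P : Set G)) (V : Subgroup G) (hV : Subgroup.normalizer (((P : Subgroup G) ⊓ Subgroup.centralizer (P : Set G) : Subgroup G) : Set G) ≤ V) : (P : Subgroup G) ⊓ Cfsg.pResidual p G = (P : Subgroup G) ⊓ (Cfsg.pResidual p V).map V.subtype := by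
  set Z := (P : Subgroup G) ⊓ Subgroup.centralizer (P : Set G) with hZdef
  have hZ : Z ≤ Subgroup.centralizer (P : Set G) := inf_le_right
  have hW : IsWeaklyClosed Z P := by
    refine ⟨inf_le_left, fun g hg => ?_⟩
    rw [map_conj_eq_smul] at hg ⊢
    have h1 : Z ≤ ((g⁻¹ • P : Sylow p G) : Subgroup G) := by
      rw [Sylow.coe_subgroup_smul, ← conj_inv_smul_conj_smul Z g]
      exact conj_smul_mono _ hg
    have h2 := hn _ h1
    rw [← Sylow.coe_coe, Sylow.coe_subgroup_smul, centralizer_conj_smul, ← conj_smul_inf] at h2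
    conv_lhs => rw [← h2]
    exact conj_smul_conj_inv_smul _ _
  have hPV : (P : Subgroup G) ≤ V :=
    ((Subgroup.le_centralizer_iff.mp hZ).trans (Subgroup.centralizer_le_normalizer _)).trans hV
  apply sylow_inf_pResidual_eq_of_fusion P hPV
  intro x hx g hg
  obtain ⟨n, hn, he⟩ := exists_normalizer_conj_of_weaklyClosed P hZ hW g
  exact ⟨n, hV hn, he x hx hg⟩

end Cfsg.Agent.S0078
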