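import Cfsg.Statements.S0079
import Cfsg.Agent.H3.HallCompl

set_option autoImplicit false
open Cfsg

namespace Cfsg.Agent.S0079

open Cfsg.Agent.H3

/-- A nilpotent Hall subgroup has a normal complement exactly when elements of it that are conjugate in the whole group are already conjugate inside it. -/
theorem result {G : Type*} [Group G] [Finite G] (H : Subgroup G) (hH : Group.IsNilpotent H) (hHall : Nat.Coprime (Nat.card H) H.index) : (∃ N : Subgroup G, N.Normal ∧ N.IsComplement' H) ↔ ∀ x ∈ H, ∀ y ∈ H, (∃ g : G, g * x * g⁻¹ = y) → ∃ h ∈ H, h * x * h⁻¹ = y := by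
  constructor
  · rintro ⟨N, hN, hc⟩ x hx y hy ⟨g, rfl⟩
    have : g ∈ N ⊔ H := by rw [hc.sup_eq_top]; trivial
    obtain ⟨n, hn, h, hh, rfl⟩ := Subgroup.mem_sup_of_normal_left.mp this
    refine ⟨h, hh, ?_⟩
    have h1 : (h * x * h⁻¹)⁻¹ * (n * h * x * (n * h)⁻¹) ∈ N ⊓ H := by
      refine Subgroup.mem_inf.mpr
        ⟨?_, mul_mem (inv_mem (mul_mem (mul_mem hh hx) (inv_mem hh))) hy⟩
      have : (h * x * h⁻¹)⁻¹ * (n * h * x * (n * h)⁻¹) =
        ((h * x * h⁻¹)⁻¹ * n * (h * x * h⁻¹)⁻¹⁻¹) * n⁻¹ := by group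
      rw [this]
      exact mul_mem (hN.conj_mem n hn _) (inv_mem hn)
    rw [hc.disjoint.eq_bot, Subgroup.mem_bot] at h1
    exact inv_mul_eq_one.mp h1
  · intro h
    exact exists_normal_complement_of_nilpotent_hall H hH hHall
      fun x hx g hg => h x hx _ hg ⟨g, rfl⟩

end Cfsg.Agent.S0079
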