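import Cfsg.Statements.S0084
import Cfsg.Agent.H3.Action

set_option autoImplicit false
open Cfsg

namespace Cfsg.Agent.S0084

open Cfsg.Agent.H3

/-- A group whose Sylow 2-subgroups are Klein four-groups and whose order is prime to 3 has a normal 2-complement. -/
theorem result {G : Type*} [Group G] [Finite G] (T : Sylow 2 G) (hT : IsKleinFour T) (h3 : ¬ 3 ∣ Nat.card G) : Cfsg.HasNormalPComplement 2 G := by
  refine hasNormalPComplement_of_forall_prime T hT.isMulCommutative fun q A hq h2 hd hA hn => ?_
  by_contra hne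
  obtain ⟨i, h4, h5, h6⟩ := exists_dvd_pow_sub_one (p := 2) (n := 2) hT.card_four hq h2 hA hn hne
  interval_cases i
  · exact hq.one_lt.ne' (Nat.dvd_one.mp h6)
  · exact h3 ((Nat.prime_dvd_prime_iff_eq hq Nat.prime_three).mp h6 ▸ hd)

end Cfsg.Agent.S0084
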