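import Cfsg.Statements.S0087
import Cfsg.Agent.H3.HallCompl

set_option autoImplicit false
open Cfsg

namespace Cfsg.Agent.S0087

open Cfsg.Agent.H3

open scoped Pointwise IsMulCommutative

/-- A Hall subgroup that is central in its normalizer has a normal complement. -/
theorem result {G : Type*} [Group G] [Finite G] (H : Subgroup G) (hHall : Nat.Coprime (Nat.card H) H.index) (h : Subgroup.normalizer (H : Set G) ≤ Subgroup.centralizer (H : Set G)) : ∃ N : Subgroup G, N.Normal ∧ N.IsComplement' H := by
  have hc : H ≤ Subgroup.centralizer (H : Set G) := Subgroup.le_normalizer.trans h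
  have : IsMulCommutative H := Subgroup.le_centralizer_iff_isMulCommutative.mp hc
  have hH : Group.IsNilpotent H := inferInstance
  apply exists_normal_complement_of_nilpotent_hall H hH hHall
  intro x hx g hg
  have h1 : H ≤ Subgroup.centralizer {g * x * g⁻¹} := fun y hy =>
    Subgroup.mem_centralizer_singleton_iff.mpr (hc hg y hy)
  have h2 : MulAut.conj g • H ≤ Subgroup.centralizer {g * x * g⁻¹} := by
    rw [conj_smul_le_iff]
    intro y hy
    rw [Subgroup.mem_centralizer_singleton_iff]
    calc g * y * g⁻¹ * (g * x * g⁻¹) = g * (y * x) * g⁻¹ := by group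
      _ = _ := by rw [hc hx y hy]; group
  obtain ⟨c, hc1, hc2⟩ := exists_mem_conj_of_nilpotent_hall hH
    (Group.nilpotent_of_mulEquiv (H.equivSMul (MulAut.conj g))) h1 h2
    (Nat.Coprime.coprime_dvd_right (Subgroup.relIndex_dvd_index_of_le h1) hHall)
    (card_conj_smul H g).symm
  have h3 : c⁻¹ * g ∈ Subgroup.normalizer (H : Set G) := by
    rw [mem_normalizer_iff_conj_smul, ← conj_smul_conj_smul, ← hc2, conj_inv_smul_conj_smul]
  refine ⟨1, one_mem _, ?_⟩
  have h4 := h h3 x hx
  have h5 := Subgroup.mem_centralizer_singleton_iff.mp hc1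
  calc 1 * x * 1⁻¹ = x * (c⁻¹ * g) * (c⁻¹ * g)⁻¹ := by group
    _ = c⁻¹ * (g * x * g⁻¹ * c) := by rw [h4]; group
    _ = _ := by rw [← h5]; group

end Cfsg.Agent.S0087
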