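import Cfsg.Statements.S0089
import Cfsg.Agent.H3.Fusion

set_option autoImplicit false
open Cfsg

namespace Cfsg.Agent.S0089

open Cfsg.Agent.H3

/-- When all Sylow subgroups are abelian, the derived subgroup meets the centre trivially. -/
theorem result {G : Type*} [Group G] [Finite G] (h : ∀ p : ℕ, p.Prime → ∀ P : Sylow p G, IsMulCommutative P) : commutator G ⊓ Subgroup.center G = ⊥ := by
  rw [← Subgroup.card_eq_one]
  by_contra h1
  obtain ⟨p, hp, hd⟩ := Nat.exists_prime_and_dvd h1
  have := Fact.mk hp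
  obtain ⟨Q, hQ⟩ := exists_sylowIn p (commutator G ⊓ Subgroup.center G)
  obtain ⟨P, hP⟩ := hQ.isPGroup.exists_le_sylow
  have h2 := inf_commutator_inf_center_eq_bot (P : Subgroup G) (h p hp P) P.card_coprime_index
  refine hQ.eq_bot_iff.mp (eq_bot_iff.mpr ?_) hd
  rw [← h2, inf_assoc]
  exact le_inf hP hQ.le

end Cfsg.Agent.S0089
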