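import Cfsg.Statements.S0090
import Cfsg.Agent.H3.Misc1

set_option autoImplicit false
open Cfsg

namespace Cfsg.Agent.S0090

open Cfsg.Agent.H3

/-- An abelian normal Hall subgroup A splits as the internal direct product of G' ∩ A and Z(G) ∩ A, and [A, G] = G' ∩ A. -/
theorem result {G : Type*} [Group G] [Finite G] (A : Subgroup G) [A.Normal] (hc : IsMulCommutative A) (hHall : Nat.Coprime (Nat.card A) A.index) : ⁅A, (⊤ : Subgroup G)⁆ = commutator G ⊓ A ∧ (commutator G ⊓ A) ⊓ (Subgroup.center G ⊓ A) = ⊥ ∧ (commutator G ⊓ A) ⊔ (Subgroup.center G ⊓ A) = A := by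
  have h0 : ⁅A, A⁆ = ⊥ := Subgroup.commutator_eq_bot_iff_le_centralizer.mpr A.le_centralizer
  have h1 : ⁅A, (⊤ : Subgroup G)⁆ = commutator G ⊓ A := by
    refine le_antisymm (le_inf (Subgroup.commutator_mono le_top le_rfl)
      (Subgroup.commutator_le_left _ _)) ?_
    rw [← focalSubgroup_eq_of_coprime A (by rw [h0, Subgroup.relIndex_bot_left]; exact hHall.symm)]
    exact focalSubgroup_le_of_forall fun x hx g _ => commutator_mem_of_mem hx trivial
  obtain ⟨h2, h3⟩ := commutator_sup_inf_centralizer_of_hall (N := ⊤) hc le_top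
    Subgroup.le_normalizer_of_normal (by simpa using hHall)
  rw [Subgroup.coe_top, Subgroup.centralizer_univ, h1, inf_comm A] at h2 h3
  exact ⟨h1, by rwa [inf_comm] at h3, h2⟩

end Cfsg.Agent.S0090
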