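import Cfsg.Statements.S0092
import Cfsg.Agent.H3.Action
import Cfsg.Agent.H2.Frattini
import Cfsg.Agent.S0075

set_option autoImplicit false
open Cfsg

namespace Cfsg.Agent.S0092

open Cfsg.Agent.H3

open scoped Pointwise commutatorElement

/-- If the Sylow p-subgroups of O^p(G) are abelian then G splits over O^p(G). -/
theorem result {G : Type*} [Group G] [Finite G] {p : ℕ} [Fact p.Prime] (h : ∀ Q : Sylow p (Cfsg.pResidual p G), IsMulCommutative Q) : ∃ K : Subgroup G, K.IsComplement' (Cfsg.pResidual p G) := by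
  set M := pResidual p G
  obtain ⟨Q₀⟩ : Nonempty (Sylow p M) := inferInstance
  have hQ := sylowIn_map_subtype Q₀
  set Q := (Q₀ : Subgroup M).map M.subtype with hQd
  have hc : IsMulCommutative Q := by
    have := h Q₀
    infer_instance
  set N := M ⊓ Subgroup.normalizer (Q : Set G)
  have hQN : Q ≤ N := le_inf hQ.le Subgroup.le_normalizer
  have h1 : Q ≤ ⁅Q, N⁆ := by
    have h2 := S0075.result Q₀ (h Q₀)
    rw [pResidual_pResidual, inf_top_eq] at h2
    refine (Subgroup.map_mono h2.le).trans ?_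
    rw [Subgroup.map_commutator]
    exact Subgroup.commutator_mono le_rfl
      (le_inf (Subgroup.map_subtype_le _) (Subgroup.le_normalizer_map _))
  have hcop := (hQ.of_le hQN inf_le_left).card_coprime_relIndex
  have h2 : Q ⊓ Subgroup.centralizer (N : Set G) = ⊥ := eq_bot_iff.mpr
    ((commutator_sup_inf_centralizer_of_hall hc hQN inf_le_right hcop).2 ▸
      le_inf le_rfl (inf_le_left.trans h1))
  obtain ⟨L, h3, h4, h5, h6⟩ := H1.exists_complement_le hQN inf_le_right hcop
  have hLQ : L ≤ Subgroup.normalizer (Q : Set G) := h3.trans inf_le_right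
  have h7 : M ⊔ Subgroup.normalizer (Q : Set G) ⊓ Subgroup.normalizer (L : Set G) = ⊤ := by
    refine eq_top_iff.mpr fun g _ => ?_
    obtain ⟨m, hm, n, hn, rfl⟩ := hQ.frattini (g := g) (Subgroup.le_normalizer_of_normal
      (K := ⊤) trivial)
    have h8 : MulAut.conj n • L ≤ N := H1.conj_smul_le_of_le_normalizer h3
      (H1.le_normalizer_inf Subgroup.le_normalizer_of_normal Subgroup.le_normalizer hn)
    obtain ⟨x, hx, h9⟩ := H1.exists_conj_eq_of_le_sup hLQ (h8.trans inf_le_right)
      (by rw [card_conj_smul, h6]; exact hcop.symm) (Or.inr (H1.isSolvable_of_isMulCommutative Q))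
      (h4 ▸ h8) (card_conj_smul L n).ge
    have h10 : x⁻¹ * n ∈ Subgroup.normalizer (L : Set G) := by
      rw [mem_normalizer_iff_conj_smul, ← conj_smul_conj_smul, ← h9, conj_inv_smul_conj_smul]
    rw [show m * n = m * x * (x⁻¹ * n) by group]
    exact mul_mem (Subgroup.mem_sup_left (mul_mem hm (hQ.le hx))) (Subgroup.mem_sup_right
      (Subgroup.mem_inf.mpr ⟨mul_mem (inv_mem (Subgroup.le_normalizer hx)) hn, h10⟩))
  obtain ⟨K, hK⟩ := exists_sylowIn p
    (Subgroup.normalizer (Q : Set G) ⊓ Subgroup.normalizer (L : Set G))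
  refine ⟨K, (H2.isComplement'_of_normal (eq_bot_iff.mpr fun x hx => ?_) ?_).symm⟩
  · have h8 : x ∈ Q := (hQ.of_le hQN inf_le_left).le_of_le_normalizer' (R := M ⊓ K)
      hK.isPGroup.to_inf_right (inf_le_inf_left _ (hK.le.trans inf_le_left)) inf_le_right hx
    rw [← h2]
    refine ⟨h8, ?_⟩
    have h9 : N ≤ Subgroup.centralizer {x} := by
      rw [← h4]
      refine sup_le (fun y hy => Subgroup.mem_centralizer_singleton_iff.mpr
        (Q.le_centralizer h8 y hy)) fun y hy => Subgroup.mem_centralizer_singleton_iff.mpr ?_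
      rw [← commutatorElement_eq_one_iff_mul_comm, ← Subgroup.mem_bot, ← h5]
      refine Subgroup.mem_inf.mpr ⟨?_, ?_⟩
      · exact mul_mem (H1.conj_mem_of_le_normalizer hLQ hy h8) (inv_mem h8)
      · have := mul_mem hy (H1.conj_mem_of_le_normalizer le_rfl (hK.le hx.2).2 (inv_mem hy))
        simpa [commutatorElement_def, mul_assoc] using this
    exact fun y hy => Subgroup.mem_centralizer_singleton_iff.mp (h9 hy)
  · refine eq_top_iff.mpr (h7.ge.trans (sup_le le_sup_left fun g hg => ?_))
    obtain ⟨k, hk, s, hs, rfl⟩ := hK.exists_eq_mul (K := M)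
      (fun x _ hx => mem_pResidual_of_coprime hx) hg
    exact mul_mem (Subgroup.mem_sup_left hk) (Subgroup.mem_sup_right hs)

end Cfsg.Agent.S0092
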