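import Cfsg.Statements.S0097
import Cfsg.Agent.H26.ES2

set_option autoImplicit false
open Cfsg

namespace Cfsg.Agent.S0097


/-- For odd p and E extraspecial, the subgroup generated by the elements of order dividing p has exponent dividing p and index at most p. -/
theorem result {E : Type*} [Group E] [Finite E] {p : ℕ} [Fact p.Prime] (hp : p ≠ 2) (h : Cfsg.IsExtraspecial p E) : (Subgroup.closure {x : E | x ^ p = 1}).index ≤ p ∧ ∀ g ∈ Subgroup.closure {x : E | x ^ p = 1}, g ^ p = 1 := by
  obtain ⟨n, c, hc⟩ := H26.exists_ES_of_isExtraspecial h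
  have h1 : {x : E | x ^ p = 1} = c.up (LinearMap.ker (c.pwL hp)) := by
    ext x
    exact c.pow_eq_one_iff
  rw [h1, Subgroup.closure_eq]
  refine ⟨?_, fun g hg => c.pow_eq_one_iff.mpr hg⟩
  let f : E →* Multiplicative (ZMod p) := (c.pwL hp).toAddMonoidHom.toMultiplicative.comp c.πHom
  have h2 : c.up (LinearMap.ker (c.pwL hp)) = f.ker := rfl
  rw [h2, Subgroup.index_ker]
  refine (Subgroup.card_le_card_group _).trans_eq ?_
  exact Nat.card_zmod p

end Cfsg.Agent.S0097
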