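import Cfsg.Statements.S0098
import Cfsg.Agent.H26.ES2

set_option autoImplicit false
open Cfsg

namespace Cfsg.Agent.S0098


/-- For odd p, extraspecial p-groups of exponent p are determined up to isomorphism by their order. -/
theorem result {E₁ : Type*} {E₂ : Type*} [Group E₁] [Group E₂] [Finite E₁] [Finite E₂] {p : ℕ} [Fact p.Prime] (hp : p ≠ 2) (h₁ : Cfsg.IsExtraspecial p E₁) (h₂ : Cfsg.IsExtraspecial p E₂) (he₁ : Monoid.exponent E₁ = p) (he₂ : Monoid.exponent E₂ = p) (hc : Nat.card E₁ = Nat.card E₂) : Nonempty (E₁ ≃* E₂) := by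
  obtain ⟨n, c, hc₁⟩ := H26.exists_ES_of_isExtraspecial h₁
  obtain ⟨m, d, hd⟩ := H26.exists_ES_of_isExtraspecial h₂
  obtain ⟨f, hf⟩ := c.exists_isometry d hc₁ hd (by
    rw [c.card_eq_pow, d.card_eq_pow] at hc
    simpa using Nat.pow_right_injective (Fact.out : p.Prime).two_le hc)
  obtain ⟨e, -⟩ := c.exists_mulEquiv' d f hf fun v => by
    obtain ⟨x, rfl⟩ := c.surj v
    obtain ⟨y, hy⟩ := d.surj (f (c.π x))
    rw [← hy, d.pow_eq_one_iff.mp (he₂ ▸ Monoid.pow_exponent_eq_one y),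
      c.pow_eq_one_iff.mp (he₁ ▸ Monoid.pow_exponent_eq_one x)]
  exact ⟨e⟩

end Cfsg.Agent.S0098
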