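import Cfsg.Statements.S0099
import Cfsg.Agent.H26.ES2

set_option autoImplicit false
open Cfsg

namespace Cfsg.Agent.S0099


/-- Among three extraspecial 2-groups of equal order, some two are isomorphic. -/
theorem result {E₁ : Type*} {E₂ : Type*} {E₃ : Type*} [Group E₁] [Group E₂] [Group E₃] [Finite E₁] [Finite E₂] [Finite E₃] (h₁ : Cfsg.IsExtraspecial 2 E₁) (h₂ : Cfsg.IsExtraspecial 2 E₂) (h₃ : Cfsg.IsExtraspecial 2 E₃) (h12 : Nat.card E₁ = Nat.card E₂) (h23 : Nat.card E₂ = Nat.card E₃) : Nonempty (E₁ ≃* E₂) ∨ Nonempty (E₂ ≃* E₃) ∨ Nonempty (E₁ ≃* E₃) := by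
  obtain ⟨n₁, c₁, hc₁⟩ := H26.exists_ES_of_isExtraspecial h₁
  obtain ⟨n₂, c₂, hc₂⟩ := H26.exists_ES_of_isExtraspecial h₂
  obtain ⟨n₃, c₃, hc₃⟩ := H26.exists_ES_of_isExtraspecial h₃
  rw [c₁.card_eq_pow, c₂.card_eq_pow] at h12
  rw [c₂.card_eq_pow, c₃.card_eq_pow] at h23
  have e12 := Nat.succ_injective (Nat.pow_right_injective le_rfl h12)
  have e23 := Nat.succ_injective (Nat.pow_right_injective le_rfl h23)
  by_cases h : H13.IsPlus c₁.Q ↔ H13.IsPlus c₂.Q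
  · exact Or.inl (c₁.nonempty_mulEquiv_of_type c₂ hc₁ hc₂ e12 h)
  by_cases h' : H13.IsPlus c₂.Q ↔ H13.IsPlus c₃.Q
  · exact Or.inr (Or.inl (c₂.nonempty_mulEquiv_of_type c₃ hc₂ hc₃ e23 h'))
  exact Or.inr (Or.inr (c₁.nonempty_mulEquiv_of_type c₃ hc₁ hc₃ (e12.trans e23) (by tauto)))

end Cfsg.Agent.S0099
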