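import Cfsg.Statements.S0100
import Cfsg.Agent.H21.Top

set_option autoImplicit false
set_option linter.style.haveILetI false
open Cfsg

namespace Cfsg.Agent.S0100

open Cfsg.Agent.H20 Cfsg.Agent.H21 Cfsg.Agent.BG

/-- For odd p, a p-group without normal elementary abelian subgroups of order p^3 has p-rank at most 2. -/
theorem result {P : Type*} [Group P] [Finite P] {p : ℕ} [Fact p.Prime] (hp : p ≠ 2) (hP : IsPGroup p P) (h : ∀ A : Subgroup P, A.Normal → IsMulCommutative A → (∀ a ∈ A, a ^ p = 1) → Nat.card A ≠ p ^ 3) (E : Subgroup P) (hE : IsMulCommutative E) (hEe : ∀ e ∈ E, e ^ p = 1) : Nat.card E ≤ p ^ 2 := by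
  by_contra h1
  obtain ⟨k, hk⟩ := elem_exists_card (E := E) (p := p) ⟨hE, hEe⟩
  have h2 : 2 < k := by
    rw [hk, Nat.pow_le_pow_iff_right (Fact.out : p.Prime).one_lt] at h1
    omega
  have h3 : IsElem p k E ⊤ := ⟨le_top, ⟨hE, hEe⟩, hk⟩
  obtain ⟨A, hA, hn⟩ := p_rank_3_normal_abelem_Sylow (odd_top_of_pgroup hp hP) (h2.trans_le h3.le_pRank)
    (sylowOf_self (pgroup_top_iff.2 hP))
  exact h A hn.normal hA.comm (fun _ => hA.pow) hA.card

end Cfsg.Agent.S0100
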