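import Cfsg.Statements.S0104
import Cfsg.Agent.H3.Fusion

set_option autoImplicit false
open Cfsg

namespace Cfsg.Agent.S0104

open Cfsg.Agent.H3

open scoped Pointwise

/-- A subgroup Z of a Sylow p-subgroup P that is normalized by N_G(P) is weakly closed in P exactly when it is normal in every Sylow p-subgroup containing it. -/
theorem result {G : Type*} [Group G] [Finite G] {p : ℕ} [Fact p.Prime] (P : Sylow p G) (Z : Subgroup G) (hZP : Z ≤ (P : Subgroup G)) (hZN : Subgroup.normalizer (P : Set G) ≤ Subgroup.normalizer (Z : Set G)) : Cfsg.IsWeaklyClosed Z P ↔ ∀ R : Sylow p G, Z ≤ (R : Subgroup G) → (R : Subgroup G) ≤ Subgroup.normalizer (Z : Set G) := by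
  constructor
  · intro hW R hR x hx
    obtain ⟨g, rfl⟩ := MulAction.exists_smul_eq G P R
    rw [Sylow.coe_subgroup_smul] at hR hx
    have h1 : MulAut.conj g⁻¹ • Z = Z := hW.2 g⁻¹ (by
      rw [map_conj_eq_smul, ← conj_inv_smul_conj_smul (P : Subgroup G) g]
      exact conj_smul_mono _ hR)
    have h2 : g ∈ Subgroup.normalizer (Z : Set G) := by
      simpa using inv_mem (mem_normalizer_iff_conj_smul.mpr h1)
    have h3 := mul_mem (mul_mem h2 (hZN (Subgroup.le_normalizer (mem_conj_smul.mp hx))))
      (inv_mem h2)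
    simpa [mul_assoc] using h3
  · intro h
    refine ⟨hZP, fun g hg => ?_⟩
    rw [map_conj_eq_smul] at hg ⊢
    have h1 : Z ≤ ((g⁻¹ • P : Sylow p G) : Subgroup G) := by
      rw [Sylow.coe_subgroup_smul, ← conj_inv_smul_conj_smul Z g]
      exact conj_smul_mono _ hg
    obtain ⟨n, hn, h2⟩ := exists_mul_mem_normalizer P (h P hZP) (h _ h1)
    have h3 := mul_mem (inv_mem (hZN h2)) hn
    exact mem_normalizer_iff_conj_smul.mp (by simpa using h3)

end Cfsg.Agent.S0104
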