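import Cfsg.Statements.S0105
import Cfsg.Agent.H3.Misc1
import Cfsg.Agent.S0075

set_option autoImplicit false
open Cfsg

namespace Cfsg.Agent.S0105

open Cfsg.Agent.H3

/-- With an abelian Sylow p-subgroup P, some quotient of G is isomorphic to the part of P central in N_G(P). -/
theorem result {G : Type*} [Group G] [Finite G] {p : ℕ} [Fact p.Prime] (P : Sylow p G) (hP : IsMulCommutative P) : ∃ (N : Subgroup G) (hN : N.Normal), Nonempty (G ⧸ N ≃* ((P : Subgroup G) ⊓ Subgroup.centralizer (Subgroup.normalizer (P : Set G) : Set G) : Subgroup G)) := by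
  have h1 := S0075.result P hP
  obtain ⟨h2, h3⟩ := commutator_sup_inf_centralizer_of_hall hP Subgroup.le_normalizer le_rfl
    (sylowIn_of_le P Subgroup.le_normalizer).card_coprime_relIndex
  refine ⟨pResidual p G, inferInstance, ⟨(MulEquiv.ofBijective
    ((QuotientGroup.mk' (pResidual p G)).comp (Subgroup.subtype _)) ⟨?_, fun q => ?_⟩).symm⟩⟩
  · rw [injective_iff_map_eq_one]
    intro a ha
    have h4 : (a : G) ∈ pResidual p G := (QuotientGroup.eq_one_iff _).mp ha
    have h5 : (a : G) ∈ (⊥ : Subgroup G) := by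
      rw [← h3]
      refine ⟨a.2, ?_⟩
      erw [← h1]
      exact ⟨a.2.1, h4⟩
    exact Subtype.ext h5
  · obtain ⟨g, rfl⟩ := QuotientGroup.mk'_surjective _ q
    have h6 : g ∈ pResidual p G ⊔ ((P : Subgroup G) ⊓
        Subgroup.centralizer (Subgroup.normalizer (P : Set G) : Set G)) := by
      have h7 : (P : Subgroup G) ≤ pResidual p G ⊔ ((P : Subgroup G) ⊓
        Subgroup.centralizer (Subgroup.normalizer (P : Set G) : Set G)) :=
        h2.ge.trans (sup_le_sup_right (h1.ge.trans inf_le_right) _)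
      exact (sup_le le_sup_left h7) (pResidual_sup_sylow P ▸ trivial)
    obtain ⟨n, hn, y, hy, rfl⟩ := (H1.mem_sup_of_le_normalizer_left
      Subgroup.le_normalizer_of_normal).mp h6
    exact ⟨⟨y, hy⟩, by simp [(QuotientGroup.eq_one_iff n).mpr hn]⟩

end Cfsg.Agent.S0105
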