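import Cfsg.Statements.S0120
import Cfsg.Agent.BG.S01b
import Cfsg.Agent.H21.Hol

set_option autoImplicit false
open Cfsg

namespace Cfsg.Agent.S0120

open Cfsg.Agent.H20 Cfsg.Agent.H21 Cfsg.Agent.BG

/-- For odd p, a p'-automorphism of a p-group acting trivially on the elements of order dividing p is trivial. -/
theorem result {G : Type*} [Group G] [Finite G] {p : ℕ} [Fact p.Prime] (hp : p ≠ 2) (hG : IsPGroup p G) (a : MulAut G) (ha : Nat.Coprime (orderOf a) p) (h : ∀ x : G, x ^ p = 1 → a x = x) : a = 1 := by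
  haveI : Finite (MulAut G) := Finite.of_injective _ (MulEquiv.toEquiv_injective)
  let φ : MulAut G →* MulAut G := MonoidHom.id _
  have hP : IsPGroup p ((⊤ : Subgroup G).map (Hol.l φ)) := (pgroup_top_iff.2 hG).map _
  have key := coprime_odd_faithful_Ohm1 hP (Hol.le_norm_top (Subgroup.zpowers a))
    (coprime_of_isPGroup hP (by rwa [Hol.card_r, Nat.card_zpowers])) (odd_of_pgroup hp hP) (by
      rw [← H9.map_omegaOne (Hol.l_inj φ), cent_comm, Subgroup.map_le_iff_le_comap, H9.omegaOne_le_iff]
      intro x _ hx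
      rw [Subgroup.mem_comap, MonoidHom.map_zpowers, cent_zpowers, mem_cent1, Hol.comm_iff]
      exact h x hx)
  ext x
  exact Hol.le_cent_iff.1 key a (Subgroup.mem_zpowers a) x (Subgroup.mem_top x)

end Cfsg.Agent.S0120
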