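import Cfsg.Statements.S0123
import Cfsg.Agent.H21.Top

set_option autoImplicit false
set_option linter.style.haveILetI false
open Cfsg

namespace Cfsg.Agent.S0123

open Cfsg.Agent.H20 Cfsg.Agent.H21 Cfsg.Agent.BG

/-- For a p-group of small class relative to p (class ≤ 2 with p odd, or class ≤ 3 with p > 3) whose derived subgroup is generated by elements of order dividing p, the p-th power map is multiplicative. -/
theorem result {R : Type*} [Group R] [Finite R] {p : ℕ} [Fact p.Prime] (hR : IsPGroup p R) (hcl : (p ≠ 2 ∧ ⁅commutator R, (⊤ : Subgroup R)⁆ = ⊥) ∨ (3 < p ∧ ⁅⁅commutator R, (⊤ : Subgroup R)⁆, (⊤ : Subgroup R)⁆ = ⊥)) (hder : commutator R ≤ Subgroup.closure {x : R | x ^ p = 1}) (x y : R) : (x * y) ^ p = x ^ p * y ^ p := by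
  have hR' := pgroup_top_iff.2 hR
  have hodd := odd_top_of_pgroup (hcl.elim And.left fun h => by omega) hR
  obtain ⟨h1, h2⟩ := exponent_odd_nil23 hR' hodd
    (hcl.imp (fun h => commg_eq_bot.1 h.2) fun h => ⟨h.1, commg_eq_bot.1 h.2⟩)
  rw [omegaOne_top_eq] at h1
  exact h2 (h1.of_le hder) x trivial y trivial

end Cfsg.Agent.S0123
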