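import Cfsg.Statements.S0125
import Cfsg.Agent.H3.Misc1

set_option autoImplicit false
open Cfsg

namespace Cfsg.Agent.S0125

open Cfsg.Agent.H3

/-- The centralizer of a self-centralizing normal subgroup A of a Sylow p-subgroup is the direct product of A with a normal p'-subgroup. -/
theorem result {G : Type*} [Group G] [Finite G] {p : ℕ} [Fact p.Prime] (R : Sylow p G) (A : Subgroup G) (hAR : A ≤ (R : Subgroup G)) (hAn : (R : Subgroup G) ≤ Subgroup.normalizer (A : Set G)) (hC : (R : Subgroup G) ⊓ Subgroup.centralizer (A : Set G) = A) : ∃ H : Subgroup G, H ≤ Subgroup.centralizer (A : Set G) ∧ Nat.Coprime (Nat.card H) p ∧ Subgroup.centralizer (A : Set G) ≤ Subgroup.normalizer (H : Set G) ∧ H ⊓ A = ⊥ ∧ H ⊔ A = Subgroup.centralizer (A : Set G) := by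
  have h1 := sylowIn_inf_centralizer R hAR hAn hC.le
  have h2 : A ⊓ Subgroup.centralizer (A : Set G) = A := inf_eq_left.mpr (hC.ge.trans inf_le_right)
  rw [h2] at h1
  obtain ⟨K, h3, h4, h5, h6, h7, -⟩ :=
    h1.exists_complement (hasNormalPComplement_centralizer R hAR hAn hC.le)
  exact ⟨K, h3, h4, Subgroup.le_normalizer.trans h5, h6, h7⟩

end Cfsg.Agent.S0125
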