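import Cfsg.Statements.S0129
import Cfsg.Agent.H3.PGroup1

set_option autoImplicit false
open Cfsg

namespace Cfsg.Agent.S0129

open Cfsg.Agent.H3

/-- The order of a p-group is bounded by p^(a(a+1)/2) when it has a maximal normal abelian subgroup of order p^a. -/
theorem result {G : Type*} [Group G] [Finite G] {p : ℕ} [Fact p.Prime] (hG : IsPGroup p G) (A : Subgroup G) [A.Normal] (hA : IsMulCommutative A) (hmax : ∀ B : Subgroup G, B.Normal → IsMulCommutative B → A ≤ B → B = A) (a : ℕ) (ha : Nat.card A = p ^ a) : Nat.card G ≤ p ^ (a * (a + 1) / 2) := by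
  have h1 := index_centralizer_le hG a A ha
  have h2 : A.index ≤ (Subgroup.centralizer (A : Set G)).index :=
    Nat.le_of_dvd (Nat.pos_of_ne_zero Subgroup.index_ne_zero_of_finite)
      (Subgroup.index_dvd_of_le (centralizer_le_of_maximal_abelian hG A hA hmax))
  rw [← A.card_mul_index, ha, show a * (a + 1) / 2 = a + a.choose 2 by
    rw [← Nat.add_sub_cancel (n := a) (m := 1), Nat.add_sub_cancel, mul_comm,
      show (a + 1) * a / 2 = (a + 1).choose 2 by rw [Nat.choose_two_right]; rfl,
      Nat.choose_succ_succ', Nat.choose_one_right], pow_add]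
  exact Nat.mul_le_mul_left _ (h2.trans h1)

end Cfsg.Agent.S0129
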