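import Cfsg.Statements.S0131
import Cfsg.Agent.H3.Fusion

set_option autoImplicit false
open Cfsg

namespace Cfsg.Agent.S0131

open Cfsg.Agent.H3

/-- P/P' has a normal complement in G exactly when the focal subgroup G' ∩ P is as small as possible, namely P'. -/
theorem result {G : Type*} [Group G] [Finite G] {p : ℕ} [Fact p.Prime] (P : Sylow p G) : (∃ N : Subgroup G, N.Normal ∧ N ⊓ (P : Subgroup G) = ⁅(P : Subgroup G), (P : Subgroup G)⁆ ∧ N ⊔ (P : Subgroup G) = ⊤) ↔ commutator G ⊓ (P : Subgroup G) = ⁅(P : Subgroup G), (P : Subgroup G)⁆ := by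
  constructor
  · rintro ⟨N, hN, h1, h2⟩
    refine le_antisymm ?_ (le_inf (Subgroup.commutator_mono le_top le_top)
      (Subgroup.commutator_le_self _))
    rw [← h1]
    refine inf_le_inf_right _ ?_
    have h3 : (P : Subgroup G).map (QuotientGroup.mk' N) = (⊤ : Subgroup G).map (QuotientGroup.mk' N) := by
      rw [← h2, Subgroup.map_sup, (Subgroup.map_eq_bot_iff _).mpr (QuotientGroup.ker_mk' _).ge,
        bot_sup_eq]
    rw [← QuotientGroup.ker_mk' N, ← Subgroup.map_eq_bot_iff, commutator_def,
      Subgroup.map_commutator, ← h3, ← Subgroup.map_commutator, ← h1, Subgroup.map_eq_bot_iff,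
      QuotientGroup.ker_mk']
    exact inf_le_left
  · intro h
    refine ⟨(P : Subgroup G).transferFocal.ker, inferInstance, ?_, ?_⟩
    · rw [Subgroup.ker_transferFocal_inf_eq_focalSubgroup,
        ← Subgroup.commutator_inf_eq_focalSubgroup, h]
    · apply (ker_transferFocal_inf_of_coprime _ _).2
      exact Nat.Coprime.coprime_dvd_right (Subgroup.relIndex_dvd_card _ _) P.card_coprime_index.symm

end Cfsg.Agent.S0131
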