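import Cfsg.Statements.S0132
import Cfsg.Agent.H3.Misc2

set_option autoImplicit false
open Cfsg

namespace Cfsg.Agent.S0132

open Cfsg.Agent.H3

/-- A minimal non-p-nilpotent finite group is a minimal non-nilpotent group with a normal Sylow p-subgroup. -/
theorem result {G : Type*} [Group G] [Finite G] {p : ℕ} [Fact p.Prime] (h1 : ¬ Cfsg.HasNormalPComplement p G) (h2 : ∀ H : Subgroup G, H ≠ ⊤ → Cfsg.HasNormalPComplement p H) : (∀ H : Subgroup G, H ≠ ⊤ → Group.IsNilpotent H) ∧ ¬ Group.IsNilpotent G ∧ ∀ P : Sylow p G, (P : Subgroup G).Normal := by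
  obtain ⟨B, A, q, h3, h4, h5, h6, -, hm, hn, h8⟩ := exists_of_minimal_not_hasNormalPComplement h1 h2
  have := Fact.mk h3
  have h9 := isPGroup_quotient_of_sup_eq_top h6 h8
  have h10 : ∀ Q : Subgroup G, IsPGroup p Q → Q ≤ B := fun Q hQ x hx => by
    obtain ⟨k, hk⟩ := hQ ⟨x, hx⟩
    obtain ⟨j, hj⟩ := h9 (x : G ⧸ B)
    refine mem_of_pow_mem_of_coprime (m := p ^ k) (n := q ^ j)
      (Nat.coprime_pow_primes _ _ Fact.out h3 h4.symm) ?_ ((QuotientGroup.eq_one_iff _).mp hj)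
    rw [show x ^ p ^ k = 1 from congrArg Subtype.val hk]
    exact one_mem _
  refine ⟨fun H hH => ?_, fun h => h1 hasNormalPComplement_of_isNilpotent, fun P => ?_⟩
  · obtain ⟨Q⟩ : Nonempty (Sylow p H) := inferInstance
    refine isNilpotent_of_normal_of_sup_eq_top (N := pResidual p H) (K := B.subgroupOf H)
      (IsPGroup.isNilpotent (p := q) fun x => ?_) hm.isPGroup.comap_subtype.isNilpotent ?_
    · obtain ⟨j, hj⟩ := h9 ((x : H) : G)
      obtain ⟨k, hk⟩ := hm.isPGroup ⟨_, (QuotientGroup.eq_one_iff _).mp hj⟩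
      have h11 := (mem_pResidual_iff (h2 H hH)).mp (x ^ q ^ j).2
      refine ⟨j, Subtype.ext (orderOf_eq_one_iff.mp (Nat.eq_one_of_dvd_coprimes (h11.pow_right k)
        dvd_rfl (orderOf_dvd_of_pow_eq_one (Subtype.ext (congrArg Subtype.val hk :)))))⟩
    · rw [eq_top_iff, ← pResidual_sup_sylow Q]
      exact sup_le_sup_left (Subgroup.map_le_iff_le_comap.mp (h10 _ (Q.2.map _))) _
  · rwa [← P.3 hm.isPGroup (h10 P P.2)]

end Cfsg.Agent.S0132
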