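import Cfsg.Statements.S0138
import Cfsg.Agent.H4.Rep1

set_option autoImplicit false
open Cfsg

namespace Cfsg.Agent.S0138

open Cfsg.Agent.H4


/-- A character value has absolute value equal to the degree exactly when the group element acts by a scalar. -/
theorem result {G : Type*} [Group G] [Finite G] {V : Type*} [AddCommGroup V] [Module ℂ V] [FiniteDimensional ℂ V] (ρ : Representation ℂ G V) (g : G) : ‖ρ.character g‖ = (Module.finrank ℂ V : ℝ) ↔ ∃ ω : ℂ, ρ g = ω • (LinearMap.id : V →ₗ[ℂ] V) := by
  exact rep_norm_character_eq_iff ρ g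

end Cfsg.Agent.S0138
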