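import Cfsg.Statements.S0155
import Cfsg.Agent.H4.Char2

set_option autoImplicit false
open Cfsg

namespace Cfsg.Agent.S0155

open Cfsg.Agent.H4


/-- The character of the left regular representation of a finite group takes the value |G| at the identity and 0 at every other element. -/
theorem result {G : Type*} [Group G] [Fintype G] [DecidableEq G] (g : G) : (Representation.leftRegular ℂ G).character g = if g = 1 then (Nat.card G : ℂ) else 0 := by
  rw [character_leftRegular, regChar_apply]

end Cfsg.Agent.S0155
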