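import Cfsg.Statements.S0160
import Cfsg.Agent.H4.Char2

set_option autoImplicit false
open Cfsg

namespace Cfsg.Agent.S0160

open Cfsg.Agent.H4


/-- A finite group has as many real-valued irreducible complex characters as conjugacy classes closed under taking inverses. -/
theorem result {G : Type*} [Group G] [Finite G] : Nat.card {χ : Cfsg.IrrCharacter G // ∀ g : G, ((χ : G → ℂ) g).im = 0} = Nat.card {C : ConjClasses G // ∀ g : G, ConjClasses.mk g = C → IsConj g g⁻¹} := by
  rw [← brauer_permutation (G := G) (fun χ => ⟨_, χ.2.conj⟩) (fun g => g⁻¹)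
    (fun χ g => (χ.2.isCharacter.apply_inv g).symm)
    (fun C => ∀ g : G, ConjClasses.mk g = C → IsConj g g⁻¹)]
  · refine Nat.card_congr (Equiv.subtypeEquivRight fun χ => ?_)
    rw [Subtype.ext_iff, funext_iff]
    exact forall_congr' fun g => Complex.conj_eq_iff_im.symm
  · intro g
    refine ⟨fun h => (h g rfl).symm, fun h x hx => ?_⟩
    obtain ⟨c, rfl⟩ := isConj_iff.mp (ConjClasses.mk_eq_mk_iff_isConj.mp hx).symm
    obtain ⟨d, hd⟩ := isConj_iff.mp h.symm
    exact isConj_iff.mpr ⟨c * d * c⁻¹, by rw [conj_inv (a := g), ← hd]; group⟩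

end Cfsg.Agent.S0160
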