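import Cfsg.Statements.S0162
import Cfsg.Agent.H4.Char4

set_option autoImplicit false
open Cfsg

namespace Cfsg.Agent.S0162

open Cfsg.Agent.H4


/-- If a finite group has odd order, its order is congruent to its number of conjugacy classes modulo 16. -/
theorem result {G : Type*} [Group G] [Finite G] (hodd : Odd (Nat.card G)) : Nat.card G ≡ Nat.card (ConjClasses G) [MOD 16] := by
  classical
  choose d hd0 hd using fun χ : IrrCharacter G => χ.2.exists_degree
  have hodd' : ∀ χ, Odd (d χ) := fun χ => χ.2.odd_degree hodd (hd χ)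
  have h8 : ∀ χ, ∃ k, d χ ^ 2 = 8 * k + 1 := fun χ => by
    obtain ⟨m, hm⟩ := hodd' χ
    obtain ⟨k, hk⟩ := Nat.even_mul_succ_self m
    exact ⟨k, by rw [hm]; nlinarith⟩
  choose k hk using h8
  have h1 := sum_irr_degree_sq (G := G)
  simp only [hd] at h1
  have h2 : ∑ χ, d χ ^ 2 = Nat.card G := by exact_mod_cast h1
  simp only [hk, Finset.sum_add_distrib, ← Finset.mul_sum, Finset.sum_const, Finset.card_univ,
    smul_eq_mul, mul_one, Fintype.card_eq_nat_card, card_irr_eq_card_conjClasses] at h2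
  have h3 : ((∑ χ, k χ : ℕ) : ZMod 2) = 0 := by
    rw [Nat.cast_sum]
    have hk' : ∀ χ : IrrCharacter G, k ⟨_, χ.2.conj⟩ = k χ := fun χ => by
      have h4 := hd ⟨_, χ.2.conj⟩
      simp only [hd χ, map_natCast, Nat.cast_inj] at h4
      have h5 := hk ⟨_, χ.2.conj⟩
      rw [← h4, hk χ] at h5
      omega
    refine Finset.sum_involution (fun χ _ => ⟨_, χ.2.conj⟩) (fun χ _ => ?_) (fun χ _ h0 h => h0 ?_)
      (fun _ _ => Finset.mem_univ _) (fun χ _ => by ext; simp)
    · rw [hk', CharTwo.add_self_eq_zero]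
    · have h4 := χ.2.eq_one_of_real_of_odd hodd
        (eq_conj_iff_forall_im.mp (congrArg Subtype.val h).symm)
      have h5 := hd χ
      rw [h4] at h5
      have h6 : d χ = 1 := by exact_mod_cast (show (1 : ℂ) = d χ from h5).symm
      have h7 := hk χ
      rw [h6] at h7
      rw [show k χ = 0 by omega, Nat.cast_zero]
  obtain ⟨m, hm⟩ := (ZMod.natCast_eq_zero_iff _ _).mp h3
  rw [← h2, hm]
  unfold Nat.ModEq
  omega

end Cfsg.Agent.S0162
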