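import Cfsg.Statements.S0166
import Cfsg.Agent.H5.Split

set_option autoImplicit false
open Cfsg Cfsg.Agent.H4 Cfsg.Agent.H5

namespace Cfsg.Agent.S0166

/-- Brauer's splitting field Theorem: a complex representation of a finite group of exponent m is equivalent to a representation by matrices with entries in ℚ adjoined exp(2πi/m). -/
theorem result {G : Type*} [Group G] [Finite G] (n : ℕ) (ρ : Representation ℂ G (Fin n → ℂ)) : ∃ σ : Representation ℂ G (Fin n → ℂ), Nonempty (ρ.Equiv σ) ∧ ∀ g : G, ∀ i j : Fin n, LinearMap.toMatrix' (σ g) i j ∈ Algebra.adjoin ℚ ({Complex.exp (2 * Real.pi * Complex.I / (Monoid.exponent G : ℂ))} : Set ℂ) := by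
  have he : Monoid.exponent G ≠ 0 := Monoid.exponent_ne_zero_of_finite
  have hζ := Complex.isPrimitiveRoot_exp _ he
  set ζ := Complex.exp (2 * Real.pi * Complex.I / (Monoid.exponent G : ℂ))
  have hint : IsIntegral ℚ ζ := (hζ.isIntegral (Nat.pos_of_ne_zero he)).tower_top
  let F := (IntermediateField.adjoin ℚ ({ζ} : Set ℂ)).toSubfield
  have hF : ∀ z : ℂ, z ∈ F → z ∈ Algebra.adjoin ℚ ({ζ} : Set ℂ) := fun z hz => by
    rw [← IntermediateField.adjoin_simple_toSubalgebra_of_isAlgebraic hint.isAlgebraic]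
    exact hz
  obtain ⟨m, M, hM⟩ := realizable_of_roots (F := F) (fun z hz => by
    have : NeZero (Monoid.exponent G) := ⟨he⟩
    obtain ⟨i, -, rfl⟩ := hζ.eq_pow_of_pow_eq_one hz
    exact F.pow_mem (IntermediateField.mem_adjoin_simple_self ℚ ζ) i) (isCharacter_character ρ)
  have hmn : m = n := by
    have := hM 1
    rw [ρ.char_one, map_one, Matrix.trace_one] at this
    simpa using this.symm
  subst hmn
  refine ⟨repOfMatrix (F.subtype.mapMatrix.toMonoidHom.comp M),
    nonempty_equiv_of_character_eq _ _ (funext fun g => ?_), fun g i j => ?_⟩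
  · rw [repOfMatrix_character, hM]; exact (coe_trace _).symm
  · rw [repOfMatrix_apply, LinearMap.toMatrix'_toLin']
    exact hF _ (M g i j).2

end Cfsg.Agent.S0166
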