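import Cfsg.Statements.S0168
import Cfsg.Agent.H4.Char4

set_option autoImplicit false
open Cfsg

namespace Cfsg.Agent.S0168

open Cfsg.Agent.H4


/-- The Burnside–Brauer Theorem. Let χ be the character of a faithful complex representation of a finite group, taking m distinct values. Then every irreducible character has nonzero inner product with χ ^ i for some i < m. -/
theorem result {G : Type*} [Group G] [Fintype G] {V : Type*} [AddCommGroup V] [Module ℂ V] [FiniteDimensional ℂ V] (ρ : Representation ℂ G V) (hfaithful : Function.Injective ρ) (ψ : G → ℂ) (hψ : Cfsg.IsIrrCharacter G ψ) : ∃ i : ℕ, i < Nat.card (Set.range ρ.character) ∧ Cfsg.classInner (fun g => ρ.character g ^ i) ψ ≠ 0 := by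
  classical
  by_contra hcon
  push Not at hcon
  have hfin : (Set.range ρ.character).Finite := Set.finite_range _
  let S := hfin.toFinset.erase (ρ.character 1)
  let p : Polynomial ℂ := ∏ a ∈ S, (Polynomial.X - Polynomial.C a)
  have hdeg : p.natDegree < Nat.card (Set.range ρ.character) := by
    rw [Polynomial.natDegree_finsetProd_X_sub_C_eq_card, Nat.card_coe_set_eq,
      Set.ncard_eq_toFinset_card _ hfin]
    exact Finset.card_erase_lt_of_mem (hfin.mem_toFinset.mpr ⟨1, rfl⟩)
  have h1 : classInner (fun g => p.eval (ρ.character g)) ψ = 0 := by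
    have : (fun g => p.eval (ρ.character g)) = ∑ i ∈ Finset.range (p.natDegree + 1),
        p.coeff i • fun g => ρ.character g ^ i := by
      ext g
      rw [Polynomial.eval_eq_sum_range]; simp [Finset.sum_apply]
    rw [this, classInner_sum_left]
    refine Finset.sum_eq_zero fun i hi => ?_
    rw [classInner_smul_left, hcon i (by have := Finset.mem_range.mp hi; omega), mul_zero]
  rw [classInner_def, Finset.sum_eq_single 1] at h1
  · simp only [mul_eq_zero, inv_eq_zero, natCard_ne_zero', false_or, map_eq_zero,
      hψ.apply_one_ne_zero, or_false, p, Polynomial.eval_prod, Finset.prod_eq_zero_iff,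
      Polynomial.eval_sub, Polynomial.eval_X, Polynomial.eval_C] at h1
    obtain ⟨a, ha, h⟩ := h1
    exact (Finset.mem_erase.mp ha).1 (sub_eq_zero.mp h).symm
  · intro g _ hg
    have : ρ.character g ∈ S := Finset.mem_erase.mpr ⟨fun h => hg (hfaithful (by
      rw [ρ.char_one, rep_character_eq_finrank_iff] at h
      rw [h, map_one]; rfl)), by simp⟩
    rw [Polynomial.eval_prod, Finset.prod_eq_zero this (by simp), zero_mul]
  · simp

end Cfsg.Agent.S0168
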