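import Cfsg.Statements.S0171
import Cfsg.Agent.H5.Exc

set_option autoImplicit false
open Cfsg Cfsg.Agent.H4 Cfsg.Agent.H5

namespace Cfsg.Agent.S0171

/-- Let G = K H with K normal, K ⊓ H trivial, and no non-identity element of H commuting with a non-identity element of K (a Frobenius group with kernel K and complement H). Then every non-principal irreducible character of K induces to an irreducible character of G. -/
theorem result {G : Type*} [Group G] [Fintype G] (K H : Subgroup G) [K.Normal] (hKH : K ⊓ H = ⊥) (hKH' : K ⊔ H = ⊤) (hfpf : ∀ h ∈ H, h ≠ 1 → ∀ k ∈ K, h * k = k * h → k = 1) (τ : K → ℂ) (hτ : Cfsg.IsIrrCharacter K τ) (hτ1 : τ ≠ fun _ => 1) : Cfsg.IsIrrCharacter G (Cfsg.indFun K τ) := by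
  have := Fintype.ofFinite K
  rw [← NEmb.indHom_ofNormal]
  refine (NEmb.ofNormal K).isIrr_indHom_of_frobenius (fun g n hn h => ?_) hτ hτ1
  rw [NEmb.ofNormal_range]
  exact mem_of_commute_of_fpf K H hKH' hfpf n.2 (fun h => hn (Subtype.ext h))
    (mul_inv_eq_iff_eq_mul.1 (congrArg Subtype.val h))

end Cfsg.Agent.S0171
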