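import Cfsg.Statements.S0172
import Cfsg.Agent.H5.Exc

set_option autoImplicit false
open Cfsg Cfsg.Agent.H4 Cfsg.Agent.H5

namespace Cfsg.Agent.S0172

theorem sum_card_centralizer (G : Type*) [Group G] [Fintype G] :
    ∑ g : G, Nat.card (Subgroup.centralizer ({g} : Set G)) =
      Nat.card G * Nat.card (ConjClasses G) := by
  have := Fintype.ofFinite (ConjClasses G)
  have h := sum_mul_card_centralizer (G := G) (R := ℕ) (fun _ => 1)
  rw [Finset.sum_const, Finset.card_univ, smul_eq_mul, mul_one, ← Nat.card_eq_fintype_card] at h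
  simpa only [one_mul, Nat.cast_id] using h

theorem card_centralizer_of_le {G : Type*} [Group G] (K : Subgroup G) (k : K)
    (h : Subgroup.centralizer ({(k : G)} : Set G) ≤ K) :
    Nat.card (Subgroup.centralizer ({(k : G)} : Set G)) =
      Nat.card (Subgroup.centralizer ({k} : Set K)) := by
  rw [← Nat.card_congr (Subgroup.subgroupOfEquivOfLe h).toEquiv]
  have : (Subgroup.centralizer ({(k : G)} : Set G)).subgroupOf K =
      Subgroup.centralizer ({k} : Set K) := by
    ext x
    rw [Subgroup.mem_subgroupOf, Subgroup.mem_centralizer_singleton_iff,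
      Subgroup.mem_centralizer_singleton_iff, Subtype.ext_iff]
    rfl
  rw [this]

/-- Class number of a Frobenius group: if G = K H with K normal, K ⊓ H trivial and no non-identity element of H commuting with a non-identity element of K, then |H| * k(G) + 1 = |H| * k(H) + k(K), where k denotes the number of conjugacy classes. -/
theorem result {G : Type*} [Group G] [Finite G] (K H : Subgroup G) [K.Normal] (hKH : K ⊓ H = ⊥) (hKH' : K ⊔ H = ⊤) (hfpf : ∀ h ∈ H, h ≠ 1 → ∀ k ∈ K, h * k = k * h → k = 1) : Nat.card H * Nat.card (ConjClasses G) + 1 = Nat.card H * Nat.card (ConjClasses H) + Nat.card (ConjClasses K) := by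
  classical
  have := Fintype.ofFinite G
  have hc : K.IsComplement' H :=
    Subgroup.isComplement'_of_disjoint_and_mul_eq_univ (disjoint_iff.2 hKH) (by
      rw [← Subgroup.normal_mul, hKH']; rfl)
  have hcard := hc.card_mul_card
  have h1 := sum_card_centralizer G
  have h2 := sum_card_centralizer K
  have h3 := sum_card_centralizer H
  rw [← (Equiv.ofBijective _ hc).sum_comp, Fintype.sum_prod_type_right] at h1
  change ∑ h : H, ∑ k : K, Nat.card (Subgroup.centralizer ({(k : G) * (h : G)} : Set G)) = _ at h1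
  rw [← Finset.add_sum_erase _ _ (Finset.mem_univ (1 : H))] at h1 h3
  rw [← Finset.add_sum_erase _ _ (Finset.mem_univ (1 : K))] at h1 h2
  have e1 : ∀ (G : Type _) [Group G], Nat.card (Subgroup.centralizer ({1} : Set G)) = Nat.card G := by
    intro G _
    rw [show Subgroup.centralizer ({1} : Set G) = ⊤ from by
      rw [eq_top_iff]; intro x _; simp [Subgroup.mem_centralizer_iff], Subgroup.card_top]
  have e2 : ∑ k ∈ Finset.univ.erase (1 : K),
      Nat.card (Subgroup.centralizer ({(k : G) * ((1 : H) : G)} : Set G)) =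
      ∑ k ∈ Finset.univ.erase (1 : K), Nat.card (Subgroup.centralizer ({k} : Set K)) := by
    refine Finset.sum_congr rfl fun k hk => ?_
    rw [OneMemClass.coe_one, mul_one]
    refine card_centralizer_of_le K k fun g hg => ?_
    exact mem_of_commute_of_fpf K H hKH' hfpf k.2
      (fun h => Finset.ne_of_mem_erase hk (Subtype.ext h)) (hg _ rfl).symm
  have e3 : ∑ h ∈ Finset.univ.erase (1 : H), ∑ k : K,
      Nat.card (Subgroup.centralizer ({(k : G) * (h : G)} : Set G)) =
      Nat.card K * ∑ h ∈ Finset.univ.erase (1 : H),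
        Nat.card (Subgroup.centralizer ({h} : Set H)) := by
    rw [Finset.mul_sum]
    refine Finset.sum_congr rfl fun h hh => ?_
    have hh1 : (h : G) ≠ 1 := fun e => Finset.ne_of_mem_erase hh (Subtype.ext e)
    rw [← card_centralizer_of_le H h, Nat.card_eq_fintype_card (α := K), ← smul_eq_mul,
      ← Finset.card_univ, ← Finset.sum_const]
    · refine Finset.sum_congr rfl fun k _ => ?_
      obtain ⟨y, -, e⟩ := exists_conj_of_fpf K (hfpf h h.2 hh1) k.2
      exact card_centralizer_of_isConj (isConj_iff.2 ⟨y, by rw [e]; group⟩)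
    · intro g hg
      obtain ⟨⟨a, b⟩, rfl⟩ := hc.2 g
      have e : (h : G) * (a * b) = a * b * h := hg _ rfl
      have hb : ((b * h * b⁻¹ * h⁻¹ : H) : G) ∈ K ⊓ H := by
        refine ⟨?_, (b * h * b⁻¹ * h⁻¹ : H).2⟩
        have : ((b * h * b⁻¹ * h⁻¹ : H) : G) = (a : G)⁻¹ * (h * a * (h : G)⁻¹) := by
          push_cast
          calc (b : G) * h * (b : G)⁻¹ * (h : G)⁻¹ = (a : G)⁻¹ * (a * b * h) * (b : G)⁻¹ * (h : G)⁻¹ := by group
            _ = _ := by rw [← e]; group
        rw [this]
        exact K.mul_mem (K.inv_mem a.2) (Subgroup.Normal.conj_mem inferInstance _ a.2 _)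
      rw [hKH, Subgroup.mem_bot] at hb
      push_cast at hb
      have ha : (a : G) = 1 := hfpf h h.2 hh1 a a.2 (by
        calc (h : G) * a = h * (a * b) * (b : G)⁻¹ := by group
          _ = a * (b * h * (b : G)⁻¹ * (h : G)⁻¹) * h := by rw [e]; group
          _ = a * h := by rw [hb, mul_one])
      simpa [ha] using b.2
  rw [e2, e3, OneMemClass.coe_one, OneMemClass.coe_one, mul_one, e1, ← hcard] at h1
  rw [e1] at h2 h3
  have hK : 0 < Nat.card K := Nat.card_pos
  refine Nat.eq_of_mul_eq_mul_left hK ?_
  nlinarith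

end Cfsg.Agent.S0172
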