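import Cfsg.Statements.S0181
import Cfsg.Agent.H4.Char3

set_option autoImplicit false
open Cfsg

namespace Cfsg.Agent.S0181

open Cfsg.Agent.H4


/-- Let H be a normal subgroup of a finite group G and ρ an irreducible complex representation whose kernel does not contain H. If g commutes with no non-identity element of H, then the character of ρ vanishes at g. -/
theorem result {G : Type*} [Group G] [Finite G] {V : Type*} [AddCommGroup V] [Module ℂ V] [FiniteDimensional ℂ V] (ρ : Representation ℂ G V) [ρ.IsIrreducible] (H : Subgroup G) [H.Normal] (hker : ∃ h ∈ H, ρ h ≠ LinearMap.id) (g : G) (hg : ∀ h ∈ H, h * g = g * h → h = 1) : ρ.character g = 0 := by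
  classical
  have := Fintype.ofFinite G
  have hχ := isIrrCharacter_character ρ
  have hN : ¬ H ≤ charKer ρ.character := by
    obtain ⟨h, hh, hne⟩ := hker
    rw [charKer_character]
    exact fun hle => hne (hle hh)
  have h1 := hχ.sum_normal_mul_eq_zero H hN g
  let f : H → H := fun h => ⟨h * (g * (h : G)⁻¹ * g⁻¹),
    H.mul_mem h.2 (‹H.Normal›.conj_mem _ (H.inv_mem h.2) g)⟩
  have hf : Function.Injective f := fun a b hab => by
    have h2 : (a : G) * (g * (a : G)⁻¹ * g⁻¹) = b * (g * (b : G)⁻¹ * g⁻¹) := congrArg Subtype.val hab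
    have h3 := hg ((b : G)⁻¹ * a) (H.mul_mem (H.inv_mem b.2) a.2) (by
      calc (b : G)⁻¹ * a * g = (b : G)⁻¹ * (a * (g * (a : G)⁻¹ * g⁻¹)) * g * a := by group
        _ = g * ((b : G)⁻¹ * a) := by rw [h2]; group)
    exact Subtype.ext (inv_mul_eq_one.mp h3).symm
  rw [← (Finite.injective_iff_bijective.mp hf).sum_comp] at h1
  have h4 : ∀ h : H, ρ.character (f h * g) = ρ.character g := fun h => by
    rw [← ρ.char_conj g h]; congr 1; simp only [f]; group
  simp only [h4, Finset.sum_const, Finset.card_univ, nsmul_eq_mul, Fintype.card_eq_nat_card] at h1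
  exact (mul_eq_zero.mp h1).resolve_left natCard_ne_zero'

end Cfsg.Agent.S0181
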