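import Cfsg.Statements.S0184
import Cfsg.Agent.H4.Char4
import Cfsg.Agent.H2.Basic

set_option autoImplicit false
open Cfsg

namespace Cfsg.Agent.S0184

open Cfsg.Agent.H4


/-- A finite p-group admits a faithful irreducible complex representation if and only if its centre is cyclic. -/
theorem result {G : Type*} [Group G] [Finite G] (p : ℕ) [Fact p.Prime] (hG : IsPGroup p G) : (∃ (n : ℕ) (ρ : Representation ℂ G (Fin n → ℂ)), ρ.IsIrreducible ∧ Function.Injective ρ) ↔ IsCyclic (Subgroup.center G) := by
  constructor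
  · rintro ⟨n, ρ, hρ, hinj⟩
    exact (isIrrCharacter_character ρ).isCyclic_center
      (by rw [charKer_character, MonoidHom.ker_eq_bot_iff]; exact hinj)
  · intro hZ
    suffices ∃ χ : G → ℂ, IsIrrCharacter G χ ∧ charKer χ = ⊥ by
      obtain ⟨χ, ⟨n, ρ, hρ, rfl⟩, h⟩ := this
      exact ⟨n, ρ, hρ, by rwa [charKer_character, MonoidHom.ker_eq_bot_iff] at h⟩
    rcases subsingleton_or_nontrivial G with h1 | h1
    · exact ⟨_, isIrrCharacter_one, Subsingleton.elim _ _⟩
    have hp : p.Prime := Fact.out
    have key : ∀ N : Subgroup G, N.Normal → N ≠ ⊥ →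
        ∃ z : Subgroup.center G, orderOf z = p ∧ (z : G) ∈ N := by
      intro N hN hN1
      have h2 : N ⊓ Subgroup.center G ≠ ⊥ := by
        have := hG.isNilpotent
        exact H2.inf_center_ne_bot N hN1
      have h3 : Nontrivial ↥(N ⊓ Subgroup.center G) := (Subgroup.nontrivial_iff_ne_bot _).mpr h2
      obtain ⟨n, hn0, hn⟩ := (hG.to_subgroup (N ⊓ Subgroup.center G)).nontrivial_iff_card.mp h3
      obtain ⟨z, hz⟩ := exists_prime_orderOf_dvd_card' (G := ↥(N ⊓ Subgroup.center G)) p
        (hn ▸ dvd_pow_self p hn0.ne')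
      refine ⟨⟨z, z.2.2⟩, ?_, z.2.1⟩
      rw [← hz, ← Subgroup.orderOf_coe, ← Subgroup.orderOf_coe]
    obtain ⟨z, hz, -⟩ := key ⊤ inferInstance top_ne_bot
    have hz1 : (z : G) ≠ 1 := fun h => by
      rw [show z = 1 from Subtype.ext h, orderOf_one] at hz
      exact hp.one_lt.ne hz
    obtain ⟨χ, hχ, h⟩ := exists_irr_apply_ne hz1
    refine ⟨χ, hχ, by_contra fun hk => h ?_⟩
    obtain ⟨w, hw, hwk⟩ := key _ hχ.isCharacter.charKer_normal hk
    have h5 : z ∈ Subgroup.zpowers w := by
      classical
      have := Fintype.ofFinite (Subgroup.center G)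
      have h6 := IsCyclic.card_pow_eq_one_le (α := Subgroup.center G) hp.pos
      have h7 : Finset.univ.filter (· ∈ Subgroup.zpowers w) ⊆
          Finset.univ.filter (fun a : Subgroup.center G => a ^ p = 1) := by
        intro a ha
        obtain ⟨k, rfl⟩ := (Finset.mem_filter.mp ha).2
        simp only [Finset.mem_filter, Finset.mem_univ, true_and]
        rw [← zpow_natCast, ← zpow_mul, mul_comm, zpow_mul, zpow_natCast, ← hw,
          pow_orderOf_eq_one, one_zpow]
      have h8 := Finset.eq_of_subset_of_card_le h7 (h6.trans_eq (by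
        rw [← Fintype.card_subtype, ← Nat.card_eq_fintype_card, Nat.card_zpowers, hw]))
      have h9 : z ∈ Finset.univ.filter (fun a : Subgroup.center G => a ^ p = 1) := by
        simp [← hz, pow_orderOf_eq_one]
      rw [← h8] at h9
      exact (Finset.mem_filter.mp h9).2
    obtain ⟨k, rfl⟩ := h5
    exact apply_of_mem_charKer (zpow_mem hwk k)

end Cfsg.Agent.S0184
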