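import Cfsg.Statements.S0185
import Cfsg.Agent.H4.Char4

set_option autoImplicit false
open Cfsg

namespace Cfsg.Agent.S0185

open Cfsg.Agent.H4


/-- If a finite group has a faithful complex representation of degree less than the smallest prime dividing its order, the group is abelian. -/
theorem result {G : Type*} [Group G] [Finite G] {V : Type*} [AddCommGroup V] [Module ℂ V] [FiniteDimensional ℂ V] (ρ : Representation ℂ G V) (hfaithful : Function.Injective ρ) (hdeg : ∀ p : ℕ, p.Prime → p ∣ Nat.card G → Module.finrank ℂ V < p) (a b : G) : a * b = b * a := by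
  have := Fintype.ofFinite G
  have hχ := isCharacter_character ρ
  have h1 : a * b * a⁻¹ * b⁻¹ ∈ charKer ρ.character := by
    refine hχ.mem_charKer_of_forall_constituent fun ψ hψ hne => ?_
    obtain ⟨e, he0, he⟩ := hψ.exists_degree
    have h2 := hχ.degree_le_of_constituent hψ hne ρ.char_one he
    have h3 : e = 1 := by
      by_contra h
      obtain ⟨p, hp, hpe⟩ := Nat.exists_prime_and_dvd h
      have := hdeg p hp (hpe.trans (hψ.degree_dvd_card he))
      have := Nat.le_of_dvd he0 hpe
      omega
    exact apply_of_mem_charKer (hψ.commutator_le_charKer_iff.mpr (by rw [he, h3, Nat.cast_one])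
      (Subgroup.commutator_mem_commutator (Subgroup.mem_top a) (Subgroup.mem_top b)))
  rw [charKer_character, (MonoidHom.ker_eq_bot_iff ρ).mpr hfaithful, Subgroup.mem_bot] at h1
  calc a * b = (a * b * a⁻¹ * b⁻¹) * (b * a) := by group
    _ = b * a := by rw [h1, one_mul]

end Cfsg.Agent.S0185
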