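import Cfsg.Statements.S0186
import Cfsg.Agent.H4.Char4
import Cfsg.Agent.S0185

set_option autoImplicit false
open Cfsg

namespace Cfsg.Agent.S0186

open Cfsg.Agent.H4


/-- Let G be a finite simple group of order n and p a prime dividing n. If G has more than n / p^2 conjugacy classes, then every Sylow p-subgroup of G is abelian. -/
theorem result {G : Type*} [Group G] [Finite G] [IsSimpleGroup G] (p : ℕ) [Fact p.Prime] (hp : p ∣ Nat.card G) (hmany : Nat.card G < p ^ 2 * Nat.card (ConjClasses G)) (P : Sylow p G) (a b : G) (ha : a ∈ P) (hb : b ∈ P) : a * b = b * a := by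
  classical
  have hpp : p.Prime := Fact.out
  obtain ⟨n, hn⟩ := P.isPGroup'.exists_card_eq
  by_cases hn2 : n ≤ 1
  · have : IsCyclic P := by
      rcases Nat.le_one_iff_eq_zero_or_eq_one.mp hn2 with rfl | rfl
      · have : Subsingleton P := (Nat.card_eq_one_iff_unique.mp (by simpa using hn)).1
        infer_instance
      · exact isCyclic_of_prime_card (p := p) (by simpa using hn)
    obtain ⟨g, hg⟩ := IsCyclic.exists_generator (α := P)
    obtain ⟨i, hi⟩ := hg ⟨a, ha⟩
    obtain ⟨j, hj⟩ := hg ⟨b, hb⟩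
    have : (⟨a, ha⟩ : P) * ⟨b, hb⟩ = ⟨b, hb⟩ * ⟨a, ha⟩ := by
      rw [← hi, ← hj]; exact zpow_mul_comm g i j
    exact congrArg Subtype.val this
  have h2 : p ^ 2 ∣ Nat.card G :=
    (pow_dvd_pow p (by omega)).trans (hn ▸ (P : Subgroup G).card_subgroup_dvd_card)
  choose d hd0 hd using fun χ : IrrCharacter G => χ.2.exists_degree
  have h3 : ∃ χ : IrrCharacter G, χ ≠ irrOne G ∧ d χ < p := by
    by_contra hcon
    push Not at hcon
    have h4 := sum_irr_degree_sq (G := G)
    simp only [hd] at h4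
    have h5 : ∑ χ, d χ ^ 2 = Nat.card G := by exact_mod_cast h4
    rw [← Finset.add_sum_erase _ _ (Finset.mem_univ (irrOne G))] at h5
    have h6 : ∑ χ ∈ Finset.univ.erase (irrOne G), p ^ 2 ≤
        ∑ χ ∈ Finset.univ.erase (irrOne G), d χ ^ 2 := Finset.sum_le_sum fun χ hχ =>
      Nat.pow_le_pow_left (hcon χ (Finset.mem_erase.mp hχ).1) 2
    rw [Finset.sum_const, Finset.card_erase_of_mem (Finset.mem_univ _), Finset.card_univ,
      Fintype.card_eq_nat_card, card_irr_eq_card_conjClasses, smul_eq_mul] at h6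
    obtain ⟨m, hm⟩ := h2
    rw [hm] at hmany h5
    have h7 : m < Nat.card (ConjClasses G) := lt_of_mul_lt_mul_left hmany (Nat.zero_le _)
    have h8 : 0 < d (irrOne G) ^ 2 := pow_pos (hd0 _) 2
    have h9 : p ^ 2 * m ≤ (Nat.card (ConjClasses G) - 1) * p ^ 2 := by
      rw [mul_comm]; exact Nat.mul_le_mul_right _ (by omega)
    omega
  obtain ⟨χ, hχ1, hχ⟩ := h3
  have hk := χ.2.charKer_eq_bot_of_simple fun h => hχ1 (Subtype.ext h)
  have hdχ := hd χ
  obtain ⟨χ, m, ρ, hρ, rfl⟩ := χ
  rw [charKer_character, MonoidHom.ker_eq_bot_iff] at hk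
  have := S0185.result (ρ.comp (P : Subgroup G).subtype) (hk.comp Subtype.val_injective)
    (fun q hq hqP => by
      rw [hn] at hqP
      rw [(Nat.prime_dvd_prime_iff_eq hq hpp).mp (hq.dvd_of_dvd_pow hqP)]
      simp only [Representation.char_one, Nat.cast_inj] at hdχ
      omega) ⟨a, ha⟩ ⟨b, hb⟩
  exact congrArg Subtype.val this

end Cfsg.Agent.S0186
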