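import Cfsg.Statements.S0203
import Cfsg.Agent.H11.Klein

set_option autoImplicit false
open Cfsg

namespace Cfsg.Agent.S0203

open Cfsg.Agent.H11

theorem three_of {G : Type*} [Group G] [Finite G] (P : Sylow 2 G)
    (hP : IsKleinFour (P : Subgroup G))
    (h : ∀ a ∈ (P : Subgroup G), ∀ b ∈ (P : Subgroup G), IsConj a b → a = b) :
    Nat.card {C : ConjClasses G // ∃ t : G, orderOf t = 2 ∧ ConjClasses.mk t = C} = 3 := by
  obtain ⟨a, ha, b, hb, ha1, hb1, hab⟩ := klein_exists_gens hP
  have hc := (P : Subgroup G).mul_mem ha hb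
  have hc1 : a * b ≠ 1 := fun h => hab (by
    rw [← inv_eq_of_mul_eq_one_right (klein_sq hP hb)]; exact eq_inv_of_mul_eq_one_left h)
  refine card_classes_three _ (klein_orderOf hP ha ha1) (klein_orderOf hP hb hb1)
    (klein_orderOf hP hc hc1) (fun hh => hab (h _ ha _ hb hh))
    (fun hh => hb1 (by simpa using h _ ha _ hc hh)) (fun hh => ha1 (by simpa using h _ hb _ hc hh))
    fun t ht => ?_
  obtain ⟨g, hg⟩ := exists_conj_invol_mem_sylow P ht
  have h1 := (isConj_conj g t).symm
  rcases (klein_mem_iff hP ha hb ha1 hb1 hab).1 hg with h2 | h2 | h2 | h2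
  · exact absurd h2 (ne_one_of_orderOf_two (by rw [orderOf_conj, ht]))
  · exact Or.inl (h2 ▸ h1)
  · exact Or.inr (Or.inl (h2 ▸ h1))
  · exact Or.inr (Or.inr (h2 ▸ h1))

theorem one_of {G : Type*} [Group G] [Finite G] (P : Sylow 2 G)
    (hP : IsKleinFour (P : Subgroup G))
    (h : ¬ ∀ a ∈ (P : Subgroup G), ∀ b ∈ (P : Subgroup G), IsConj a b → a = b) :
    Nat.card {C : ConjClasses G // ∃ t : G, orderOf t = 2 ∧ ConjClasses.mk t = C} = 1 := by
  haveI : Fact (Nat.Prime 2) := ⟨Nat.prime_two⟩
  push Not at h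
  obtain ⟨a, ha, b, hb, hab, hne⟩ := h
  have ha1 : a ≠ 1 := by rintro rfl; exact hne (isConj_one_right.1 hab).symm
  have hb1 : b ≠ 1 := by rintro rfl; exact hne (isConj_one_left.1 hab)
  obtain ⟨g, hg⟩ := isConj_iff.1 hab
  obtain ⟨n, -, hn, he⟩ := (isSylIn_top P).exists_normalizer_conj (x := a) (g := g) trivial
    (fun s hs => klein_comm hP hs ha) (fun s hs => hg ▸ klein_comm hP hs hb)
  rw [hg] at he
  have hac : IsConj a (a * b) := by
    rcases (klein_mem_iff hP ha hb ha1 hb1 hne).1 (conj_mem_of_mem_normalizer hn hb) with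
      h2 | h2 | h2 | h2
    · exact absurd (by simpa using h2) hb1
    · obtain ⟨m, k, hm, hk⟩ := exists_pow_two_part n
      have h3 := odd_pow_swap he h2 hm
      have h4 := (isSylIn_top P).mem_of_normalizes hk trivial (Subgroup.pow_mem _ hn m)
      rw [klein_comm hP h4 ha] at h3
      exact absurd (by simpa using h3) hne
    · exact absurd (by simpa using he.trans h2.symm) hne
    · exact hab.trans (isConj_iff.2 ⟨n, h2⟩)
  refine card_classes_one _ (klein_orderOf hP ha ha1) fun t ht => ?_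
  obtain ⟨g, hg⟩ := exists_conj_invol_mem_sylow P ht
  have h1 := (isConj_conj g t).symm
  rcases (klein_mem_iff hP ha hb ha1 hb1 hne).1 hg with h2 | h2 | h2 | h2
  · exact absurd h2 (ne_one_of_orderOf_two (by rw [orderOf_conj, ht]))
  · exact h2 ▸ h1
  · exact hab.trans (h2 ▸ h1)
  · exact hac.trans (h2 ▸ h1)

/-- If a Sylow 2-subgroup P of a finite group G is a Klein four-group, then G has three classes of involutions if and only if P has a normal complement in G. -/
theorem result {G : Type*} [Group G] [Finite G] (P : Sylow 2 G) (hP : IsKleinFour (P : Subgroup G)) : Nat.card {C : ConjClasses G // ∃ t : G, orderOf t = 2 ∧ ConjClasses.mk t = C} = 3 ↔ ∃ N : Subgroup G, N.Normal ∧ Subgroup.IsComplement' N (P : Subgroup G) := by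
  haveI : Fact (Nat.Prime 2) := ⟨Nat.prime_two⟩
  constructor
  · intro h3
    have h : ∀ a ∈ (P : Subgroup G), ∀ b ∈ (P : Subgroup G), IsConj a b → a = b := by
      by_contra h
      have := one_of P hP h
      omega
    have hN : Subgroup.normalizer ((P : Subgroup G) : Set G) ≤
        Subgroup.centralizer ((P : Subgroup G) : Set G) := by
      intro n hn
      rw [Subgroup.mem_centralizer_iff]
      intro x hx
      have := h x hx _ (conj_mem_of_mem_normalizer hn hx) (isConj_conj n x)
      rw [eq_mul_inv_iff_mul_eq] at this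
      exact this
    exact ⟨_, inferInstance, MonoidHom.ker_transferSylow_isComplement' P hN⟩
  · rintro ⟨N, hN, hc⟩
    refine three_of P hP fun a ha b hb hab => ?_
    obtain ⟨g, rfl⟩ := isConj_iff.1 hab
    obtain ⟨⟨n, s⟩, rfl⟩ := hc.2 g
    change (n : G) * s * a * ((n : G) * s)⁻¹ ∈ _ at hb
    change a = (n : G) * s * a * ((n : G) * s)⁻¹
    have h1 : (n : G) * s * a * ((n : G) * s)⁻¹ = n * a * (n : G)⁻¹ := by
      rw [mul_assoc _ _ a, klein_comm hP s.2 ha]; group
    rw [h1] at hb ⊢
    have h2 : (n : G) * a * (n : G)⁻¹ * a⁻¹ ∈ N ⊓ (P : Subgroup G) := by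
      refine Subgroup.mem_inf.2 ⟨?_, (P : Subgroup G).mul_mem hb ((P : Subgroup G).inv_mem ha)⟩
      have := N.mul_mem n.2 (hN.conj_mem _ (N.inv_mem n.2) a)
      simpa only [mul_assoc] using this
    rw [hc.disjoint.eq_bot, Subgroup.mem_bot, mul_inv_eq_one] at h2
    exact h2.symm

end Cfsg.Agent.S0203
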