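import Cfsg.Statements.S0207
import Cfsg.Agent.H11.Invol

set_option autoImplicit false
open Cfsg

namespace Cfsg.Agent.S0207

open Cfsg.Agent.H11



/-- If x, y are distinct involutions, every element of the subgroup they generate that lies outside the cyclic subgroup generated by xy is an involution. -/
theorem result {G : Type*} [Group G] [Finite G] (x y : G) (hx : orderOf x = 2) (hy : orderOf y = 2) (hxy : x ≠ y) (d : G) (hd : d ∈ Subgroup.closure ({x, y} : Set G)) (hd' : d ∉ Subgroup.zpowers (x * y)) : orderOf d = 2 := by
  have hx2 := mul_self_of_orderOf_two hx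
  have hy2 := mul_self_of_orderOf_two hy
  obtain ⟨k, rfl | rfl⟩ := (mem_closure_pair_iff hx2 hy2).1 hd
  · exact absurd ⟨k, rfl⟩ hd'
  · apply orderOf_two_of
    · intro h
      exact hd' (h ▸ Subgroup.one_mem _)
    · have := zpow_mul_of_inv (invol_inverts_left hx2 hy2) k
      calc x * (x * y) ^ k * (x * (x * y) ^ k) = x * ((x * y) ^ k * x) * (x * y) ^ k := by group
        _ = (x * x) * ((x * y) ^ (-k) * (x * y) ^ k) := by rw [this]; group
        _ = 1 := by rw [hx2]; group

end Cfsg.Agent.S0207
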