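import Cfsg.Statements.S0210
import Cfsg.Agent.H11.Invol

set_option autoImplicit false
open Cfsg

namespace Cfsg.Agent.S0210

open Cfsg.Agent.H11



/-- If x, y are involutions whose product has even order, no element of the subgroup generated by x and y conjugates x to y. -/
theorem result {G : Type*} [Group G] [Finite G] (x y : G) (hx : orderOf x = 2) (hy : orderOf y = 2) (heven : Even (orderOf (x * y))) (d : G) (hd : d ∈ Subgroup.closure ({x, y} : Set G)) : d * x * d⁻¹ ≠ y := by
  have hx2 := mul_self_of_orderOf_two hx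
  have hy2 := mul_self_of_orderOf_two hy
  have hinv := invol_inverts_left hx2 hy2
  have hxi : x⁻¹ = x := inv_eq_of_orderOf_two hx
  have key : ∀ j : ℤ, x * (x * y) ^ (2 * j) ≠ y := by
    intro j h
    have h1 : (x * y) ^ (2 * j - 1) = 1 := by
      have h2 : (x * y) ^ (2 * j) = x * y := by
        calc (x * y) ^ (2 * j) = x⁻¹ * (x * (x * y) ^ (2 * j)) := by group
          _ = x * y := by rw [h, hxi]
      rw [zpow_sub, h2]; group
    have h3 := orderOf_dvd_iff_zpow_eq_one.2 h1
    obtain ⟨m, hm⟩ := heven
    rw [hm] at h3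
    obtain ⟨c, hc⟩ := h3
    have : (2 * j - 1) = 2 * (m * c) := by rw [hc]; push_cast; ring
    omega
  obtain ⟨k, rfl | rfl⟩ := (mem_closure_pair_iff hx2 hy2).1 hd
  · have := zpow_mul_of_inv hinv k
    intro h
    apply key (-k)
    refine Eq.trans ?_ h
    rw [this]; group
  · have := zpow_mul_of_inv hinv k
    intro h
    apply key k
    refine Eq.trans ?_ h
    rw [mul_assoc x, this]
    calc x * (x * y) ^ (2 * k) = (x * y) ^ (-(2 * k)) * x := by rw [mul_zpow_of_inv hinv]
      _ = (x * x) * (x * y) ^ (-(2 * k)) * x⁻¹ := by rw [hx2, hxi]; group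
      _ = _ := by group

end Cfsg.Agent.S0210
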