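import Cfsg.Statements.S0211
import Cfsg.Agent.H11.Invol

set_option autoImplicit false
open Cfsg

namespace Cfsg.Agent.S0211

open Cfsg.Agent.H11



/-- Let x, y be involutions with xy of even order n and z = (xy)^(n/2). Then xz is conjugate to x by an element of the subgroup generated by x, y if and only if 4 divides n. -/
theorem result {G : Type*} [Group G] [Finite G] (x y : G) (hx : orderOf x = 2) (hy : orderOf y = 2) (heven : Even (orderOf (x * y))) : (∃ d ∈ Subgroup.closure ({x, y} : Set G), d * x * d⁻¹ = x * (x * y) ^ (orderOf (x * y) / 2)) ↔ 4 ∣ orderOf (x * y) := by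
  have hx2 := mul_self_of_orderOf_two hx
  have hy2 := mul_self_of_orderOf_two hy
  have hinv := invol_inverts_left hx2 hy2
  have hxi : x⁻¹ = x := inv_eq_of_orderOf_two hx
  obtain ⟨m, hm⟩ := heven
  have hm' : orderOf (x * y) / 2 = m := by omega
  rw [hm']
  have key : ∀ j : ℤ, x * (x * y) ^ (2 * j) = x * (x * y) ^ m → 4 ∣ orderOf (x * y) := by
    intro j h
    have h1 : (x * y) ^ (2 * j - m) = 1 := by
      have h2 : (x * y) ^ (2 * j) = (x * y) ^ m := mul_left_cancel h
      rw [zpow_sub, h2]; group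
    have h3 := orderOf_dvd_iff_zpow_eq_one.2 h1
    rw [hm] at h3 ⊢
    obtain ⟨c, hc⟩ := h3
    have : (2 * j - m) = 2 * (m * c) := by rw [hc]; push_cast; ring
    omega
  constructor
  · rintro ⟨d, hd, h⟩
    obtain ⟨k, rfl | rfl⟩ := (mem_closure_pair_iff hx2 hy2).1 hd
    · have := zpow_mul_of_inv hinv k
      apply key (-k)
      rw [← h, this]; group
    · have := zpow_mul_of_inv hinv k
      apply key k
      rw [← h, mul_assoc x, this]
      calc x * (x * y) ^ (2 * k) = (x * y) ^ (-(2 * k)) * x := by rw [mul_zpow_of_inv hinv]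
        _ = (x * x) * (x * y) ^ (-(2 * k)) * x⁻¹ := by rw [hx2, hxi]; group
        _ = _ := by group
  · rintro ⟨c, hc⟩
    have hmc : m = 2 * c := by omega
    refine ⟨(x * y) ^ (-(c : ℤ)), (mem_closure_pair_iff hx2 hy2).2 ⟨_, Or.inl rfl⟩, ?_⟩
    rw [zpow_mul_of_inv hinv, hmc]; group

end Cfsg.Agent.S0211
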