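import Cfsg.Statements.S0233
import Cfsg.Agent.H11.Count

set_option autoImplicit false
open Cfsg

namespace Cfsg.Agent.S0233

open Cfsg.Agent.H11



/-- Let G be a finite group of even order with exactly n involutions whose centre has odd order, and put a = |G|/n. Then G has a proper subgroup H with |G : H| = 2 or |G : H| < a(a+1)/2; over ℕ the latter reads 2·|G:H|·n² < |G|·(|G| + n). -/
theorem result {G : Type*} [Group G] [Finite G] (heven : Even (Nat.card G)) (hZ : Odd (Nat.card (Subgroup.center G))) : ∃ H : Subgroup G, H ≠ ⊤ ∧ (H.index = 2 ∨ 2 * H.index * (Nat.card {t : G // orderOf t = 2}) ^ 2 < Nat.card G * (Nat.card G + Nat.card {t : G // orderOf t = 2})) := by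
  classical
  haveI := Fintype.ofFinite G
  set n := Nat.card {t : G // orderOf t = 2} with hn
  have hnt : (⊥ : Subgroup G) ≠ ⊤ := by
    intro h
    have : Nat.card G = 1 := by rw [← Subgroup.card_top, ← h, Subgroup.card_bot]
    rw [this] at heven; exact absurd heven (by decide)
  obtain ⟨H, hH, hmin⟩ := exists_minimalFor_of_wellFoundedLT (fun H : Subgroup G => H ≠ ⊤)
    (fun H => H.index) ⟨⊥, hnt⟩
  have hmin' : ∀ K : Subgroup G, K ≠ ⊤ → H.index ≤ K.index := fun K hK => by
    by_contra h; exact h (hmin hK (le_of_not_ge h))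
  refine ⟨H, hH, ?_⟩
  by_cases h2 : H.index = 2
  · exact Or.inl h2
  right
  set j := H.index with hj
  have hj1 : j ≠ 1 := by rwa [hj, Ne, Subgroup.index_eq_one]
  have hj0 : j ≠ 0 := Subgroup.index_ne_zero_of_finite
  -- involutions
  have hinv : ∀ x : G, orderOf x = 2 → 2 * j * invPairs x + 4 * j ≤ 2 * Nat.card G := by
    intro x hx
    have h1 := invPairs_add_two_le hx
    have h3 : Subgroup.centralizer ({x} : Set G) ≠ ⊤ := by
      intro h
      refine odd_card_iff_no_invol.1 hZ x (Subgroup.mem_center_iff.2 fun g => ?_) hx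
      exact mem_cent1.1 (h ▸ Subgroup.mem_top g)
    have h4 := hmin' _ h3
    have h5 := (Subgroup.centralizer ({x} : Set G)).index_mul_card
    nlinarith
  have hoth : ∀ x : G, x * x ≠ 1 → 2 * j * invPairs x ≤ Nat.card G := by
    intro x hx
    by_cases hreal : IsConj x x⁻¹
    swap
    · rw [invPairs_eq_zero hreal]; exact Nat.zero_le _
    let C := Subgroup.centralizer ({x} : Set G)
    let D : Subgroup G :=
      { carrier := {g | g * x * g⁻¹ = x ∨ g * x * g⁻¹ = x⁻¹}
        one_mem' := by simp
        mul_mem' := by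
          intro a b ha hb
          have e : a * b * x * (a * b)⁻¹ = a * (b * x * b⁻¹) * a⁻¹ := by group
          have e2 : a * x⁻¹ * a⁻¹ = (a * x * a⁻¹)⁻¹ := by group
          rcases ha with ha | ha <;> rcases hb with hb | hb <;>
            simp only [Set.mem_setOf_eq, e, hb, e2, ha, inv_inv, true_or, or_true]
        inv_mem' := by
          intro a ha
          rcases ha with ha | ha
          · left
            calc a⁻¹ * x * a⁻¹⁻¹ = a⁻¹ * (a * x * a⁻¹) * a := by rw [ha]; group
              _ = x := by group
          · right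
            calc a⁻¹ * x * a⁻¹⁻¹ = a⁻¹ * (a * x * a⁻¹)⁻¹ * a := by rw [ha]; group
              _ = x⁻¹ := by group }
    have hCD : C ≤ D := fun g hg => Or.inl (by rw [mem_cent1.1 hg]; group)
    obtain ⟨c, hc⟩ := isConj_iff.1 hreal
    have hxx : x ≠ x⁻¹ := fun h => hx (by nth_rewrite 2 [h]; group)
    have hrel : C.relIndex D = 2 := by
      rw [Subgroup.relIndex, Subgroup.index_eq_two_iff]
      refine ⟨⟨c, Or.inr hc⟩, fun b => ?_⟩
      simp only [Subgroup.mem_subgroupOf, C, mem_cent1, Subgroup.coe_mul,
        ← mul_inv_eq_iff_eq_mul]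
      have e : (b : G) * c * x * ((b : G) * c)⁻¹ = ((b : G) * x * (b : G)⁻¹)⁻¹ := by
        calc (b : G) * c * x * ((b : G) * c)⁻¹ = b * (c * x * c⁻¹) * (b : G)⁻¹ := by group
          _ = _ := by rw [hc]; group
      rw [e]
      rcases b.2 with hb | hb
      · rw [hb]; exact Or.inr ⟨rfl, fun h => hxx h.symm⟩
      · rw [hb, inv_inv]; exact Or.inl ⟨rfl, fun h => hxx h.symm⟩
    have h1 := Subgroup.relIndex_mul_index hCD
    rw [hrel] at h1
    have hCne : C ≠ ⊤ := by
      intro h
      rw [h, Subgroup.index_top] at h1; omega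
    have hDne : D ≠ ⊤ := by
      intro h
      rw [h, Subgroup.index_top] at h1
      have := hmin' C hCne
      omega
    have h3 := hmin' D hDne
    have h4 := C.index_mul_card
    have h5 : invPairs x ≤ Nat.card C := invPairs_le x
    nlinarith
  have hsum := sum_invPairs (G := G)
  let I : Finset G := Finset.univ.filter fun x => orderOf x = 2
  let R : Finset G := Finset.univ.filter fun x => x * x ≠ 1
  have hI : I.card = n := (natCard_subtype_eq _).symm
  have hU : (Finset.univ : Finset G) = insert 1 (I ∪ R) := by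
    ext x
    simp only [I, R, Finset.mem_univ, Finset.mem_insert, Finset.mem_union, Finset.mem_filter,
      true_and, orderOf_two_iff, true_iff]
    tauto
  have hd : Disjoint I R := by
    rw [Finset.disjoint_filter]
    intro x _ hx h; exact h (mul_self_of_orderOf_two hx)
  have h1n : (1 : G) ∉ I ∪ R := by simp [I, R]
  have hcard : Nat.card G = 1 + (n + R.card) := by
    rw [Nat.card_eq_fintype_card, ← Finset.card_univ, hU, Finset.card_insert_of_notMem h1n,
      Finset.card_union_of_disjoint hd, hI, add_comm]
  rw [hU, Finset.sum_insert h1n, Finset.sum_union hd, invPairs_one, ← hn] at hsum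
  have hA : 2 * j * ∑ x ∈ I, invPairs x + 4 * j * n ≤ 2 * Nat.card G * n := by
    have := Finset.sum_le_sum (s := I) fun x hx => hinv x (Finset.mem_filter.1 hx).2
    rw [Finset.sum_add_distrib, ← Finset.mul_sum, Finset.sum_const, Finset.sum_const, hI] at this
    simpa [mul_comm] using this
  have hB : 2 * j * ∑ x ∈ R, invPairs x ≤ Nat.card G * R.card := by
    have := Finset.sum_le_sum (s := R) fun x hx => hoth x (Finset.mem_filter.1 hx).2
    rw [← Finset.mul_sum, Finset.sum_const] at this
    simpa [mul_comm] using this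
  rw [← hsum]
  have hpos : 0 < Nat.card G := Nat.card_pos
  nlinarith

end Cfsg.Agent.S0233
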