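import Cfsg.Statements.S0212
import Cfsg.Agent.H11.Klein
import Cfsg.Agent.S0233

set_option autoImplicit false
open Cfsg

namespace Cfsg.Agent.S0212

open Cfsg.Agent.H11



/-- The Brauer–Fowler bound: if G is a finite simple group and t an involution of G whose centralizer has order n, then |G| ≤ (2n^2)!. -/
theorem result {G : Type*} [Group G] [Finite G] [IsSimpleGroup G] (t : G) (ht : orderOf t = 2) : Nat.card G ≤ Nat.factorial (2 * (Nat.card (Subgroup.centralizer ({t} : Set G))) ^ 2) := by
  set c := Nat.card (Subgroup.centralizer ({t} : Set G)) with hc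
  have hc2 : 2 ≤ c := by
    have := card_invol_commute_lt t
    haveI : Nonempty {u : G // orderOf u = 2 ∧ Commute u t} := ⟨⟨t, ht, rfl⟩⟩
    have h2 : 0 < Nat.card {u : G // orderOf u = 2 ∧ Commute u t} := Nat.card_pos
    omega
  by_cases h2 : Nat.card G = 2
  · rw [h2]
    exact le_trans (by nlinarith) (Nat.self_le_factorial _)
  have hZ : Odd (Nat.card (Subgroup.center G)) :=
    odd_card_iff_no_invol.2 fun u hu hu2 => h2 (card_eq_two_of_simple_of_central hu2 hu)
  obtain ⟨H, hH, h | h⟩ := Cfsg.Agent.S0233.result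
    (even_iff_two_dvd.2 (ht ▸ orderOf_dvd_natCard t)) hZ
  · exact absurd h (no_index_two_of_simple h2 H)
  set n := Nat.card {t : G // orderOf t = 2} with hn
  have h3 : Nat.card G ≤ n * c := by
    rw [← card_isConj_mul t]
    exact Nat.mul_le_mul_right _
      (natCard_le_of_imp fun x hx => (orderOf_eq_of_isConj hx).symm.trans ht)
  have h4 : 2 * H.index * n ^ 2 < (c * (c + 1)) * n ^ 2 :=
    h.trans_le (by nlinarith [Nat.mul_le_mul h3 (Nat.add_le_add_right h3 n)])
  have h5 := Nat.lt_of_mul_lt_mul_right h4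
  refine (Nat.le_of_dvd (Nat.factorial_pos _) (card_dvd_factorial_of_simple hH)).trans
    (Nat.factorial_le (by nlinarith))

end Cfsg.Agent.S0212
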