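import Cfsg.Statements.S0216
import Cfsg.Agent.H11.Syl

set_option autoImplicit false
open Cfsg

namespace Cfsg.Agent.S0216

open Cfsg.Agent.H11



/-- For an involution u in a Sylow 2-subgroup P of a finite group G, the following are equivalent: no G-conjugate of u other than u lies in P; every commutator of u with an element of G has odd order. -/
theorem result {G : Type*} [Group G] [Finite G] (P : Sylow 2 G) (u : G) (hu : orderOf u = 2) (huP : u ∈ P) : (∀ g : G, g * u * g⁻¹ ∈ P → g * u * g⁻¹ = u) ↔ (∀ g : G, Odd (orderOf (u * g * u⁻¹ * g⁻¹))) := by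
  haveI : Fact (Nat.Prime 2) := ⟨Nat.prime_two⟩
  have hu2 := mul_self_of_orderOf_two hu
  have hui := inv_eq_of_orderOf_two hu
  constructor
  · intro hiso g
    set v := g * u * g⁻¹ with hv
    have hv2 : v * v = 1 := mul_self_of_orderOf_two (by rw [hv, orderOf_conj, hu])
    have he : u * g * u⁻¹ * g⁻¹ = u * v := by rw [hui, hv]; group
    rw [he]
    obtain ⟨k, m, y, hm, hkm, -, hy, j, hj⟩ := exists_conj_two_part hu2 hv2
    set w := (u * v) ^ j
    have hyc : y = (w⁻¹ * g) * u * (w⁻¹ * g)⁻¹ := by
      calc y = w⁻¹ * (w * y * w⁻¹) * w := by group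
        _ = _ := by rw [hj, hv]; group
    have hy2 : y * y = 1 := mul_self_of_orderOf_two (by rw [hyc, orderOf_conj, hu])
    obtain ⟨c, hc⟩ := exists_conj_le_sylow P
      (isPGroup_closure_pair (k := k) hu2 hy2 (by rw [← hy, pow_orderOf_eq_one]))
    have h1 := hiso c (hc u (Subgroup.subset_closure (by simp)))
    have h2 := hiso (c * (w⁻¹ * g)) (by
      have := hc y (Subgroup.subset_closure (by simp))
      rw [hyc] at this
      convert this using 1; group)
    have h3 : y = u := by
      have : c * y * c⁻¹ = c * u * c⁻¹ := by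
        rw [h1, hyc]; refine Eq.trans ?_ h2; group
      simpa using this
    rw [h3, hu2, orderOf_one] at hy
    rw [hkm, ← hy, one_mul]; exact hm
  · intro hodd g hg
    have hm : u * g * u⁻¹ * g⁻¹ ∈ (P : Subgroup G) := by
      have := (P : Subgroup G).mul_mem huP hg
      convert this using 1; rw [hui]; group
    obtain ⟨k, hk⟩ := IsPGroup.iff_orderOf.1 P.isPGroup' ⟨_, hm⟩
    rw [Subgroup.orderOf_mk] at hk
    have h1 := hodd g
    rw [hk] at h1
    have hk0 : k = 0 := by
      by_contra h0
      exact (Nat.not_even_iff_odd.2 h1) ((Nat.even_pow' h0).2 even_two)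
    rw [hk0, pow_zero, orderOf_eq_one_iff, hui] at hk
    calc g * u * g⁻¹ = u⁻¹ * (u * g * u * g⁻¹) := by group
      _ = u := by rw [hk, hui, mul_one]

end Cfsg.Agent.S0216
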