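import Cfsg.Statements.S0218
import Cfsg.Agent.H11.Invol

set_option autoImplicit false
open Cfsg

namespace Cfsg.Agent.S0218

open Cfsg.Agent.H11



/-- The generalized quaternion group of order 2^(n+3) contains exactly one element of order 2. -/
theorem result (n : ℕ) : Nat.card {x : QuaternionGroup (2 ^ (n + 1)) // orderOf x = 2} = 1 := by
  have hpos : 0 < 2 ^ (n + 1) := by positivity
  haveI : NeZero (2 ^ (n + 1)) := ⟨hpos.ne'⟩
  haveI : NeZero (2 * 2 ^ (n + 1)) := ⟨by positivity⟩
  have hne : ((2 ^ (n + 1) : ℕ) : ZMod (2 * 2 ^ (n + 1))) ≠ 0 := by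
    intro h
    rw [ZMod.natCast_eq_zero_iff] at h
    have := Nat.le_of_dvd hpos h
    omega
  rw [Nat.card_eq_one_iff_exists]
  refine ⟨⟨QuaternionGroup.a ((2 ^ (n + 1) : ℕ) : ZMod (2 * 2 ^ (n + 1))), ?_⟩, ?_⟩
  · apply orderOf_two_of
    · rw [QuaternionGroup.one_def]; intro h; exact hne (QuaternionGroup.a.inj h)
    · rw [QuaternionGroup.a_mul_a, QuaternionGroup.one_def]
      congr 1
      rw [← Nat.cast_add, ← two_mul, ZMod.natCast_self]
  · rintro ⟨x, hx⟩
    apply Subtype.ext
    have h1 := ne_one_of_orderOf_two hx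
    have h2 := mul_self_of_orderOf_two hx
    cases x with
    | a i =>
      rw [QuaternionGroup.a_mul_a, QuaternionGroup.one_def] at h2
      have h3 := QuaternionGroup.a.inj h2
      have h4 : i ≠ 0 := by rintro rfl; exact h1 rfl
      change QuaternionGroup.a i = _
      congr 1
      have h5 : ((i.val + i.val : ℕ) : ZMod (2 * 2 ^ (n + 1))) = 0 := by
        push_cast; simpa using h3
      rw [ZMod.natCast_eq_zero_iff] at h5
      have h6 := ZMod.val_lt i
      have h7 : i.val ≠ 0 := by rwa [Ne, ZMod.val_eq_zero]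
      obtain ⟨c, hc⟩ := h5
      have hc1 : c = 1 := by
        rcases c with _ | _ | c
        · omega
        · rfl
        · nlinarith
      subst hc1
      have : i.val = 2 ^ (n + 1) := by omega
      rw [← ZMod.natCast_zmod_val i, this]
    | xa i =>
      rw [QuaternionGroup.xa_mul_xa, QuaternionGroup.one_def] at h2
      have h3 := QuaternionGroup.a.inj h2
      exact absurd (by simpa using h3) hne

end Cfsg.Agent.S0218
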