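import Cfsg.Statements.S0220
import Cfsg.Agent.H11.Count

set_option autoImplicit false
open Cfsg

namespace Cfsg.Agent.S0220

open Cfsg.Agent.H11



/-- If x is an involution of a finite group G and a Sylow 2-subgroup of the centralizer of x is cyclic, then G has a subgroup of index 2; in particular G is not simple unless it has order 2. -/
theorem result {G : Type*} [Group G] [Finite G] (x : G) (hx : orderOf x = 2) (S : Sylow 2 ↥(Subgroup.centralizer ({x} : Set G))) (hS : IsCyclic (S : Subgroup ↥(Subgroup.centralizer ({x} : Set G)))) : ∃ H : Subgroup G, H.index = 2 := by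
  haveI : Fact (Nat.Prime 2) := ⟨Nat.prime_two⟩
  have hS1 := isSylIn_map S
  set S' := (S : Subgroup ↥(Subgroup.centralizer ({x} : Set G))).map (Subgroup.subtype _)
  have hcyc : IsCyclic S' := isCyclic_of_surjective _
    ((S : Subgroup ↥(Subgroup.centralizer ({x} : Set G))).equivMapOfInjective _
      (Subgroup.subtype_injective _)).surjective
  have hxS : x ∈ S' := hS1.mem_of_commute (k := 1) (by simpa using hx) (mem_cent1.2 rfl)
    fun s hs => mem_cent1.1 (hS1.le hs)
  have hS2 : IsSylIn 2 S' ⊤ := hS1.of_normalizer_le le_top fun g _ hg => by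
    rw [mem_cent1, ← mul_inv_eq_iff_eq_mul]
    exact invol_unique_of_isCyclic hcyc (by rw [orderOf_conj, hx]) hx
      (conj_mem_of_mem_normalizer hg hxS) hxS
  obtain ⟨P, hP⟩ := hS2.exists_sylow_top
  refine exists_index_two_of_isCyclic ?_ P (hP ▸ hcyc)
  exact even_iff_two_dvd.2 (hx ▸ orderOf_dvd_natCard x)

end Cfsg.Agent.S0220
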