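import Cfsg.Statements.S0221
import Cfsg.Agent.H11.TwoGp
import Cfsg.Agent.H11.Count

set_option autoImplicit false
open Cfsg

namespace Cfsg.Agent.S0221

open Cfsg.Agent.H11

theorem card8 {G : Type*} [Group G] [Finite G] {U : Subgroup G} (hU : IsKleinFour U) {y : G}
    (hy : y * y = 1) (hyU : y ∉ U) (hc : ∀ u ∈ U, y * u = u * y) :
    Nat.card ↥(U ⊔ Subgroup.zpowers y) = 8 ∧ ∀ e ∈ U ⊔ Subgroup.zpowers y, e ^ 2 = 1 := by
  have hn : y ∈ Subgroup.normalizer (U : Set G) := mem_normalizer_of_forall fun u hu => by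
    rw [hc u hu, mul_inv_cancel_right]; exact hu
  refine ⟨by rw [H3.card_sup_zpowers (p := 2) hn hyU (by rw [pow_two, hy]; exact U.one_mem), hU.card_four], ?_⟩
  intro e he
  obtain ⟨u, hu, k, rfl⟩ := (H3.mem_sup_zpowers_iff hn).1 he
  have h1 : Commute u (y ^ k) := (Commute.zpow_right (hc u hu).symm k)
  rw [h1.mul_pow, pow_two, klein_sq hU hu, one_mul, ← zpow_natCast, ← zpow_mul, mul_comm, zpow_mul,
    zpow_natCast, pow_two, hy, one_zpow]

theorem exists_normal_four {S : Type*} [Group S] [Finite S] (hS : IsPGroup 2 S) {E : Subgroup S}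
    (hE : Nat.card E = 8) (hE2 : ∀ e ∈ E, e * e = 1) : ∃ V : Subgroup S, V.Normal ∧ IsKleinFour V := by
  by_contra hcon
  push Not at hcon
  have hnc : ¬ IsCyclic E := by
    intro h
    obtain ⟨g, hg⟩ := h.exists_ofOrder_eq_natCard
    have : orderOf g ∣ 2 := orderOf_dvd_of_pow_eq_one (by rw [pow_two]; exact Subtype.ext (hE2 g g.2))
    rw [hg, hE] at this; omega
  rcases isCyclic_or_MC_of_no_normal_klein hS hcon with h | ⟨n, e, f, X, Y, h⟩
  · exact hnc inferInstance
  · obtain ⟨a, ha⟩ := h.exists_Y_of_not_isCyclic le_top hnc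
    have hle : E ≤ Subgroup.closure ({X (hh n), Y a} : Set S) := fun s hs =>
      (h.commute_Y_iff trivial).1 (comm_of_sq_eq_one hE2 hs ha)
    have := Subgroup.card_le_of_le hle
    rw [hE, h.card_four] at this
    omega

/-- Let G be a finite group with no subgroup of index 2 whose 2-rank is at least 3 (it contains an elementary abelian subgroup of order 8). Then the centralizer of every involution of G also contains an elementary abelian subgroup of order 8. -/
theorem result {G : Type*} [Group G] [Finite G] (hno : ∀ H : Subgroup G, H.index ≠ 2) (hrank : ∃ E : Subgroup G, Nat.card E = 8 ∧ ∀ e ∈ E, e ^ 2 = 1) (x : G) (hx : orderOf x = 2) : ∃ E : Subgroup G, E ≤ Subgroup.centralizer ({x} : Set G) ∧ Nat.card E = 8 ∧ ∀ e ∈ E, e ^ 2 = 1 := by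
  obtain ⟨E, hE8, hE2⟩ := hrank
  have hE2' : ∀ e ∈ E, e * e = 1 := fun e he => by rw [← pow_two]; exact hE2 e he
  have hEp : IsPGroup 2 E := IsPGroup.of_card (n := 3) hE8
  obtain ⟨S, hES⟩ := hEp.exists_le_sylow
  obtain ⟨V, hVn, hV⟩ := exists_normal_four S.2 (E := E.subgroupOf S) (by rw [card_subgroupOf hES, hE8])
    (fun e he => Subtype.ext (hE2' e he))
  set U := V.map (S : Subgroup G).subtype with hUdef
  have hU : IsKleinFour U := isKleinFour_map_subtype hV
  have hUS : U ≤ S := Subgroup.map_subtype_le V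
  have hSU : (S : Subgroup G) ≤ Subgroup.normalizer (U : Set G) := fun s hs =>
    mem_normalizer_of_forall (by
      rintro _ ⟨v, hv, rfl⟩
      exact ⟨_, hVn.conj_mem v hv ⟨s, hs⟩, rfl⟩)
  set T := (S : Subgroup G) ⊓ Subgroup.centralizer (U : Set G) with hT
  have hidx : T.relIndex S ≤ 2 := by
    have h1 := H3.index_centralizer_le S.2 2 V hV.card_four
    have h2 : T.subgroupOf S = Subgroup.centralizer (V : Set S) := by
      ext s
      simp only [hT, Subgroup.mem_subgroupOf, Subgroup.mem_inf, s.2, true_and, Subgroup.mem_centralizer_iff]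
      constructor
      · intro h v hv
        exact Subtype.ext (h v ⟨v, hv, rfl⟩)
      · rintro h _ ⟨v, hv, rfl⟩
        exact congrArg Subtype.val (h v hv)
    rw [Subgroup.relIndex, h2]; simpa using h1
  obtain ⟨g, hg⟩ : ∃ g : G, g * x * g⁻¹ ∈ T := by
    have h0 : T.relIndex S ≠ 0 := Subgroup.index_ne_zero_of_finite
    rcases (by omega : T.relIndex S = 1 ∨ T.relIndex S = 2) with h | h
    · obtain ⟨g, hg⟩ := exists_conj_invol_mem_sylow S hx
      exact ⟨g, Subgroup.relIndex_eq_one.1 h hg⟩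
    · exact thompson_transfer_sylow hno S inf_le_left h (mul_self_of_orderOf_two hx)
  suffices ∃ F : Subgroup G, F ≤ Subgroup.centralizer {g * x * g⁻¹} ∧ Nat.card F = 8 ∧ ∀ e ∈ F, e ^ 2 = 1 by
    obtain ⟨F, h1, h2, h3⟩ := this
    refine ⟨cj g⁻¹ F, ?_, by rw [card_cj, h2], fun e he => ?_⟩
    · refine (cj_mono _ h1).trans (le_of_eq ?_)
      rw [cj_cent1]; congr 2; group
    · have := h3 _ (mem_cj.1 he)
      rwa [inv_inv, conj_pow, conj_eq_one_iff] at this
  have hy : orderOf (g * x * g⁻¹) = 2 := by rw [orderOf_conj, hx]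
  generalize g * x * g⁻¹ = y at hg hy
  have hyc : ∀ u ∈ U, y * u = u * y := fun u hu => (hg.2 u hu).symm
  by_cases hyU : y ∈ U
  · obtain ⟨w, hwE, hwT, hwU⟩ : ∃ w ∈ E, w ∈ T ∧ w ∉ U := by
      by_contra hcon
      push Not at hcon
      have h1 : T ⊓ E ≤ U := fun w hw => hcon w hw.2 hw.1
      have h2 : T.relIndex E ≤ 2 :=
        (Subgroup.relIndex_le_of_le_right hES Subgroup.index_ne_zero_of_finite).trans hidx
      have h3 := card_mul_relIndex (inf_le_right : T ⊓ E ≤ E)
      rw [Subgroup.inf_relIndex_right, hE8] at h3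
      have h4 : T ⊓ E = U := Subgroup.eq_of_le_of_card_ge h1 (by rw [hU.card_four]; nlinarith)
      have h5 : E ≤ T := fun e he => ⟨hES he, fun u hu => comm_of_sq_eq_one hE2' (h4 ▸ hu : u ∈ T ⊓ E).2 he⟩
      have h6 := Subgroup.card_le_of_le ((le_inf h5 le_rfl).trans h1)
      rw [hE8, hU.card_four] at h6; omega
    have hwc : ∀ u ∈ U, w * u = u * w := fun u hu => (hwT.2 u hu).symm
    refine ⟨_, ?_, card8 hU (hE2' w hwE) hwU hwc⟩
    refine sup_le (fun u hu => mem_cent1.2 (hyc u hu).symm) ?_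
    rw [Subgroup.zpowers_le]; exact mem_cent1.2 (hwc y hyU)
  · refine ⟨_, ?_, card8 hU (mul_self_of_orderOf_two hy) hyU hyc⟩
    refine sup_le (fun u hu => mem_cent1.2 (hyc u hu).symm) ?_
    rw [Subgroup.zpowers_le]; exact mem_cent1.2 rfl

end Cfsg.Agent.S0221
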