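import Cfsg.Statements.S0226
import Cfsg.Agent.H11.Count

set_option autoImplicit false
open Cfsg

namespace Cfsg.Agent.S0226

open Cfsg.Agent.H11



/-- A finite group of even order has an odd number of involutions. -/
theorem result {G : Type*} [Group G] [Finite G] (heven : Even (Nat.card G)) : Odd (Nat.card {t : G // orderOf t = 2}) := by
  classical
  haveI := Fintype.ofFinite G
  have h1 := Equiv.Perm.card_fixedPoints_modEq (p := 2) (n := 1) (f := fun g : G => g⁻¹)
    (by funext g; exact inv_inv g)
  have h2 : Fintype.card (Function.fixedPoints fun g : G => g⁻¹) =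
      Nat.card {t : G // orderOf t = 2} + 1 := by
    rw [natCard_subtype_eq, Fintype.card_subtype, ← Finset.card_insert_of_notMem (a := 1) (by simp)]
    congr 1
    ext g
    simp only [Finset.mem_filter, Finset.mem_univ, true_and, Finset.mem_insert,
      Function.mem_fixedPoints, Function.IsFixedPt, orderOf_two_iff]
    rw [inv_eq_iff_mul_eq_one]
    by_cases h : g = 1 <;> simp [h]
  rw [h2, ← Nat.card_eq_fintype_card] at h1
  rw [Nat.even_iff] at heven
  rw [Nat.odd_iff]
  unfold Nat.ModEq at h1
  omega

end Cfsg.Agent.S0226
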