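import Cfsg.Statements.S0229
import Cfsg.Agent.H11.Syl

set_option autoImplicit false
open Cfsg

namespace Cfsg.Agent.S0229

open Cfsg.Agent.H11



/-- Let t be an involution of a Sylow 2-subgroup S of a finite group G, conjugate in G to no other element of S, and let s be an involution of G not conjugate to t. Then the order of st is twice an odd number. -/
theorem result {G : Type*} [Group G] [Finite G] (S : Sylow 2 G) (t : G) (ht : orderOf t = 2) (htS : t ∈ S) (hiso : ∀ g : G, g * t * g⁻¹ ∈ S → g * t * g⁻¹ = t) (s : G) (hs : orderOf s = 2) (hns : ¬ IsConj s t) : orderOf (s * t) % 4 = 2 := by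
  haveI : Fact (Nat.Prime 2) := ⟨Nat.prime_two⟩
  have ht2 := mul_self_of_orderOf_two ht
  have hs2 := mul_self_of_orderOf_two hs
  have hord : orderOf (s * t) = orderOf (t * s) := by
    rw [← orderOf_conj t (s * t), inv_eq_of_orderOf_two ht, mul_assoc, mul_assoc, ht2, mul_one]
  rw [hord]
  obtain ⟨k, m, y, hm, hkm, -, hy, j, hj⟩ := exists_conj_two_part ht2 hs2
  have hys : IsConj y s := isConj_iff.2 ⟨_, hj⟩
  have hy2 : y * y = 1 := mul_self_of_orderOf_two ((orderOf_eq_of_isConj hys).trans hs)
  obtain ⟨c, hc⟩ := exists_conj_le_sylow S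
    (isPGroup_closure_pair (k := k) ht2 hy2 (by rw [← hy, pow_orderOf_eq_one]))
  have htm : t ∈ Subgroup.closure ({t, y} : Set G) := Subgroup.subset_closure (by simp)
  have hym : y ∈ Subgroup.closure ({t, y} : Set G) := Subgroup.subset_closure (by simp)
  have h1 := hiso c (hc t htm)
  have h2 := hiso (c * y) (by
    have := hc _ (Subgroup.mul_mem _ (Subgroup.mul_mem _ hym htm) (Subgroup.inv_mem _ hym))
    convert this using 1; group)
  have h3 : y * t * y⁻¹ = t := by
    have : c * (y * t * y⁻¹) * c⁻¹ = c * t * c⁻¹ := by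
      rw [h1]; refine Eq.trans ?_ h2; group
    simpa using this
  have h4 : orderOf (t * y) = 2 := by
    apply orderOf_two_of
    · intro h
      have : y = t := by rw [← inv_eq_of_orderOf_two ht]; exact eq_inv_of_mul_eq_one_right h
      exact hns (this ▸ hys.symm)
    · calc t * y * (t * y) = t * (y * t * y⁻¹) * (y * y) := by group
        _ = 1 := by rw [h3, ht2, hy2, one_mul]
  rw [hkm, ← hy, h4]
  obtain ⟨i, rfl⟩ := hm
  omega

end Cfsg.Agent.S0229
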