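import Cfsg.Statements.S0230
import Cfsg.Agent.H11.Count

set_option autoImplicit false
open Cfsg

namespace Cfsg.Agent.S0230

open Cfsg.Agent.H11



/-- Let G be a finite group with two non-conjugate involutions, and let t be an involution whose centralizer has maximal order among centralizers of involutions. Then |G| < |C_G(t)|^3. -/
theorem result {G : Type*} [Group G] [Finite G] (s t : G) (hs : orderOf s = 2) (ht : orderOf t = 2) (hnc : ¬ IsConj s t) (hmax : ∀ u : G, orderOf u = 2 → Nat.card (Subgroup.centralizer ({u} : Set G)) ≤ Nat.card (Subgroup.centralizer ({t} : Set G))) : Nat.card G < Nat.card (Subgroup.centralizer ({t} : Set G)) ^ 3 := by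
  classical
  haveI := Fintype.ofFinite G
  set c := Nat.card (Subgroup.centralizer ({t} : Set G)) with hc
  have hcpos : 0 < c := Nat.card_pos
  let Z : Finset G := Finset.univ.filter fun z => orderOf z = 2 ∧ Commute z t
  have hZ : Z.card + 1 ≤ c := by
    have := card_invol_commute_lt t
    rwa [natCard_subtype_eq] at this
  have h1 : Finset.univ.filter (fun y => IsConj s y) ⊆
      Z.biUnion fun z => Finset.univ.filter fun y => orderOf y = 2 ∧ Commute y z := by
    intro y hy
    have hsy : IsConj s y := by simpa using hy
    have hy2 : orderOf y = 2 := (orderOf_eq_of_isConj hsy).symm.trans hs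
    obtain ⟨z, -, hz, hzy, hzt⟩ := exists_invol_commute_of_not_isConj
      (mul_self_of_orderOf_two hy2) (mul_self_of_orderOf_two ht) (fun h => hnc (hsy.trans h))
    simp only [Z, Finset.mem_biUnion, Finset.mem_filter, Finset.mem_univ, true_and]
    exact ⟨z, ⟨hz, hzt⟩, hy2, hzy.symm⟩
  have h2 := (Finset.card_le_card h1).trans (Finset.card_biUnion_le_card_mul _ _ c (by
    intro z hz
    have hz2 : orderOf z = 2 := by simp only [Z, Finset.mem_filter] at hz; exact hz.2.1
    have h3 := card_invol_commute_lt z
    rw [natCard_subtype_eq] at h3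
    have := hmax z hz2
    omega))
  rw [← natCard_subtype_eq] at h2
  have h3 := card_isConj_mul s
  have h4 := hmax s hs
  calc Nat.card G ≤ Z.card * c * c := by rw [← h3]; exact Nat.mul_le_mul h2 h4
    _ < c * c * c := by gcongr; omega
    _ = c ^ 3 := by ring

end Cfsg.Agent.S0230
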