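import Cfsg.Statements.S0232
import Cfsg.Agent.H11.Klein
import Cfsg.Agent.S0233

set_option autoImplicit false
open Cfsg

namespace Cfsg.Agent.S0232

open Cfsg.Agent.H11

universe u

theorem aux (n : ℕ) : ∀ (G : Type u) [Group G] [Finite G], Nat.card G = n → Even (Nat.card G) →
    2 < Nat.card G → ∃ H : Subgroup G, H ≠ ⊤ ∧ Nat.card G < (Nat.card H) ^ 3 := by
  induction n using Nat.strong_induction_on with
  | _ n ih =>
  intro G _ _ hn heven hgt
  have hidx : ∀ H : Subgroup G, H.index = 2 → H ≠ ⊤ ∧ Nat.card G < (Nat.card H) ^ 3 := by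
    intro H hH
    refine ⟨fun h => by simp [h] at hH, ?_⟩
    have := H.card_mul_index
    rw [hH] at this
    have h2 : 2 ≤ Nat.card H := by omega
    rw [← this]; nlinarith [Nat.mul_le_mul h2 h2]
  by_cases hZ : Odd (Nat.card (Subgroup.center G))
  · obtain ⟨H, hH, h | h⟩ := Cfsg.Agent.S0233.result heven hZ
    · exact ⟨H, hidx H h⟩
    obtain ⟨t, ht⟩ := exists_invol_of_even' heven
    set c := Nat.card (Subgroup.centralizer ({t} : Set G)) with hc
    by_cases hbig : Nat.card G < c ^ 3
    · refine ⟨_, fun h => ?_, hbig⟩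
      refine odd_card_iff_no_invol.1 hZ t (Subgroup.mem_center_iff.2 fun g => ?_) ht
      exact mem_cent1.1 (h ▸ Subgroup.mem_top g)
    refine ⟨H, hH, ?_⟩
    set m := Nat.card {t : G // orderOf t = 2} with hm
    have h3 : Nat.card G ≤ m * c := by
      rw [← card_isConj_mul t]
      exact Nat.mul_le_mul_right _
        (natCard_le_of_imp fun x hx => (orderOf_eq_of_isConj hx).symm.trans ht)
    have h4 : 2 * H.index * m ^ 2 < (c * (c + 1)) * m ^ 2 :=
      h.trans_le (by nlinarith [Nat.mul_le_mul h3 (Nat.add_le_add_right h3 m)])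
    have h5 := Nat.lt_of_mul_lt_mul_right h4
    have hcpos : 0 < c := Nat.card_pos
    have h6 : H.index < c ^ 2 := by nlinarith
    have h7 : H.index ^ 3 < Nat.card G ^ 2 := by
      calc H.index ^ 3 < (c ^ 2) ^ 3 := Nat.pow_lt_pow_left h6 (by omega)
        _ = (c ^ 3) ^ 2 := by ring
        _ ≤ _ := Nat.pow_le_pow_left (by omega) _
    have h8 := H.card_mul_index
    by_contra hle
    have h9 : Nat.card H ^ 3 ≤ Nat.card G := by omega
    have : Nat.card G ^ 3 < Nat.card G * Nat.card G ^ 2 := by
      calc Nat.card G ^ 3 = Nat.card H ^ 3 * H.index ^ 3 := by rw [← h8]; ring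
        _ ≤ Nat.card G * H.index ^ 3 := Nat.mul_le_mul_right _ h9
        _ < _ := Nat.mul_lt_mul_of_pos_left h7 (by omega)
    exact absurd this (by rw [← pow_succ']; exact lt_irrefl _)
  · rw [Nat.not_odd_iff_even] at hZ
    obtain ⟨z, hz, hz2⟩ := exists_invol_of_even hZ
    by_cases h4 : 4 ∣ Nat.card G
    swap
    · obtain ⟨H, hH⟩ := exists_index_two_of_not_four_dvd heven h4
      exact ⟨H, hidx H hH⟩
    haveI : (Subgroup.zpowers z).Normal := by
      constructor
      intro n hn g
      have : n ∈ Subgroup.center G := (Subgroup.zpowers_le.2 hz) hn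
      rw [Subgroup.mem_center_iff.1 this g]; simpa using hn
    have hq := Subgroup.card_eq_card_quotient_mul_card_subgroup (Subgroup.zpowers z)
    rw [Nat.card_zpowers, hz2] at hq
    by_cases h4' : Nat.card G = 4
    · refine ⟨Subgroup.zpowers z, hidx _ ?_⟩
      rw [Subgroup.index_eq_card]; omega
    obtain ⟨H, hH, hlt⟩ := ih (Nat.card (G ⧸ Subgroup.zpowers z)) (by omega) _ rfl
      (by rw [Nat.even_iff]; omega) (by omega)
    refine ⟨H.comap (QuotientGroup.mk' _), ?_, ?_⟩
    · intro h
      apply hH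
      rw [← Subgroup.map_comap_eq_self_of_surjective (QuotientGroup.mk'_surjective _) H, h,
        Subgroup.map_top_of_surjective _ (QuotientGroup.mk'_surjective _)]
    · have h1 := (H.comap (QuotientGroup.mk' (Subgroup.zpowers z))).card_mul_index
      rw [Subgroup.index_comap_of_surjective _ (QuotientGroup.mk'_surjective _)] at h1
      have h2 := H.card_mul_index
      have h3 : 0 < H.index := Nat.pos_of_ne_zero Subgroup.index_ne_zero_of_finite
      have h5 : Nat.card (H.comap (QuotientGroup.mk' (Subgroup.zpowers z))) = 2 * Nat.card H :=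
        Nat.eq_of_mul_eq_mul_right h3 (by rw [h1, hq, ← h2]; ring)
      rw [h5, hq]; nlinarith

/-- A finite group G of even order greater than 2 has a proper subgroup H with |G| < |H|^3. -/
theorem result {G : Type*} [Group G] [Finite G] (heven : Even (Nat.card G)) (hgt : 2 < Nat.card G) : ∃ H : Subgroup G, H ≠ ⊤ ∧ Nat.card G < (Nat.card H) ^ 3 := by
  exact aux _ G rfl heven hgt

end Cfsg.Agent.S0232
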