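import Cfsg.Statements.S0234
import Cfsg.Agent.H11.Klein
import Cfsg.Agent.S0233

set_option autoImplicit false
open Cfsg

namespace Cfsg.Agent.S0234

open Cfsg.Agent.H11

theorem count : (Finset.univ.filter fun x : Equiv.Perm (Fin 5) =>
    x * x = 1 ∧ x ≠ 1 ∧ Equiv.Perm.sign x = 1).card ≤ 15 := by decide +kernel

/-- In a finite simple group G of even order greater than 2, the number n of involutions satisfies 3n < |G|. -/
theorem result {G : Type*} [Group G] [Finite G] [IsSimpleGroup G] (heven : Even (Nat.card G)) (hgt : 2 < Nat.card G) : 3 * Nat.card {t : G // orderOf t = 2} < Nat.card G := by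
  haveI : Fact (Nat.Prime 2) := ⟨Nat.prime_two⟩
  have h2 : Nat.card G ≠ 2 := by omega
  have hno := no_index_two_of_simple h2
  have hZ : Odd (Nat.card (Subgroup.center G)) :=
    odd_card_iff_no_invol.2 fun u hu hu2 => h2 (card_eq_two_of_simple_of_central hu2 hu)
  obtain ⟨H, hH, h | h⟩ := Cfsg.Agent.S0233.result heven hZ
  · exact absurd h (hno H)
  set n := Nat.card {t : G // orderOf t = 2} with hn
  by_contra hle
  have h3 : Nat.card G ≤ 3 * n := by omega
  have h4 : 2 * H.index * n ^ 2 < 12 * n ^ 2 :=
    h.trans_le (by nlinarith [Nat.mul_le_mul h3 (Nat.add_le_add_right h3 n)])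
  have h5 := Nat.lt_of_mul_lt_mul_right h4
  obtain ⟨f, hf⟩ := exists_perm_hom_of_simple hH (n := 5) (by omega)
  have hA := range_le_alternating hno f
  have hn15 : n ≤ 15 := by
    refine le_trans ?_ count
    rw [← natCard_subtype_eq]
    refine Nat.card_le_card_of_injective (fun t => ⟨f t.1, ?_, ?_, hA ⟨_, rfl⟩⟩) ?_
    · rw [← map_mul, mul_self_of_orderOf_two t.2, map_one]
    · exact fun h => ne_one_of_orderOf_two t.2 (hf (by rw [h, map_one]))
    · intro a b hab; exact Subtype.ext (hf (congrArg Subtype.val hab))
  have h60 : Nat.card G ∣ 60 := by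
    have h6 := Subgroup.card_dvd_of_le hA
    rw [← Nat.card_congr (MonoidHom.ofInjective hf).toEquiv] at h6
    have h7 := two_mul_nat_card_alternatingGroup (α := Fin 5)
    rw [Nat.card_perm, Nat.card_fin] at h7
    have h8 : Nat.card (alternatingGroup (Fin 5)) = 60 := by
      have : Nat.factorial 5 = 120 := by decide
      omega
    rwa [h8] at h6
  have h4d : 4 ∣ Nat.card G := by
    by_contra h4
    obtain ⟨K, hK⟩ := exists_index_two_of_not_four_dvd heven h4
    exact hno K hK
  have hcases : Nat.card G = 4 ∨ Nat.card G = 12 ∨ Nat.card G = 20 := by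
    have h45 : Nat.card G ≤ 45 := by omega
    generalize Nat.card G = g at h60 h4d h45
    interval_cases g <;> omega
  obtain ⟨K, hK⟩ := Sylow.exists_subgroup_card_pow_prime (G := G) 2 (n := 2) h4d
  have hKi := K.card_mul_index
  rw [hK] at hKi
  rcases hcases with hc | hc | hc
  · obtain ⟨L, hL⟩ := exists_index_eq_of_isPGroup (p := 2) (IsPGroup.of_card (n := 2) hc)
      (by omega)
    exact hno L hL
  · have hK3 : K.index = 3 := by omega
    have := card_dvd_factorial_of_simple (H := K) (fun h => by simp [h] at hK3)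
    rw [hK3, hc] at this
    exact absurd this (by decide)
  · haveI : Fact (Nat.Prime 5) := ⟨by norm_num⟩
    obtain ⟨L, hL⟩ := Sylow.exists_subgroup_card_pow_prime (G := G) 5 (n := 1) (by rw [hc]; decide)
    have hLi := L.card_mul_index
    rw [hL] at hLi
    have hL4 : L.index = 4 := by omega
    have := card_dvd_factorial_of_simple (H := L) (fun h => by simp [h] at hL4)
    rw [hL4, hc] at this
    exact absurd this (by decide)

end Cfsg.Agent.S0234
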