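import Cfsg.Statements.S0237
import Cfsg.Agent.H11.Invol

set_option autoImplicit false
open Cfsg

namespace Cfsg.Agent.S0237

open Cfsg.Agent.H11



/-- If x is real (conjugate to x⁻¹) in a finite group G, the number of g with g x g⁻¹ = x⁻¹ equals |C_G(x)|. -/
theorem result {G : Type*} [Group G] [Finite G] (x : G) (hreal : IsConj x x⁻¹) : Nat.card {g : G // g * x * g⁻¹ = x⁻¹} = Nat.card (Subgroup.centralizer ({x} : Set G)) := by
  obtain ⟨c, hc⟩ := isConj_iff.1 hreal
  symm
  refine Nat.card_congr ⟨fun h => ⟨c * h, ?_⟩, fun g => ⟨c⁻¹ * g, ?_⟩, ?_, ?_⟩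
  · have := mem_cent1.1 h.2
    rw [← hc, mul_assoc c, this]; group
  · rw [mem_cent1]
    have := g.2
    calc c⁻¹ * g * x = c⁻¹ * (g * x * (g : G)⁻¹) * g := by group
      _ = c⁻¹ * (c * x * c⁻¹) * g := by rw [this, hc]
      _ = _ := by group
  · intro h; ext; simp
  · intro h; ext; simp

end Cfsg.Agent.S0237
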