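import Cfsg.Statements.S0239
import Cfsg.Agent.H11.Invol

set_option autoImplicit false
open Cfsg

namespace Cfsg.Agent.S0239

open Cfsg.Agent.H11



/-- If some nontrivial element x of a finite group G is conjugate to x⁻¹, then |G| is even. -/
theorem result {G : Type*} [Group G] [Finite G] (x : G) (hx : x ≠ 1) (hreal : IsConj x x⁻¹) : Even (Nat.card G) := by
  by_contra hodd
  rw [Nat.not_even_iff_odd] at hodd
  obtain ⟨g, hg⟩ := isConj_iff.1 hreal
  have hox : ∀ y : G, Odd (orderOf y) := fun y => Odd.of_dvd_nat hodd (orderOf_dvd_natCard y)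
  obtain ⟨m, hm⟩ := exists_sq_eq_of_odd (hox g)
  have h2 : g ^ 2 * x * (g ^ 2)⁻¹ = x := by
    calc g ^ 2 * x * (g ^ 2)⁻¹ = g * (g * x * g⁻¹) * g⁻¹ := by rw [pow_two]; group
      _ = g * x⁻¹ * g⁻¹ := by rw [hg]
      _ = (g * x * g⁻¹)⁻¹ := by group
      _ = x := by rw [hg, inv_inv]
  have h3 : Commute (g ^ 2) x := by
    change g ^ 2 * x = x * g ^ 2
    calc g ^ 2 * x = g ^ 2 * x * (g ^ 2)⁻¹ * g ^ 2 := by group
      _ = _ := by rw [h2]
  have h4 : Commute g x := by
    have := h3.pow_left m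
    rwa [← pow_mul, mul_comm, pow_mul, hm] at this
  have h5 : x = x⁻¹ := by rw [← hg, h4.eq]; group
  apply hx
  apply eq_one_of_odd_of_sq (hox x)
  nth_rewrite 2 [h5]; group

end Cfsg.Agent.S0239
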