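import Cfsg.Statements.S0240
import Cfsg.Agent.H11.Count

set_option autoImplicit false
open Cfsg

namespace Cfsg.Agent.S0240

open Cfsg.Agent.H11



/-- Let G be a finite group with n involutions and H a subgroup with |H|·(n+1) > |G|. Then some nontrivial h ∈ H is strongly real in G: an involution t of G satisfies t h t⁻¹ = h⁻¹. -/
theorem result {G : Type*} [Group G] [Finite G] (H : Subgroup G) (hH : Nat.card G < Nat.card H * (Nat.card {t : G // orderOf t = 2} + 1)) : ∃ h : G, h ∈ H ∧ h ≠ 1 ∧ ∃ t : G, orderOf t = 2 ∧ t * h * t⁻¹ = h⁻¹ := by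
  classical
  haveI := Fintype.ofFinite G
  by_contra hcon
  push Not at hcon
  let I : Finset G := Finset.univ.filter fun t => t * t = 1
  have hI : I.card = Nat.card {t : G // orderOf t = 2} + 1 := by
    rw [natCard_subtype_eq, ← Finset.card_insert_of_notMem (a := 1) (by simp)]
    congr 1
    ext g
    simp only [I, Finset.mem_filter, Finset.mem_univ, true_and, Finset.mem_insert, orderOf_two_iff]
    by_cases h : g = 1 <;> simp [h]
  have hinj : Set.InjOn (fun t : G => (t : G ⧸ H)) I := by
    intro a ha b hb hab
    have ha2 : a * a = 1 := by simpa [I] using ha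
    have hb2 : b * b = 1 := by simpa [I] using hb
    have hm : a⁻¹ * b ∈ H := QuotientGroup.eq.1 hab
    rw [inv_eq_of_mul_eq_one_right ha2] at hm
    by_contra hne
    have hab1 : a * b ≠ 1 := fun h => hne (by
      rw [← inv_eq_of_mul_eq_one_right hb2]; exact eq_inv_of_mul_eq_one_left h)
    by_cases ha1 : a = 1
    · subst ha1
      rw [one_mul] at hab1 hm
      exact hcon b hm hab1 b (orderOf_two_of hab1 hb2) (by
        rw [inv_eq_of_mul_eq_one_right hb2, hb2, one_mul])
    · exact hcon _ hm hab1 a (orderOf_two_of ha1 ha2) (invol_inverts_left ha2 hb2)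
  have hle : I.card ≤ H.index := by
    rw [Subgroup.index_eq_card, Nat.card_eq_fintype_card, ← Finset.card_univ]
    exact Finset.card_le_card_of_injOn _ (fun _ _ => Finset.mem_univ _) hinj
  rw [← hI, ← H.card_mul_index] at hH
  exact not_lt_of_ge (Nat.mul_le_mul_left _ hle) hH

end Cfsg.Agent.S0240
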