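import Cfsg.Statements.S0241
import Cfsg.Agent.H11.Count

set_option autoImplicit false
open Cfsg

namespace Cfsg.Agent.S0241

open Cfsg.Agent.H11



/-- If x ≠ 1 is conjugate to x⁻¹ in a finite group G and |C_G(x)| is odd, then some involution t satisfies t x t⁻¹ = x⁻¹. -/
theorem result {G : Type*} [Group G] [Finite G] (x : G) (hx : x ≠ 1) (hreal : IsConj x x⁻¹) (hodd : Odd (Nat.card (Subgroup.centralizer ({x} : Set G)))) : ∃ t : G, orderOf t = 2 ∧ t * x * t⁻¹ = x⁻¹ := by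
  obtain ⟨g, hg⟩ := isConj_iff.1 hreal
  have hxo : Odd (orderOf x) := odd_orderOf_of_odd_card hodd (mem_cent1.2 rfl)
  have h2 : g ^ 2 ∈ Subgroup.centralizer ({x} : Set G) := by
    rw [mem_cent1, ← mul_inv_eq_iff_eq_mul]
    calc g ^ 2 * x * (g ^ 2)⁻¹ = g * (g * x * g⁻¹) * g⁻¹ := by rw [pow_two]; group
      _ = g * x⁻¹ * g⁻¹ := by rw [hg]
      _ = (g * x * g⁻¹)⁻¹ := by group
      _ = x := by rw [hg, inv_inv]
  obtain ⟨m, hm⟩ := odd_orderOf_of_odd_card hodd h2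
  have h3 : (g ^ 2) ^ m * x = x * (g ^ 2) ^ m := mem_cent1.1 (Subgroup.pow_mem _ h2 m)
  have h4 : g * (g ^ 2) ^ m * x * (g * (g ^ 2) ^ m)⁻¹ = x⁻¹ := by
    rw [mul_assoc g, h3, ← hg]; group
  refine ⟨g * (g ^ 2) ^ m, orderOf_two_of ?_ ?_, h4⟩
  · intro h1
    rw [h1] at h4
    apply hx
    apply eq_one_of_odd_of_sq hxo
    have : x = x⁻¹ := by simpa using h4
    nth_rewrite 2 [this]; group
  · have := pow_orderOf_eq_one (g ^ 2)
    rw [hm] at this
    rw [← this]; group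

end Cfsg.Agent.S0241
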