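import Cfsg.Statements.S0257
import Cfsg.Agent.H26.Q8C3
import Cfsg.Agent.H12.Transport
import Cfsg.Agent.H12.Lin

set_option autoImplicit false
open Cfsg

namespace Cfsg.Agent.S0257

theorem inj : Function.Injective H26.slHom := by decide +kernel

theorem norm : ∀ a g, ∃ b, H26.slHom b = g * H26.slHom a * g⁻¹ := by decide +kernel

/-- SL_2(3) has a normal subgroup of index 3 isomorphic to the quaternion group of order 8, and its centre has order 2. -/
theorem result {F : Type*} [Field F] [Fintype F] (hF : Fintype.card F = 3) : (∃ Q : Subgroup (Matrix.SpecialLinearGroup (Fin 2) F), Q.Normal ∧ Q.index = 3 ∧ Nonempty (Q ≃* QuaternionGroup 2)) ∧ Nat.card (Subgroup.center (Matrix.SpecialLinearGroup (Fin 2) F)) = 2 := by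
  obtain ⟨σ⟩ := H12.nonempty_ringEquiv_zmod (p := 3) hF
  let e := (H12.slCongr (Fin 2) σ).symm
  let f := e.toMonoidHom.comp H26.slHom
  have hf : Function.Injective f := e.injective.comp inj
  refine ⟨⟨f.range, ⟨?_⟩, ?_, ⟨(MonoidHom.ofInjective hf).symm⟩⟩, ?_⟩
  · rintro _ ⟨a, rfl⟩ g
    obtain ⟨g, rfl⟩ := e.surjective g
    obtain ⟨b, hb⟩ := norm a g
    exact ⟨b, by simp [f, hb]⟩
  · have h1 := f.range.card_mul_index
    rw [H12.card_SL2 hF, ← Nat.card_congr (MonoidHom.ofInjective hf).toEquiv, Nat.card_eq_fintype_card,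
      QuaternionGroup.card] at h1
    omega
  · rw [H12.card_center_SL, Nat.card_eq_fintype_card, hF]; rfl

end Cfsg.Agent.S0257
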