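import Cfsg.Statements.S0259
import Cfsg.Agent.H12.Root2

set_option autoImplicit false
open Cfsg

namespace Cfsg.Agent.S0259

/-- Distinct Sylow p-subgroups of GL_2(q), p the characteristic, intersect trivially. -/
theorem result {F : Type*} [Field F] [Fintype F] (p : ℕ) [Fact p.Prime] [CharP F p] (P Q : Sylow p (Matrix.GeneralLinearGroup (Fin 2) F)) (h : P ≠ Q) : (P : Subgroup (Matrix.GeneralLinearGroup (Fin 2) F)) ⊓ (Q : Subgroup (Matrix.GeneralLinearGroup (Fin 2) F)) = ⊥ := by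
  obtain ⟨x, rfl⟩ := (H12.rootSylowGL_bijective p).2 P
  obtain ⟨y, rfl⟩ := (H12.rootSylowGL_bijective p).2 Q
  exact H12.rootGL_inf_eq_bot (fun e => h (by rw [e]))

end Cfsg.Agent.S0259
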