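import Cfsg.Statements.S0262
import Cfsg.Agent.H12.DicksonSL

set_option autoImplicit false
open Cfsg

namespace Cfsg.Agent.S0262

/-- For an odd prime r different from the characteristic, the Sylow r-subgroups of SL_2(q) are cyclic. -/
theorem result {F : Type*} [Field F] [Fintype F] (p : ℕ) [Fact p.Prime] [CharP F p] (r : ℕ) [Fact r.Prime] (hr : r ≠ 2) (hrp : r ≠ p) (R : Sylow r (Matrix.SpecialLinearGroup (Fin 2) F)) : IsCyclic (R : Subgroup (Matrix.SpecialLinearGroup (Fin 2) F)) := by
  obtain ⟨k, hk⟩ := IsPGroup.iff_card.1 R.isPGroup'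
  have hodd : Odd (r ^ k) := ((Fact.out : r.Prime).odd_of_ne_two hr).pow
  let f := Matrix.SpecialLinearGroup.toPGL.comp (R : Subgroup (Matrix.SpecialLinearGroup (Fin 2) F)).subtype
  have hf : Function.Injective f := by
    rw [injective_iff_map_eq_one]
    intro g hg
    have h1 : g ^ r ^ k = 1 := hk ▸ pow_card_eq_one'
    rcases H12.sl2_toPGL_eq_iff.1 (hg.trans (map_one Matrix.SpecialLinearGroup.toPGL).symm) with h | h
    · exact Subtype.ext h
    · have h2 := congrArg Subtype.val h1
      have h3 : (g : Matrix.SpecialLinearGroup (Fin 2) F) = -1 := h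
      rw [Subgroup.coe_pow, h3, hodd.neg_one_pow] at h2
      exact Subtype.ext (h3.trans h2)
  let e := MonoidHom.ofInjective hf
  have hc : Nat.card f.range = r ^ k := by rw [← Nat.card_congr e.toEquiv, hk]
  have := H12.isCyclic_of_odd_pgl2 p f.range (hc ▸ hodd) (fun h => hrp
    ((Nat.prime_dvd_prime_iff_eq Fact.out Fact.out).1 ((Fact.out : p.Prime).dvd_of_dvd_pow (hc ▸ h))).symm)
  exact isCyclic_of_surjective e.symm e.symm.surjective

end Cfsg.Agent.S0262
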