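import Cfsg.Statements.S0263
import Cfsg.Agent.H12.Root2

set_option autoImplicit false
open Cfsg

namespace Cfsg.Agent.S0263

theorem prod_eq (q n : ℕ) : ∏ i : Fin n, (q ^ n - q ^ (i : ℕ)) =
    q ^ (n * (n - 1) / 2) * ∏ i : Fin n, (q ^ (n - i) - 1) := by
  rw [← Finset.sum_range_id, ← Finset.prod_pow_eq_pow_sum, Finset.prod_range, ← Finset.prod_mul_distrib]
  refine Finset.prod_congr rfl fun i _ => ?_
  rw [Nat.mul_sub_one, ← pow_add]
  congr 2
  omega

/-- A Sylow p-subgroup of GL_n(q), p the characteristic, has order q^(n(n-1)/2). -/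
theorem result {F : Type*} [Field F] [Fintype F] {q : ℕ} (hF : Fintype.card F = q) (p : ℕ) [Fact p.Prime] [CharP F p] (n : ℕ) (P : Sylow p (Matrix.GeneralLinearGroup (Fin n) F)) : Nat.card P = q ^ (n * (n - 1) / 2) := by
  obtain ⟨k, hp, hk⟩ := FiniteField.card F p
  rw [Sylow.card_eq_multiplicity, H12.card_GL_fin hF, prod_eq, ← hF]
  have h : ¬ p ∣ ∏ i : Fin n, (Fintype.card F ^ (n - i) - 1) := by
    rw [hp.prime.dvd_finsetProd_iff]
    rintro ⟨i, -, hi⟩
    exact H12.not_char_dvd_pow_sub_one p (by omega) hi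
  have h0 : ∏ i : Fin n, (Fintype.card F ^ (n - i) - 1) ≠ 0 := by
    intro h0; rw [h0] at h; exact h (dvd_zero p)
  rw [Nat.factorization_mul (pow_ne_zero _ Fintype.card_ne_zero) h0, Finsupp.add_apply,
    Nat.factorization_eq_zero_of_not_dvd h, hk, ← pow_mul, hp.factorization_pow]
  simp

end Cfsg.Agent.S0263
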