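import Cfsg.Statements.S0267
import Cfsg.Agent.H12.P1

set_option autoImplicit false
open Cfsg

namespace Cfsg.Agent.S0267

/-- SL_2(q) is 3-transitive on the q+1 points of the projective line if and only if q is even. -/
theorem result {F : Type*} [Field F] [Fintype F] : MulAction.IsMultiplyPretransitive (Matrix.SpecialLinearGroup (Fin 2) F) (Projectivization F (Fin 2 → F)) 3 ↔ ringChar F = 2 := by
  rw [H12.isMultiplyPretransitive_three_iff]
  constructor
  · intro h
    by_contra h2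
    obtain ⟨a, ha⟩ := FiniteField.exists_nonsquare (F := F) h2
    have ha0 : a ≠ 0 := by rintro rfl; exact ha ⟨0, by simp⟩
    obtain ⟨g, h1, h2, h3⟩ := h (H12.inf F) (H12.aff 0) (H12.aff 1) (H12.inf F) (H12.aff 0) (H12.aff a)
      (H12.inf_ne_aff _) (H12.inf_ne_aff _) (by simp) (H12.inf_ne_aff _) (H12.inf_ne_aff _)
      (by simpa using ha0.symm)
    rw [← H12.toGL_smul_proj] at h1 h2 h3
    rw [H12.gl_smul_inf_eq_inf_iff] at h1
    rw [H12.gl_smul_aff_eq_aff_iff] at h2 h3
    have hd := H12.sl2_det g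
    change g 1 0 = 0 at h1
    change g 0 0 * 0 + g 0 1 = 0 * (g 1 0 * 0 + g 1 1) at h2
    change g 0 0 * 1 + g 0 1 = a * (g 1 0 * 1 + g 1 1) at h3
    apply ha
    refine ⟨g 0 0, ?_⟩
    have hb : g 0 1 = 0 := by linear_combination h2
    rw [h1, hb] at h3 hd
    linear_combination (-(g 0 0)) * h3 - a * hd
  · intro h2 x y z x' y' z' h1 h3 h4 h5 h6 h7
    obtain ⟨g, e1, e2, e3⟩ := H12.exists_pgl_triple h1 h3 h4 h5 h6 h7
    have hsurj : Function.Surjective (Matrix.ProjectiveSpecialLinearGroup.toPGL :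
        Matrix.ProjectiveSpecialLinearGroup (Fin 2) F →* Matrix.ProjGenLinGroup (Fin 2) F) := by
      apply Matrix.ProjectiveSpecialLinearGroup.toPGL_surj_of_roots
      intro r
      obtain ⟨s, hs⟩ := FiniteField.isSquare_of_char_two h2 (r : F)
      have hs0 : s ≠ 0 := by rintro rfl; simp at hs
      exact ⟨Units.mk0 s hs0, Units.ext (by simp [hs, sq])⟩
    obtain ⟨g, rfl⟩ := hsurj g
    obtain ⟨g, rfl⟩ := QuotientGroup.mk_surjective g
    rw [H12.toPGL_smul_proj] at e1 e2 e3
    exact ⟨g, e1, e2, e3⟩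

end Cfsg.Agent.S0267
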