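import Cfsg.Statements.S0268
import Cfsg.Agent.H12.P1

set_option autoImplicit false
open Cfsg

namespace Cfsg.Agent.S0268

/-- For q odd, -1 is the unique involution of SL_2(q). -/
theorem result {F : Type*} [Field F] [Fintype F] (hF : Odd (Fintype.card F)) (g : Matrix.SpecialLinearGroup (Fin 2) F) (h1 : g ≠ 1) (h2 : g * g = 1) : (g : Matrix (Fin 2) (Fin 2) F) = -1 := by
  have hd := H12.sl2_det g
  have h := congrArg (fun x : Matrix.SpecialLinearGroup (Fin 2) F => (x : Matrix (Fin 2) (Fin 2) F)) h2
  have h00 := congrFun (congrFun h 0) 0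
  have h01 := congrFun (congrFun h 0) 1
  have h10 := congrFun (congrFun h 1) 0
  have h11 := congrFun (congrFun h 1) 1
  simp [Matrix.mul_apply, Fin.sum_univ_two] at h00 h01 h10 h11
  have h2' : (2 : F) ≠ 0 := by
    intro h2
    have := FiniteField.even_card_of_char_two (F := F) (by
      have : CharP F 2 := CharTwo.of_one_ne_zero_of_two_eq_zero one_ne_zero h2
      exact ringChar.eq F 2)
    rw [Nat.odd_iff] at hF; omega
  have ht : g 0 0 + g 1 1 ≠ 0 := by
    intro ht
    apply h2'
    linear_combination -h00 - hd + (g 0 0) * ht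
  have hb : g 0 1 = 0 := by
    apply mul_left_cancel₀ ht; linear_combination h01
  have hc : g 1 0 = 0 := by
    apply mul_left_cancel₀ ht; linear_combination h10
  have had : g 1 1 = g 0 0 := by
    apply mul_left_cancel₀ ht; linear_combination h11 - h00
  have ha : (g 0 0 - 1) * (g 0 0 + 1) = 0 := by
    linear_combination h00 - (g 1 0) * hb
  rcases mul_eq_zero.1 ha with ha | ha
  · exfalso; apply h1
    have ha' : g 0 0 = 1 := by linear_combination ha
    ext i j; fin_cases i <;> fin_cases j <;> simp [hb, hc, had, ha']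
  · have ha' : g 0 0 = -1 := by linear_combination ha
    ext i j; fin_cases i <;> fin_cases j <;> simp [hb, hc, had, ha']

end Cfsg.Agent.S0268
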