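import Cfsg.Statements.S0272
import Cfsg.Agent.H12.Root2

set_option autoImplicit false
open Cfsg

namespace Cfsg.Agent.S0272

/-- The normaliser in GL_2(q) of a Sylow p-subgroup, p the characteristic, has order q (q-1)^2. -/
theorem result {F : Type*} [Field F] [Fintype F] {q : ℕ} (hF : Fintype.card F = q) (p : ℕ) [Fact p.Prime] [CharP F p] (P : Sylow p (Matrix.GeneralLinearGroup (Fin 2) F)) : Nat.card (Subgroup.normalizer ((P : Subgroup (Matrix.GeneralLinearGroup (Fin 2) F)) : Set (Matrix.GeneralLinearGroup (Fin 2) F))) = q * (q - 1) ^ 2 := by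
  have h1 := Subgroup.card_mul_index (Subgroup.normalizer ((P : Subgroup (Matrix.GeneralLinearGroup (Fin 2) F)) : Set (Matrix.GeneralLinearGroup (Fin 2) F)))
  have h2 := Sylow.card_eq_index_normalizer P
  rw [H12.card_sylow_GL2, Nat.card_eq_fintype_card, hF] at h2
  erw [← h2, H12.card_GL2 hF] at h1
  apply Nat.eq_of_mul_eq_mul_right (show 0 < q + 1 by omega)
  rw [h1]
  have hq : 1 ≤ q := hF ▸ Fintype.card_pos
  obtain ⟨r, rfl⟩ : ∃ r, q = r + 1 := ⟨q - 1, by omega⟩
  have : (r + 1) ^ 2 - 1 = r * (r + 2) := by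
    apply Nat.sub_eq_of_eq_add; ring
  rw [this]; simp; ring

end Cfsg.Agent.S0272
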