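import Cfsg.Statements.S0273
import Cfsg.Agent.H12.Root2

set_option autoImplicit false
open Cfsg

namespace Cfsg.Agent.S0273

open Matrix MulAction in
theorem aux {F : Type*} [Field F] [Fintype F] (b : F) (hb : b ≠ 0) :
    Nat.card (Subgroup.centralizer ({Matrix.SpecialLinearGroup.toGL (H12.upper b)} :
      Set (GL (Fin 2) F))) = Nat.card (F × Fˣ) := by
  symm
  refine Nat.card_eq_of_bijective (fun x => ⟨H12.mkGL2 x.2 x.1 0 x.2 (by simp), ?_⟩) ⟨?_, ?_⟩
  · rw [Subgroup.mem_centralizer_singleton_iff]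
    apply Units.ext
    ext i j; fin_cases i <;> fin_cases j <;> simp [Matrix.mul_apply, Fin.sum_univ_two]
    ring
  · rintro ⟨x1, x2⟩ ⟨y1, y2⟩ h
    have h1 := congrArg (fun g => (g.1 : Matrix (Fin 2) (Fin 2) F) 0 0) h
    have h2 := congrArg (fun g => (g.1 : Matrix (Fin 2) (Fin 2) F) 0 1) h
    simp at h1 h2
    simp [h2, Units.ext_iff, h1]
  · rintro ⟨g, hg⟩
    have hg' := hg
    rw [Subgroup.mem_centralizer_singleton_iff] at hg'
    have h := congrArg (fun g : GL (Fin 2) F => (g : Matrix (Fin 2) (Fin 2) F)) hg'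
    have h00 := congrFun (congrFun h 0) 0
    have h01 := congrFun (congrFun h 0) 1
    simp [Matrix.mul_apply, Fin.sum_univ_two, hb] at h00 h01
    have hd := H12.gl2_det_ne_zero g
    have h11 : g 1 1 = g 0 0 := by
      apply mul_left_cancel₀ hb; linear_combination -h01
    rw [h00] at hd
    have ha : g 0 0 ≠ 0 := by intro h; simp [h] at hd
    refine ⟨(g 0 1, Units.mk0 _ ha), Subtype.ext (Units.ext ?_)⟩
    ext i j; fin_cases i <;> fin_cases j <;> simp [h00, h11]

/-- In GL_2(q) the centraliser of a non-trivial element of a Sylow p-subgroup (p the characteristic) has order q (q-1): the Sylow subgroup times the scalars. -/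
theorem result {F : Type*} [Field F] [Fintype F] {q : ℕ} (hF : Fintype.card F = q) (p : ℕ) [Fact p.Prime] [CharP F p] (P : Sylow p (Matrix.GeneralLinearGroup (Fin 2) F)) (a : Matrix.GeneralLinearGroup (Fin 2) F) (ha : a ∈ P) (ha1 : a ≠ 1) : Nat.card (Subgroup.centralizer ({a} : Set (Matrix.GeneralLinearGroup (Fin 2) F))) = q * (q - 1) := by
  obtain ⟨x, hx⟩ := H12.sylow_GL2_eq_rootGL p P
  obtain ⟨k, rfl⟩ := H12.exists_gl_point x
  have h1 : a ∈ H12.rootGL (k • H12.inf F) := hx ▸ ha
  obtain ⟨u, hu, hu2⟩ := H12.mem_rootGL_smul.1 h1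
  obtain ⟨b, rfl⟩ := H12.mem_rootSL_inf.1 hu
  have hb : b ≠ 0 := by
    rintro rfl
    apply ha1
    rw [H12.upper_zero, map_one] at hu2
    simpa [mul_eq_one_iff_eq_inv] using hu2.symm
  have h2 := aux b hb
  rw [Nat.card_prod, H12.card_units_of_card hF, Nat.card_eq_fintype_card (α := F), hF, hu2] at h2
  rw [← h2]
  refine Nat.card_congr (Equiv.subtypeEquiv (MulAut.conj k⁻¹).toEquiv fun g => ?_)
  simp only [Subgroup.mem_centralizer_singleton_iff, MulEquiv.toEquiv_eq_coe, EquivLike.coe_coe,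
    MulAut.conj_apply, inv_inv, mul_assoc, mul_inv_cancel_left, mul_right_inj]
  rw [← mul_assoc, ← mul_assoc, mul_left_inj]

end Cfsg.Agent.S0273
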