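import Cfsg.Statements.S0275
import Cfsg.Agent.H12.DicksonSL

set_option autoImplicit false
open Cfsg

namespace Cfsg.Agent.S0275

/-- If p is odd and H is a subgroup of SL_2(q), q a power of p, with more than one Sylow p-subgroup, then the Sylow 2-subgroups of H are generalised quaternion. -/
theorem result {F : Type*} [Field F] [Fintype F] (p : ℕ) [Fact p.Prime] [CharP F p] (hp : p ≠ 2) (H : Subgroup (Matrix.SpecialLinearGroup (Fin 2) F)) (hH : 1 < Nat.card (Sylow p H)) (S : Sylow 2 H) : ∃ k : ℕ, 1 ≤ k ∧ Nonempty ((S : Subgroup H) ≃* QuaternionGroup (2 ^ k)) := by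
  obtain ⟨x, y, hxy, hx, hy⟩ := H12.exists_two_points_of_sylow p hH
  obtain ⟨f, hf, h⟩ := H12.exists_sl2_prime_le p hp hxy hx hy
  refine (H12.isCyclic_or_quaternion_sl2 (H12.two_ne_zero_of_char_ne p hp)
    (H.subtype.comp (S : Subgroup H).subtype)
    (H.subtype_injective.comp (Subgroup.subtype_injective _)) S.isPGroup').resolve_left fun hS => ?_
  obtain ⟨P⟩ : Nonempty (Sylow 2 (Matrix.SpecialLinearGroup (Fin 2) (ZMod p))) := inferInstance
  refine H12.not_isCyclic_sylow_two_sl2 (by
    rw [ZMod.card]; exact (Fact.out : p.Prime).odd_of_ne_two hp) P ?_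
  let g : Matrix.SpecialLinearGroup (Fin 2) (ZMod p) →* H := f.codRestrict H fun x => h ⟨x, rfl⟩
  have hg : Function.Injective g := fun a b e => hf (congrArg Subtype.val e)
  obtain ⟨Q, hQ⟩ := (P.isPGroup'.map g).exists_le_sylow
  have : IsCyclic Q := isCyclic_of_surjective _ (Sylow.equiv S Q).surjective
  have := Subgroup.isCyclic_of_le hQ
  let e := (P : Subgroup _).equivMapOfInjective g hg
  exact isCyclic_of_surjective e.symm e.symm.surjective

end Cfsg.Agent.S0275
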