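import Cfsg.Statements.S0284
import Cfsg.Agent.H12.SBridge

set_option autoImplicit false
open Cfsg

namespace Cfsg.Agent.S0284

/-- The standard Hermitian form on F^n, |F| = q^2, has exactly q^(n-1) (q^n - (-1)^n) vectors of norm 1. -/
theorem result {F : Type*} [Field F] [Fintype F] {q : ℕ} (hF : Fintype.card F = q ^ 2) (n : ℕ) : Nat.card {v : Fin n → F // Cfsg.hermForm n F q v v = 1} = (if Even n then q ^ (n - 1) * (q ^ n - 1) else q ^ (n - 1) * (q ^ n + 1)) := by
    have D := H12.sd_uB hF n
    have h2 := H12.two_le_of_card_eq_sq hF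
    have hq : q ≠ 0 := by omega
    rcases n with _ | n
    · have : IsEmpty {v : Fin 0 → F // Cfsg.hermForm 0 F q v v = 1} :=
        ⟨fun v => by simpa [Cfsg.hermForm] using v.2⟩
      simp
    have hw : Cfsg.hermForm (n + 1) F q (Pi.single 0 1) (Pi.single 0 1) = 1 := by
      simp [Cfsg.hermForm, Pi.single_apply, hq]
    have hw' : H12.uB hF (n + 1) (Pi.single 0 1) (Pi.single 0 1) ≠ 0 := by
      rw [Ne, H12.uB_eq_zero, hw]; exact one_ne_zero
    have h1 := D.card_UG_aniso hw'
    have h3 := D.finrank_sperp (F ∙ (Pi.single 0 1 : Fin (n + 1) → F))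
    rw [finrank_span_singleton (by simp), Module.finrank_fin_fun, Nat.add_right_cancel_iff] at h3
    rw [D.card_UG_unitary (H12.frobq_ne_id hF),
      (D.restrict (D.disjoint_sperp (D.disjoint_span_singleton hw'))).card_UG_unitary
        (H12.frobq_ne_id hF), H12.q0_frobq, h3, Module.finrank_fin_fun] at h1
    have h4 : Nat.card {x // H12.uB hF (n + 1) x x = H12.uB hF (n + 1) (Pi.single 0 1) (Pi.single 0 1)} =
        Nat.card {v : Fin (n + 1) → F // Cfsg.hermForm (n + 1) F q v v = 1} :=
      Nat.card_congr (Equiv.subtypeEquivRight fun v => by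
        rw [H12.uB_apply, H12.uB_apply, hw, mul_right_inj' (H12.skw_ne hF)])
    rw [h4] at h1
    have h5 : 0 < H12.guOrd q n := by
      rw [← H12.card_GU hF]; exact Nat.card_pos
    refine Nat.eq_of_mul_eq_mul_right h5 ?_
    rw [← h1, H12.guOrd, H12.guOrd, Finset.prod_range_succ, Nat.triangle_succ]
    by_cases h : Even n <;> simp [h, Nat.even_add_one] <;> ring

end Cfsg.Agent.S0284
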