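import Cfsg.Statements.S0298
import Cfsg.Agent.H13.Low4

set_option autoImplicit false
open Cfsg

namespace Cfsg.Agent.S0298

/-- PΩ_3(q) is isomorphic to PSL_2(q) for q odd. -/
theorem result {F : Type*} [Field F] [Fintype F] (hodd : Odd (Fintype.card F)) : Nonempty (Cfsg.POmega F (Cfsg.quadFormOdd 1 F) ≃* Matrix.ProjectiveSpecialLinearGroup (Fin 2) F) := by
  have h2 : (2 : F) ≠ 0 := H13.two_ne_zero_of_odd_card hodd
  obtain ⟨s⟩ := (H13.nd_QOdd (m := 1) h2).nonempty_semiSim_odd (H13.nd_symS h2) (m := 1)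
    (by simp) H13.finrank_symS
  obtain ⟨e⟩ := H13.nonempty_equiv_POm_symS h2
  exact ⟨(H13.pomegaEquiv (H13.QOdd 1 F)).trans (s.pomEquiv.trans e)⟩

end Cfsg.Agent.S0298
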