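import Cfsg.Statements.S0299
import Cfsg.Agent.H13.Low4

set_option autoImplicit false
open Cfsg

namespace Cfsg.Agent.S0299

/-- PΩ^+_4(q) is isomorphic to PSL_2(q) x PSL_2(q) for q at least 3. -/
theorem result {F : Type*} [Field F] [Fintype F] (hF : 3 ≤ Fintype.card F) : Nonempty (Cfsg.POmega F (Cfsg.quadFormPlus 2 F) ≃* Matrix.ProjectiveSpecialLinearGroup (Fin 2) F × Matrix.ProjectiveSpecialLinearGroup (Fin 2) F) := by
  obtain ⟨s⟩ := (H13.nd_QPlus (m := 2) (F := F)).nonempty_semiSim_even H13.nd_detQ (m := 2)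
    (by simp) H13.finrank_M2 (iff_of_true (H13.isPlus_QPlus 2) H13.isPlus_detQ)
  obtain ⟨e⟩ := H13.nonempty_equiv_POm_detQ hF
  exact ⟨(H13.pomegaEquiv (H13.QPlus 2 F)).trans (s.pomEquiv.trans e)⟩

end Cfsg.Agent.S0299
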