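import Cfsg.Statements.S0306
import Cfsg.Agent.H13.Dih

set_option autoImplicit false
open Cfsg

namespace Cfsg.Agent.S0306

/-- GO^-_2(q) is dihedral of order 2(q+1). -/
theorem result {F : Type*} [Field F] [Fintype F] {q : ℕ} (hF : Fintype.card F = q) (a b : F) (hab : ∀ z₁ z₂ : F, z₁ ^ 2 + a * z₁ * z₂ + b * z₂ ^ 2 = 0 → z₁ = 0 ∧ z₂ = 0) : Nonempty (Cfsg.isometryGroup F (Cfsg.quadFormMinus 0 F a b) ≃* DihedralGroup (q + 1)) := by
  subst hF
  obtain ⟨e⟩ := (H13.nd_QMinus (m := 0) hab).dihedral_minus (H13.not_isPlus_QMinus hab) (by simp)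
  rw [Nat.card_eq_fintype_card] at e
  exact ⟨(H13.toOG (H13.QMinus 0 F a b)).trans e⟩

end Cfsg.Agent.S0306
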