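import Cfsg.Statements.S0314
import Cfsg.Agent.H15.BN

set_option autoImplicit false
open Cfsg

namespace Cfsg.Agent.S0314

/-- Distinct sets of distinguished generators give distinct standard parabolic subgroups. -/
theorem result {G : Type*} [Group G] (P : Cfsg.BNPair G) {J K : Set G}
    (hJ : J ⊆ P.S) (hK : K ⊆ P.S) (h : P.parabolic J = P.parabolic K) : J = K := by
  rw [H15.BN.parabolic_eq_parG hJ, H15.BN.parabolic_eq_parG hK] at h
  have := H15.BN.parG_inj h
  ext s
  constructor
  · intro hs
    have h1 : (⟨s, hJ hs⟩ : P.S) ∈ Subtype.val ⁻¹' J := hs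
    rw [this] at h1
    exact h1
  · intro hs
    have h1 : (⟨s, hK hs⟩ : P.S) ∈ Subtype.val ⁻¹' K := hs
    rw [← this] at h1
    exact h1

end Cfsg.Agent.S0314
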