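import Cfsg.Statements.S0316
import Cfsg.Agent.H15.BN

set_option autoImplicit false
open Cfsg

namespace Cfsg.Agent.S0316

/-- The map `J ↦ P_J` is a lattice isomorphism from the power set of the set of distinguished generators onto the
subgroups containing `B`. -/
theorem result {G : Type*} [Group G] (P : Cfsg.BNPair G) :
    ∃ e : Set P.S ≃o {M : Subgroup G // P.B ≤ M},
      ∀ J : Set P.S, ((e J : {M : Subgroup G // P.B ≤ M}) : Subgroup G) = P.parabolic (Subtype.val '' J) := by
  let f : Set P.S → {M : Subgroup G // P.B ≤ M} := fun J => ⟨H15.BN.parG P J, H15.BN.B_le_parG J⟩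
  have hf : Function.Bijective f := by
    constructor
    · intro J K h
      exact H15.BN.parG_inj (congrArg Subtype.val h)
    · rintro ⟨M, hM⟩
      exact ⟨_, Subtype.ext (H15.BN.eq_parG_of_le hM).symm⟩
  refine ⟨{ toEquiv := Equiv.ofBijective f hf, map_rel_iff' := ?_ }, fun J => ?_⟩
  · intro J K
    exact H15.BN.parG_le_iff
  · exact H15.BN.parG_eq_parabolic J

end Cfsg.Agent.S0316
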