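import Cfsg.Statements.S0321
import Cfsg.Agent.H15.BN

set_option autoImplicit false
open Cfsg

namespace Cfsg.Agent.S0321

/-- For `n ∈ N` not in `B`, the union `B ∪ B n B` is (the underlying set of) a subgroup exactly when `n` agrees
modulo `B ⊓ N` with one of the distinguished representatives; thus the distinguished involutions are
determined by `B` and `N`. -/
theorem result {G : Type*} [Group G] (P : Cfsg.BNPair G) {n : G}
    (hn : n ∈ P.N) (hnB : n ∉ P.B) :
    (∃ H : Subgroup G, (H : Set G) = (P.B : Set G) ∪ DoubleCoset.doubleCoset n (P.B : Set G) P.B) ↔ ∃ s ∈ P.S, s⁻¹ * n ∈ P.B := by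
  rw [← H15.BN.C_mk (P := P) ⟨n, hn⟩]
  constructor
  · rintro ⟨H, hH⟩
    have hB : P.B ≤ H := fun b hb => by
      rw [← SetLike.mem_coe, hH]; exact Or.inl hb
    have hnH : n ∈ H := by
      rw [← SetLike.mem_coe, hH]; exact Or.inr (H15.BN.self_mem_C (P := P) ⟨n, hn⟩)
    obtain ⟨l, hl, e⟩ := (H15.BN.ex P).exists_red' (QuotientGroup.mk ⟨n, hn⟩)
    have h1 := H15.BN.mem_of_conj_le hB hl (x := n) (by rw [e]; exact H15.BN.self_mem_C (P := P) ⟨n, hn⟩)
      fun b hb => mul_mem (mul_mem hnH (hB hb)) (inv_mem hnH)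
    cases l with
    | nil => exact absurd ((H15.BN.mk_eq_one_iff P).1 e.symm) hnB
    | cons a l =>
      have h2 := h1 a (by simp)
      rw [← SetLike.mem_coe, hH] at h2
      rcases h2 with h2 | h2
      · exact absurd h2 (H15.BN.s_not_mem_B a)
      · exact ⟨a, a.2, (H15.BN.mk_eq_iff P).1 (H15.BN.eq_of_mem_C (H15.BN.s_mem_C a) h2)⟩
  · rintro ⟨s, hs, h⟩
    have e : H15.BN.sW P ⟨s, hs⟩ = QuotientGroup.mk ⟨n, hn⟩ := (H15.BN.mk_eq_iff P).2 h
    refine ⟨H15.BN.parG P {⟨s, hs⟩}, ?_⟩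
    ext g
    rw [SetLike.mem_coe, H15.BN.mem_parG_singleton, e]
    rfl

end Cfsg.Agent.S0321
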