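import Cfsg.Statements.S0323
import Cfsg.Agent.H15.BN

set_option autoImplicit false
open scoped Pointwise
open Cfsg

namespace Cfsg.Agent.S0323

/-- A doubly transitive action on a set with at least three points yields a (B,N)-pair of rank one:
`B` is the stabiliser of a point `x`, `N` the setwise stabiliser of a pair `{x, y}`. -/
theorem result {G Ω : Type*} [Group G] [MulAction G Ω]
    (h2 : MulAction.IsMultiplyPretransitive G Ω 2) {x y z : Ω} (hxy : x ≠ y) (hyz : y ≠ z) (hxz : x ≠ z) :
    ∃ P : Cfsg.BNPair G, P.B = MulAction.stabilizer G x ∧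
      P.N = MulAction.stabilizer G ({x, y} : Set Ω) ∧ P.rank = 1 := by
  rw [MulAction.is_two_pretransitive_iff] at h2
  obtain ⟨s, hsx, hsy⟩ := h2 hxy hxy.symm
  have memN : ∀ n : G, n ∈ MulAction.stabilizer G ({x, y} : Set Ω) ↔
      (n • x = x ∧ n • y = y) ∨ (n • x = y ∧ n • y = x) := by
    intro n
    rw [MulAction.mem_stabilizer_iff, Set.smul_set_insert, Set.smul_set_singleton, Set.pair_eq_pair_iff]
  have memH : ∀ n : G, n ∈ MulAction.stabilizer G x ⊓ MulAction.stabilizer G ({x, y} : Set Ω) ↔
      (n • x = x ∧ n • y = y) := by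
    intro n
    rw [Subgroup.mem_inf, memN, MulAction.mem_stabilizer_iff]
    constructor
    · rintro ⟨h1, h | h⟩
      · exact h
      · exact absurd (h1.symm.trans h.1) hxy
    · exact fun h => ⟨h.1, Or.inl h⟩
  have dc : ∀ g h : G, g • x ≠ x → h • x ≠ x → h ∈ DoubleCoset.doubleCoset g
      (MulAction.stabilizer G x : Set G) (MulAction.stabilizer G x) := by
    intro g h hg hh
    obtain ⟨b, hb1, hb2⟩ := h2 hg.symm hh.symm
    refine DoubleCoset.mem_doubleCoset.2 ⟨b, hb1, g⁻¹ * b⁻¹ * h, ?_, by group⟩
    change (g⁻¹ * b⁻¹ * h) • x = x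
    rw [mul_smul, ← hb2, mul_smul, inv_smul_smul, inv_smul_smul]
  have hsN : s ∈ MulAction.stabilizer G ({x, y} : Set Ω) := (memN s).2 (Or.inr ⟨hsx, hsy⟩)
  refine ⟨{ B := MulAction.stabilizer G x
            N := MulAction.stabilizer G ({x, y} : Set Ω)
            S := {s}
            sup_eq_top := ?_
            conj_mem := ?_
            subset := ?_
            sq_mem := ?_
            inj := ?_
            closure_sup := ?_
            mul_mem_union := ?_
            conj_ne := ?_ }, rfl, rfl, ?_⟩
  · rw [eq_top_iff]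
    rintro g -
    by_cases hg : g • x = x
    · exact Subgroup.mem_sup_left hg
    · obtain ⟨b, hb, b', hb', rfl⟩ := DoubleCoset.mem_doubleCoset.1
        (dc s g (by rw [hsx]; exact hxy.symm) hg)
      exact mul_mem (mul_mem (Subgroup.mem_sup_left hb) (Subgroup.mem_sup_right hsN))
        (Subgroup.mem_sup_left hb')
  · intro n hn t ht
    rw [memH] at ht
    change (n * t * n⁻¹) • x = x
    rcases (memN _).1 (inv_mem hn) with h | h
    · rw [mul_smul, mul_smul, h.1, ht.1, ← h.1, smul_inv_smul, h.1]
    · rw [mul_smul, mul_smul, h.1, ht.2, ← h.1, smul_inv_smul]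
  · rintro _ rfl; exact hsN
  · rintro _ rfl
    change (_ * _) • x = x
    rw [mul_smul, hsx, hsy]
  · rintro _ rfl _ rfl -; rfl
  · apply le_antisymm
    · exact sup_le ((Subgroup.closure_le _).2 (by rintro _ rfl; exact hsN)) inf_le_right
    · intro n hn
      rcases (memN _).1 hn with h | h
      · exact Subgroup.mem_sup_right ((memH _).2 h)
      · have : n = s * (s⁻¹ * n) := by simp
        rw [this]
        refine mul_mem (Subgroup.mem_sup_left (Subgroup.subset_closure rfl))
          (Subgroup.mem_sup_right ((memH _).2 ⟨?_, ?_⟩))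
        · rw [mul_smul, h.1, ← hsx, inv_smul_smul]
        · rw [mul_smul, h.2, inv_smul_eq_iff, hsy]
  · rintro s' rfl n hn b hb
    rcases (memN _).1 hn with h | h
    · left
      refine DoubleCoset.mem_doubleCoset.2 ⟨1, one_mem _, n⁻¹ * b * n, ?_, by group⟩
      have : n ∈ MulAction.stabilizer G x := h.1
      exact mul_mem (mul_mem (inv_mem this) hb) this
    · by_cases h3 : (s' * b * n) • x = x
      · left
        have h4 : s' * n ∈ MulAction.stabilizer G x := by
          change (s' * n) • x = x
          rw [mul_smul, h.1, hsy]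
        exact DoubleCoset.mem_doubleCoset.2 ⟨1, one_mem _, (s' * n)⁻¹ * (s' * b * n),
          mul_mem (inv_mem h4) h3, by group⟩
      · right
        exact dc n _ (by rw [h.1]; exact hxy.symm) h3
  · rintro s' rfl h
    obtain ⟨b, hb1, hb2⟩ := h2 hxy hxz
    have h3 : s' * b * s' ∈ (MulAction.stabilizer G x : Set G) := by
      rw [← h]; exact ⟨b, hb1, rfl⟩
    have h4 : (s' * b * s') • x = x := h3
    rw [mul_smul, mul_smul, hsx, hb2] at h4
    exact hyz (MulAction.injective s' (hsy.trans h4.symm))
  · simp [BNPair.rank]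

end Cfsg.Agent.S0323
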