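import Cfsg.Statements.S0326
import Cfsg.Agent.H15.Sz3

set_option autoImplicit false
open Cfsg

namespace Cfsg.Agent.S0326

/-- The Suzuki–Tits ovoid over a finite field with `q` elements has `q² + 1` points. -/
theorem result {F : Type*} [Field F] [Fintype F] (m : ℕ) :
    Nat.card (Cfsg.suzukiOvoid F m) = Fintype.card F ^ 2 + 1 := by
  let f : Option (F × F) → Fin 4 → F := fun o => o.elim ![1, 0, 0, 0] fun p =>
    ![p.1 * p.2 + p.1 ^ (2 ^ (m + 1) + 2) + p.2 ^ 2 ^ (m + 1), p.2, p.1, 1]
  have hf : ∀ o, f o ≠ 0 := by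
    rintro (_ | p) h
    · simpa [f] using congrFun h 0
    · simpa [f] using congrFun h 3
  have h : Nat.card (Option (F × F)) = Nat.card (Cfsg.suzukiOvoid F m) := by
    refine Nat.card_eq_of_bijective (fun o => ⟨Projectivization.mk F (f o) (hf o), f o, hf o, rfl, ?_⟩)
      ⟨?_, ?_⟩
    · rcases o with _ | p
      · exact Or.inl rfl
      · exact Or.inr ⟨p.1, p.2, rfl⟩
    · intro o o' h
      obtain ⟨c, hc⟩ := (Projectivization.mk_eq_mk_iff' _ _ _ _ _).1 (congrArg Subtype.val h)
      have h1 := congrFun hc 1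
      have h2 := congrFun hc 2
      have h3 := congrFun hc 3
      rcases o with _ | p <;> rcases o' with _ | p'
      · rfl
      · have h0 := congrFun hc 0
        simp [f] at h0 h3
        simp [h3] at h0
      · simp [f] at h3
      · simp [f] at h1 h2 h3
        subst h3
        simp only [one_mul] at h1 h2
        rw [Prod.ext h2 h1]
    · rintro ⟨_, v, hv, rfl, rfl | ⟨x, y, rfl⟩⟩
      · exact ⟨none, rfl⟩
      · exact ⟨some (x, y), rfl⟩
  rw [← h, Finite.card_option, Nat.card_prod, Nat.card_eq_fintype_card, pow_two]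

end Cfsg.Agent.S0326
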