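import Cfsg.Statements.S0327
import Cfsg.Agent.H15.Sz3

set_option autoImplicit false
open Cfsg

namespace Cfsg.Agent.S0327

/-- The Suzuki group (`m ≥ 1`) is a Zassenhaus group on the `q² + 1` points of the Suzuki–Tits ovoid. -/
theorem result {F : Type*} [Field F] [Fintype F] {m : ℕ} (hm : 1 ≤ m)
    (hF : Fintype.card F = 2 ^ (2 * m + 1)) :
    Cfsg.IsZassenhausGroup (Cfsg.Sz F m) (Cfsg.suzukiOvoid F m) := by
  have := H15.Sz.charP_two hF
  let M := H15.Sz.ovModel hm hF
  let e := H15.Sz.ovEquiv hm hF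
  have he : ∀ (g : Cfsg.Sz F m) (p : M.Pt), g • e p = e (g • p) :=
    fun g p => (H15.Sz.ovEquiv_smul hm hF g p).symm
  obtain ⟨a, ha⟩ := M.exists_unit_ne_one
  have hD : M.D a ≠ 1 := fun h => ha (M.D_inj (h.trans (map_one _).symm))
  refine ⟨⟨fun {g h} H => FaithfulSMul.eq_of_smul_eq_smul (α := M.Pt) fun p => e.injective ?_⟩,
    ?_, ?_, ?_, ?_⟩
  · rw [← he, ← he, H]
  · rw [MulAction.is_two_pretransitive_iff]
    intro a b c d hab hcd
    obtain ⟨g, h1, h2⟩ := MulAction.is_two_pretransitive_iff.1 M.two_trans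
      (e.symm.injective.ne hab) (e.symm.injective.ne hcd)
    exact ⟨g, by rw [← e.apply_symm_apply a, he, h1, e.apply_symm_apply],
      by rw [← e.apply_symm_apply b, he, h2, e.apply_symm_apply]⟩
  · intro g a b c hab hbc hac ha hb hc
    have key : ∀ p, g • p = p → g • e.symm p = e.symm p := fun p hp => by
      apply e.injective; rw [← he, e.apply_symm_apply, hp]
    exact M.eq_one_of_fix_three (e.symm.injective.ne hab) (e.symm.injective.ne hbc)
      (e.symm.injective.ne hac) (key a ha) (key b hb) (key c hc)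
  · exact ⟨M.D a, hD, e (M.pt 0 0), e M.inf, e.injective.ne (M.pt_ne_inf 0 0),
      by rw [he, M.D_smul_zero], by rw [he, M.D_smul_inf]⟩
  · intro N hN hT
    rcases M.isSimpleGroup.eq_bot_or_eq_top_of_normal N hN with rfl | rfl
    · obtain ⟨⟨g, hg⟩, h⟩ := hT.exists_smul_eq (e (M.pt 0 0)) (e M.inf)
      obtain rfl := Subgroup.mem_bot.1 hg
      exact absurd (e.injective ((one_smul _ _).symm.trans h)) (M.pt_ne_inf 0 0)
    · refine ⟨e M.inf, fun h => hD ?_⟩
      have : (⟨M.D a, Subgroup.mem_top _⟩ : (⊤ : Subgroup (Cfsg.Sz F m))) ∈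
          MulAction.stabilizer (⊤ : Subgroup (Cfsg.Sz F m)) (e M.inf) := by
        change M.D a • e M.inf = e M.inf
        rw [he, M.D_smul_inf]
      rw [h, Subgroup.mem_bot] at this
      exact congrArg Subtype.val this

end Cfsg.Agent.S0327
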