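import Cfsg.Statements.S0328
import Cfsg.Agent.H15.Sz3

set_option autoImplicit false
open Cfsg

namespace Cfsg.Agent.S0328

/-- The stabiliser in the Suzuki group of the two ovoid points spanned by `(1,0,0,0)` and `(0,0,0,1)` is
isomorphic to the multiplicative group of the field (cyclic of order `q - 1`). -/
theorem result {F : Type*} [Field F] [Fintype F] {m : ℕ} (hm : 1 ≤ m)
    (hF : Fintype.card F = 2 ^ (2 * m + 1)) :
    Nonempty (↥(MulAction.stabilizer (Cfsg.Sz F m) (Cfsg.suzukiPointInfinity F) ⊓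
        MulAction.stabilizer (Cfsg.Sz F m) (Cfsg.suzukiPointZero F)) ≃* Fˣ) := by
  have := H15.Sz.charP_two hF
  let M := H15.Sz.ovModel hm hF
  have h : MulAction.stabilizer (Cfsg.Sz F m) (Cfsg.suzukiPointInfinity F) ⊓
      MulAction.stabilizer (Cfsg.Sz F m) (Cfsg.suzukiPointZero F) = M.D.range := by
    rw [← M.stab_two, M.W_smul_inf]
    congr 1
    · ext g
      exact H15.Sz.ov_smul_iff hm hF g M.inf M.inf
    · ext g
      have h0 : Cfsg.suzukiPointZero F = Projectivization.mk F ((H15.Sz.tw hF).vec (M.pt 0 0))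
          ((H15.Sz.tw hF).vec_ne_zero _) := by
        simp [Cfsg.suzukiPointZero, H15.Sz.Tw.vec, H15.Sz.Model.pt]
      rw [h0]
      exact H15.Sz.ov_smul_iff hm hF g (M.pt 0 0) (M.pt 0 0)
  rw [h]
  exact ⟨(MonoidHom.ofInjective M.D_inj).symm⟩

end Cfsg.Agent.S0328
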