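import Cfsg.Statements.S0331
import Cfsg.Agent.H15.Sz5

set_option autoImplicit false
open Cfsg

namespace Cfsg.Agent.S0331

/-- For every odd prime `p` the Sylow `p`-subgroups of the Suzuki group are cyclic. -/
theorem result {F : Type*} [Field F] [Fintype F] {m : ℕ} (hm : 1 ≤ m)
    (hF : Fintype.card F = 2 ^ (2 * m + 1)) {p : ℕ} [Fact p.Prime] (hp : p ≠ 2)
    (P : Sylow p (Cfsg.Sz F m)) : IsCyclic P := by
  have := H15.Sz.charP_two hF
  exact (H15.Sz.ovModel hm hF).isCyclic_of_isPGroup hp P.isPGroup'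

end Cfsg.Agent.S0331
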