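import Cfsg.Statements.S0332
import Cfsg.Agent.H15.Sz5

set_option autoImplicit false
open Cfsg

namespace Cfsg.Agent.S0332

/-- The Suzuki group is a CN-group: every non-identity element has nilpotent centraliser. -/
theorem result {F : Type*} [Field F] [Fintype F] {m : ℕ} (hm : 1 ≤ m)
    (hF : Fintype.card F = 2 ^ (2 * m + 1)) : Cfsg.IsCNGroup (Cfsg.Sz F m) := by
  have := H15.Sz.charP_two hF
  let M := H15.Sz.ovModel hm hF
  have : Fact (Nat.Prime 2) := ⟨Nat.prime_two⟩
  have key : ∀ T : Subgroup (Cfsg.Sz F m), IsCyclic T → Group.IsNilpotent T := fun T hT =>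
    let _ : CommGroup T := IsCyclic.commGroup
    CommGroup.isNilpotent
  intro g hg
  rcases M.trichotomy hg with h | h | h
  · exact (M.isPGroup_cent_of_conjSet_Q h).isNilpotent
  · exact key _ (M.isCyclic_cent_of_conjSet_D h).1
  · exact key _ h.isCyclic

end Cfsg.Agent.S0332
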