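import Cfsg.Statements.S0335
import Cfsg.Agent.H15.Sz3

set_option autoImplicit false
open Cfsg

namespace Cfsg.Agent.S0335

/-- The Suzuki–Tits point set is an ovoid: any three distinct points of it are projectively independent
(no line of projective 3-space meets it in more than two points). -/
theorem result {F : Type*} [Field F] [Fintype F] {m : ℕ} (hm : 1 ≤ m)
    (hF : Fintype.card F = 2 ^ (2 * m + 1)) (p : Fin 3 ↪ Cfsg.suzukiOvoid F m) :
    Projectivization.Independent (fun i => (p i : Projectivization F (Fin 4 → F))) := by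
  have := H15.Sz.charP_two hF
  let M := H15.Sz.ovModel hm hF
  let e := H15.Sz.ovEquiv hm hF
  let q : Fin 3 → M.Pt := fun i => e.symm (p i)
  have hq : Function.Injective q := e.symm.injective.comp p.injective
  have h1 : (fun i => (p i : Projectivization F (Fin 4 → F))) =
      fun i => Projectivization.mk F (M.vec (q i)) (M.vec_ne_zero _) := by
    ext i
    conv_lhs => rw [← e.apply_symm_apply (p i)]
    rfl
  rw [h1]
  apply Projectivization.Independent.mk
  obtain ⟨g, e0, e1⟩ := MulAction.is_two_pretransitive_iff.1 M.two_trans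
    (hq.ne (show (0 : Fin 3) ≠ 1 by decide)) (M.pt_ne_inf 0 0).symm
  rcases M.pt_cases (g • q 2) with e2 | ⟨x, y, e2⟩
  · exact absurd (hq (MulAction.injective g (e0.trans e2.symm))) (by decide)
  have hxy : ¬ (x = 0 ∧ y = 0) := by
    rintro ⟨rfl, rfl⟩
    exact absurd (hq (MulAction.injective g (e1.trans e2.symm))) (by decide)
  obtain ⟨c0, hc0, e0⟩ := (M.smul_eq_iff _ _ _).1 e0
  obtain ⟨c1, hc1, e1⟩ := (M.smul_eq_iff _ _ _).1 e1
  obtain ⟨c2, hc2, e2⟩ := (M.smul_eq_iff _ _ _).1 e2
  apply LinearIndependent.of_comp (Matrix.mulVecLin (M.mat g))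
  rw [Fintype.linearIndependent_iff]
  intro a ha
  simp only [Fin.sum_univ_three, Function.comp, Matrix.mulVecLin_apply, e0, e1, e2] at ha
  have k0 := congrFun ha 0
  have k1 := congrFun ha 1
  have k2 := congrFun ha 2
  have k3 := congrFun ha 3
  simp [H15.Sz.Tw.vec, H15.Sz.Model.pt, H15.Sz.Model.inf] at k0 k1 k2 k3
  have a2 : a 2 = 0 := by grind
  have a1 : a 1 = 0 := by grind
  have a0 : a 0 = 0 := by grind
  intro i
  fin_cases i <;> assumption

end Cfsg.Agent.S0335
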