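import Cfsg.Statements.S0341
import Cfsg.Agent.H4.Zass8

set_option autoImplicit false
open Cfsg

namespace Cfsg.Agent.S0341

open Cfsg.Agent.H4


/-- If a finite group acts faithfully and doubly transitively, no non-identity element fixes three points, some
non-identity element fixes two points, and some normal subgroup acts regularly, then the number of points
is `2^p` with `p` prime. -/
theorem result {G Ω : Type*} [Group G]
    [MulAction G Ω] [Fintype Ω] [FaithfulSMul G Ω] (h2 : MulAction.IsMultiplyPretransitive G Ω 2)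
    (h3 : ∀ g : G, ∀ a b c : Ω, a ≠ b → b ≠ c → a ≠ c → g • a = a → g • b = b → g • c = c → g = 1)
    (hfix : ∃ g : G, g ≠ 1 ∧ ∃ a b : Ω, a ≠ b ∧ g • a = a ∧ g • b = b)
    (N : Subgroup G) [N.Normal] (hNt : MulAction.IsPretransitive N Ω)
    (hNr : ∀ a : Ω, MulAction.stabilizer N a = ⊥) :
    ∃ p : ℕ, p.Prime ∧ Fintype.card Ω = 2 ^ p := by
  have h := ZT.of h2 h3
  have := h.finite
  obtain ⟨g, hg, a, b, hab, h4, h5⟩ := hfix
  have hne : St2 G a b ≠ ⊥ := fun e => hg (Subgroup.mem_bot.1 (e ▸ mem_St2.2 ⟨h4, h5⟩))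
  have htr : ∀ b c : Ω, ∃ l ∈ N, l • b = c := fun b c => by
    obtain ⟨l, hl⟩ := hNt.exists_smul_eq b c
    exact ⟨l, l.2, hl⟩
  have hr : ∀ m ∈ N, ∀ a : Ω, m • a = a → m = 1 := fun m hm a e =>
    congrArg Subtype.val (Subgroup.mem_bot.1 (hNr a ▸ e : (⟨m, hm⟩ : N) ∈ ⊥))
  exact ⟨_, h.prime_card_St2 hab htr hr hne, by
    rw [← Nat.card_eq_fintype_card, h.card_eq_two_pow hab htr hr le_rfl hne]⟩

end Cfsg.Agent.S0341
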