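import Cfsg.Statements.S0345
import Cfsg.Agent.S0344

set_option autoImplicit false
open Cfsg

namespace Cfsg.Agent.S0345

open Cfsg.Agent.H4


/-- In a finite simple Zassenhaus group the stabiliser `H` of two points `a ≠ b` is cyclic, and some involution
interchanging `a` and `b` inverts every element of `H`. -/
theorem result {G Ω : Type*} [Group G] [Finite G] [MulAction G Ω] [Finite Ω]
    (hZ : Cfsg.IsZassenhausGroup G Ω) [IsSimpleGroup G]
    {a b : Ω} (hab : a ≠ b) :
    IsCyclic ↥(MulAction.stabilizer G a ⊓ MulAction.stabilizer G b) ∧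
      ∃ v : G, orderOf v = 2 ∧ v • a = b ∧ v • b = a ∧ ∀ h ∈ MulAction.stabilizer G a ⊓ MulAction.stabilizer G b, v * h * v⁻¹ = h⁻¹ := by
  obtain ⟨s, hs, h1, h2⟩ := hZ.zt.exists_invol_swap hab
  have h3 : ∀ x ∈ St2 G a b, s * x * s⁻¹ = x⁻¹ := (Nat.even_or_odd (Nat.card (St2 G a b))).elim
    (fun he => hZ.zt.inverts_of_even hab he (S0344.small hZ hab he) h1 h2)
    fun ho => hZ.zt.inverts_of_simple hab ho h1 h2
  have := H1.isMulCommutative_of_conj_eq_inv h3
  exact ⟨hZ.zt.isCyclic_St2 hab, s, hs, h1, h2, h3⟩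

end Cfsg.Agent.S0345
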