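import Cfsg.Statements.S0346
import Cfsg.Agent.H4.Zass7

set_option autoImplicit false
open Cfsg

namespace Cfsg.Agent.S0346

open Cfsg.Agent.H4


/-- The number of points of a finite simple Zassenhaus group is `p^k + 1` for some prime power `p^k` (the regular normal
subgroup of a point stabiliser is a `p`-group). -/
theorem result {G Ω : Type*} [Group G] [Finite G] [MulAction G Ω] [Fintype Ω]
    (hZ : Cfsg.IsZassenhausGroup G Ω) [IsSimpleGroup G] :
    IsPrimePow (Fintype.card Ω - 1) := by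
  obtain ⟨a⟩ := hZ.nonempty
  obtain ⟨b, hab⟩ := hZ.exists_ne a
  have h := hZ.zt
  have hK := h.K_ne_bot' hab (hZ.St2_ne_bot hab)
  have h0 := (h.K a).one_lt_card_iff_ne_bot.2 hK
  rw [← Nat.card_eq_fintype_card, ← h.card_K hab, Nat.add_sub_cancel]
  have h1 : ∀ p f : ℕ, p.Prime → Nat.card (h.K a) = p ^ f → IsPrimePow (Nat.card (h.K a)) :=
    fun p f hp e => ⟨p, f, hp.prime, Nat.pos_of_ne_zero (by rintro rfl; simp [e] at h0), e.symm⟩
  by_cases h2 : Nat.card (h.K a) - 1 ≤ 2 * Nat.card (St2 G a b)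
  · obtain ⟨p, f, hp, -, e⟩ := h.elem_of_large hab hK h2
    exact h1 p f hp e
  obtain ⟨f, hf⟩ := ((hZ.feit hab (Nat.not_even_iff_odd.1 fun he =>
    h2 (h.card_le_two_mul_of_even hab he))).resolve_left h2).1.exists_card_eq
  exact h1 2 f Nat.prime_two hf

end Cfsg.Agent.S0346
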