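import Cfsg.Statements.S0349
import Cfsg.Agent.SH.S0
import Cfsg.Agent.SH.Main
import Cfsg.Agent.BS.BZ

set_option autoImplicit false
open Cfsg

namespace Cfsg.Agent.S0349

/-- Let a finite simple group have a (B,N)-pair of rank one which is strongly split (`B = U (B ⊓ N)` with `U` nilpotent,
normal in `B` and meeting `N` trivially), with `[G : B]` and `|B ⊓ N|` odd. Then the group is isomorphic to `PSL₂(F)` with
`|F|` a power of `2`, or is simple of Suzuki order, or is isomorphic to `PSU₃` realised over a field with `q²` elements,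
`q = 2^n`, `n ≥ 2`. -/
theorem result {G : Type*} [Group G] [Finite G] [IsSimpleGroup G]
    (P : Cfsg.BNPair G) (hrank : P.rank = 1) (U : Subgroup G) (hUB : U ≤ P.B)
    (hUn : (U.subgroupOf P.B).Normal) (hUnil : Group.IsNilpotent U) (hsplit : U ⊔ (P.B ⊓ P.N) = P.B)
    (hdisj : U ⊓ P.N = ⊥) (hind : Odd P.B.index) (hH : Odd (Nat.card ↥(P.B ⊓ P.N))) :
    (∃ (F : Type) (_ : Field F) (_ : Fintype F), (∃ n : ℕ, Fintype.card F = 2 ^ n) ∧ Nonempty (G ≃* Matrix.ProjectiveSpecialLinearGroup (Fin 2) F)) ∨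
      Cfsg.IsSuzuki G ∨
      (∃ (F : Type) (_ : Field F) (_ : Fintype F) (n : ℕ), 2 ≤ n ∧ Fintype.card F = (2 ^ n) ^ 2 ∧
        Nonempty (G ≃* Cfsg.PSU 3 F (2 ^ n))) := by
  obtain ⟨h1, he, V, h⟩ := SH.exists_sh_BN P hrank hUB hUn hUnil hsplit hind hH
  rcases BS.Bd.isBender_of_se (SH.se_of_two h1 he (SH.shult h (SH.iSup_Aq h))) with ⟨F, _, _, ⟨n, -, h⟩, f⟩ | h | h
  · exact Or.inl ⟨F, _, _, ⟨n, h⟩, f⟩
  · exact Or.inr (Or.inl (H11.isSuzuki_of_iso h))
  · exact Or.inr (Or.inr h)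

end Cfsg.Agent.S0349
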