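import Cfsg.Statements.S0351
import Mathlib
import Cfsg.Agent.H2.St1

set_option autoImplicit false
open Cfsg

namespace Cfsg.Agent.S0351

open H2.St Finset

/-- Derived design: removing a point p from the blocks through p of an S(t+1, k+1, v) yields an S(t, k, v-1) on the points other than p. -/
theorem result {α : Type*} [Fintype α] [DecidableEq α] {t k : ℕ} {B : Set (Finset α)} (hB : Cfsg.IsSteinerSystem (t + 1) (k + 1) B) (p : α) : Cfsg.IsSteinerSystem t k {b' : Finset {a : α // a ≠ p} | ∃ b ∈ B, p ∈ b ∧ b' = Finset.subtype (fun a => a ≠ p) b} := by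
  refine ⟨?_, fun s hs => ?_⟩
  · rintro _ ⟨b, hb, hp, rfl⟩
    rw [card_subtype, filter_ne', card_erase_of_mem hp, hB.1 b hb, Nat.add_sub_cancel]
  have h1 : ∀ b, insert p (s.map (Function.Embedding.subtype _)) ⊆ b ↔ p ∈ b ∧ s ⊆ b.subtype (· ≠ p) :=
    fun b => by simp [insert_subset_iff, subset_iff]
  obtain ⟨b, ⟨hb, h2⟩, h3⟩ := hB.2 (insert p (s.map (Function.Embedding.subtype _)))
    (by rw [card_insert_of_notMem (by simp), card_map, hs])
  refine ⟨_, ⟨⟨b, hb, ((h1 b).1 h2).1, rfl⟩, ((h1 b).1 h2).2⟩, ?_⟩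
  rintro _ ⟨⟨c, hc, hp, rfl⟩, h⟩
  rw [h3 c ⟨hc, (h1 c).2 ⟨hp, h⟩⟩]

end Cfsg.Agent.S0351
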