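import Cfsg.Statements.S0357
import Mathlib
import Cfsg.Agent.H2.St1

set_option autoImplicit false
open Cfsg

namespace Cfsg.Agent.S0357

open H2.St Finset

/-- In a Steiner system S(5, 6, 12), the complement of every block is again a block. -/
theorem result {α : Type*} [Fintype α] [DecidableEq α] (hα : Fintype.card α = 12) {B : Set (Finset α)} (hB : Cfsg.IsSteinerSystem 5 6 B) {b : Finset α} (hb : b ∈ B) : bᶜ ∈ B := by
  obtain ⟨c, hc, h⟩ := exists_inter hB (by omega) (.inr hb) (empty_subset b)
    (by rw [hα, hB.1 b hb, card_empty]; decide +kernel)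
  rwa [← eq_of_subset_of_card_le (subset_compl_iff_disjoint_left.2 (disjoint_iff_inter_eq_empty.2 h))
    (by rw [card_compl, hα, hB.1 b hb, hB.1 c hc])]

end Cfsg.Agent.S0357
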