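import Cfsg.Statements.S0362
import Cfsg.Agent.H16.Golay

set_option autoImplicit false
open Cfsg

namespace Cfsg.Agent.S0362

/-- The length-24 code is self-orthogonal: the dot product over ZMod 2 of any two of its words vanishes (with dimension 12 this makes it self-dual). -/
theorem result (v w : Cfsg.GolayPt → ZMod 2) (hv : v ∈ Cfsg.golayCode) (hw : w ∈ Cfsg.golayCode) : ∑ i, v i * w i = 0 := by
  have h := H16.even_card_inter (s := support₂ v) (t := support₂ w) ⟨v, hv, rfl⟩ ⟨w, hw, rfl⟩
  have e : ∑ i, v i * w i = ((support₂ v ∩ support₂ w).card : ZMod 2) := by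
    rw [Finset.card_eq_sum_ones, Nat.cast_sum, ← Finset.sum_filter_add_sum_filter_not Finset.univ
      (fun i => i ∈ support₂ v ∩ support₂ w), Finset.sum_eq_zero (s := Finset.filter (fun i => ¬ _) _), add_zero,
      Finset.filter_mem_eq_inter, Finset.univ_inter]
    · refine Finset.sum_congr rfl fun i hi => ?_
      simp only [support₂, Finset.mem_inter, Finset.mem_filter, Finset.mem_univ, true_and] at hi
      revert hi
      generalize v i = a; generalize w i = b
      revert a b; decide
    · intro i hi
      simp only [support₂, Finset.mem_inter, Finset.mem_filter, Finset.mem_univ, true_and] at hi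
      revert hi
      generalize v i = a; generalize w i = b
      revert a b; decide
  rw [e]
  exact (ZMod.natCast_eq_zero_iff_even).mpr h

end Cfsg.Agent.S0362
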