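import Cfsg.Statements.S0369
import Cfsg.Agent.H16.M24f

set_option autoImplicit false
open Cfsg
open scoped Pointwise

namespace Cfsg.Agent.S0369
open H16 in
theorem rows_ok : allB 12 (fun b => anyB 12 fun j => andB (isOct (cw (bit j))) (orB (Nat.beq j b)
    (isOct (Nat.xor (cw (bit j)) (get 24 gRows b))))) = true ∧
    allB 12 (fun b => Nat.beq (cw (bit b)) (get 24 gRows b)) = true := by decide +kernel

/-- The group of the length-24 code coincides with the automorphism group of its octad system. -/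
theorem result : Cfsg.M24 = Cfsg.setSystemAut Cfsg.octads := by
  refine le_antisymm (fun g hg => H16.smul_octads ⟨g, hg⟩) fun g hg => H16.mem_M24_of_subset fun s hs => ?_
  have h1 : ∀ o ∈ octads, g • o ∈ H16.gSets := fun o ho => by
    have : g • o ∈ g • octads := Set.smul_mem_smul_set ho
    rw [show g • octads = octads from hg] at this
    exact this.1
  have hx : ∀ a b, g • H16.toSet a ∈ H16.gSets → g • H16.toSet b ∈ H16.gSets → g • H16.toSet (a ^^^ b) ∈ H16.gSets :=
    fun a b ha hb => by
      rw [H16.toSet_xor, Finset.smul_finset_symmDiff]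
      exact H16.symmDiff_mem_gSets ha hb
  obtain ⟨i, hi, rfl⟩ := H16.mem_gSets_iff.mp hs
  rw [H16.cset, H16.cw_eq hi, H16.enc]
  refine H16.xc_ind (P := fun m => g • H16.toSet m ∈ H16.gSets)
    (by rw [H16.toSet_zero, Finset.smul_finset_empty]; exact H16.empty_mem_gSets) hx (fun b hb => ?_) _
  obtain ⟨j, hj, h⟩ := H16.anyB_iff.mp (H16.allB_spec rows_ok.1 b hb)
  rw [H16.andB_iff, H16.orB_iff] at h
  rcases h.2 with h2 | h2
  · rw [← Nat.eq_of_beq_eq_true (H16.allB_spec rows_ok.2 b hb), ← Nat.eq_of_beq_eq_true h2]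
    exact h1 _ (H16.mem_octads_of h.1)
  · have := hx _ _ (h1 _ (H16.mem_octads_of h.1)) (h1 _ (H16.mem_octads_of h2))
    rwa [show ∀ a b : ℕ, a ^^^ Nat.xor a b = b from fun a b => Nat.xor_xor_cancel_left a b] at this

end Cfsg.Agent.S0369
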