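import Cfsg.Statements.S0370
import Cfsg.Agent.H16.M24a

set_option autoImplicit false
open Cfsg

namespace Cfsg.Agent.S0370

/-- The permutation x ↦ x + 1 of the residues modulo 23, fixing the extra point, lies in the group of the length-24 code. -/
theorem result : Equiv.optionCongr (Equiv.addRight (1 : ZMod 23)) ∈ Cfsg.M24 := by
  exact H16.mem_M24_of_fun _ (by decide +kernel)

end Cfsg.Agent.S0370
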