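import Cfsg.Statements.S0381
import Cfsg.Agent.H16.M24g

set_option autoImplicit false
open Cfsg
open scoped Pointwise

namespace Cfsg.Agent.S0381

/-- The pointwise stabiliser of an octad in the group of the length-24 code has order 16 and every element of it squares to the identity. -/
theorem result (o : Finset Cfsg.GolayPt) (ho : o ∈ Cfsg.octads) : Nat.card ↥(Cfsg.M24 ⊓ fixingSubgroup (Equiv.Perm Cfsg.GolayPt) (o : Set Cfsg.GolayPt)) = 16 ∧ ∀ g ∈ Cfsg.M24 ⊓ fixingSubgroup (Equiv.Perm Cfsg.GolayPt) (o : Set Cfsg.GolayPt), g * g = 1 := by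
  obtain ⟨k, rfl⟩ := H16.M24_octad H16.oct0_mem ho
  have h := H16.conj_mem_fixing k (H16.toSet H16.oct0)
  refine ⟨?_, fun g hg => ?_⟩
  · rw [← Nat.card_congr (H16.equivOfMap (fixingSubgroup M24 _) _ inf_le_left fun g =>
      ⟨fun h => ⟨g.2, (mem_fixingSubgroup_iff (Equiv.Perm GolayPt)).mpr ((mem_fixingSubgroup_iff M24).mp h)⟩,
        fun h => (mem_fixingSubgroup_iff M24).mpr ((mem_fixingSubgroup_iff (Equiv.Perm GolayPt)).mp h.2)⟩).toEquiv, H16.card_conj h, H16.E16_facts.1]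
  · obtain ⟨x, hx⟩ := (MulAut.conj k).surjective ⟨g, hg.1⟩
    have := H16.E16_sq x ((h x).mpr (by
      rw [show k * x * k⁻¹ = _ from hx]
      exact (mem_fixingSubgroup_iff M24).mpr ((mem_fixingSubgroup_iff (Equiv.Perm GolayPt)).mp hg.2)))
    have h2 : (⟨g, hg.1⟩ : M24) ^ 2 = 1 := by rw [← hx, ← map_pow, this, map_one]
    rw [← sq]
    exact congrArg Subtype.val h2

end Cfsg.Agent.S0381
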