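import Cfsg.Statements.S0384
import Cfsg.Agent.H16.M24g

set_option autoImplicit false
open scoped Pointwise
open Cfsg

namespace Cfsg.Agent.S0384
open H16 in
theorem base {g : M24} (hg : g ∈ K12) (h : ∀ i, g • ![gpt 0, gpt 1, gpt 2, gpt 3, gpt 4] i = ![gpt 0, gpt 1, gpt 2, gpt 3, gpt 4] i) :
    g = 1 :=
  eq_one_of_base mulOk24 gpt_inj card_K12.le m12S_inK [] [0, 1, 2, 3, 4] (by decide) (by decide +kernel) hg (by
    simp only [List.forall_mem_cons]
    exact ⟨h 0, h 1, h 2, h 3, h 4, by simp⟩)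

/-- A dodecad stabiliser is sharply 5-transitive on the dodecad. -/
theorem result (d : Finset Cfsg.GolayPt) (hd : d ∈ Cfsg.dodecads) (x y : Fin 5 ↪ Cfsg.GolayPt) (hx : ∀ i, x i ∈ d) (hy : ∀ i, y i ∈ d) : ∃! g : MulAction.stabilizer Cfsg.M24 d, ∀ i, ((g : Cfsg.M24) : Equiv.Perm Cfsg.GolayPt) (x i) = y i := by
  obtain ⟨a, ha, h1⟩ := H16.flag_dod_tuple le_rfl hd ![H16.gpt 0, H16.gpt 1, H16.gpt 2, H16.gpt 3, H16.gpt 4] x (by decide)
    x.injective (by decide) hx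
  obtain ⟨b, hb, h2⟩ := H16.flag_dod_tuple le_rfl hd ![H16.gpt 0, H16.gpt 1, H16.gpt 2, H16.gpt 3, H16.gpt 4] y (by decide)
    y.injective (by decide) hy
  refine ⟨⟨b * a⁻¹, ?_⟩, fun i => ?_, fun g hg => Subtype.ext ?_⟩
  · rw [MulAction.mem_stabilizer_iff, mul_smul, ← ha, inv_smul_smul, hb, ha]
  · change (b * a⁻¹) • x i = y i
    rw [← h1, mul_smul, inv_smul_smul, h2]
  · have := base (g := b⁻¹ * g * a) (by
      rw [MulAction.mem_stabilizer_iff, mul_smul, mul_smul, ha, show (g : M24) • d = d from g.2, ← hb, inv_smul_smul])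
      fun i => by rw [mul_smul, mul_smul, h1, show (g : M24) • x i = y i from hg i, ← h2, inv_smul_smul]
    change (g : M24) = b * a⁻¹
    rw [← mul_one b, ← this]; group

end Cfsg.Agent.S0384
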