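import Cfsg.Statements.S0385
import Cfsg.Agent.H16.M24f

set_option autoImplicit false
open Cfsg

namespace Cfsg.Agent.S0385

/-- The 6-point intersections of octads with a fixed dodecad form a Steiner system S(5, 6, 12) on the dodecad. -/
theorem result (d : Finset Cfsg.GolayPt) (hd : d ∈ Cfsg.dodecads) : Cfsg.IsSteinerSystem 5 6 {h : Finset {p : Cfsg.GolayPt // p ∈ d} | ∃ o ∈ Cfsg.octads, (o ∩ d).card = 6 ∧ h = Finset.subtype (fun p => p ∈ d) o} := by
  refine ⟨?_, fun s hs => ?_⟩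
  · rintro _ ⟨o, _, h, rfl⟩
    rw [Finset.card_subtype, Finset.filter_mem_eq_inter, h]
  have hs' : (s.map (Function.Embedding.subtype _)).card = 5 := by rw [Finset.card_map, hs]
  have hsub : ∀ o : Finset GolayPt, s ⊆ Finset.subtype (fun p => p ∈ d) o ↔ s.map (Function.Embedding.subtype _) ⊆ o := fun o => by
    rw [Finset.map_subset_iff_subset_preimage]
    exact forall_congr' fun x => by simp
  obtain ⟨o, ⟨ho, h1⟩, hu⟩ := H16.octads_steiner.2 _ hs'
  refine ⟨_, ⟨⟨o, ho, ?_, rfl⟩, (hsub o).mpr h1⟩, ?_⟩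
  · have h2 : 5 ≤ (o ∩ d).card := by
      rw [← hs']
      refine Finset.card_le_card (Finset.subset_inter h1 fun x hx => ?_)
      obtain ⟨y, _, rfl⟩ := Finset.mem_map.mp hx
      exact y.2
    have h3 := H16.even_card_inter ho.1 hd.1
    have h4 := H16.card_symmDiff_add o d
    have h5 := H16.card_of_mem_gSets (H16.symmDiff_mem_gSets ho.1 hd.1)
    have h6 : (o ∩ d).card ≤ 8 := ho.2 ▸ Finset.card_le_card Finset.inter_subset_left
    rw [ho.2, hd.2] at h4
    obtain ⟨r, h3⟩ := h3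
    omega
  · rintro _ ⟨⟨o', ho', _, rfl⟩, h⟩
    rw [hu o' ⟨ho', (hsub o').mp h⟩]

end Cfsg.Agent.S0385
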