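import Cfsg.Statements.S0386
import Cfsg.Agent.H16.M24f

set_option autoImplicit false
open Cfsg
open scoped Pointwise

namespace Cfsg.Agent.S0386
open H16 in
theorem base (c : ℕ) : {o | o ∈ octads ∧ (o ∩ toSet sqD).card = c}.ncard =
    codeCnt fun m => andB (Nat.beq (pc24 m) 8) (Nat.beq (pc24 (Nat.land m sqD)) c) :=
  ncard_octads_filter _ fun m _ => by rw [card_inter_toSet, Nat.beq_eq]

/-- For a fixed dodecad, 132 octads meet it in 6 points, 132 in 2 points and 495 in 4 points. -/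
theorem result (d : Finset Cfsg.GolayPt) (hd : d ∈ Cfsg.dodecads) : {o : Finset Cfsg.GolayPt | o ∈ Cfsg.octads ∧ (o ∩ d).card = 6}.ncard = 132 ∧ {o : Finset Cfsg.GolayPt | o ∈ Cfsg.octads ∧ (o ∩ d).card = 2}.ncard = 132 ∧ {o : Finset Cfsg.GolayPt | o ∈ Cfsg.octads ∧ (o ∩ d).card = 4}.ncard = 495 := by
  obtain ⟨k, rfl⟩ := H16.M24_dodecad H16.sqD_mem hd
  refine ⟨?_, ?_, ?_⟩ <;>
  exact (H16.ncard_transfer k fun x => by simp only [H16.smul_mem_octads, H16.card_smul_inter] <;> rfl).trans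
    ((base _).trans (by decide +kernel))

end Cfsg.Agent.S0386
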