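import Cfsg.Statements.S0389
import Cfsg.Agent.H16.M24g

set_option autoImplicit false
open scoped Pointwise
open Cfsg

namespace Cfsg.Agent.S0389

/-- The stabiliser of a dodecad and a point on it is 3-transitive on the complementary dodecad. -/
theorem result (d : Finset Cfsg.GolayPt) (hd : d ∈ Cfsg.dodecads) (p : Cfsg.GolayPt) (hp : p ∈ d) (x y : Fin 3 ↪ Cfsg.GolayPt) (hx : ∀ i, x i ∉ d) (hy : ∀ i, y i ∉ d) : ∃ g ∈ MulAction.stabilizer Cfsg.M24 d ⊓ MulAction.stabilizer Cfsg.M24 p, ∀ i, (g : Equiv.Perm Cfsg.GolayPt) (x i) = y i := by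
  obtain ⟨k, rfl, rfl⟩ := H16.M24_dodecad_point hd hp
  obtain ⟨g, h1, h2⟩ := H16.K11_tuple le_rfl (fun i => k⁻¹ • x i) (fun i => k⁻¹ • y i)
    ((MulAction.injective _).comp x.injective) ((MulAction.injective _).comp y.injective)
    (fun i h => hx i (H16.mem_inv_smul.mp h)) (fun i h => hy i (H16.mem_inv_smul.mp h))
  refine ⟨k * g * k⁻¹, ⟨H16.cj k h1.1, H16.cj k h1.2⟩, fun i => ?_⟩
  have := H16.cj k (h2 i)
  rwa [smul_inv_smul, smul_inv_smul] at this

end Cfsg.Agent.S0389
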