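import Cfsg.Statements.S0402
import Cfsg.Agent.H21.Leech11

set_option autoImplicit false
set_option linter.style.haveILetI false
open Cfsg

namespace Cfsg.Agent.S0402

open Cfsg.Agent.LL Cfsg.Agent.H16

/-- Stabiliser of a minimal vector is simple of order 42305421312000. -/
theorem result (v : Cfsg.leechLattice) (hv : Cfsg.sqNorm (v : Cfsg.GolayPt → ℤ) = 32) : Cfsg.IsCo2 (MulAction.stabilizer Cfsg.Co0 v) := by
  obtain ⟨g, rfl⟩ := from_U hv
  have := simple_K2
  have e := conjEquiv g K2 _ fun x => conj_mem_stabilizer g x U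
  exact ⟨e.symm.isSimpleGroup, (Nat.card_congr e.toEquiv).symm.trans card_K2⟩

end Cfsg.Agent.S0402
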