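import Cfsg.Statements.S0404
import Cfsg.Agent.H21.McL

set_option autoImplicit false
set_option linter.style.haveILetI false
open Cfsg

namespace Cfsg.Agent.S0404

open Cfsg.Agent.LL Cfsg.Agent.H16 MulAction

/-- Joint stabiliser of two minimal vectors with coordinate dot product −8 is simple of order 898128000. -/
theorem result (v w : Cfsg.leechLattice) (hv : Cfsg.sqNorm (v : Cfsg.GolayPt → ℤ) = 32) (hw : Cfsg.sqNorm (w : Cfsg.GolayPt → ℤ) = 32) (hvw : Cfsg.dotInt (v : Cfsg.GolayPt → ℤ) (w : Cfsg.GolayPt → ℤ) = -8) : Cfsg.IsMcL ↥(MulAction.stabilizer Cfsg.Co0 v ⊓ MulAction.stabilizer Cfsg.Co0 w) := by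
  obtain ⟨g, rfl, rfl⟩ := std_M hv hw hvw
  have := simple_KM
  have h : KM = stabilizer Co0 U ⊓ stabilizer Co0 (-Vv - U) := by
    ext x
    simp only [Subgroup.mem_inf, mem_stabilizer_iff, smul_sub, smul_neg]
    exact ⟨fun ⟨a, b⟩ => ⟨b, by rw [a, b]⟩, fun ⟨a, b⟩ => ⟨by rw [a] at b; simpa using b, a⟩⟩
  have e := (MulEquiv.subgroupCongr h).trans (conjEquiv g _ _ (conj_mem_inf (fun x => conj_mem_stabilizer g x U)
    fun x => conj_mem_stabilizer g x (-Vv - U)))
  exact ⟨e.symm.isSimpleGroup, (Nat.card_congr e.toEquiv).symm.trans card_KM⟩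

end Cfsg.Agent.S0404
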