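import Cfsg.Statements.S0405
import Cfsg.Agent.H21.HS

set_option autoImplicit false
set_option linter.style.haveILetI false
open Cfsg

namespace Cfsg.Agent.S0405

open Cfsg.Agent.LL Cfsg.Agent.H16 MulAction

/-- Joint stabiliser of two vectors of sum of squares 48 with coordinate dot product −32 is simple of order 44352000. -/
theorem result (v w : Cfsg.leechLattice) (hv : Cfsg.sqNorm (v : Cfsg.GolayPt → ℤ) = 48) (hw : Cfsg.sqNorm (w : Cfsg.GolayPt → ℤ) = 48) (hvw : Cfsg.dotInt (v : Cfsg.GolayPt → ℤ) (w : Cfsg.GolayPt → ℤ) = -32) : Cfsg.IsHS ↥(MulAction.stabilizer Cfsg.Co0 v ⊓ MulAction.stabilizer Cfsg.Co0 w) := by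
  obtain ⟨g, rfl, rfl⟩ := std_H hv hw hvw
  have := simple_KH
  have h : KH = stabilizer Co0 (-Vv) ⊓ stabilizer Co0 (Vv + U') := by
    ext x
    simp only [Subgroup.mem_inf, mem_stabilizer_iff, smul_add, smul_neg, neg_inj]
    exact and_congr_right fun a => by rw [a, add_right_inj]
  have e := (MulEquiv.subgroupCongr h).trans (conjEquiv g _ _ (conj_mem_inf (fun x => conj_mem_stabilizer g x (-Vv))
    fun x => conj_mem_stabilizer g x (Vv + U')))
  exact ⟨e.symm.isSimpleGroup, (Nat.card_congr e.toEquiv).symm.trans card_KH⟩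

end Cfsg.Agent.S0405
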