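import Cfsg.Statements.S0423
import Cfsg.Agent.H16.J2

set_option autoImplicit false
open Cfsg

namespace Cfsg.Agent.S0423

/-- Existence of a simple group of order 604800. -/
theorem result : ∃ G : Subgroup (Equiv.Perm (Fin 100)), Cfsg.IsJ2 G := by
  have := H16.J2.simple
  have h1 := ((H16.J2.M.clo (H16.J2.RS.map Prod.fst)).subgroupOf H16.J2.K).card_mul_index
  rw [Nat.card_congr (Subgroup.subgroupOfEquivOfLe (H16.Mdl.clo_le H16.J2.hRS.inL)).toEquiv, H16.J2.chR.card, H16.J2.card,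
    show H16.N.cntM H16.J2.RL = 6048 by decide +kernel] at h1
  obtain ⟨P, ⟨e⟩, -⟩ := H16.exists_perm_rep _ (n := 100) (Nat.eq_of_mul_eq_mul_left (by norm_num) h1) (by norm_num)
  exact ⟨P, e.symm.isSimpleGroup, (Nat.card_congr e.toEquiv).symm.trans H16.J2.card⟩

end Cfsg.Agent.S0423
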