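import Cfsg.Statements.S0439

set_option autoImplicit false
open Cfsg

namespace Cfsg.Agent.S0439

/-- In the symmetric group of degree n ≥ 2, the set of transpositions is a conjugacy class of 3-transpositions which generates the group. -/
theorem result (n : ℕ) (hn : 2 ≤ n) : Cfsg.IsThreeTranspositionClass {σ : Equiv.Perm (Fin n) | σ.IsSwap} := by
  refine ⟨⟨fun d hd => hd.orderOf, ?_⟩, ⟨Equiv.swap ⟨0, by omega⟩ ⟨1, by omega⟩,
    ⟨_, _, by simp, rfl⟩, Set.ext fun g => ⟨?_, fun hg => ?_⟩⟩, Equiv.Perm.closure_isSwap⟩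
  · rintro _ ⟨a, b, hab, rfl⟩ _ ⟨c, d, hcd, rfl⟩
    by_cases h : (a = c ∨ a = d ∨ b = c ∨ b = d) ∧ ¬ (a = c ∧ b = d) ∧ ¬ (a = d ∧ b = c)
    · right
      ext x
      simp only [pow_succ, pow_zero, one_mul, Equiv.Perm.mul_apply, Equiv.swap_apply_def,
        Equiv.Perm.one_apply]
      grind
    · left
      ext x
      simp only [pow_succ, pow_zero, one_mul, Equiv.Perm.mul_apply, Equiv.swap_apply_def,
        Equiv.Perm.one_apply]
      grind
  · rintro ⟨a, b, hab, rfl⟩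
    exact Equiv.Perm.isConj_swap (by simp) hab
  · obtain ⟨k, rfl⟩ := isConj_iff.1 hg
    rw [Set.mem_ofPred_eq, ← Equiv.swap_apply_apply]
    exact ⟨_, _, by simp, rfl⟩

end Cfsg.Agent.S0439
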