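import Cfsg.Agent.H17.Tv3
import Cfsg.Statements.S0440

set_option autoImplicit false
open Cfsg

namespace Cfsg.Agent.S0440

/-- In the symplectic group in dimension 2n ≥ 2 over the field with two elements, the elements g for which g - 1 has rank one (the symplectic transvections) form a conjugacy class of 3-transpositions generating the group. -/
theorem result (n : ℕ) (hn : 1 ≤ n) : Cfsg.IsThreeTranspositionClass {g : Matrix.symplecticGroup (Fin n) (ZMod 2) | ((g : Matrix (Fin n ⊕ Fin n) (Fin n ⊕ Fin n) (ZMod 2)) - 1).rank = 1} := by
  have := H13.isThreeTranspositionClass_of_equiv (H12.spEquivS (Fin n) (ZMod 2))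
    (H17.tv_threeTr H12.sd_spB (fun c _ => by revert c; decide) H12.ns_id (Or.inr (Or.inl rfl))
      (Or.inl rfl) (by rw [H12.finrank_sp]; simp; omega))
  convert this using 1
  ext g
  exact Iff.of_eq (congrArg (· = 1) (H17.rank_sub_one _ _ fun v => by rfl))

end Cfsg.Agent.S0440
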