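import Cfsg.Statements.S0442

set_option autoImplicit false
open Cfsg

namespace Cfsg.Agent.S0442

/-- A standard trick for producing elements of an involution centraliser: for an involution a and an element g, let b be the conjugate g⁻¹ * a * g. If a * b has odd order 2m + 1 then g * (a * b) ^ m commutes with a; if a * b has even order 2m then (a * b) ^ m and (a * (g * a * g⁻¹)) ^ m commute with a. -/
theorem result {G : Type*} [Group G] (a g : G) (ha : orderOf a = 2) : (∀ m : ℕ, orderOf (a * (g⁻¹ * a * g)) = 2 * m + 1 → Commute (g * (a * (g⁻¹ * a * g)) ^ m) a) ∧ (∀ m : ℕ, orderOf (a * (g⁻¹ * a * g)) = 2 * m → Commute ((a * (g⁻¹ * a * g)) ^ m) a ∧ Commute ((a * (g * a * g⁻¹)) ^ m) a) := by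
  have aa : a * a = 1 := by rw [← sq, ← ha, pow_orderOf_eq_one]
  have ia : a⁻¹ = a := inv_eq_of_mul_eq_one_right aa
  have inv : ∀ (h : G) (m : ℕ), a * (a * (h⁻¹ * a * h)) ^ m = ((a * (h⁻¹ * a * h)) ^ m)⁻¹ * a := by
    intro h m
    have : a * (a * (h⁻¹ * a * h)) * a⁻¹ = (a * (h⁻¹ * a * h))⁻¹ := by
      rw [← mul_assoc a a, aa]; simp [ia, mul_assoc]
    rw [← inv_pow, ← this, conj_pow]; simp
  have ev : ∀ (h : G) (m : ℕ), orderOf (a * (h⁻¹ * a * h)) = 2 * m →
      Commute ((a * (h⁻¹ * a * h)) ^ m) a := fun h m hm => by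
    have := pow_orderOf_eq_one (a * (h⁻¹ * a * h))
    rw [hm, two_mul, pow_add] at this
    rw [Commute, SemiconjBy, inv h m, inv_eq_of_mul_eq_one_right this]
  refine ⟨fun m hm => ?_, fun m hm => ⟨ev g m hm, ?_⟩⟩
  · have h1 := pow_orderOf_eq_one (a * (g⁻¹ * a * g))
    rw [hm, two_mul, add_assoc, pow_add] at h1
    have h2 := inv g m
    set c := (a * (g⁻¹ * a * g)) ^ m with hc
    have h3 : c⁻¹ = a * (g⁻¹ * a * g) * c := by
      rw [inv_eq_of_mul_eq_one_right h1, pow_succ']
    have h4 : c * a = a * c⁻¹ := by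
      rw [← mul_left_cancel_iff (a := c⁻¹), ← mul_assoc, inv_mul_cancel, one_mul, ← mul_assoc, ← h2,
        mul_inv_cancel_right]
    rw [Commute, SemiconjBy, mul_assoc, h4, h3, ← mul_assoc a, ← mul_assoc a a, aa]
    simp [mul_assoc]
  · have := ev g⁻¹ m (by
      rw [← hm, inv_inv]
      refine (orderOf_inv _).symm.trans ?_
      rw [← (MulAut.conj g⁻¹).orderOf_eq]
      simp [ia, mul_assoc])
    rwa [inv_inv] at this

end Cfsg.Agent.S0442
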