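import Cfsg.Agent.H13.Tri2
import Cfsg.Statements.S0444

set_option autoImplicit false
open Cfsg

namespace Cfsg.Agent.S0444

/-- Two members of a set of 3-transpositions which do not commute generate a subgroup isomorphic to the symmetric group on three letters. -/
theorem result {G : Type*} [Group G] {E : Set G} (hE : Cfsg.IsThreeTranspositionSet E) {d e : G} (hd : d ∈ E) (he : e ∈ E) (h : ¬ Commute d e) : Nonempty (Subgroup.closure ({d, e} : Set G) ≃* Equiv.Perm (Fin 3)) := by
  have d2 := H11.mul_self_of_orderOf_two (hE.1 d hd)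
  have e2 := H11.mul_self_of_orderOf_two (hE.1 e he)
  have h3 : orderOf (d * e) = 3 := by
    refine orderOf_eq_prime ((hE.2 d hd e he).resolve_left fun h2 => h ?_) fun h1 => h ?_
    · have := inv_eq_of_mul_eq_one_right (sq (d * e) ▸ h2)
      rw [mul_inv_rev, inv_eq_of_mul_eq_one_right d2, inv_eq_of_mul_eq_one_right e2] at this
      exact this.symm
    · rw [eq_inv_of_mul_eq_one_left h1]; exact (Commute.refl e).inv_left
  obtain ⟨f⟩ := H11.nonempty_closure_equiv_dihedral (by norm_num) h3 (H11.invol_inverts_left d2 e2)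
    d2 (H11.not_mem_zpowers_mul (hE.1 d hd) (hE.1 e he))
  rw [H11.closure_pair_eq d2]
  exact ⟨f.trans H13.nonempty_dihedral_three.some⟩

end Cfsg.Agent.S0444
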