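import Cfsg.Statements.S0446

set_option autoImplicit false
open Cfsg

namespace Cfsg.Agent.S0446

/-- Every finite group of even order contains a 2-central involution, i.e. an element of order 2 in the centre of some Sylow 2-subgroup. -/
theorem result {G : Type*} [Group G] [Finite G] (h : Even (Nat.card G)) : ∃ t : G, Cfsg.IsTwoCentralInvolution t := by
  obtain ⟨P⟩ : Nonempty (Sylow 2 G) := inferInstance
  have h0 : (P : Subgroup G) ≠ ⊥ := P.ne_bot_of_dvd_card h.two_dvd
  have : Nontrivial P := (Subgroup.nontrivial_iff_ne_bot _).2 h0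
  have := P.isPGroup'.center_nontrivial
  obtain ⟨x, hx⟩ := exists_prime_orderOf_dvd_card' (G := Subgroup.center P) 2
    ((P.isPGroup'.to_subgroup _).card_eq_or_dvd.resolve_left (Finite.one_lt_card).ne')
  refine ⟨x.1.1, by rw [Subgroup.orderOf_coe, Subgroup.orderOf_coe, hx], P, x.1.2, fun y hy => ?_⟩
  exact congrArg Subtype.val (Subgroup.mem_center_iff.1 x.2 ⟨y, hy⟩)

end Cfsg.Agent.S0446
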