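import Cfsg.Statements.S0458
import Cfsg.Agent.H16.J3e

set_option autoImplicit false
open Cfsg

namespace Cfsg.Agent.S0458

/-- Janko's third group exists as a transitive permutation group of degree 6156 with point stabiliser of order 8160: a simple group of order 50232960. -/
theorem result : ∃ H : Subgroup (Equiv.Perm (Fin 6156)), Cfsg.IsJ3 H ∧ MulAction.IsPretransitive H (Fin 6156) ∧ Nat.card (MulAction.stabilizer H (0 : Fin 6156)) = 8160 := by
  have h := H16.q4Fin 9 (by norm_num) (by norm_num)
  obtain ⟨H, hH⟩ := H16.J3.exists_8160 h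
  have := H16.J3.simple h
  have h1 := H.card_mul_index
  rw [hH, H16.J3.card] at h1
  obtain ⟨P, ⟨e⟩, h2, h3⟩ := H16.exists_perm_rep H (n := 6156) (by omega) (by norm_num)
  exact ⟨P, ⟨e.symm.isSimpleGroup, (Nat.card_congr e.toEquiv).symm.trans (H16.J3.card h)⟩, h2, h3.trans hH⟩

end Cfsg.Agent.S0458
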