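import Cfsg.Statements.S0459
import Cfsg.Agent.H16.RuT

set_option autoImplicit false
open Cfsg

namespace Cfsg.Agent.S0459

/-- The Rudvalis group exists as a transitive permutation group of degree 4060: simple of order 145926144000, with point stabiliser of order 35942400 containing a simple subgroup of order 17971200 (the order of the Tits group). -/
theorem result : ∃ H : Subgroup (Equiv.Perm (Fin 4060)), Cfsg.IsRu H ∧ MulAction.IsPretransitive H (Fin 4060) ∧ Nat.card (MulAction.stabilizer H (0 : Fin 4060)) = 35942400 ∧ ∃ T : Subgroup (MulAction.stabilizer H (0 : Fin 4060)), Cfsg.IsTits T := by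
  have := H27.RuH.simple
  have := (Subgroup.topEquiv (G := H27.Ru.Q)).symm.isSimpleGroup
  have hG : Nat.card H27.Ru.Q = 145926144000 := Subgroup.card_top.symm.trans H27.RuH.card
  have h1 := (⊤ ⊓ MulAction.stabilizer H27.Ru.Q (H27.Ru.pt 0) : Subgroup H27.Ru.Q).card_mul_index
  rw [H16.RuT.card_stab, hG] at h1
  obtain ⟨P, ⟨e⟩, h2, ⟨f⟩⟩ := H16.exists_perm_rep' (⊤ ⊓ MulAction.stabilizer H27.Ru.Q (H27.Ru.pt 0)) (n := 4060) (by omega)
    (by norm_num)
  have k := (Subgroup.subgroupOfEquivOfLe H16.RuT.T_le).symm.trans (f.subgroupMap _)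
  have := H16.RuT.simple_T
  exact ⟨P, ⟨e.symm.isSimpleGroup, (Nat.card_congr e.toEquiv).symm.trans hG⟩, h2,
    (Nat.card_congr f.toEquiv).symm.trans H16.RuT.card_stab, _, k.symm.isSimpleGroup,
    (Nat.card_congr k.toEquiv).symm.trans H16.RuT.card_T⟩

end Cfsg.Agent.S0459
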