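import Cfsg.Statements.S0460
import Cfsg.Agent.H27.ONJ

set_option autoImplicit false
open Cfsg

namespace Cfsg.Agent.S0460

/-- The O'Nan group exists as a transitive permutation group of degree 122760: simple of order 460815505920, point stabiliser of order 3753792, and containing simple subgroups of orders 175560 and 7920. -/
theorem result : ∃ H : Subgroup (Equiv.Perm (Fin 122760)), Cfsg.IsON H ∧ MulAction.IsPretransitive H (Fin 122760) ∧ Nat.card (MulAction.stabilizer H (0 : Fin 122760)) = 3753792 ∧ (∃ K : Subgroup H, Cfsg.IsJ1 K) ∧ (∃ K : Subgroup H, Cfsg.IsM11 K) := by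
  obtain ⟨P, e, h1, h2⟩ := H17.exists_fin_perm (n := 122760) H17.ONT.coset (fun a _ => H17.ONT.rep.lt a)
    (fun a _ => H17.ONT.rep.fix a) (H17.ON.faith.inj)
  haveI := H17.ON.simple
  have c := H17.ON.faith.card
  have i : Function.Injective (e : Spor.ON →* P) := e.injective
  obtain ⟨J, hJ⟩ := H17.PJ.exists_sub
  obtain ⟨M, hM⟩ := H17.PM.exists_sub
  refine ⟨P, ⟨e.symm.isSimpleGroup, (Nat.card_congr e.toEquiv).symm.trans c⟩, h1, ?_, ⟨_, H17.simple_card_map hJ i⟩,
    _, H17.simple_card_map hM i⟩
  have m := (H17.wgrp H17.ON.g H17.ONT.W).index_mul_card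
  rw [H17.ONT.coset.index_eq, c] at m
  rw [← h2, Subgroup.card_map_of_injective i]
  omega

end Cfsg.Agent.S0460
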