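import Cfsg.Statements.S0461
import Cfsg.Agent.H16.J4S

set_option autoImplicit false
open Cfsg

namespace Cfsg.Agent.S0461

/-- Janko's fourth group exists as a group of 112 × 112 matrices over the field with two elements: GL(112, 2) has a simple subgroup of order 86775571046077562880. -/
theorem result : ∃ H : Subgroup (GL (Fin 112) (ZMod 2)), Cfsg.IsJ4 H := by
  exact ⟨Cfsg.Agent.H16.J4G.G0, Cfsg.Agent.H16.J4G.simpleΓ, Cfsg.Agent.H16.J4G.cardΓ⟩

end Cfsg.Agent.S0461
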