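import Cfsg.Statements.S0462
import Cfsg.Agent.H27.HeSp

set_option autoImplicit false
open Cfsg

namespace Cfsg.Agent.S0462

/-- The Held group exists as a transitive permutation group of degree 2058: simple of order 4030387200, with point stabiliser containing, with index 2, a copy of the 4-dimensional symplectic group over the field with four elements. -/
theorem result : ∃ H : Subgroup (Equiv.Perm (Fin 2058)), Cfsg.IsHe H ∧ MulAction.IsPretransitive H (Fin 2058) ∧ ∃ (F : Type) (_ : Field F) (_ : Fintype F), Fintype.card F = 4 ∧ ∃ N : Subgroup (MulAction.stabilizer H (0 : Fin 2058)), N.index = 2 ∧ Nonempty (N ≃* Matrix.symplecticGroup (Fin 2) F) := by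
  have lt : ∀ a (i : Fin 2058), H17.HeT.φ a i < 2058 := fun a i => H17.HeT.rep.lt a i.2
  letI : MulAction Spor.He (Fin 2058) :=
    { smul a i := ⟨H17.HeT.φ a i, lt a i⟩
      one_smul i := Fin.ext (show H17.HeT.φ 1 i = i by simp)
      mul_smul a b i := Fin.ext (show H17.HeT.φ (a * b) i = H17.HeT.φ a (H17.HeT.φ b i) by simp) }
  have inj : Function.Injective (MulAction.toPermHom Spor.He (Fin 2058)) := (injective_iff_map_eq_one _).2 fun a h =>
    H17.He.faith.base a fun β hβ => by
      exact congrArg Fin.val (DFunLike.congr_fun h ⟨β, (by decide : ∀ β ∈ H17.He.base, β < 2058) β hβ⟩)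
  let e := MonoidHom.ofInjective inj
  haveI := H17.He.simple
  have m : H27.HeSp.H.map e.toMonoidHom = MulAction.stabilizer _ (0 : Fin 2058) := Subgroup.ext fun x => by
    obtain ⟨a, rfl⟩ := e.surjective x
    exact (Subgroup.mem_map_iff_mem e.injective).trans ((H17.HeT.coset.stab a).trans ⟨fun h => Fin.ext h, fun h => congrArg Fin.val (show a • (0 : Fin 2058) = 0 from h)⟩)
  let e' := (e.subgroupMap H27.HeSp.H).trans (MulEquiv.subgroupCongr m)
  obtain ⟨N, h, ⟨q⟩⟩ := H27.HeSp.exists_N
  refine ⟨_, ⟨e.symm.isSimpleGroup, (Nat.card_congr e.toEquiv).symm.trans H17.He.faith.card⟩, ?_, H17.F4, inferInstance,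
    inferInstance, H17.card_F4, N.map e'.toMonoidHom, (Subgroup.index_map_equiv N e').trans h,
    ⟨(e'.subgroupMap N).symm.trans q⟩⟩
  refine MulAction.isPretransitive_iff_base (0 : Fin 2058) |>.2 fun j => ?_
  obtain ⟨a, ha⟩ := H17.HeT.coset.trans j j.2
  exact ⟨e a, Fin.ext ha⟩

end Cfsg.Agent.S0462
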