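import Cfsg.Statements.S0463
import Cfsg.Agent.H27.HNC

set_option autoImplicit false
open Cfsg

namespace Cfsg.Agent.S0463

/-- The Harada–Norton group exists as a transitive permutation group of degree 1140000: simple of order 273030912000000 with point stabiliser isomorphic to the alternating group of degree 12. -/
theorem result : ∃ H : Subgroup (Equiv.Perm (Fin 1140000)), Cfsg.IsHN H ∧ MulAction.IsPretransitive H (Fin 1140000) ∧ Nonempty (MulAction.stabilizer H (0 : Fin 1140000) ≃* alternatingGroup (Fin 12)) := by
  obtain ⟨θ, i⟩ := H17.HNC.exA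
  have := H17.HN7.simple
  have c := H17.HN6.card
  have m := θ.range.index_mul_card
  rw [← Nat.card_congr (MonoidHom.ofInjective i).toEquiv, c, nat_card_alternatingGroup, Nat.card_fin] at m
  obtain ⟨P, e, h1, h2⟩ := H17.HNC.coset_perm θ.range (n := 1140000)
    (Nat.eq_of_mul_eq_mul_right (by decide) (m.trans (by decide +kernel))) (by decide)
  exact ⟨P, ⟨e.symm.isSimpleGroup, (Nat.card_congr e.toEquiv).symm.trans c⟩, h1,
    ⟨h2 ▸ ((MonoidHom.ofInjective i).trans (θ.range.equivMapOfInjective (e : _ →* P) e.injective)).symm⟩⟩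

end Cfsg.Agent.S0463
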