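import Cfsg.Agent.H17.Fi22U6
import Cfsg.Statements.S0471

set_option autoImplicit false
open Cfsg

namespace Cfsg.Agent.S0471

/-- The Fischer group of order 64561751654400 exists as a 3-transposition group: a simple group of that order generated by a conjugacy class of 3510 3-transpositions, the centraliser of each being a non-split double cover of PSU(6, 2). -/
theorem result : ∃ (G : Type) (_ : Group G) (_ : Finite G), Cfsg.IsFi22 G ∧ ∃ D : Set G, Cfsg.IsThreeTranspositionClass D ∧ Nat.card D = 3510 ∧ ∀ d ∈ D, ∃ (F : Type) (_ : Field F) (_ : Fintype F), Fintype.card F = 4 ∧ Cfsg.IsNonsplitDoubleCover (Subgroup.centralizer ({d} : Set G)) (Cfsg.PSU 6 F 2) := by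
  refine ⟨Spor.Fi22, inferInstance, H17.Fi22.faith.fin, ⟨H17.Fi22.simple, H17.Fi22.faith.card⟩, _,
    H17.Fi22.threeTr.1, H17.Fi22.threeTr.2, fun d hd => ⟨H17.F4, inferInstance, inferInstance, H17.card_F4, ?_⟩⟩
  obtain ⟨c, rfl⟩ := isConj_iff.1 hd
  exact H17.IsNonsplit.congr H17.Fi22.coverU
    ((MulEquiv.subgroupCongr H17.Fi22.centralizer_a.symm).trans (H17.centralizerConjEquiv _ c)) (MulEquiv.refl _)

end Cfsg.Agent.S0471
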