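import Cfsg.Statements.S0478
import Cfsg.Agent.H16.J3e

set_option autoImplicit false
open Cfsg

namespace Cfsg.Agent.S0478

/-- A triple cover of Janko's third group inside a unitary group: for a field F with four elements, the special unitary group of dimension 9 (with respect to the form with q = 2) has a subgroup whose centre has order 3 and whose quotient by its centre is simple of order 50232960. -/
theorem result : ∃ (F : Type) (_ : Field F) (_ : Fintype F), Fintype.card F = 4 ∧ ∃ H : Subgroup (Cfsg.SU 9 F 2), Nat.card (Subgroup.center H) = 3 ∧ Cfsg.IsJ3 (H ⧸ Subgroup.center H) := by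
  have h := H16.q4Fin 9 (by norm_num) (by norm_num)
  obtain ⟨H, ⟨e⟩⟩ := H16.exists_su' H16.J3.le_su
  obtain ⟨h1, ⟨e'⟩⟩ := H16.J3.quot h le_rfl (H16.J3.T_map h)
  have := H16.J3.simple h
  have e'' := (H12.centerQuotCongr e).trans e'
  exact ⟨H16.F4, inferInstance, inferInstance, H16.card_F4, H, (Nat.card_congr (Subgroup.centerCongr e).toEquiv).trans h1,
    e''.isSimpleGroup, (Nat.card_congr e''.toEquiv).trans (H16.J3.card h)⟩

end Cfsg.Agent.S0478
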