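import Cfsg.Agent.H17.Cent5
import Cfsg.Statements.S0481

set_option autoImplicit false
open Cfsg

namespace Cfsg.Agent.S0481

/-- Large extraspecial subgroups: let z be an involution of a finite group G whose centraliser C contains a normal 2-subgroup Q with centre of order 2 and all squares central, such that every element of G centralising Q lies in Q. Then C contains a Sylow 2-subgroup of G, and any involution of G whose centraliser contains a Sylow 2-subgroup of G is conjugate to z. -/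
theorem result {G : Type*} [Group G] [Finite G] (z : G) (hz : orderOf z = 2) (Q : Subgroup G) (hQC : Q ≤ Subgroup.centralizer ({z} : Set G)) (hQn : ∀ g ∈ Subgroup.centralizer ({z} : Set G), ∀ q ∈ Q, g * q * g⁻¹ ∈ Q) (hQ2 : IsPGroup 2 Q) (hZ : Nat.card (Subgroup.center Q) = 2) (hsq : ∀ x : Q, x ^ 2 ∈ Subgroup.center Q) (hlarge : Subgroup.centralizer (Q : Set G) ≤ Q) : (∃ P : Sylow 2 G, (P : Subgroup G) ≤ Subgroup.centralizer ({z} : Set G)) ∧ ∀ u : G, orderOf u = 2 → (∃ P : Sylow 2 G, (P : Subgroup G) ≤ Subgroup.centralizer ({u} : Set G)) → IsConj z u := by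
  have hz1 : z ≠ 1 := fun e => by simp [e] at hz
  have hzC : ∀ q ∈ Q, q * z = z * q := fun q hq => Subgroup.mem_centralizer_singleton_iff.1 (hQC hq)
  have key : ∀ x, (∀ q ∈ Q, q * x = x * q) → x = 1 ∨ x = z := fun x hx => by
    obtain ⟨w, -, hw⟩ := (Nat.card_eq_two_iff' (1 : Subgroup.center Q)).1 hZ
    by_cases h1 : x = 1
    · exact Or.inl h1
    · exact Or.inr (congrArg (·.1.1) ((hw ⟨⟨x, hlarge hx⟩, Subgroup.mem_center_iff.2 fun q =>
        Subtype.ext (hx q q.2)⟩ fun e => h1 (congrArg (·.1.1) e)).trans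
        (hw ⟨⟨z, hlarge hzC⟩, Subgroup.mem_center_iff.2 fun q => Subtype.ext (hzC q q.2)⟩
          fun e => hz1 (congrArg (·.1.1) e)).symm))
  obtain ⟨T, hT, hQT⟩ := H3.exists_sylowIn_le hQ2 hQC
  have hT' := H17.sylowIn_top_of_center hz hT fun x _ h => key x fun q hq => (h q (hQT hq)).symm
  refine ⟨⟨hT'.toSylowTop, hT.le⟩, fun u hu ⟨P, hP⟩ => ?_⟩
  obtain ⟨g, hg⟩ := MulAction.exists_smul_eq G P hT'.toSylowTop
  refine (isConj_iff.2 ⟨g, (key _ fun q hq => ?_).resolve_left fun h => ?_⟩).symm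
  · have : q ∈ (g • P : Sylow 2 G) := hg ▸ hQT hq
    obtain ⟨p, hp, rfl⟩ := this
    have := Subgroup.mem_centralizer_singleton_iff.1 (hP hp)
    change g * p * g⁻¹ * _ = _ * (g * p * g⁻¹)
    rw [conj_mul, conj_mul, this]
  · simp [show u = 1 by simpa using h] at hu

end Cfsg.Agent.S0481
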