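import Cfsg.Statements.S0499
import Cfsg.Agent.H10.Local2
import Cfsg.Agent.H19.Basic
import Cfsg.Agent.H2.Prim
import Cfsg.Agent.S0071

set_option autoImplicit false
open Cfsg

namespace Cfsg.Agent.S0499

/-- A non-abelian finite simple group of even order has order divisible by 12, 16 or 56. -/
theorem result {G : Type*} [Group G] [Finite G] [IsSimpleGroup G]
    (hG : ¬ IsMulCommutative G) (h2 : Even (Nat.card G)) :
    12 ∣ Nat.card G ∨ 16 ∣ Nat.card G ∨ 56 ∣ Nat.card G := by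
  open Subgroup Cfsg.Agent.H10 in
  obtain ⟨S⟩ : Nonempty (Sylow 2 G) := inferInstance
  have hnc : ¬ ∃ N : Subgroup G, N.Normal ∧ N.IsComplement' (S : Subgroup G) := by
    rintro ⟨N, hN, hc⟩
    rcases hN.eq_bot_or_eq_top with rfl | rfl
    · have := isComplement'_bot_left.1 hc
      exact H19.not_isPGroup_of_simple hG 2 ((this ▸ S.2 : IsPGroup 2 (⊤ : Subgroup G)).of_equiv
        topEquiv)
    · exact S.ne_bot_of_dvd_card (even_iff_two_dvd.1 h2) (isComplement'_top_left.1 hc)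
  rw [S0071.result S] at hnc
  push Not at hnc
  obtain ⟨Q, hQ, g, hg, hcop, hgc⟩ := hnc
  obtain ⟨r, R, hR, hRc⟩ : ∃ (r : Nat.Primes) (R : Sylow (r : ℕ) (zpowers g)),
      ((R : Subgroup (zpowers g)).map (zpowers g).subtype) ≤ zpowers g ∧
      ¬ ((R : Subgroup (zpowers g)).map (zpowers g).subtype) ≤ centralizer (Q : Set G) := by
    by_contra hcon
    push Not at hcon
    apply hgc
    have h1 := iSup_sylow_eq_top (G := zpowers g)
    have h2 : (⊤ : Subgroup (zpowers g)).map (zpowers g).subtype ≤ centralizer (Q : Set G) := by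
      rw [← h1, Subgroup.map_iSup]
      refine iSup_le fun r => ?_
      rw [Subgroup.map_iSup]
      exact iSup_le fun R => hcon r R (map_subtype_le _)
    exact h2 ⟨⟨g, mem_zpowers g⟩, trivial, rfl⟩
  obtain ⟨r, hr⟩ := r
  haveI := Fact.mk hr
  set T := (R : Subgroup (zpowers g)).map (zpowers g).subtype
  have hT : IsPGroup r T := R.2.map _
  have hT1 : T ≠ ⊥ := fun h => hRc (h ▸ bot_le)
  have hrd : r ∣ orderOf g := by
    rw [← Nat.card_zpowers]; exact (dvd_card_of_isPGroup hT hT1).trans (card_dvd_of_le hR)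
  have hr2 : r ≠ 2 := by
    rintro rfl
    exact Nat.prime_two.one_lt.ne' (Nat.eq_one_of_dvd_coprimes hcop hrd dvd_rfl)
  have hmod := H2.card_modEq_card_inf_centralizer hT (hR.trans (zpowers_le.2 hg))
  have hQp : IsPGroup 2 Q := S.2.to_le hQ
  obtain ⟨a, ha⟩ := IsPGroup.iff_card.1 hQp
  obtain ⟨b, hb⟩ := IsPGroup.iff_card.1 (hQp.to_le (inf_le_left (b := centralizer (T : Set G))))
  have hlt : Q ⊓ centralizer (T : Set G) < Q :=
    lt_of_le_of_ne inf_le_left fun h => hRc (le_centralizer_iff.1 (h ▸ inf_le_right))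
  have hba : b < a := by
    have := card_lt_of_lt hlt
    rw [ha, hb] at this
    exact (Nat.pow_lt_pow_iff_right (by norm_num)).1 this
  have hQG : 2 ^ a ∣ Nat.card G := ha ▸ Q.card_subgroup_dvd_card
  have hrG : r ∣ Nat.card G := hrd.trans (orderOf_dvd_natCard g)
  by_cases h4 : 4 ≤ a
  · exact Or.inr (Or.inl ((pow_dvd_pow 2 h4).trans hQG))
  rw [ha, hb] at hmod
  have hd := (Nat.modEq_iff_dvd' (Nat.pow_le_pow_right (by norm_num) hba.le)).1 hmod.symm
  have e3 : ∀ c, r ∣ 2 ^ c * 3 → r = 3 := fun c h => by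
    rcases (Nat.Prime.dvd_mul hr).1 h with h | h
    · exact absurd ((Nat.prime_dvd_prime_iff_eq hr Nat.prime_two).1 (hr.dvd_of_dvd_pow h)) hr2
    · exact (Nat.prime_dvd_prime_iff_eq hr Nat.prime_three).1 h
  have e1 : ∀ c, ¬ r ∣ 2 ^ c := fun c h =>
    hr2 ((Nat.prime_dvd_prime_iff_eq hr Nat.prime_two).1 (hr.dvd_of_dvd_pow h))
  have f3 : 2 ≤ a → r = 3 → 12 ∣ Nat.card G := fun h h3 =>
    Nat.Coprime.mul_dvd_of_dvd_of_dvd (by norm_num : Nat.Coprime 4 3)
      ((pow_dvd_pow 2 h).trans hQG) (h3 ▸ hrG)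
  have ha3 : a ≤ 3 := by omega
  interval_cases a <;> interval_cases b
  · exact absurd hd (e1 0)
  · exact Or.inl (f3 le_rfl (e3 0 hd))
  · exact absurd hd (e1 1)
  · have h7 : r = 7 := (Nat.prime_dvd_prime_iff_eq hr (by norm_num)).1 hd
    exact Or.inr (Or.inr (Nat.Coprime.mul_dvd_of_dvd_of_dvd (by norm_num : Nat.Coprime 8 7)
      hQG (h7 ▸ hrG)))
  · exact Or.inl (f3 (by norm_num) (e3 1 hd))
  · exact absurd hd (e1 2)

end Cfsg.Agent.S0499
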