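import Cfsg.Statements.S0502
import Cfsg.Agent.H10.Local2
import Cfsg.Agent.H11.Klein

set_option autoImplicit false
open Cfsg

namespace Cfsg.Agent.S0502

section
open Subgroup Cfsg.Agent.H10
open scoped commutatorElement Pointwise

theorem exists_comm {P : Type*} [Group P] {E : Subgroup P} [hn : E.Normal]
    (hE2 : ∀ e ∈ E, e * e = 1) (hE8 : 8 ≤ Nat.card E) {z w : P} (hz : z * z = 1)
    (hw : w * w = 1) : ∃ e ∈ E, e ≠ 1 ∧ e ≠ z ∧ e * w = w * e := by
  classical
  have hwi : w⁻¹ = w := inv_eq_of_mul_eq_one_right hw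
  by_contra hcon
  push Not at hcon
  have key : ∀ e ∈ E, e ≠ 1 → e ≠ z → e * (w * e * w⁻¹) = z := by
    intro e he h1 h2
    have hc := hn.conj_mem e he w
    by_contra h3
    have h4 : e * (w * e * w⁻¹) ≠ 1 := by
      intro h
      apply hcon e he h1 h2
      have h5 : w * e * w⁻¹ = e := by
        rw [← inv_eq_of_mul_eq_one_right h, inv_eq_of_mul_eq_one_right (hE2 e he)]
      calc e * w = w * e * w⁻¹ * w := by rw [h5]
        _ = w * e := by group
    apply hcon _ (E.mul_mem he hc) h4 h3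
    have h6 := H11.comm_of_sq_eq_one hE2 he hc
    calc e * (w * e * w⁻¹) * w = (w * w) * e * w * e := by rw [hw]; group
      _ = w * (w * e * w⁻¹ * e) := by rw [hwi]; group
      _ = w * (e * (w * e * w⁻¹)) := by rw [h6]
  obtain ⟨a, ha, ha'⟩ := H11.exists_mem_ne_of_card (V := E) {1, z}
    (lt_of_le_of_lt Finset.card_le_two (by omega))
  simp only [Finset.mem_insert, Finset.mem_singleton, not_or] at ha'
  obtain ⟨b, hb, hb'⟩ := H11.exists_mem_ne_of_card (V := E) {1, z, a, a * z}
    (lt_of_le_of_lt Finset.card_le_four (by omega))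
  simp only [Finset.mem_insert, Finset.mem_singleton, not_or] at hb'
  have h1 := key a ha ha'.1 ha'.2
  have h2 := key b hb hb'.1 hb'.2.1
  have hai : a⁻¹ = a := inv_eq_of_mul_eq_one_right (hE2 a ha)
  refine hcon (a * b) (E.mul_mem ha hb) (fun h => hb'.2.2.1 ?_) (fun h => hb'.2.2.2 ?_) ?_
  · rw [← hai]; exact (inv_eq_of_mul_eq_one_right h).symm
  · rw [← h, ← mul_assoc, hE2 a ha, one_mul]
  · have hbi : b⁻¹ = b := inv_eq_of_mul_eq_one_right (hE2 b hb)
    have h3 : w * a * w⁻¹ = a * z := by rw [← h1, ← mul_assoc, hE2 a ha, one_mul]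
    have h4 : w * b * w⁻¹ = b * z := by rw [← h2, ← mul_assoc, hE2 b hb, one_mul]
    have hzE : z ∈ E := h1 ▸ E.mul_mem ha (hn.conj_mem a ha w)
    have h5 := H11.comm_of_sq_eq_one hE2 hzE hb
    have : w * (a * b) * w⁻¹ = a * b := by
      calc w * (a * b) * w⁻¹ = (w * a * w⁻¹) * (w * b * w⁻¹) := by group
        _ = a * (z * b) * z := by rw [h3, h4]; group
        _ = a * b * (z * z) := by rw [h5]; group
        _ = a * b := by rw [hz, mul_one]
    calc a * b * w = w * (a * b) * w⁻¹ * w := by rw [this]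
      _ = w * (a * b) := by group

theorem comm_closure {P : Type*} [Group P] {A : Subgroup P} {x y : P}
    (hx : ∀ a ∈ A, a * x = x * a) (hy : ∀ a ∈ A, a * y = y * a) :
    ∀ a ∈ A, ∀ b ∈ closure ({x, y} : Set P), a * b = b * a := by
  intro a ha b hb
  have : closure ({x, y} : Set P) ≤ centralizer {a} := by
    rw [closure_le]
    rintro c (rfl | rfl)
    · exact mem_centralizer_singleton_iff.2 (hx a ha).symm
    · exact mem_centralizer_singleton_iff.2 (hy a ha).symm
  exact (mem_centralizer_singleton_iff.1 (this hb)).symm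

end

/-- If a finite 2-group has a normal elementary abelian subgroup of order at least 8, then any two of its Klein
four-subgroups are joined by a chain of Klein four-subgroups with consecutive members commuting elementwise. -/
theorem result {P : Type*} [Group P] [Finite P] (hP : IsPGroup 2 P)
    (E : Subgroup P) [E.Normal] (hE : IsMulCommutative E) (hE2 : ∀ e ∈ E, e ^ 2 = 1) (hE8 : 8 ≤ Nat.card E) :
    Cfsg.IsFourConnected P := by
  open Subgroup Cfsg.Agent.H10 in
  have hE2' : ∀ e ∈ E, e * e = 1 := fun e he => by rw [← sq]; exact hE2 e he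
  have hEp : IsPGroup 2 E := hP.to_subgroup E
  have hne : E ≠ ⊥ := by rintro rfl; simp at hE8
  obtain ⟨z, hzE, hz, hzc⟩ := exists_central_orderOf (P := ⊤) hEp (hP.to_subgroup ⊤)
    le_normalizer_of_normal hne
  have hzc' : ∀ a : P, a * z = z * a := fun a => mem_centralizer_singleton_iff.1 (hzc (mem_top a))
  have hz1 : z ≠ 1 := ne_one_of_orderOf hz
  set R := fun A B : Subgroup P => IsKleinFour A ∧ IsKleinFour B ∧ ∀ a ∈ A, ∀ b ∈ B, a * b = b * a
    with hR
  have hsymm : Symmetric R := fun A B h => ⟨h.2.1, h.1, fun a ha b hb => (h.2.2 b hb a ha).symm⟩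
  have k1 : ∀ V : Subgroup P, IsKleinFour V → z ∈ V →
      ∃ W ≤ E, IsKleinFour W ∧ Relation.ReflTransGen R V W := by
    intro V hV hzV
    obtain ⟨w, hw, hw1, hwz⟩ := H11.klein_exists_other hV z
    obtain ⟨e, he, he1, hez, hew⟩ := exists_comm hE2' hE8 (hE2' z hzE) (H11.klein_sq hV hw)
    have hW := H11.isKleinFour_closure hz (orderOf_eq_of_pow (hE2 e he) he1) hez.symm (hzc' e).symm
    refine ⟨_, ?_, hW, .single ⟨hV, hW, comm_closure (fun a _ => hzc' a) fun a ha => ?_⟩⟩
    · rw [closure_le]; rintro c (rfl | rfl) <;> assumption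
    · rcases (H11.klein_mem_iff hV hzV hw hz1 hw1 hwz.symm).1 ha with rfl | rfl | rfl | rfl
      · simp
      · exact (hzc' e).symm
      · exact hew.symm
      · rw [mul_assoc, ← hew, ← mul_assoc, ← hzc' e, mul_assoc]
  have k2 : ∀ V : Subgroup P, IsKleinFour V →
      ∃ W ≤ E, IsKleinFour W ∧ Relation.ReflTransGen R V W := by
    intro V hV
    obtain ⟨w, hw, hw1, hwz⟩ := H11.klein_exists_other hV z
    have hW := H11.isKleinFour_closure hz (H11.klein_orderOf hV hw hw1) hwz.symm (hzc' w).symm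
    obtain ⟨W, h1, h2, h3⟩ := k1 _ hW (subset_closure (by simp))
    exact ⟨W, h1, h2, .head ⟨hV, hW, comm_closure (fun a _ => hzc' a)
      fun a ha => H11.klein_comm hV ha hw⟩ h3⟩
  intro U V hU hV
  obtain ⟨U', h1, h2, h3⟩ := k2 U hU
  obtain ⟨V', h4, h5, h6⟩ := k2 V hV
  have h7 : ∀ A B, Relation.ReflTransGen R A B → Relation.ReflTransGen R B A := by
    intro A B h
    induction h with
    | refl => exact .refl
    | tail _ h ih => exact .head (hsymm h) ih
  exact (h3.tail ⟨h2, h5, fun a ha b hb => H11.comm_of_sq_eq_one hE2' (h1 ha) (h4 hb)⟩).trans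
    (h7 _ _ h6)

end Cfsg.Agent.S0502
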