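import Cfsg.Statements.S0504
import Cfsg.Agent.H10.Dich2

set_option autoImplicit false
open Cfsg

namespace Cfsg.Agent.S0504

/-- Let G be a finite group containing an elementary abelian subgroup of order 8, with no nontrivial normal subgroup of
odd order, not of component type, and with a Sylow 2-subgroup whose commuting graph of Klein four-subgroups is
connected. Then every 2-local subgroup H of G satisfies C_H(O₂(H)) ≤ O₂(H). -/
theorem result {G : Type*} [Group G] [Finite G]
    (h3 : ¬ Cfsg.PRankLE 2 2 G) (hO : Cfsg.oddCore G = ⊥) (hc : ¬ Cfsg.IsComponentType G) (S : Sylow 2 G)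
    (hS : Cfsg.IsFourConnected (S : Subgroup G)) : Cfsg.IsCharacteristicTwoType G := by
  open Subgroup Cfsg.Agent.H10 in
  obtain ⟨E, hE⟩ := exists_e8_of_not_pRankLE h3
  refine (con_of_not_componentType hc).charTwo hO ?_ (big_of_connected h3 S hS)
  refine even_iff_two_dvd.2 ((dvd_card_of_isPGroup hE.isPGroup fun e => ?_).trans (card_subgroup_dvd_card E))
  have := hE.card
  rw [e, card_bot] at this
  omega

end Cfsg.Agent.S0504
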