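import Cfsg.Statements.S0514
import Cfsg.Agent.H26.DihFrob

set_option autoImplicit false
open Cfsg

namespace Cfsg.Agent.S0514


/-- In a finite group whose Sylow 2-subgroups are dihedral of order at least 4, the centralizer of any involution has a
normal subgroup of odd order whose index in the centralizer is a power of 2. -/
theorem result {X : Type*} [Group X] [Finite X]
    (S : Sylow 2 X) (n : ℕ) (hn : 2 ≤ n) (hS : Nonempty ((S : Subgroup X) ≃* DihedralGroup n)) (t : X)
    (ht : orderOf t = 2) :
    ∃ N : Subgroup (Subgroup.centralizer ({t} : Set X)), N.Normal ∧ Odd (Nat.card N) ∧ ∃ k : ℕ, N.index = 2 ^ k := by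
  obtain ⟨φ⟩ := hS
  have h := H26.cent_hasNormalPComplement_of_dihedral S hn φ ht
  refine ⟨pResidual 2 _, inferInstance, ?_, H3.exists_index_pResidual⟩
  rw [H3.hasNormalPComplement_iff_not_dvd] at h
  exact Nat.odd_iff.2 (by omega)

end Cfsg.Agent.S0514
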