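import Cfsg.Statements.S0518
import Cfsg.Agent.H9.JC10

set_option autoImplicit false
open Cfsg

namespace Cfsg.Agent.S0518

/-- Let G be a finite group of characteristic 2 type with trivial 2-core in which every 2-local subgroup is solvable
and, for every Sylow 2-subgroup S, the centralizer of the set of central involutions of S lies in the normalizer of S.
Then either G has a strongly embedded subgroup, or the subgroup generated by the elements of odd order has two distinct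
maximal 2-local subgroups, each isomorphic to the symmetric group of degree 4, whose intersection has order 8. -/
theorem result {G : Type*} [Group G] [Finite G]
    (hL : Cfsg.IsCharacteristicTwoType G) (hO : Cfsg.pCore 2 G = ⊥)
    (hN : ∀ N : Subgroup G, Cfsg.IsTwoLocal N → Group.IsSolvable N)
    (hZ : ∀ S : Sylow 2 G,
      Subgroup.centralizer {z : G | z ∈ (S : Subgroup G) ∧ z ^ 2 = 1 ∧ ∀ s ∈ (S : Subgroup G), s * z = z * s} ≤
        Subgroup.normalizer ((S : Subgroup G) : Set G))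
    (H : Subgroup G) (hH : H = Subgroup.closure {g : G | Odd (orderOf g)}) :
    (∃ K : Subgroup G, Cfsg.IsStronglyEmbedded K) ∨
      ∃ M₁ M₂ : Subgroup H, M₁ ≠ M₂ ∧ Cfsg.IsMaximalTwoLocal M₁ ∧ Cfsg.IsMaximalTwoLocal M₂ ∧
        Nonempty (M₁ ≃* Equiv.Perm (Fin 4)) ∧ Nonempty (M₂ ≃* Equiv.Perm (Fin 4)) ∧ Nat.card ↥(M₁ ⊓ M₂) = 8 := by
  have hz : H9K.ZN G := H9K.zn_of hL hN fun S g hg => hZ S fun x hx =>
    hg x (H24.mem_omegaOneCenter.2 ⟨hx.1, fun s hs => hx.2.2 s hs, hx.2.1⟩)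
  obtain ⟨S, hS⟩ := H24.exists_sylIn 2 (⊤ : Subgroup G)
  have hS1 : S ≠ ⊥ := hS.ne_bot (by rw [Subgroup.card_top]; exact hL.1.two_dvd)
  have h : H9K.MSet S _ := ⟨hz, hO, hS, H9K.isTwoLocal_J hS.pgrp hS1, le_rfl⟩
  by_cases hex : ∀ T, ¬ H9K.Str (Subgroup.normalizer (thompsonSubgroupOf 2 S : Set G)) T
  · exact Or.inl ⟨_, h.stronglyEmbedded_iff.2 hex⟩
  push Not at hex
  obtain ⟨T₁, hT₁⟩ := hex
  obtain ⟨T, hT⟩ := H9K.exists_wMax hT₁
  obtain ⟨K₁, L₁, K₂, L₂, p1, p2, e⟩ := h.exists_pair hT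
  obtain rfl : H = pResidualOf 2 ⊤ := by
    rw [hH, ← H9K.closure_odd_eq]; simp
  obtain ⟨a, -, ⟨f⟩⟩ := p1.compl' p2 e
  obtain ⟨-, -, ⟨g⟩⟩ := p2.compl' p1 e.symm
  refine Or.inr ⟨_, _, fun h0 => e (p1.eq_of_le p2.toUP ?_), p1.isMax p2 e, p2.isMax p1 e.symm,
    ⟨(Subgroup.subgroupOfEquivOfLe (p1.M_le p2 e)).trans f⟩,
    ⟨(Subgroup.subgroupOfEquivOfLe (p2.M_le p1 e.symm)).trans g⟩, ?_⟩
  · rw [Subgroup.subgroupOf_inj, inf_eq_left.2 (p1.M_le p2 e),
      inf_eq_left.2 (p2.M_le p1 e.symm)] at h0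
    exact (le_sup_left.trans h0.ge).trans (le_sup_left.trans a.le)
  · rw [← p1.card_inf p2 e, ← H24.card_subgroupOf (inf_le_left.trans (p1.M_le p2 e))]
    rfl

end Cfsg.Agent.S0518
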