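import Cfsg.Statements.S0520
import Cfsg.Agent.H10.Four

set_option autoImplicit false
open Cfsg

namespace Cfsg.Agent.S0520

/-- Let G be a finite group of 2-rank at least 2 and S a Sylow 2-subgroup whose commuting graph of Klein four-subgroups is
connected. Then the commuting graph of Klein four-subgroups of G is disconnected if and only if the 2-generated core — the
subgroup generated by the normalizers N_G(Q) of the subgroups Q of S that contain a Klein four-group — is a proper
subgroup of G. -/
theorem result {G : Type*} [Group G] [Finite G] (h2 : ¬ Cfsg.PRankLE 2 1 G)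
    (S : Sylow 2 G) (hS : Cfsg.IsFourConnected (S : Subgroup G)) :
    ¬ Cfsg.IsFourConnected G ↔
      (⨆ Q : {Q : Subgroup G // Q ≤ (S : Subgroup G) ∧ ¬ Cfsg.PRankLE 2 1 Q},
          Subgroup.normalizer ((Q : Subgroup G) : Set G)) ≠ ⊤ := by
  open Subgroup Cfsg.Agent.H10 in
  open H11 in
  set M := (⨆ Q : {Q : Subgroup G // Q ≤ (S : Subgroup G) ∧ ¬ PRankLE 2 1 Q},
    Subgroup.normalizer ((Q : Subgroup G) : Set G)) with hMdef
  have hM : ∀ Q ≤ (S : Subgroup G), (∃ V ≤ Q, IsKleinFour V) → normalizer (Q : Set G) ≤ M :=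
    fun Q hQ h => le_iSup (fun Q : {Q : Subgroup G // Q ≤ (S : Subgroup G) ∧ ¬ PRankLE 2 1 Q} =>
      Subgroup.normalizer ((Q : Subgroup G) : Set G)) ⟨Q, hQ, not_pRankLE_one_iff.2 h⟩
  have hS' := isSylIn_top S
  have into : ∀ V : Subgroup G, IsKleinFour V → ∃ g, cj g V ≤ S := fun V hV => by
    obtain ⟨g, -, h⟩ := hS'.exists_cj_le (klein_isPGroup hV) le_top
    exact ⟨g, h⟩
  obtain ⟨U0, hU0⟩ := not_pRankLE_one_iff'.1 h2
  obtain ⟨g0, hg0⟩ := into U0 hU0
  obtain ⟨U, hUS, hU⟩ : ∃ U ≤ (S : Subgroup G), IsKleinFour U := ⟨_, hg0, isKleinFour_cj hU0 g0⟩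
  have hSM : (S : Subgroup G) ≤ M := le_normalizer.trans (hM S le_rfl ⟨U, hUS, hU⟩)
  rw [not_iff_not]
  constructor
  · intro hc
    have cl : ∀ V : Subgroup G, Conn4 U V → V ≤ M := by
      intro V h
      induction h with
      | refl => exact hUS.trans hSM
      | @tail A B _ h ih =>
        obtain ⟨m, hm, hle⟩ := (hS'.of_le hSM le_top).exists_cj_le (klein_isPGroup h.1) ih
        have := hM _ hle ⟨_, le_rfl, isKleinFour_cj h.1 m⟩
        rw [← cj_normalizer, cj_le_iff', cj_eq_of_mem (M.inv_mem hm)] at this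
        refine le_trans (le_normalizer_of_le_centralizer ?_) this
        intro b hb a ha
        exact h.2.2 a ha b hb
    rw [eq_top_iff]
    intro g _
    exact mem_of_klein_le hS' hM (isKleinFour_cj hU g) (cl _ (hc _ _ hU (isKleinFour_cj hU g)))
      (cj_mono g (hUS.trans hSM)) ⟨U, hUS, hU⟩
  · intro hT
    let K : Subgroup G :=
      { carrier := {g | Conn4 U (cj g U)}
        one_mem' := by simp only [Set.mem_setOf_eq, cj_one]; exact .refl
        mul_mem' := fun {a b} ha hb => by
          simp only [Set.mem_setOf_eq, cj_mul] at ha hb ⊢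
          exact Relation.ReflTransGen.trans ha (hb.cj a)
        inv_mem' := fun {a} ha => by
          simp only [Set.mem_setOf_eq] at ha ⊢
          have := (ha.cj a⁻¹).symm
          rwa [cj_inv_cj] at this }
    have hK : M ≤ K := by
      refine iSup_le fun Q g hg => ?_
      obtain ⟨V, hV, hVk⟩ := not_pRankLE_one_iff.1 Q.2.2
      have h1 := conn4_of_le hS hU hVk hUS (hV.trans Q.2.1)
      have h2 := conn4_of_le hS hU (isKleinFour_cj hVk g) hUS
        (((cj_mono g hV).trans (cj_eq_iff.2 hg).le).trans Q.2.1)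
      exact Relation.ReflTransGen.trans h2 (h1.cj g).symm
    have all : ∀ V : Subgroup G, IsKleinFour V → Conn4 U V := by
      intro V hV
      obtain ⟨g, hg⟩ := into V hV
      have h1 := (conn4_of_le hS hU (isKleinFour_cj hV g) hUS hg).cj g⁻¹
      rw [cj_inv_cj] at h1
      exact Relation.ReflTransGen.trans (hK (hT ▸ mem_top g⁻¹)) h1
    exact fun V W hV hW => Relation.ReflTransGen.trans (all V hV).symm (all W hW)

end Cfsg.Agent.S0520
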