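import Cfsg.Statements.S0521
import Cfsg.Agent.H10.Local2
import Cfsg.Agent.H9.Stab

set_option autoImplicit false
open Cfsg

namespace Cfsg.Agent.S0521

section
open Subgroup Cfsg.Agent.H10
open scoped commutatorElement Pointwise

theorem core {Y : Type*} [Group Y] [Finite Y] (hs : Group.IsSolvable Y) (hY : Odd (Nat.card Y))
    {p : ℕ} [hp : Fact p.Prime] (hO : pPrimeCore p Y = ⊥) {S : Subgroup Y} (hS : IsPGroup p S)
    (hK : pCore p Y ≤ S) (hc : IsCyclic (⁅S, S⁆ : Subgroup Y)) : S ≤ pCore p Y := by
  by_cases hp2 : p = 2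
  · subst hp2
    rw [eq_bot_of_isPGroup_of_coprime hS ((Nat.coprime_two_right.2 hY).coprime_dvd_left
      S.card_subgroup_dvd_card)]
    exact bot_le
  set K := pCore p Y with hKd
  have hKp : IsPGroup p K := pCore_isPGroup' p Y
  have hC : centralizer (K : Set Y) ≤ K :=
    fstar_eq_pCore_iff.1 (fstar_eq_pCore_iff'.2 ⟨by
      rw [← LayOf_top]; exact LayOf_eq_bot_of_solvable inferInstance, hO⟩)
  haveI := H9.phiOf_normal p K
  set N := H9.phiOf p K
  have hst : H9.EAStable p (Y ⧸ N) := H9.eaStable_of_sylow_two_comm hp2 fun T => by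
    have : (T : Subgroup (Y ⧸ N)) = ⊥ := eq_bot_of_isPGroup_of_coprime T.2
      ((Nat.coprime_two_right.2 hY).coprime_dvd_left
        ((Subgroup.card_subgroup_dvd_card _).trans (Subgroup.card_quotient_dvd_card N)))
    rw [this]; infer_instance
  have h3 : ⁅⁅K, S⁆, S⁆ ≤ N := by
    rw [commutator_le_iff_map_mk']
    set W := ⁅K, S⁆.map (QuotientGroup.mk' N) with hW
    haveI : IsCyclic (⁅K, S⁆ : Subgroup Y) :=
      Subgroup.isCyclic_of_le (commutator_mono hK le_rfl)
    have hWc : IsCyclic W := isCyclic_of_surjective _ ((QuotientGroup.mk' N).subgroupMap_surjective _)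
    obtain ⟨w, hw⟩ := (Subgroup.isCyclic_iff_exists_zpowers_eq_top W).1 hWc
    by_cases hW1 : W = ⊥
    · rw [hW1, commutator_bot_left]
    have hKS : ⁅K, S⁆ ≤ K := commutator_le_left _ _
    have hwp : w ^ p = 1 := by
      obtain ⟨x, hx, rfl⟩ : w ∈ W := hw ▸ mem_zpowers w
      rw [← map_pow, QuotientGroup.mk'_apply, QuotientGroup.eq_one_iff]
      exact H9.pow_mem_phiOf (hKS hx)
    have hw1 : w ≠ 1 := by rintro rfl; exact hW1 (by rw [← hw]; simp)
    have hlt := H1.commutator_lt_of_isPGroup (U := W) (P := S.map (QuotientGroup.mk' N))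
      ((hKp.to_le hKS).map _) (hS.map _)
      (map_le_normalizer_map (normalizer_commutator_ge_right _ _) _) hW1
    rcases eq_bot_or_eq_of_le_zpowers (orderOf_eq_of_pow hwp hw1) (hlt.le.trans hw.ge) with h | h
    · exact h
    · exact absurd (h.trans hw) hlt.ne
  intro a ha
  have hz : zpowers a ≤ S := zpowers_le.2 ha
  obtain ⟨D, hD, h1, h2, haD⟩ := H9.isPStableOnSection_of_eaStable hst (K := K) le_rfl a
    ((commutator_mono (commutator_mono le_rfl hz) hz).trans h3)
  refine le_pCore (N := D) (fun x => ?_) haD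
  haveI : (sectionKernel K N).Normal := by unfold sectionKernel; infer_instance
  obtain ⟨k, hk⟩ := H9.exists_relIndex_eq_pow_iff.1 h2 x x.2
  obtain ⟨l, hl⟩ := H9.exists_pow_mem_centralizer_of_commutator_le_phiOf hKp
    (le_normalizer_of_normal (mem_top _)) (H9.commutator_zpowers_le_of_mem_centralizer_map hk)
  obtain ⟨m, hm⟩ := hKp ⟨_, hC hl⟩
  refine ⟨k + l + m, Subtype.ext ?_⟩
  have := congrArg Subtype.val hm
  simp only [SubmonoidClass.mk_pow, OneMemClass.coe_one] at this
  simp only [SubmonoidClass.coe_pow, OneMemClass.coe_one, pow_add, pow_mul]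
  exact this

end

/-- Let X be a finite solvable group of odd order, p a prime and S a Sylow p-subgroup of X whose commutator subgroup is
cyclic. Then the product of the largest normal subgroup of X of order prime to p with S is a normal subgroup of X. -/
theorem result {X : Type*} [Group X] [Finite X] [Group.IsSolvable X]
    (hX : Odd (Nat.card X)) (p : ℕ) [Fact p.Prime] (S : Sylow p X) (hS : IsCyclic (commutator (S : Subgroup X))) :
    (Cfsg.pPrimeCore p X ⊔ (S : Subgroup X)).Normal := by
  open Subgroup Cfsg.Agent.H10 in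
  set N := pPrimeCore p X
  let f := QuotientGroup.mk' N
  let T := S.mapSurjective (f := f) (QuotientGroup.mk'_surjective N)
  have hT : (T : Subgroup (X ⧸ N)) = (S : Subgroup X).map f := rfl
  have hK : pCore p (X ⧸ N) ≤ T := (pCore_isPGroup' p _).le_sylow_of_normal T
  have hc : IsCyclic (⁅(T : Subgroup (X ⧸ N)), (T : Subgroup (X ⧸ N))⁆ : Subgroup _) := by
    rw [hT, ← map_commutator, ← map_subtype_commutator]
    haveI : IsCyclic ((_root_.commutator (S : Subgroup X)).map (S : Subgroup X).subtype) :=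
      isCyclic_of_surjective _ ((S : Subgroup X).subtype.subgroupMap_surjective _)
    exact isCyclic_of_surjective _ (f.subgroupMap_surjective _)
  have h := core inferInstance (hX.of_dvd_nat (Subgroup.card_quotient_dvd_card N))
    (pPrimeCore_quotient_pPrimeCore p X) T.2 hK hc
  have : N ⊔ S = (pCore p (X ⧸ N)).comap f := by
    rw [← le_antisymm h hK, hT, comap_map_eq, QuotientGroup.ker_mk', sup_comm]
  rw [this]; infer_instance

end Cfsg.Agent.S0521
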