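import Cfsg.Statements.S1302
import Cfsg.Agent.H10.Sig2
import Cfsg.Agent.H9.PCons

set_option autoImplicit false
open Cfsg

namespace Cfsg.Agent.S1302

/-- Let X be a finite p-constrained group, p an odd prime, and A an abelian p-subgroup of X containing every element of order p of C_X(A). Then every subgroup of X of order prime to p that is normalized by A lies in O_{p'}(X). -/
theorem result {X : Type*} [Group X] [Finite X] (p : ℕ) [Fact p.Prime] (hp : p ≠ 2) (hX : Cfsg.IsPConstrained p X) (A : Subgroup X) (hA : IsMulCommutative ↥A) (hAp : IsPGroup p ↥A) (hΩ : ∀ x ∈ Subgroup.centralizer (A : Set X), orderOf x = p → x ∈ A) (Q : Subgroup X) (hQ : ¬ p ∣ Nat.card ↥Q) (hAQ : A ≤ Subgroup.normalizer (Q : Set X)) : Q ≤ Cfsg.pPrimeCore p X := by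
  open Subgroup Cfsg.Agent.H10 in
  set f := QuotientGroup.mk' (pPrimeCore p X)
  have hc := H9.isPConstrained_iff.1 hX
  have hQc := coprime_of_not_dvd hQ
  have hQ' : (Nat.card (Q.map f)).Coprime p := Nat.Coprime.coprime_dvd_left (card_map_dvd _ _) hQc
  have hAQ' := map_le_normalizer_map hAQ f
  have key : Q.map f ≤ centralizer (pCore p (X ⧸ pPrimeCore p X) : Set _) := by
    refine le_centralizer_of_pxq_omega hp (hAp.map f) hQ' hAQ' (pCore_isPGroup' _ _)
      le_normalizer_of_normal le_normalizer_of_normal fun x hx hxp => ?_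
    have hxA : x ∈ A.map f := by
      have h1 := hx.2
      rw [H9.centralizer_map_mk'_of_coprime hAp (pPrimeCore_coprime p X)] at h1
      obtain ⟨y, hy, rfl⟩ := h1
      obtain ⟨S, hS⟩ := H1.exists_isSylowIn p (zpowers y)
      have h2 := hS.map f
      have h3 : IsPGroup p ((zpowers y).map f) := by
        rw [MonoidHom.map_zpowers]; exact isPGroup_zpowers_of_pow hxp
      have h4 := h2.eq_of_le h2.1 le_rfl h3
      obtain ⟨z, hz, e⟩ : f y ∈ S.map f := h4 ▸ mem_map_of_mem f (mem_zpowers y)
      have h5 : z ^ p ∈ S ⊓ f.ker := mem_inf.2 ⟨S.pow_mem hz p, by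
        rw [MonoidHom.mem_ker, map_pow, e]; exact hxp⟩
      rw [H9.inf_ker_mk'_pPrimeCore hS.2, mem_bot] at h5
      by_cases hz1 : z = 1
      · rw [← e, hz1, map_one]; exact one_mem _
      · exact ⟨z, hΩ z (zpowers_le.2 hy (hS.1 hz)) (orderOf_eq_of_pow h5 hz1), e⟩
    rw [← zpowers_le, ← commutator_eq_bot_iff_le_centralizer, eq_bot_iff,
      ← disjoint_of_isPGroup_of_coprime (pCore_isPGroup' p _) hQ']
    exact le_inf ((commutator_mono (zpowers_le.2 hx.1) le_rfl).trans (commutator_le_left _ _))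
      ((commutator_mono (zpowers_le.2 hxA) le_rfl).trans (commutator_le_right_of_le_normalizer hAQ'))
  have := eq_bot_of_isPGroup_of_coprime ((pCore_isPGroup' p _).to_le (key.trans hc)) hQ'
  rwa [Subgroup.map_eq_bot_iff, QuotientGroup.ker_mk'] at this

end Cfsg.Agent.S1302
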