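import Cfsg.Statements.S1480
import Cfsg.Agent.BG.S07a
import Cfsg.Agent.BG.S01b
import Cfsg.Agent.BG.Rank
import Cfsg.Agent.S1302

set_option autoImplicit false
set_option linter.style.haveILetI false
open Cfsg

namespace Cfsg.Agent.S1480

open Cfsg.Agent.H20 Cfsg.Agent.H21 Cfsg.Agent.BG

open Subgroup
open scoped commutatorElement

theorem class2_cent {G : Type*} [Group G] [Finite G] {p : ℕ} [Fact p.Prime] {V E Q : Subgroup G}
    (hV : IsPGroup p V) (hE : IsPGroup p E) (hQ : (♯Q).Coprime p) (hEV : E ≤ N⟦V⟧) (hQV : Q ≤ N⟦V⟧)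
    (hEQ : E ≤ N⟦Q⟧) (h1 : V ⊓ C⟦E⟧ ≤ E) (h2 : ⁅V, E⁆ ≤ C⟦E⟧) : Q ≤ C⟦V⟧ := by
  have h3 : ⁅V, E⁆ ≤ V ⊓ C⟦E⟧ := le_inf (commg_le_left hEV) h2
  have h4 : V ⊓ C⟦E⟧ ≤ C⟦Q⟧ := commg_eq_bot.1 (le_bot_iff.1
    (inf_eq_bot_coprime (coprime_of_isPGroup hV hQ) ▸ le_inf ((commutator_mono inf_le_left le_rfl).trans
      (commg_le_left hQV)) ((commutator_mono h1 le_rfl).trans (commg_le_right hEQ))))
  have h5 : V ≤ N⟦E⟧ := norm_of_commg_le (commutator_comm V E ▸ h3.trans h1)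
  have h6 : ⁅⁅E, Q⁆, V⁆ ≤ V ⊓ C⟦E⟧ := three_subgroup_le (norm_inf_cent hEV (le_norm_self E))
    (norm_of_cent (cent_symm h4)) (norm_inf_cent (le_norm_self V) h5)
    ((commutator_mono (commg_le_right hQV) le_rfl).trans h3) (by
      rw [commg_eq_bot.2 (h3.trans h4)]; exact bot_le)
  have hc := (coprime_of_isPGroup hE hQ).symm
  rw [← coprime_commg_sup_cent hEQ hc (Or.inl (sol_of_pgroup hE))]
  have h7 := commg_le_left hEQ
  refine sup_le (coprime_cent_of_stable (coprime_of_isPGroup (hV.to_le inf_le_left) (coprime_of_le_left hQ h7))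
    (by rwa [commutator_comm, commutator_comm Q]) (h7.trans (cent_symm h4))) ?_
  exact coprime_pxq hE hV (coprime_of_le_left hQ inf_le_left) (cent_symm inf_le_right) hEV
    (inf_le_left.trans hQV) (h4.trans (cent_anti inf_le_left))

theorem sig {X : Type*} [Group X] [Finite X] (p : ℕ) [hp : Fact p.Prime] (hX : IsPConstrained p X)
    (h2 : p = 2 → ∀ P : Subgroup X, IsPGroup p P → ⁅⁅P, P⁆, P⁆ = ⊥) {A Q : Subgroup X} (hA : IsMulCommutative A)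
    (hS : SylowOf p A C⟦A⟧) (hQ : (♯Q).Coprime p) (hAQ : A ≤ N⟦Q⟧) : Q ≤ pPrimeCore p X := by
  by_cases hp2 : p = 2
  swap
  · refine S1302.result p hp2 hX A hA hS.isPGroup (fun x hx h => ?_) Q
      ((Nat.Prime.coprime_iff_not_dvd hp.out).1 hQ.symm) hAQ
    exact zpowers_le.1 (hS.pgroup_le_of_norm (isPGroup_of_card_prime (by rw [Nat.card_zpowers, h]))
      (zpowers_le.2 hx) (Or.inl ((zpowers_le.2 hx).trans (cent_le_norm A))))
  set f := QuotientGroup.mk' (pPrimeCore p X)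
  have hc := H9.isPConstrained_iff.1 hX
  have hV := H1.isPGroup_pCore p (X ⧸ pPrimeCore p X)
  have hQ' : (♯(Q.map f)).Coprime p := Nat.Coprime.coprime_dvd_left (card_map_dvd _ _) hQ
  obtain ⟨P, hP, hAP⟩ := exists_sylowOf_ge hS.isPGroup (le_top (a := A))
  have hP' := hP.map f
  rw [map_top_of_surjective _ (QuotientGroup.mk'_surjective _)] at hP'
  have h3 := hS.map f
  rw [← H9.centralizer_map_mk'_of_coprime hS.isPGroup (H1.coprime_card_pPrimeCore p X)] at h3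
  have key := class2_cent hV (hS.isPGroup.map f) hQ' le_normalizer_of_normal le_normalizer_of_normal
    (norm_map f hAQ) (h3.pgroup_le_of_norm (hV.to_le inf_le_left) inf_le_right
      (Or.inl (inf_le_right.trans (cent_le_norm _)))) (by
        refine (commutator_mono (hP'.pgroup_le_of_norm hV le_top (Or.inr le_normalizer_of_normal))
          (map_mono hAP)).trans ((commg_eq_bot.1 ?_).trans (cent_anti (map_mono hAP)))
        rw [← map_commutator, ← map_commutator, h2 hp2 P hP.isPGroup, Subgroup.map_bot])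
  have := inf_eq_bot_coprime (coprime_of_isPGroup hV hQ')
  rwa [inf_eq_right.2 (key.trans hc), Subgroup.map_eq_bot_iff, QuotientGroup.ker_mk'] at this

theorem sig' {G : Type*} [Group G] [Finite G] (p : ℕ) [hp : Fact p.Prime] {H A Q : Subgroup G}
    (hX : IsPConstrained p H) (h2 : p = 2 → ∀ P : Subgroup G, IsPGroup p P → ⁅⁅P, P⁆, P⁆ = ⊥)
    (hA : IsMulCommutative A) (hS : SylowOf p A C⟦A⟧) (hQ : (♯Q).Coprime p) (hAQ : A ≤ N⟦Q⟧) (h1 : A ≤ H)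
    (h3 : Q ≤ H) : Q ≤ piCoreOf {p}ᶜ H := by
  lift A to Subgroup H using h1
  lift Q to Subgroup H using h3
  have hi := H.subtype_injective
  rw [← map_pPrimeCore]
  refine map_mono (sig p hX (fun e P hP => ?_) ((isMulCommutative_map_iff hi).1 hA) (Hall.of_map_injective hi ?_)
    (card_map_subtype Q ▸ hQ) ((map_le_norm_map_iff hi).1 hAQ))
  · rw [← map_eq_bot_iff_inj hi, map_commutator, map_commutator]
    exact h2 e _ (hP.map _)
  · rw [map_cent hi]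
    exact hS.of_le (le_inf (map_le_range _ _) hS.le) inf_le_right

/-- Let G be a finite group and p a prime such that the normalizer of every nontrivial p-subgroup of G is p-constrained; if p = 2 assume also that the Sylow 2-subgroups of G have nilpotency class at most 2. Let E be an abelian p-subgroup containing an elementary abelian subgroup of order p ^ 3 and containing every element of p-power order of C_G(E). Then for every prime q ≠ p, any two maximal E-invariant q-subgroups of G are conjugate by an element of O_{p'}(C_G(E)). -/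
theorem result {G : Type*} [Group G] [Finite G] (p : ℕ) [Fact p.Prime]
    (hloc : ∀ T : Subgroup G, IsPGroup p T → T ≠ ⊥ → Cfsg.IsPConstrained p ↥(Subgroup.normalizer (T : Set G)))
    (h2 : p = 2 → ∀ S : Sylow p G, Group.IsNilpotent (S : Subgroup G) ∧ Group.nilpotencyClass (S : Subgroup G) ≤ 2)
    (E : Subgroup G) (hEp : IsPGroup p E) (hEc : IsMulCommutative E) (hE3 : ¬ Cfsg.PRankLE p 2 E)
    (hEfull : ∀ x ∈ Subgroup.centralizer (E : Set G), IsPGroup p (Subgroup.zpowers x) → x ∈ E)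
    (q : ℕ) [Fact q.Prime] (hqp : q ≠ p) :
    ∀ Q₁ ∈ Cfsg.maxInvSubgroups ⊤ E {q}, ∀ Q₂ ∈ Cfsg.maxInvSubgroups ⊤ E {q},
        ∃ k ∈ Cfsg.piCoreOf (Cfsg.primesNotDvd p) (Subgroup.centralizer (E : Set G)), Q₂ = Q₁.map (MulAut.conj k).toMonoidHom := by
  have hp : p.Prime := Fact.out
  have h2' : p = 2 → ∀ P : Subgroup G, IsPGroup p P → ⁅⁅P, P⁆, P⁆ = ⊥ := fun e P hP => by
    obtain ⟨S, hS⟩ := hP.exists_le_sylow
    obtain ⟨_, h⟩ := h2 e S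
    have h1 := top_subtype_lowerCentralSeries (S : Subgroup G) 2
    rw [Subgroup.lowerCentralSeries_eq_bot_iff_nilpotencyClass_le.2 h, Subgroup.map_bot] at h1
    exact le_bot_iff.1 ((commutator_mono (commutator_mono hS hS) hS).trans h1.ge)
  have hS : SylowOf p E C⟦E⟧ := sylowOf_of_max hEp (comm_le_cent hEc) fun Q h1 h2 h3 =>
    le_antisymm (fun x hx => hEfull x (h3 hx) (h1.to_le (zpowers_le.2 hx))) h2
  have hK := Burnside_normal_complement hS inf_le_left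
  rw [show piCoreOf (primesNotDvd p) C⟦E⟧ = piCoreOf {p}ᶜ C⟦E⟧ from piCoreOf_congr fun r hr _ =>
    ⟨fun h e => h.2 (e ▸ dvd_rfl), fun h => ⟨hr, fun e => h ((Nat.prime_dvd_prime_iff_eq hr hp).1 e)⟩⟩]
  obtain ⟨B, hB⟩ : ∃ B, IsElem p 3 B E := by
    simp only [PRankLE, not_forall, not_le] at hE3
    obtain ⟨A, h1, h2, h3⟩ := hE3
    obtain ⟨n, hn⟩ := exists_isElem_of_elem (elem_map (elem_iff.2 ⟨h1, h2⟩) E.subtype) (map_subtype_le A)
    rw [← card_map_subtype, hn.card] at h3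
    obtain ⟨B, hB⟩ := hn.exists_le (m := 3) ((Nat.pow_lt_pow_iff_right hp.one_lt).1 h3)
    exact ⟨B, hB.mono hn.le⟩
  have hcq : ∀ Q : Subgroup G, IsPGroup q Q → (♯Q).Coprime p := fun Q h =>
    coprime_of_isPGroup h ((Nat.coprime_primes hp Fact.out).2 hqp.symm)
  suffices h : ∀ D : Subgroup G, ∀ Q₁ ∈ maxInvSubgroups ⊤ E {q}, ∀ Q₂ ∈ maxInvSubgroups ⊤ E {q}, D ≤ Q₁ → D ≤ Q₂ →
      ∃ k ∈ piCoreOf {p}ᶜ C⟦E⟧, Q₂ = cj k Q₁ from fun Q₁ h₁ Q₂ h₂ => h ⊥ Q₁ h₁ Q₂ h₂ bot_le bot_le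
  intro D
  induction D using WellFoundedGT.induction with | ind D ih =>
  intro Q₁ h₁ Q₂ h₂ d₁ d₂
  rcases (le_inf d₁ d₂).lt_or_eq with hD | hD
  · exact ih _ hD Q₁ h₁ Q₂ h₂ inf_le_left inf_le_right
  by_cases e : Q₂ = Q₁
  · exact ⟨1, one_mem _, by rw [e, cj_one]⟩
  have hED : E ≤ N⟦D⟧ := hD ▸ norm_inf (maxInv_norm h₁) (maxInv_norm h₂)
  have key : ∀ Q ∈ maxInvSubgroups ⊤ E {q}, D < Q → ∃ F ≤ B, p ^ 2 ≤ ♯F ∧ ¬ Q ⊓ N⟦D⟧ ⊓ C⟦F⟧ ≤ D := fun Q hQ h => by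
    by_contra! h1
    refine (lt_inf_norm_of_isPGroup (maxInv_isPGroup hQ) h).not_ge (coprime_abelian_gen_cent hB.comm
      (hB.le.trans (norm_inf_norm (maxInv_norm hQ) hED)) (coprime_of_isPGroup hB.isPGroup
        (hcq _ ((maxInv_isPGroup hQ).to_le inf_le_left))).symm fun F hF hc => h1 F hF ?_)
    have h3 := card_mul_card_quo (NormalIn.of_comm hB.comm hF)
    have h4 := Nat.le_of_dvd hp.pos ((elem_cyclic_iff (elem_quo hB.elem F)).1 hc)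
    rw [hB.card, pow_succ] at h3
    exact Nat.le_of_mul_le_mul_right (h3.ge.trans (Nat.mul_le_mul_left _ h4)) hp.pos
  obtain ⟨F₁, f₁, c₁, n₁⟩ := key Q₁ h₁ (d₁.lt_of_ne fun h => e (maxInv_eq_of_pgroup h₁ (maxInv_isPGroup h₂)
    (maxInv_norm h₂) (h ▸ d₂)))
  obtain ⟨F₂, f₂, c₂, n₂⟩ := key Q₂ h₂ (d₂.lt_of_ne fun h => e (maxInv_eq_of_pgroup h₂ (maxInv_isPGroup h₁)
    (maxInv_norm h₁) (h ▸ d₁)).symm)
  have hT : F₁ ⊓ F₂ ≠ ⊥ := fun h => by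
    have h1 := (Nat.mul_le_mul c₁ c₂).trans (card_mul_le f₁ f₂)
    rw [h, card_bot, hB.card, mul_one, ← pow_add] at h1
    exact absurd ((Nat.pow_le_pow_iff_right hp.one_lt).1 h1) (by norm_num)
  have hTE : F₁ ⊓ F₂ ≤ E := inf_le_left.trans (f₁.trans hB.le)
  have hET := le_norm_of_comm hEc le_rfl hTE
  have hL := norm_piCoreOf {p}ᶜ (norm_norm hET)
  have hDq := (maxInv_isPGroup h₁).to_le d₁
  have hY : IsPi {p}ᶜ (D ⊔ piCoreOf {p}ᶜ N⟦F₁ ⊓ F₂⟧ ⊓ N⟦D⟧) :=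
    (isPi_of_isPGroup hDq hqp).sup ((isPi_piCoreOf _ _).inf_left _) (Or.inr inf_le_right)
  have hEY := norm_sup hED (norm_inf_norm hL hED)
  have hco := hY.coprime' (isPi_singleton_iff.2 hEp)
  have hs : SolOr E (D ⊔ piCoreOf {p}ᶜ N⟦F₁ ⊓ F₂⟧ ⊓ N⟦D⟧) := Or.inl (sol_of_pgroup hEp)
  have key2 : ∀ Q ∈ maxInvSubgroups ⊤ E {q}, D ≤ Q → ∀ F, F₁ ⊓ F₂ ≤ F → ¬ Q ⊓ N⟦D⟧ ⊓ C⟦F⟧ ≤ D →
      ∃ S, SylowOf q S (D ⊔ piCoreOf {p}ᶜ N⟦F₁ ⊓ F₂⟧ ⊓ N⟦D⟧) ∧ E ≤ N⟦S⟧ ∧ ∃ U, D < U ∧ U ≤ Q ∧ U ≤ S :=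
    fun Q hQ d F hF hn => by
      have h1 : D ⊔ Q ⊓ N⟦D⟧ ⊓ C⟦F₁ ⊓ F₂⟧ ≤ Q := sup_le d (inf_le_left.trans inf_le_left)
      have h3 := norm_inf_cent (norm_inf_norm (maxInv_norm hQ) hED) hET
      obtain ⟨S, s1, s2, s3⟩ := exists_inv_sylow_ge hEY hco hs ((maxInv_isPGroup hQ).to_le h1)
        (sup_le_sup_left (le_inf (sig' p (hloc _ (hEp.to_le hTE) hT) h2' hEc hS (hcq _ ((maxInv_isPGroup hQ).to_le
          (le_sup_right.trans h1))) h3 hET (inf_le_right.trans (cent_le_norm _))) (inf_le_left.trans inf_le_right)) D)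
        (norm_sup hED h3)
      exact ⟨S, s1, s2, _, left_lt_sup.2 fun h => hn ((inf_le_inf_left _ (cent_anti hF)).trans h), h1, s3⟩
  obtain ⟨S₁, s₁, t₁, U₁, u₁, v₁, w₁⟩ := key2 Q₁ h₁ d₁ F₁ inf_le_left n₁
  obtain ⟨S₂, s₂, t₂, U₂, u₂, v₂, w₂⟩ := key2 Q₂ h₂ d₂ F₂ inf_le_right n₂
  obtain ⟨c, hc, rfl⟩ := inv_sylow_exists_cj_eq hEY hco hs s₁ t₁ s₂ t₂
  obtain ⟨Q₃, h₃, d₃⟩ := exists_maxInv_ge_of_pgroup s₁.isPGroup t₁
  obtain ⟨k₁, hk₁, rfl⟩ := ih U₁ u₁ Q₁ h₁ Q₃ h₃ v₁ (w₁.trans d₃)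
  obtain ⟨k₂, hk₂, rfl⟩ := ih U₂ u₂ _ (maxInv_cj_of_norm h₃ (cent_le_norm E hc.2)) Q₂ h₂ (w₂.trans (cj_mono c d₃)) v₂
  exact ⟨_, mul_mem hk₂ (mul_mem (hK.le_of_normalIn (piCoreOf_normalIn _ _) (hY.inf_left _) inf_le_right hc) hk₁),
    by rw [cj_mul, cj_mul]⟩

end Cfsg.Agent.S1480
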