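import Cfsg.Statements.S0522
import Cfsg.Agent.H10.Local2
import Cfsg.Agent.H11.PCon
import Cfsg.Agent.S1480

set_option autoImplicit false
open Cfsg

namespace Cfsg.Agent.S0522

/-- Transitivity Theorem (odd-order setting). Let X be a finite group of odd order in which the normalizer of every
nontrivial p-subgroup is solvable, P a Sylow p-subgroup, and B an abelian subgroup of P, normalized by P, with
C_P(B) = B and containing an elementary abelian subgroup of order p^3. Then for every prime q ≠ p, any two q-subgroups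
that are maximal among the q-subgroups normalized by B are conjugate by an element of the centralizer of B. -/
theorem result {X : Type*} [Group X] [Finite X] (hX : Odd (Nat.card X)) (p : ℕ)
    [Fact p.Prime] (hloc : ∀ T : Subgroup X, IsPGroup p T → T ≠ ⊥ → Group.IsSolvable (Subgroup.normalizer (T : Set X)))
    (P : Sylow p X) (B : Subgroup X) (hBP : B ≤ (P : Subgroup X))
    (hBn : ∀ x ∈ (P : Subgroup X), ∀ b ∈ B, x * b * x⁻¹ ∈ B) (hBa : IsMulCommutative B)
    (hBc : (P : Subgroup X) ⊓ Subgroup.centralizer (B : Set X) = B)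
    (hB3 : ∃ E : Subgroup X, E ≤ B ∧ (∀ e ∈ E, e ^ p = 1) ∧ p ^ 3 ≤ Nat.card E)
    (q : ℕ) [Fact q.Prime] (hqp : q ≠ p) (Q₁ Q₂ : Subgroup X)
    (h₁ : IsPGroup q Q₁ ∧ B ≤ Subgroup.normalizer (Q₁ : Set X) ∧
      ∀ R : Subgroup X, IsPGroup q R → B ≤ Subgroup.normalizer (R : Set X) → Q₁ ≤ R → R = Q₁)
    (h₂ : IsPGroup q Q₂ ∧ B ≤ Subgroup.normalizer (Q₂ : Set X) ∧
      ∀ R : Subgroup X, IsPGroup q R → B ≤ Subgroup.normalizer (R : Set X) → Q₂ ≤ R → R = Q₂) :
    ∃ c ∈ Subgroup.centralizer (B : Set X), Q₂ = Q₁.map (MulAut.conj c).toMonoidHom := by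
  open Subgroup Cfsg.Agent.H10 in
  have hp : p.Prime := Fact.out
  obtain ⟨E, hEB, hEp, hE3⟩ := hB3
  have hBp : IsPGroup p B := P.2.to_le hBP
  have hBB : B ≤ centralizer (B : Set X) := le_centralizer_iff_isMulCommutative.2 hBa
  have hp2 : p ≠ 2 := by
    rintro rfl
    have hE : IsPGroup 2 E := hBp.to_le hEB
    have h1 : E ≠ ⊥ := by rintro rfl; simp at hE3
    exact (Nat.not_even_iff_odd.2 hX) (even_iff_two_dvd.2
      ((dvd_card_of_isPGroup hE h1).trans E.card_subgroup_dvd_card))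
  have hPN : (P : Subgroup X) ≤ normalizer (B : Set X) := fun x hx =>
    mem_normalizer_of_conj_le (hBn x hx)
  have hsyl : H1.IsSylowIn p B (centralizer (B : Set X)) := by
    have := (H1.isSylowIn_top P).inf (N := centralizer (B : Set X)) le_top
      (le_normalizer_centralizer hPN)
    rwa [hBc] at this
  have conv : ∀ Q : Subgroup X, IsPGroup q Q ↔ ∀ r : ℕ, r.Prime → r ∣ Nat.card Q → r ∈ ({q} : Set ℕ) := by
    intro Q
    constructor
    · intro h r hr hd
      obtain ⟨k, hk⟩ := IsPGroup.iff_card.1 h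
      rw [hk] at hd
      exact (Nat.prime_dvd_prime_iff_eq hr Fact.out).1 (hr.dvd_of_dvd_pow hd)
    · intro h
      exact IsPGroup.iff_card.2 ⟨_, Nat.eq_prime_pow_of_unique_prime_dvd Nat.card_pos.ne'
        fun hr hd => h _ hr hd⟩
  have mk : ∀ Q : Subgroup X, (IsPGroup q Q ∧ B ≤ normalizer (Q : Set X) ∧
      ∀ R : Subgroup X, IsPGroup q R → B ≤ normalizer (R : Set X) → Q ≤ R → R = Q) →
      Q ∈ maxInvSubgroups ⊤ B {q} := fun Q h =>
    ⟨⟨le_top, (conv Q).1 h.1, h.2.1⟩, fun R hR hQR => h.2.2 R ((conv R).2 hR.2.1) hR.2.2 hQR⟩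
  have hr : ¬ PRankLE p 2 B := by
    intro h
    have := h (E.subgroupOf B) (by
        haveI := hBa
        infer_instance) (fun a ha => Subtype.ext (hEp _ ha))
    rw [card_subgroupOf_of_le hEB] at this
    have h3 := Nat.pow_lt_pow_right hp.one_lt (show 2 < 3 by omega)
    omega
  have hf : ∀ x ∈ centralizer (B : Set X), IsPGroup p (zpowers x) → x ∈ B := by
    intro x hx hxp
    have h1 : zpowers x ≤ centralizer (B : Set X) := zpowers_le.2 hx
    exact hsyl.le_of_le_normalizer' h1 hxp (le_normalizer_of_le_centralizer h1) (mem_zpowers x)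
  obtain ⟨k, hk, h⟩ := S1480.result p
    (fun T hT hT1 => H11.isPConstrained_iff_PLayOf.2 (PLayOf_eq_bot_of_solvable (hloc T hT hT1)))
    (fun h => absurd h hp2) B hBp hBa hr hf q hqp Q₁ (mk _ h₁) Q₂ (mk _ h₂)
  exact ⟨k, map_subtype_le _ hk, h⟩

end Cfsg.Agent.S0522
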