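import Cfsg.Statements.S0529
import Mathlib
import Cfsg.Agent.H2.SS2

set_option autoImplicit false
open Cfsg

namespace Cfsg.Agent.S0529

universe u

theorem aux (G : Type u) [Group G] [Finite G] (hG : Cfsg.IsSupersolvable G) : ∃ (n : ℕ) (H : Fin (n + 1) → Subgroup G), H 0 = ⊥ ∧ H (Fin.last n) = ⊤ ∧ (∀ i, (H i).Normal) ∧ (∀ i : Fin n, H i.castSucc ≤ H i.succ ∧ ((H i.castSucc).relIndex (H i.succ)).Prime) ∧ ∀ i j : Fin n, i ≤ j → (H j.castSucc).relIndex (H j.succ) ≤ (H i.castSucc).relIndex (H i.succ) := by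
  refine H2.ss_induction_max (P := fun G _ _ => ∃ (n : ℕ) (H : Fin (n + 1) → Subgroup G), H 0 = ⊥ ∧ H (Fin.last n) = ⊤ ∧ (∀ i, (H i).Normal) ∧ (∀ i : Fin n, H i.castSucc ≤ H i.succ ∧ ((H i.castSucc).relIndex (H i.succ)).Prime) ∧ ∀ i j : Fin n, i ≤ j → (H j.castSucc).relIndex (H j.succ) ≤ (H i.castSucc).relIndex (H i.succ)) (fun G _ _ _ => ?_) (fun G _ _ N hN _ hp hmax ih => ?_) G hG
  · exact ⟨0, fun _ => ⊥, rfl, Subsingleton.elim _ _, fun _ => inferInstance, fun i => i.elim0,
      fun i => i.elim0⟩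
  obtain ⟨n, H, h0, h1, h2, h3, h4⟩ := ih
  have hr : ∀ A B : Subgroup (G ⧸ N), (A.comap (QuotientGroup.mk' N)).relIndex
      (B.comap (QuotientGroup.mk' N)) = A.relIndex B := by
    intro A B
    rw [Subgroup.relIndex_comap,
      Subgroup.map_comap_eq_self_of_surjective (QuotientGroup.mk'_surjective N)]
  have hz : (H 0).comap (QuotientGroup.mk' N) = N := by
    rw [h0, MonoidHom.comap_bot, QuotientGroup.ker_mk']
  refine ⟨n + 1, Fin.cons (α := fun _ => Subgroup G) ⊥
    (fun i => (H i).comap (QuotientGroup.mk' N)), rfl, ?_, ?_, ?_, ?_⟩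
  · rw [← Fin.succ_last, Fin.cons_succ, h1, Subgroup.comap_top]
  · intro i
    induction i using Fin.cases with
    | zero => exact (inferInstance : (⊥ : Subgroup G).Normal)
    | succ i => exact (h2 i).comap _
  · intro i
    induction i using Fin.cases with
    | zero =>
      refine ⟨bot_le, ?_⟩
      rw [Fin.castSucc_zero, Fin.cons_zero, Fin.cons_succ, hz, Subgroup.relIndex_bot_left]
      exact hp
    | succ i =>
      rw [← Fin.succ_castSucc, Fin.cons_succ, Fin.cons_succ, hr]
      exact ⟨Subgroup.comap_mono (h3 i).1, (h3 i).2⟩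
  · intro i j hij
    induction j using Fin.cases with
    | zero => rw [Fin.le_zero_iff.mp hij]
    | succ j =>
      induction i using Fin.cases with
      | zero =>
        rw [Fin.castSucc_zero, Fin.cons_zero, ← Fin.succ_castSucc, Fin.cons_succ, Fin.cons_succ,
          Fin.cons_succ, hr, hz, Subgroup.relIndex_bot_left]
        exact hmax _ (h3 j).2 (((Subgroup.relIndex_dvd_card _ _).trans
          (Subgroup.card_subgroup_dvd_card _)).trans (H2.card_quotient_dvd N))
      | succ i =>
        rw [← Fin.succ_castSucc, ← Fin.succ_castSucc, Fin.cons_succ, Fin.cons_succ,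
          Fin.cons_succ, Fin.cons_succ, hr, hr]
        exact h4 i j (Fin.succ_le_succ_iff.mp hij)

/-- A finite supersolvable group has a chain of normal subgroups, from the trivial subgroup to the whole group, in which every step has prime index and the primes occurring are non-increasing as one goes up the chain. -/
theorem result {G : Type*} [Group G] [Finite G] (hG : Cfsg.IsSupersolvable G) : ∃ (n : ℕ) (H : Fin (n + 1) → Subgroup G), H 0 = ⊥ ∧ H (Fin.last n) = ⊤ ∧ (∀ i, (H i).Normal) ∧ (∀ i : Fin n, H i.castSucc ≤ H i.succ ∧ ((H i.castSucc).relIndex (H i.succ)).Prime) ∧ ∀ i j : Fin n, i ≤ j → (H j.castSucc).relIndex (H j.succ) ≤ (H i.castSucc).relIndex (H i.succ) := by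
  exact aux G hG

end Cfsg.Agent.S0529
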