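import Cfsg.Statements.S0530
import Mathlib
import Cfsg.Agent.H2.SS2

set_option autoImplicit false
open Cfsg

namespace Cfsg.Agent.S0530

universe u

theorem aux (p : ℕ) (hp : p.Prime) (G : Type u) [Group G] [Finite G] :
    ∀ n, Nat.card G = 2 * p ^ n → Cfsg.IsSupersolvable G := by
  refine H2.card_induction (P := fun G _ _ => ∀ n, Nat.card G = 2 * p ^ n →
    Cfsg.IsSupersolvable G) (fun G _ _ ih n hG => ?_) G
  have := Fact.mk hp
  rcases Nat.eq_zero_or_pos n with rfl | hn
  · have : IsCyclic G := H2.isCyclic_of_card_prime' (by rw [hG]; exact Nat.prime_two)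
    exact H2.isSupersolvable_of_isCyclic
  obtain ⟨P, hP⟩ := Sylow.exists_subgroup_card_pow_prime (G := G) p (n := n)
    (hG ▸ Dvd.intro_left _ rfl)
  have h1 : P.index = 2 := by
    have := P.card_mul_index
    rw [hP, hG, mul_comm 2] at this
    exact Nat.eq_of_mul_eq_mul_left (pow_pos hp.pos n) this
  have := Subgroup.normal_of_index_eq_two h1
  have hPp : IsPGroup p P := IsPGroup.of_card hP
  have h2 : P ≠ ⊥ := by
    rintro rfl
    rw [Subgroup.card_bot] at hP
    exact (Nat.one_lt_pow hn.ne' hp.one_lt).ne hP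
  obtain ⟨⟨v, hv, hv'⟩, hv1⟩ := Subgroup.ne_bot_iff_exists_ne_one.mp
    (H2.inf_centralizer_ne_bot hPp.isNilpotent le_rfl Subgroup.le_normalizer h2)
  replace hv1 : v ≠ 1 := fun hc => hv1 (Subtype.ext hc)
  obtain ⟨t, ht, ht'⟩ := Subgroup.index_eq_two_iff_exists_notMem_and.mp h1
  have hC : (Subgroup.centralizer (P : Set G)).Normal := inferInstance
  have key : ∃ w ∈ P, w ∈ Subgroup.centralizer (P : Set G) ∧ w ≠ 1 ∧
      t * w * t⁻¹ ∈ Subgroup.zpowers w := by
    by_cases h : v * (t * v * t⁻¹) = 1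
    · refine ⟨v, hv, hv', hv1, ?_⟩
      rw [eq_inv_of_mul_eq_one_right h]
      exact inv_mem (Subgroup.mem_zpowers v)
    · refine ⟨_, mul_mem hv (this.conj_mem v hv t), mul_mem hv' (hC.conj_mem v hv' t), h, ?_⟩
      have h3 := Subgroup.mem_centralizer_iff.mp hv' _ (P.mul_self_mem_of_index_two h1 t)
      have h4 := Subgroup.mem_centralizer_iff.mp hv' _ (this.conj_mem v hv t)
      have : t * (v * (t * v * t⁻¹)) * t⁻¹ = v * (t * v * t⁻¹) := by
        calc _ = (t * v * t⁻¹) * ((t * t * v) * (t * t)⁻¹) := by group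
          _ = _ := by rw [h3, mul_inv_cancel_right, h4]
      rw [this]
      exact Subgroup.mem_zpowers _
  obtain ⟨w, hw, hw', hw1, hwt⟩ := key
  have h3 : (Subgroup.zpowers w).Normal := by
    apply H2.normal_zpowers_of_forall
    intro x
    have h5 : ∀ y ∈ P, y * w * y⁻¹ = w := fun y hy => by
      rw [Subgroup.mem_centralizer_iff.mp hw' y hy, mul_inv_cancel_right]
    rcases ht' x⁻¹ with h | h
    · have : x * w * x⁻¹ = t * ((x⁻¹ * t)⁻¹ * w * (x⁻¹ * t)⁻¹⁻¹) * t⁻¹ := by group
      rw [this, h5 _ (inv_mem h)]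
      exact hwt
    · rw [h5 x (inv_mem_iff.mp h)]
      exact Subgroup.mem_zpowers _
  refine H2.isSupersolvable_of_isCyclic_normal (Subgroup.zpowers w) ?_
  obtain ⟨k, hk, hk'⟩ := (Nat.dvd_prime_pow hp).mp
    (hP ▸ Subgroup.card_dvd_of_le (Subgroup.zpowers_le_of_mem hw))
  refine ih _ (H1.card_quotient_lt (by rwa [Ne, Subgroup.zpowers_eq_bot])) (n - k) ?_
  have := H2.card_eq_card_mul_card_quotient (Subgroup.zpowers w)
  rw [hG, hk', ← Nat.add_sub_cancel' hk, pow_add, mul_left_comm] at this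
  exact (Nat.eq_of_mul_eq_mul_left (pow_pos hp.pos k) this).symm

/-- A finite group whose order is twice a prime power is supersolvable. -/
theorem result {G : Type*} [Group G] [Finite G] (p n : ℕ) (hp : p.Prime) (hG : Nat.card G = 2 * p ^ n) : Cfsg.IsSupersolvable G := by
  exact aux p hp G n hG

end Cfsg.Agent.S0530
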