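import Cfsg.Statements.S0533
import Mathlib
import Cfsg.Agent.H2.SS3

set_option autoImplicit false
open Cfsg

namespace Cfsg.Agent.S0533

universe u

theorem clt_sub {G : Type*} [Group G] (h : ∀ H : Subgroup G, Cfsg.HasSubgroupOfEveryOrder H)
    (K : Subgroup G) (H : Subgroup K) : Cfsg.HasSubgroupOfEveryOrder H := by
  intro d hd
  obtain ⟨L, hL⟩ := h (H.map K.subtype) d (by rwa [H10.card_map_subtype])
  let e := (H.equivMapOfInjective K.subtype K.subtype_injective).symm
  exact ⟨L.map e.toMonoidHom, by rw [Subgroup.card_map_of_injective e.injective, hL]⟩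

theorem aux (G : Type u) [Group G] [Finite G] :
    (∀ H : Subgroup G, Cfsg.HasSubgroupOfEveryOrder H) → Cfsg.IsSupersolvable G := by
  refine H2.card_induction (P := fun G _ _ => (∀ H : Subgroup G, Cfsg.HasSubgroupOfEveryOrder H) →
    Cfsg.IsSupersolvable G) (fun G _ _ ih h => ?_) G
  rcases subsingleton_or_nontrivial G with h0 | h0
  · exact H2.isSupersolvable_of_subsingleton
  obtain ⟨p, hp, h2, h3⟩ := H2.exists_largest_prime (Nat.card_pos (α := G)).ne'
    H2.card_ne_one_of_nontrivial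
  have := Fact.mk hp
  obtain ⟨P⟩ : Nonempty (Sylow p G) := inferInstance
  have := H2.sylow_normal_of_hereditary_clt_aux G h p h3 P
  obtain ⟨K, hK⟩ := Subgroup.exists_right_complement'_of_coprime P.card_coprime_index
  have hKt : K ≠ ⊤ := by
    rintro rfl
    exact P.ne_bot_of_dvd_card h2 (disjoint_top.mp hK.disjoint)
  have hKp : ¬ p ∣ Nat.card K := hK.symm.index_eq_card ▸ P.not_dvd_index
  refine H2.isSupersolvable_of_ssub (N := P) ?_ (H2.isSupersolvable_of_mulEquiv
    hK.symm.QuotientMulEquiv.symm (ih K (H1.card_lt_of_ne_top hKt) (clt_sub h K)))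
  apply H2.ssub_of_forall_step
  intro A hA hAP
  obtain ⟨C₀, h4, h5, h6, h7⟩ := H2.exists_central_step (A := A) P.isPGroup'.isNilpotent
    (not_le_of_gt hAP)
  obtain ⟨C, ⟨hCK, hCP, hCA, hC⟩, hmin⟩ := (wellFounded_lt (α := Subgroup G)).has_min
    {C | K ≤ Subgroup.normalizer (C : Set G) ∧ C ≤ P ∧ ⁅C, (P : Subgroup G)⁆ ≤ A ∧ ¬ C ≤ A}
    ⟨C₀, Subgroup.le_normalizer_of_normal, h5, h6, h7⟩
  have hCp : IsPGroup p C := P.isPGroup'.to_le hCP
  have hL := H2.fac_sup_of_right_le_normalizer hCK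
  have h8 : p ∣ Nat.card (C ⊔ K : Subgroup G) := by
    refine dvd_trans ?_ (Subgroup.card_dvd_of_le le_sup_left)
    obtain ⟨k, hk⟩ := hCp.exists_card_eq
    rw [hk]
    refine dvd_pow_self p ?_
    rintro rfl
    exact hC (Subgroup.card_eq_one.mp hk ▸ bot_le)
  obtain ⟨e, he⟩ := h8
  obtain ⟨H', hH'⟩ := h (C ⊔ K) e ⟨p, by rw [he, mul_comm]⟩
  set H := H'.map (C ⊔ K).subtype with hH
  have hHL : H ≤ C ⊔ K := Subgroup.map_subtype_le _
  have h9 : H.relIndex (C ⊔ K) = p := by
    have := H1.card_mul_relIndex hHL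
    rw [hH, H10.card_map_subtype, hH', he, mul_comm p] at this
    exact Nat.eq_of_mul_eq_mul_left (hH' ▸ Nat.card_pos) this
  have h10 : ¬ C ≤ H := fun hc => hKp
    ((h9 ▸ Subgroup.relIndex_dvd_of_le_left (C ⊔ K) hc).trans hL.relIndex_left_dvd)
  have h11 : H ⊔ C = C ⊔ K := (H2.eq_or_eq_of_relIndex_prime (h9 ▸ hp) le_sup_left
    (sup_le hHL le_sup_left)).resolve_left fun hc => h10 (hc ▸ le_sup_right)
  have hHC : H ≤ Subgroup.normalizer (C : Set G) := hHL.trans (sup_le Subgroup.le_normalizer hCK)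
  have h12 : ((H ⊓ C).relIndex C).Prime := by
    rw [Subgroup.inf_relIndex_right, ← (H2.fac_sup_of_left_le_normalizer hHC).relIndex_left, h11,
      h9]
    exact hp
  have h13 : K ≤ Subgroup.normalizer ((H ⊓ C : Subgroup G) : Set G) := by
    refine le_trans (le_sup_right.trans h11.ge) (sup_le ?_ ?_)
    · exact H1.le_normalizer_inf Subgroup.le_normalizer hHC
    · exact H2.le_normalizer_of_relIndex_prime hCp.isNilpotent inf_le_right h12
  have h14 : H ⊓ C ≤ A := by
    by_contra hc
    exact hmin (H ⊓ C) ⟨h13, inf_le_right.trans hCP,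
      (Subgroup.commutator_mono inf_le_right le_rfl).trans hCA, hc⟩
      (lt_of_le_of_ne inf_le_right fun hc => h10 (inf_eq_right.mp hc))
  obtain ⟨g, hg, hgA⟩ := SetLike.not_le_iff_exists.mp hC
  refine ⟨g, hCP hg, hgA, ?_⟩
  have h15 : A ⊔ Subgroup.zpowers g = A ⊔ C := by
    rw [← H2.sup_zpowers_eq_of_relIndex_prime inf_le_right h12 hg (fun hc => hgA (h14 hc)),
      ← sup_assoc, sup_eq_left.mpr h14]
  rw [h15]
  refine H2.normal_of_sup_eq_top ?_
    (H1.le_normalizer_sup Subgroup.le_normalizer_of_normal hCK) hK.sup_eq_top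
  rw [Subgroup.le_normalizer_iff_commutator_le_left]
  exact (H10.commutator_sup_left_le Subgroup.le_normalizer_of_normal
    Subgroup.le_normalizer_of_normal (Subgroup.commutator_le_left _ _) hCA).trans le_sup_left

/-- If every subgroup of a finite group has subgroups of all orders dividing its order, then the group is supersolvable. -/
theorem result {G : Type*} [Group G] [Finite G] (h : ∀ H : Subgroup G, Cfsg.HasSubgroupOfEveryOrder H) : Cfsg.IsSupersolvable G := by
  exact aux G h

end Cfsg.Agent.S0533
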