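import Cfsg.Statements.S0534
import Mathlib
import Cfsg.Agent.H2.Carter

set_option autoImplicit false
open Cfsg

namespace Cfsg.Agent.S0534

/-- Let G be a finite solvable group and A a finite abelian group such that every prime dividing the order of A divides the order of G and, for each prime p dividing the order of G, the exponent of p in the order of A is one less than its exponent in the order of G. Then G × A has a subgroup of every order dividing its order. -/
theorem result {G A : Type*} [Group G] [CommGroup A] [Finite G] [Finite A] [Group.IsSolvable G] (hA : ∀ p : ℕ, p.Prime → p ∣ Nat.card A → p ∣ Nat.card G) (hexp : ∀ p : ℕ, p.Prime → p ∣ Nat.card G → (Nat.card A).factorization p + 1 = (Nat.card G).factorization p) : Cfsg.HasSubgroupOfEveryOrder (G × A) := by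
  intro d hd
  rw [Nat.card_prod] at hd
  have hG0 : Nat.card G ≠ 0 := Nat.card_pos.ne'
  have hA0 : Nat.card A ≠ 0 := Nat.card_pos.ne'
  have hd0 : d ≠ 0 := fun h => by
    rw [h, zero_dvd_iff] at hd; exact mul_ne_zero hG0 hA0 hd
  obtain ⟨H, hH⟩ := H1.exists_isPiHall (G := G)
    {p | (Nat.card G).factorization p ≤ d.factorization p} ‹_›
  have hH0 : Nat.card H ≠ 0 := Nat.card_pos.ne'
  have hf : ∀ p, (Nat.card G).factorization p = (Nat.card H).factorization p +
      H.index.factorization p := fun p => by
    rw [← H.card_mul_index, Nat.factorization_mul hH0 Subgroup.index_ne_zero_of_finite]; rfl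
  have hdf : ∀ p, d.factorization p ≤ (Nat.card G).factorization p + (Nat.card A).factorization p :=
    fun p => by
      have := (Nat.factorization_le_iff_dvd hd0 (mul_ne_zero hG0 hA0)).2 hd p
      rwa [Nat.factorization_mul hG0 hA0] at this
  have h1 : Nat.card H ∣ d := by
    rw [← Nat.factorization_prime_le_iff_dvd hH0 hd0]
    intro p hp
    by_cases h : p ∣ Nat.card H
    · have : (Nat.card G).factorization p ≤ d.factorization p := hH.1 p hp h
      have := hf p
      omega
    · rw [Nat.factorization_eq_zero_of_not_dvd h]; exact Nat.zero_le _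
  obtain ⟨e, rfl⟩ := h1
  have he0 : e ≠ 0 := right_ne_zero_of_mul hd0
  have h2 : e ∣ Nat.card A := by
    rw [← Nat.factorization_prime_le_iff_dvd he0 hA0]
    intro p hp
    have h3 := hdf p
    have h4 := hf p
    have h6 : (Nat.card H * e).factorization p = (Nat.card H).factorization p + e.factorization p := by
      rw [Nat.factorization_mul hH0 he0]; rfl
    by_cases h : (Nat.card G).factorization p ≤ (Nat.card H * e).factorization p
    · have h5 := Nat.factorization_eq_zero_of_not_dvd (hH.2 p hp h)
      omega
    · have h5 : p ∣ Nat.card G := Nat.dvd_of_factorization_pos (by omega)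
      have := hexp p hp h5
      omega
  obtain ⟨B, hB⟩ := H2.hasSubgroupOfEveryOrder_of_isSupersolvable
    (H2.isSupersolvable_of_isNilpotent (G := A)) e h2
  refine ⟨H.prod B, ?_⟩
  rw [Nat.card_congr (H.prodEquiv B).toEquiv, Nat.card_prod, hB]

end Cfsg.Agent.S0534
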