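import Cfsg.Statements.S0535
import Mathlib
import Cfsg.Agent.H2.Wiel

set_option autoImplicit false
open Cfsg

namespace Cfsg.Agent.S0535

/-- Suppose that for every nontrivial subgroup H of a finite group and every prime p dividing the order of H there is a proper subgroup of H whose index in H is a power of p. Then the group is solvable. -/
theorem result {G : Type*} [Group G] [Finite G] (h : ∀ H : Subgroup G, H ≠ ⊥ → ∀ p : ℕ, p.Prime → p ∣ Nat.card H → ∃ K : Subgroup H, K ≠ ⊤ ∧ ∃ k : ℕ, K.index = p ^ k) : Group.IsSolvable G := by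
  refine H2.isSolvable_of_prime_power_index_aux G fun H hH p hp hd => ?_
  obtain ⟨K, hK, k, hk⟩ := h H hH p hp hd
  refine ⟨K.map H.subtype, ?_, k, ?_⟩
  · refine lt_of_le_of_ne (Subgroup.map_subtype_le _) fun h' => hK ?_
    rw [← H10.map_subtype_subgroupOf K, h', Subgroup.subgroupOf_self]
  · rw [← hk, Subgroup.relIndex, H10.map_subtype_subgroupOf]

end Cfsg.Agent.S0535
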