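import Cfsg.Statements.S0537
import Mathlib
import Cfsg.Agent.H2.Schmidt

set_option autoImplicit false
open Cfsg

namespace Cfsg.Agent.S0537

/-- A finite non-abelian group in which every proper subgroup is abelian is either of prime-power order, or is generated by a cyclic Sylow p-subgroup and a normal Sylow q-subgroup that is elementary abelian, for distinct primes p and q. -/
theorem result {G : Type*} [Group G] [Finite G] (hna : ¬ IsMulCommutative G) (h : ∀ H : Subgroup G, H ≠ ⊤ → IsMulCommutative H) : (∃ p : ℕ, p.Prime ∧ IsPGroup p G) ∨ ∃ p q : ℕ, p.Prime ∧ q.Prime ∧ p ≠ q ∧ ∃ (P : Sylow p G) (Q : Sylow q G), IsCyclic P ∧ (Q : Subgroup G).Normal ∧ Cfsg.IsElementaryAbelian q (Q : Subgroup G) ∧ (P : Subgroup G) ⊔ Q = ⊤ := by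
  by_cases hG : Group.IsNilpotent G
  · by_contra hcon
    refine hna (H2.isMulCommutative_of_eq_top rfl (H2.isMulCommutative_of_isNilpotent_of_forall
      inferInstance fun p hp P _ hP => h P ?_))
    rintro rfl
    exact hcon (Or.inl ⟨p, hp, hP.of_equiv Subgroup.topEquiv⟩)
  right
  obtain ⟨p, q, hp, hq, hpq, P, Q, hP, hPc, hQ, hn, h1, h2⟩ := H2.exists_schmidt
    ⟨hG, fun H hH => by haveI := h H hH; exact H2.isNilpotent_of_isMulCommutative H⟩
  haveI := Fact.mk hp
  haveI := Fact.mk hq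
  haveI := h Q fun h' => hG (H2.isNilpotent_of_eq_top h' hQ.2.isNilpotent)
  have hcop := H2.coprime_card_of_isPGroup_of_ne hpq hP.2 hQ.2
  refine ⟨p, q, hp, hq, hpq, hP.toSylowTop, hQ.toSylowTop, hPc, hn, ⟨‹_›, ?_⟩, h1⟩
  have h3 : P ≤ Subgroup.normalizer (H2.powKer Q q : Set G) :=
    Subgroup.le_normalizer_of_normal.trans (H2.normalizer_le_normalizer_powKer Q q)
  have h4 : H2.powKer Q q ⊔ P = ⊤ := by
    by_contra h4
    haveI := h _ h4
    refine h2 (H1.le_centralizer_of_centralizes_prime_order Subgroup.le_normalizer_of_normal hcop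
      fun v hv hv' => ?_)
    obtain ⟨k, hk⟩ := hQ.2 ⟨v, hv⟩
    have h5 : orderOf v ∣ q ^ k := orderOf_dvd_of_pow_eq_one (congrArg Subtype.val hk)
    have h6 : orderOf v = q := (Nat.prime_dvd_prime_iff_eq hv' hq).1 (hv'.dvd_of_dvd_pow h5)
    have h7 : v ∈ H2.powKer Q q := ⟨hv, h6 ▸ pow_orderOf_eq_one v⟩
    rw [Subgroup.mem_centralizer_iff]
    intro x hx
    exact H2.mul_comm_of_mem (A := H2.powKer Q q ⊔ P) (Subgroup.mem_sup_right hx)
      (Subgroup.mem_sup_left h7)
  have h5 := H1.sup_inf_of_le_normalizer h3 (H2.powKer_le Q q)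
  rw [h4, top_inf_eq, Subgroup.inf_eq_bot_of_coprime hcop, sup_bot_eq] at h5
  intro a ha
  exact (h5.le ha).2

end Cfsg.Agent.S0537
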