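import Cfsg.Statements.S0541
import Mathlib
import Cfsg.Agent.H2.Subnormal

set_option autoImplicit false
open Pointwise
open Cfsg

namespace Cfsg.Agent.S0541

/-- Let Z and Y be subgroups of a finite group G and p a prime. Suppose that for every g in G the subgroup generated by the conjugates of g Z g⁻¹ under Y is a p-group. Then there is a Sylow p-subgroup P of G such that Y normalizes the subgroup generated by all conjugates of Z contained in P. -/
theorem result {G : Type*} [Group G] [Finite G] (p : ℕ) [Fact p.Prime] (Z Y : Subgroup G) (h : ∀ g : G, IsPGroup p ↥(⨆ y ∈ Y, MulAut.conj (y * g) • Z)) : ∃ P : Sylow p G, Y ≤ Subgroup.normalizer ((⨆ g ∈ {g : G | MulAut.conj g • Z ≤ (P : Subgroup G)}, MulAut.conj g • Z : Subgroup G) : Set G) := by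
  have hP : ∀ Q : Subgroup G, (⨆ g ∈ {g : G | MulAut.conj g • Z ≤ Q}, MulAut.conj g • Z : Subgroup G)
      = sSup {B | (∃ g : G, B = MulAut.conj g • Z) ∧ B ≤ Q} := by
    intro Q
    apply le_antisymm
    · exact iSup₂_le fun g hg => le_sSup ⟨⟨g, rfl⟩, hg⟩
    · apply sSup_le
      rintro _ ⟨⟨g, rfl⟩, hg⟩
      exact le_iSup₂_of_le g hg le_rfl
  obtain ⟨Q, ⟨hQ1, hQ2, hQ3⟩, hmax⟩ := (wellFounded_gt (α := Subgroup G)).has_min
    {Q | IsPGroup p Q ∧ Y ≤ Subgroup.normalizer (Q : Set G) ∧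
      Q = sSup {B | (∃ g : G, B = MulAut.conj g • Z) ∧ B ≤ Q}}
    ⟨⊥, IsPGroup.of_bot, Subgroup.le_normalizer_of_normal,
      le_antisymm bot_le (sSup_le fun B hB => hB.2)⟩
  obtain ⟨P, hQP⟩ := hQ1.exists_le_sylow
  refine ⟨P, ?_⟩
  rw [hP]
  have hsub : {B | (∃ g : G, B = MulAut.conj g • Z) ∧ B ≤ Q} ⊆
      {B | (∃ g : G, B = MulAut.conj g • Z) ∧ B ≤ P} := fun B hB => ⟨hB.1, hB.2.trans hQP⟩
  rcases hsub.eq_or_ssubset with h1 | h1
  · rw [← h1, ← hQ3]; exact hQ2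
  exfalso
  obtain ⟨X, ⟨⟨g, rfl⟩, hX1⟩, hX2, hX3⟩ := H2.exists_not_mem_le_normalizer_sSup (V := P)
    (fun U hU => H2.subnormalIn_of_isNilpotent P.isPGroup'.isNilpotent hU.2)
    (by
      rintro _ ⟨⟨g, rfl⟩, hU⟩ x hx
      exact ⟨⟨x * g, H3.conj_smul_conj_smul _ _ _⟩,
        H2.conj_smul_le_of_mem_normalizer hU (Subgroup.le_normalizer hx)⟩) h1
  rw [← hQ3] at hX3
  set R : Subgroup G := ⨆ y ∈ Y, MulAut.conj (y * g) • Z with hR
  have hRQ : R ≤ Subgroup.normalizer (Q : Set G) := by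
    refine iSup₂_le fun y hy => ?_
    rw [← H3.conj_smul_conj_smul]
    exact H2.conj_smul_le_of_mem_normalizer hX3 (Subgroup.le_normalizer (hQ2 hy))
  have hRY : Y ≤ Subgroup.normalizer (R : Set G) := by
    intro y hy
    apply H2.mem_normalizer_of_conj_smul_le
    rw [hR, ← H3.map_conj_eq_smul, (Subgroup.gc_map_comap _).l_iSup₂]
    refine iSup₂_le fun y' hy' => le_iSup₂_of_le (y * y') (mul_mem hy hy') ?_
    rw [H3.map_conj_eq_smul, H3.conj_smul_conj_smul, mul_assoc]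
  have hXR : MulAut.conj g • Z ≤ R := le_iSup₂_of_le 1 (one_mem Y) (by rw [one_mul])
  refine hmax (Q ⊔ R) ⟨IsPGroup.to_sup_of_normal_left' hQ1 (h g) hRQ,
    H1.le_normalizer_sup hQ2 hRY, ?_⟩ ?_
  · refine le_antisymm (sup_le ?_ ?_) (sSup_le fun B hB => hB.2)
    · nth_rewrite 1 [hQ3]
      exact sSup_le_sSup fun B hB => ⟨hB.1, hB.2.trans le_sup_left⟩
    · exact iSup₂_le fun y hy => le_sSup ⟨⟨_, rfl⟩, le_sup_of_le_right
        (le_iSup₂_of_le y hy le_rfl)⟩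
  · exact left_lt_sup.mpr fun hc => hX2 ⟨⟨g, rfl⟩, hXR.trans hc⟩

end Cfsg.Agent.S0541
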