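import Cfsg.Statements.S0542
import Mathlib
import Cfsg.Agent.H2.Basic

set_option autoImplicit false
open Cfsg

namespace Cfsg.Agent.S0542

/-- A Sylow p-subgroup of a finite group meets every subnormal subgroup H in a Sylow p-subgroup of H. -/
theorem result {G : Type*} [Group G] [Finite G] (p : ℕ) [Fact p.Prime] (H : Subgroup G) (hH : H.IsSubnormal) (S : Sylow p G) : ∃ Q : Sylow p H, (Q : Subgroup H) = (S : Subgroup G).subgroupOf H := by
  have : H3.SylowIn p ((S : Subgroup G) ⊓ H) H := by
    refine H10.subnormal_induction (P := fun H => H3.SylowIn p ((S : Subgroup G) ⊓ H) H) hH ?_ ?_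
    · rw [inf_top_eq]; exact H3.sylowIn_top S
    · intro A B hAB hn _ ih
      have := ih.inf_of_le_normalizer hAB hn
      rwa [inf_assoc, inf_eq_right.mpr hAB] at this
  exact ⟨this.toSylow, by rw [H3.SylowIn.coe_toSylow, Subgroup.inf_subgroupOf_right]⟩

end Cfsg.Agent.S0542
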