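import Cfsg.Statements.S0548
import Mathlib
import Cfsg.Agent.H2.Prim

set_option autoImplicit false
open Cfsg

namespace Cfsg.Agent.S0548

/-- Let a finite solvable group G act faithfully and primitively on a set, let M be a minimal normal subgroup and H the stabilizer of a point. Then H is a complement to M, no non-identity element of H centralizes M, and the only subgroups of M normalized by H are the trivial subgroup and M. -/
theorem result {G : Type*} [Group G] [Finite G] [Group.IsSolvable G] {Ω : Type*} [MulAction G Ω] [FaithfulSMul G Ω] (hprim : MulAction.IsPreprimitive G Ω) (M : Subgroup G) [M.Normal] (hM : M ≠ ⊥) (hmin : ∀ K : Subgroup G, K.Normal → K ≤ M → K = ⊥ ∨ K = M) (ω : Ω) : Subgroup.IsComplement' M (MulAction.stabilizer G ω) ∧ MulAction.stabilizer G ω ⊓ Subgroup.centralizer (M : Set G) = ⊥ ∧ ∀ K : Subgroup G, K ≤ M → MulAction.stabilizer G ω ≤ Subgroup.normalizer (K : Set G) → K = ⊥ ∨ K = M := by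
  have hU := H2.isCoatom_stabilizer_of_ne_bot hprim hM ω
  have hc := H2.normalCore_stabilizer_eq_bot (G := G) ω
  have mM : H2.IsMinNormal M := ⟨‹_›, hM, hmin⟩
  haveI := mM.isMulCommutative_of_isSolvable inferInstance
  have h2 := H2.sup_eq_top_of_core hU hc hM
  refine ⟨H2.isComplement'_of_normal (H2.inf_eq_bot_of_core hU hc hM) h2, ?_, fun K hK hn => ?_⟩
  · rw [inf_comm]; exact H2.centralizer_inf_eq_bot_of_core hU hc hM
  · exact hmin K (H2.normal_of_sup_eq_top (H2.le_normalizer_of_le_of_isMulCommutative hK) hn h2) hK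

end Cfsg.Agent.S0548
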