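import Cfsg.Statements.S0552
import Mathlib
import Cfsg.Agent.H1.Cores

set_option autoImplicit false
open Cfsg

namespace Cfsg.Agent.S0552

/-- Let σ be an automorphism of a finite solvable group G fixing every element of the Fitting subgroup. If σ is not the identity then the order of σ and the order of G have a common prime factor. -/
theorem result {G : Type*} [Group G] [Finite G] [Group.IsSolvable G] (σ : G ≃* G) (hσ : ∀ x ∈ Cfsg.fittingSubgroup G, σ x = x) (hne : σ ≠ MulEquiv.refl G) : ¬ (orderOf σ).Coprime (Nat.card G) := by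
  intro hc
  have key : ∀ g : G, g⁻¹ * σ g ∈ fittingSubgroup G := fun g => by
    refine H1.centralizer_fittingSubgroup_le ‹_› ?_
    rw [Subgroup.mem_centralizer_iff]
    intro x hx
    have h1 := hσ _ (H1.fittingSubgroup_normal.conj_mem x hx g)
    rw [map_mul, map_mul, map_inv, hσ x hx] at h1
    calc x * (g⁻¹ * σ g) = g⁻¹ * (g * x * g⁻¹) * σ g := by group
      _ = g⁻¹ * (σ g * x * (σ g)⁻¹) * σ g := by rw [h1]
      _ = _ := by group
  have h2 : ∀ (k : ℕ) (g : G), ((σ : MulAut G) ^ k) g = g * (g⁻¹ * σ g) ^ k := by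
    intro k g
    induction k with
    | zero => simp
    | succ k ih =>
      rw [pow_succ', MulAut.mul_apply, ih, map_mul, hσ _ (pow_mem (key g) k), pow_succ']
      simp only [← mul_assoc, mul_inv_cancel, one_mul]
  have h3 : (σ : MulAut G) ^ Nat.card G = 1 := by
    ext g
    rw [h2, pow_card_eq_one', mul_one]; rfl
  have h4 := orderOf_dvd_of_pow_eq_one h3
  exact hne (orderOf_eq_one_iff.1 (Nat.Coprime.eq_one_of_dvd hc h4))

end Cfsg.Agent.S0552
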