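import Cfsg.Statements.S0553
import Mathlib
import Cfsg.Agent.H2.Frattini
import Cfsg.Agent.H2.SS2

set_option autoImplicit false
open Cfsg

namespace Cfsg.Agent.S0553

universe u
theorem aux (G : Type u) [Group G] [Finite G] : Group.IsSolvable G → Nontrivial G →
    (∀ M : Subgroup G, IsCoatom M → (Nat.card M).Coprime M.index) →
    ∃ p : ℕ, p.Prime ∧ p ∣ Nat.card G ∧ ∀ P : Subgroup G, H3.SylowIn p P ⊤ → P.Normal := by
  refine H2.card_induction (P := fun G _ _ => Group.IsSolvable G → Nontrivial G →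
    (∀ M : Subgroup G, IsCoatom M → (Nat.card M).Coprime M.index) →
    ∃ p : ℕ, p.Prime ∧ p ∣ Nat.card G ∧ ∀ P : Subgroup G, H3.SylowIn p P ⊤ → P.Normal)
    (fun G _ _ ih hs hn h => ?_) G
  obtain ⟨N, hN, hNa, p, hp, hNp⟩ := H2.exists_isMinNormal_of_isSolvable (G := G)
  haveI := hN.normal
  haveI := Fact.mk hp
  by_cases hΦ : N ≤ frattini G
  · have hnt : Nontrivial (G ⧸ N) := QuotientGroup.nontrivial_iff.2 fun h' =>
      H2.frattini_ne_top (top_le_iff.1 (h' ▸ hΦ))
    obtain ⟨q, hq, hqd, hQ⟩ := ih (G ⧸ N) (H1.card_quotient_lt hN.ne_bot) inferInstance hnt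
      (fun M hM => by
        have := h _ (H2.isCoatom_comap_mk' hM)
        rw [Subgroup.index_comap_of_surjective _ (QuotientGroup.mk'_surjective N),
          H1.card_comap_mk'] at this
        exact this.coprime_mul_left)
    haveI := Fact.mk hq
    refine ⟨q, hq, hqd.trans (H2.card_quotient_dvd N), fun P hP => ?_⟩
    have h1 := hP.map (QuotientGroup.mk' N)
    rw [Subgroup.map_top_of_surjective _ (QuotientGroup.mk'_surjective N)] at h1
    haveI := hQ _ h1
    have h2 : (P.map (QuotientGroup.mk' N)).comap (QuotientGroup.mk' N) = P ⊔ N := by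
      rw [Subgroup.comap_map_eq, QuotientGroup.ker_mk']
    haveI : (P ⊔ N).Normal := h2 ▸ inferInstance
    exact H2.normal_of_sylowIn_of_le_sup_frattini (L := P ⊔ N) (hP.of_le le_sup_left le_top) hΦ le_rfl
  · rw [H2.le_frattini_iff] at hΦ
    push Not at hΦ
    obtain ⟨M, hM, hNM⟩ := hΦ
    have hc := hN.isComplement'_of_coatom hM hNM
    have h1 := h M hM
    rw [hc.index_eq_card, ← hc.symm.index_eq_card] at h1
    obtain ⟨k, hk⟩ := IsPGroup.iff_card.1 hNp
    have hpN : p ∣ Nat.card N := by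
      rw [hk]
      refine dvd_pow_self p fun h0 => hN.ne_bot ?_
      rw [h0, pow_zero] at hk
      exact Subgroup.card_eq_one.1 hk
    have hS : H3.SylowIn p N ⊤ := ⟨le_top, hNp, by
      rw [Subgroup.relIndex_top_right]
      exact fun h' => hp.one_lt.ne' (Nat.eq_one_of_dvd_coprimes h1 h' hpN)⟩
    refine ⟨p, hp, hpN.trans (Subgroup.card_subgroup_dvd_card N), fun P hP => ?_⟩
    obtain ⟨g, -, rfl⟩ := hS.exists_conj hP
    rw [H3.conj_smul_eq_of_normal]; infer_instance

/-- Let G be a nontrivial finite solvable group in which every maximal subgroup has order coprime to its index. Then for some prime p dividing the order of G the Sylow p-subgroups of G are normal. -/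
theorem result {G : Type*} [Group G] [Finite G] [Group.IsSolvable G] [Nontrivial G] (h : ∀ M : Subgroup G, IsCoatom M → (Nat.card M).Coprime M.index) : ∃ p : ℕ, p.Prime ∧ p ∣ Nat.card G ∧ ∀ P : Sylow p G, (P : Subgroup G).Normal := by
  obtain ⟨p, hp, hd, hP⟩ := aux G ‹_› ‹_› h
  haveI := Fact.mk hp
  exact ⟨p, hp, hd, fun P => hP _ (H3.sylowIn_top P)⟩

end Cfsg.Agent.S0553
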