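import Cfsg.Statements.S0554
import Mathlib
import Cfsg.Agent.H2.Basic
import Cfsg.Agent.H2.SS2

set_option autoImplicit false
open Cfsg

namespace Cfsg.Agent.S0554

universe u
theorem shift {G : Type*} [Group G] (N : Subgroup G) [hN : N.Normal] :
    ∀ (t : ℕ) (s : Fin t → G) (j : Fin t) (n : G), n ∈ N → ∃ n' ∈ N,
      (List.ofFn (Function.update s j (s j * n'))).prod = (List.ofFn s).prod * n := by
  intro t
  induction t with
  | zero => intro s j; exact j.elim0
  | succ t ih =>
    intro s j n hn
    refine Fin.cases ?_ (fun j => ?_) j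
    · refine ⟨(List.ofFn fun i => s (Fin.succ i)).prod * n * ((List.ofFn fun i => s (Fin.succ i)).prod)⁻¹,
        hN.conj_mem n hn _, ?_⟩
      rw [List.ofFn_succ, List.ofFn_succ, List.prod_cons, List.prod_cons, Function.update_self]
      simp only [Function.update_of_ne (Fin.succ_ne_zero _)]
      group
    · obtain ⟨n', hn', h⟩ := ih (fun i => s (Fin.succ i)) j n hn
      refine ⟨n', hn', ?_⟩
      rw [List.ofFn_succ, List.ofFn_succ, List.prod_cons, List.prod_cons, mul_assoc, ← h,
        Function.update_of_ne (Fin.succ_ne_zero _).symm]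
      congr 3
      funext i
      by_cases hij : i = j
      · subst hij; simp
      · rw [Function.update_of_ne hij, Function.update_of_ne (fun h => hij (Fin.succ_injective _ h))]

theorem aux (t : ℕ) (p : Fin t → ℕ) (hp : ∀ i, (p i).Prime) (G : Type u) [Group G] [Finite G] :
    Group.IsSolvable G → (∀ q : ℕ, q.Prime → q ∣ Nat.card G → ∃ i, p i = q) →
    ∀ S : Fin t → Subgroup G, (∀ i, H3.SylowIn (p i) (S i) ⊤) →
    ∀ g : G, ∃ s : (i : Fin t) → G, (∀ i, s i ∈ S i) ∧ g = (List.ofFn s).prod := by
  refine H2.card_induction (P := fun G _ _ => Group.IsSolvable G →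
    (∀ q : ℕ, q.Prime → q ∣ Nat.card G → ∃ i, p i = q) →
    ∀ S : Fin t → Subgroup G, (∀ i, H3.SylowIn (p i) (S i) ⊤) →
    ∀ g : G, ∃ s : (i : Fin t) → G, (∀ i, s i ∈ S i) ∧ g = (List.ofFn s).prod)
    (fun G _ _ ih hs hall S hS g => ?_) G
  rcases subsingleton_or_nontrivial G with h | h
  · exact ⟨fun _ => 1, fun i => one_mem _, Subsingleton.elim _ _⟩
  obtain ⟨N, hN, hNa, r, hr, hNr⟩ := H2.exists_isMinNormal_of_isSolvable (G := G)
  haveI := hN.normal
  haveI := Fact.mk hr
  obtain ⟨k, hk⟩ := IsPGroup.iff_card.1 hNr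
  have hpN : r ∣ Nat.card N := by
    rw [hk]
    refine dvd_pow_self r fun h0 => hN.ne_bot ?_
    rw [h0, pow_zero] at hk
    exact Subgroup.card_eq_one.1 hk
  obtain ⟨j, rfl⟩ := hall r hr (hpN.trans (Subgroup.card_subgroup_dvd_card N))
  have hNS : N ≤ S j := (hS j).le_of_le_normalizer hNr le_top (H2.le_normalizer_of_normal' _ _)
  obtain ⟨s, hs1, hs2⟩ := ih (G ⧸ N) (H1.card_quotient_lt hN.ne_bot) inferInstance
    (fun q hq hd => hall q hq (hd.trans (H2.card_quotient_dvd N)))
    (fun i => (S i).map (QuotientGroup.mk' N)) (fun i => by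
      haveI := Fact.mk (hp i)
      have := (hS i).map (QuotientGroup.mk' N)
      rwa [Subgroup.map_top_of_surjective _ (QuotientGroup.mk'_surjective N)] at this) (g : G ⧸ N)
  choose a ha1 ha2 using hs1
  have h1 : (((List.ofFn a).prod : G) : G ⧸ N) = g := by
    rw [hs2, ← QuotientGroup.mk'_apply, map_list_prod, List.map_ofFn]
    congr 2
    funext i
    exact ha2 i
  obtain ⟨n', hn', h2⟩ := shift N t a j _ (QuotientGroup.eq.1 h1)
  refine ⟨Function.update a j (a j * n'), fun i => ?_, by rw [h2]; group⟩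
  by_cases hij : i = j
  · subst hij
    rw [Function.update_self]; exact mul_mem (ha1 i) (hNS hn')
  · rw [Function.update_of_ne hij]; exact ha1 i

/-- Let G be a finite solvable group and let S assign to each of t distinct primes, including every prime divisor of the order of G, a Sylow subgroup of G. Then every element of G is a product s_0 s_1 ⋯ s_(t-1) with s_i in S i, the factors taken in the given order. -/
theorem result {G : Type*} [Group G] [Finite G] [Group.IsSolvable G] (t : ℕ) (p : Fin t → ℕ) (hp : ∀ i, (p i).Prime) (hinj : Function.Injective p) (hall : ∀ q : ℕ, q.Prime → q ∣ Nat.card G → ∃ i, p i = q) (S : (i : Fin t) → Sylow (p i) G) : ∀ g : G, ∃ s : (i : Fin t) → G, (∀ i, s i ∈ (S i : Subgroup G)) ∧ g = (List.ofFn s).prod := by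
  exact aux t p hp G ‹_› hall (fun i => S i) fun i => by
    haveI := Fact.mk (hp i)
    exact H3.sylowIn_top (S i)

end Cfsg.Agent.S0554
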