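import Cfsg.Statements.S0555
import Mathlib
import Cfsg.Agent.H2.SS
import Cfsg.Agent.H2.Frattini

set_option autoImplicit false
open Cfsg

namespace Cfsg.Agent.S0555

open scoped Pointwise commutatorElement

/-- Let i ≥ 1. If in the derived series of a group the quotient of the i-th term by the (i+1)-st and the quotient of the (i+1)-st by the (i+2)-nd are both cyclic, then the (i+1)-st and (i+2)-nd terms coincide. -/
theorem result {G : Type*} [Group G] (i : ℕ) (hi : 1 ≤ i) (h₁ : IsCyclic (↥(derivedSeries G i) ⧸ (derivedSeries G (i + 1)).subgroupOf (derivedSeries G i))) (h₂ : IsCyclic (↥(derivedSeries G (i + 1)) ⧸ (derivedSeries G (i + 2)).subgroupOf (derivedSeries G (i + 1)))) : derivedSeries G (i + 1) = derivedSeries G (i + 2) := by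
  refine le_antisymm ?_ (derivedSeries_antitone G (Nat.le_succ _))
  haveI := derivedSeries_normal G (i + 2)
  haveI := derivedSeries_normal G (i + 1)
  set f := QuotientGroup.mk' (derivedSeries G (i + 2))
  obtain ⟨e⟩ := H2.nonempty_quotient_subgroupOf_equiv_map (derivedSeries G (i + 1)) (derivedSeries G (i + 2))
  haveI : IsCyclic ((derivedSeries G (i + 1)).map f) := isCyclic_of_surjective e e.surjective
  haveI : ((derivedSeries G (i + 1)).map f).Normal :=
    Subgroup.Normal.map inferInstance f (QuotientGroup.mk'_surjective _)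
  have h3 := H2.commutator_le_centralizer_of_isCyclic ((derivedSeries G (i + 1)).map f)
  have h4 : (derivedSeries G i).map f ≤ commutator _ := by
    rw [← derivedSeries_one]
    exact (Subgroup.map_mono (derivedSeries_antitone G hi)).trans (map_derivedSeries_le_derivedSeries f 1)
  obtain ⟨k, hk⟩ := h₁.exists_generator
  obtain ⟨k, rfl⟩ := QuotientGroup.mk_surjective k
  have h5 : derivedSeries G i ≤ Subgroup.zpowers (k : G) ⊔ derivedSeries G (i + 1) := by
    intro x hx
    obtain ⟨m, hm⟩ := hk (QuotientGroup.mk ⟨x, hx⟩)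
    have : (k ^ m)⁻¹ * ⟨x, hx⟩ ∈ (derivedSeries G (i + 1)).subgroupOf (derivedSeries G i) := by
      rw [← QuotientGroup.eq, QuotientGroup.mk_zpow]; exact hm
    have h6 : ((k : G) ^ m)⁻¹ * x ∈ derivedSeries G (i + 1) := by
      simpa [Subgroup.mem_subgroupOf] using this
    have : x = (k : G) ^ m * (((k : G) ^ m)⁻¹ * x) := by group
    rw [this]
    exact mul_mem (Subgroup.mem_sup_left (Subgroup.zpow_mem_zpowers _ _)) (Subgroup.mem_sup_right h6)
  have h6 : (derivedSeries G i).map f ≤ Subgroup.zpowers (f k) ⊔ (derivedSeries G (i + 1)).map f := by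
    rw [← MonoidHom.map_zpowers, ← Subgroup.map_sup]; exact Subgroup.map_mono h5
  have h7 : Subgroup.zpowers (f k) ≤ (derivedSeries G i).map f := by
    rw [← MonoidHom.map_zpowers]; exact Subgroup.map_mono (Subgroup.zpowers_le_of_mem k.2)
  have h8 : ⁅(derivedSeries G i).map f, (derivedSeries G (i + 1)).map f⁆ = ⊥ :=
    Subgroup.commutator_eq_bot_iff_le_centralizer.2 (h4.trans h3)
  have h9 : ⁅(derivedSeries G i).map f, Subgroup.zpowers (f k)⁆ = ⊥ := by
    refine H10.commutator_eq_bot_mono (H10.commutator_sup_left_eq_bot ?_ ?_) h6 le_rfl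
    · exact Subgroup.commutator_self_eq_bot_iff.2 inferInstance
    · exact H10.commutator_eq_bot_comm (H10.commutator_eq_bot_mono h8 h7 le_rfl)
  have h10 : ⁅(derivedSeries G i).map f, (derivedSeries G i).map f⁆ = ⊥ :=
    H10.commutator_eq_bot_mono (H10.commutator_sup_left_eq_bot (H10.commutator_eq_bot_comm h9)
      (H10.commutator_eq_bot_comm h8)) h6 le_rfl
  rw [← Subgroup.map_commutator, ← derivedSeries_succ, Subgroup.map_eq_bot_iff,
    QuotientGroup.ker_mk'] at h10
  exact h10

end Cfsg.Agent.S0555
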