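import Cfsg.Statements.S0557
import Cfsg.Agent.H3.Misc1
import Cfsg.Agent.H2.Frattini

set_option autoImplicit false
open Cfsg

namespace Cfsg.Agent.S0557

open Cfsg.Agent.H3

theorem map_iterate_le {G : Type*} [Group G] {L : Subgroup G} (n : ℕ) (K : Subgroup L)
    (K' : Subgroup G) (h : K.map L.subtype ≤ K') :
    ((fun K : Subgroup L => Subgroup.focalSubgroup K)^[n] K).map L.subtype ≤
      (fun K : Subgroup G => Subgroup.focalSubgroup K)^[n] K' := by
  induction n generalizing K K' with
  | zero => exact h
  | succ n ih =>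
    refine ih _ _ ?_
    simp only [Subgroup.focalSubgroup_def, MonoidHom.map_closure]
    refine Subgroup.closure_mono ?_
    rintro _ ⟨g, ⟨hg, x, hx, u, rfl⟩, rfl⟩
    exact ⟨h ⟨_, hg, rfl⟩, x, h ⟨_, hx, rfl⟩, u, rfl⟩

/-- Let H be a subgroup of a finite group G with order coprime to its index. If iterating the focal-subgroup construction starting from H reaches the trivial subgroup after finitely many steps, then H has a normal complement in G. -/
theorem result {G : Type*} [Group G] [Finite G] (H : Subgroup G) (hHall : (Nat.card H).Coprime H.index) (n : ℕ) (hfoc : (fun K : Subgroup G => Subgroup.focalSubgroup K)^[n] H = ⊥) : ∃ N : Subgroup G, N.Normal ∧ Subgroup.IsComplement' N H := by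
  induction n generalizing G with
  | zero => exact ⟨⊤, inferInstance, by rw [show H = ⊥ from hfoc]; simp⟩
  | succ n ih =>
    obtain ⟨h1, h2⟩ := ker_transferFocal_inf_of_coprime H
      (hHall.symm.coprime_dvd_right (Subgroup.relIndex_dvd_card _ _))
    set L := H.transferFocal.ker
    have h3 : H.relIndex L = H.index := by
      have h4 := H1.card_sup_mul_card_inf (N := L) (H := H) Subgroup.le_normalizer_of_normal
      rw [h2, Subgroup.card_top, ← H.index_mul_card, ← H1.card_inf_mul_relIndex H L, inf_comm H L,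
        mul_right_comm, mul_comm H.index] at h4
      exact (Nat.eq_of_mul_eq_mul_left Nat.card_pos
        (Nat.eq_of_mul_eq_mul_right Nat.card_pos h4)).symm
    have h4 : (Nat.card (H.subgroupOf L)).Coprime (H.subgroupOf L).index := by
      rw [H1.card_subgroupOf_eq_inf]
      exact (h3.symm ▸ hHall).coprime_dvd_left (Subgroup.card_dvd_of_le inf_le_left)
    obtain ⟨N, hN, h5⟩ := ih (H.subgroupOf L) h4 (by
      have := map_iterate_le n (H.subgroupOf L) H.focalSubgroup
        (by rw [Subgroup.subgroupOf_map_subtype, inf_comm, h1])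
      rw [Function.iterate_succ_apply] at hfoc
      rw [hfoc] at this
      exact (Subgroup.map_eq_bot_iff_of_injective _ L.subtype_injective).mp (eq_bot_iff.mpr this))
    have h6 : (N.map L.subtype).Normal := ⟨by
      rintro _ ⟨x, hx, rfl⟩ g
      refine ⟨⟨g * x * g⁻¹, (inferInstance : L.Normal).conj_mem _ x.2 g⟩, ?_, rfl⟩
      rw [← h5.symm.index_eq_card, h5.index_eq_card] at h4
      refine mem_of_pow_mem_of_coprime h4 (N.pow_index_mem _) ?_
      have : x ^ Nat.card N = 1 := congrArg Subtype.val (pow_card_eq_one' (x := (⟨x, hx⟩ : N)))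
      convert N.one_mem
      exact Subtype.ext (by simp [← Subgroup.coe_pow, this])⟩
    refine ⟨_, h6, H2.isComplement'_of_normal (eq_bot_iff.mpr ?_) (eq_top_iff.mpr ?_)⟩
    · rintro _ ⟨⟨x, hx, rfl⟩, hx'⟩
      exact congrArg Subtype.val (h5.disjoint.le_bot ⟨hx, hx'⟩)
    · refine h2.ge.trans (sup_le (fun x hx => ?_) le_sup_right)
      obtain ⟨⟨a, b⟩, he⟩ := h5.2 ⟨x, hx⟩
      rw [show x = a * b from (congrArg Subtype.val he).symm]
      exact mul_mem (Subgroup.mem_sup_left ⟨a, a.2, rfl⟩) (Subgroup.mem_sup_right b.2)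

end Cfsg.Agent.S0557
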