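import Cfsg.Statements.S0558
import Cfsg.Agent.H3.HallCompl
import Cfsg.Agent.H1.Cores

set_option autoImplicit false
open Cfsg

namespace Cfsg.Agent.S0558

open Cfsg.Agent.H3

/-- Let H be a subgroup of a finite group G that is not a Sylow subgroup of G for any prime, and suppose that for every prime p dividing the order of H and every Sylow p-subgroup P of H the normalizer of P in G is exactly H. Then some normal subgroup of G is a complement to H. -/
theorem result {G : Type*} [Group G] [Finite G] (H : Subgroup G) (hnot : ∀ p : ℕ, p.Prime → ∀ P : Sylow p G, (P : Subgroup G) ≠ H) (hnorm : ∀ p : ℕ, p.Prime → p ∣ Nat.card H → ∀ P : Sylow p H, Subgroup.normalizer (((P : Subgroup H).map H.subtype : Subgroup G) : Set G) = H) : ∃ N : Subgroup G, N.Normal ∧ Subgroup.IsComplement' N H := by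
  have h1 : ∀ p : ℕ, p.Prime → p ∣ Nat.card H → ∀ Q : Subgroup G, SylowIn p Q H →
      Subgroup.normalizer (Q : Set G) = H ∧ SylowIn p Q ⊤ := by
    intro p hp hd Q hQ
    have := Fact.mk hp
    obtain ⟨P, rfl⟩ := sylowIn_iff_exists_sylow.mp hQ
    refine ⟨hnorm p hp hd P, sylowIn_of_forall_eq hQ.isPGroup le_top fun R hR _ hle => ?_⟩
    by_contra hne
    have h2 := lt_inf_normalizer_of_lt hR (lt_of_le_of_ne hle (Ne.symm hne))
    rw [hnorm p hp hd P] at h2
    exact h2.ne' (hQ.eq_of_le (hR.to_inf_left) inf_le_right h2.le)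
  have hH : Group.IsNilpotent H := H1.isNilpotent_of_normal_sylow fun p hp => by
    have := Fact.mk hp
    obtain ⟨Q, hQ⟩ := exists_sylowIn p H
    refine ⟨Q, hQ.le, ?_, hQ.isPGroup, hQ.not_dvd⟩
    by_cases hd : p ∣ Nat.card H
    · exact (h1 p hp hd Q hQ).1.ge
    · rw [hQ.eq_bot_iff.mpr hd]
      exact Subgroup.le_normalizer_of_normal
  refine exists_normal_complement_of_forall_prime H (Nat.coprime_of_dvd fun p hp hd hi => ?_)
    fun p hp hd => ?_
  · have := Fact.mk hp
    obtain ⟨Q, hQ⟩ := exists_sylowIn p H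
    refine (h1 p hp hd Q hQ).2.not_dvd (hi.trans ?_)
    rw [Subgroup.relIndex_top_right]
    exact Subgroup.index_dvd_of_le hQ.le
  · have := Fact.mk hp
    obtain ⟨P, hP⟩ := exists_sylowIn p H
    have h2 := (h1 p hp hd P hP).2
    have h3 : P.relIndex H ≠ 1 := fun h =>
      hnot p hp h2.toSylowTop (le_antisymm hP.le (Subgroup.relIndex_eq_one.mp h))
    obtain ⟨q, hq, h4⟩ := Nat.exists_prime_and_dvd h3
    have := Fact.mk hq
    have h5 : p ≠ q := fun h => hP.not_dvd (h ▸ h4)
    obtain ⟨Q, hQ⟩ := exists_sylowIn q H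
    obtain ⟨h6, h7⟩ := h1 q hq (h4.trans (P.relIndex_dvd_card H)) Q hQ
    have h8 : ∀ x ∈ P, x ∈ Subgroup.centralizer (Q : Set G) := fun x hx => by
      refine hQ.mem_centralizer_of_isNilpotent hH (hP.le hx) ?_
      obtain ⟨k, hk⟩ := hP.isPGroup ⟨x, hx⟩
      exact (((Nat.coprime_primes hp hq).mpr h5).pow_left k).coprime_dvd_left
        (orderOf_dvd_of_pow_eq_one (congrArg Subtype.val hk))
    refine hasNormalPComplement_of_fusion_control h2.toSylowTop hP.le (fun x hx g hg => ?_)
      hasNormalPComplement_of_isNilpotent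
    exact h6 ▸ exists_normalizer_conj_of_centralizer h7.toSylowTop (h8 x hx) (h8 _ hg)

end Cfsg.Agent.S0558
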