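import Cfsg.Statements.S0563
import Mathlib
import Cfsg.Agent.H2.Kegel

set_option autoImplicit false
open Pointwise
open Cfsg

namespace Cfsg.Agent.S0563

/-- If a finite group G is the product AB of two nilpotent subgroups of coprime orders, then G is solvable, and for every Sylow p-subgroup P of A and Sylow q-subgroup Q of B the product set PQ is a subgroup. -/
theorem result {G : Type*} [Group G] [Finite G] (A B : Subgroup G) (hA : Group.IsNilpotent A) (hB : Group.IsNilpotent B) (hcop : (Nat.card A).Coprime (Nat.card B)) (hAB : ∀ g : G, ∃ a ∈ A, ∃ b ∈ B, g = a * b) : Group.IsSolvable G ∧ ∀ (p q : ℕ) [Fact p.Prime] [Fact q.Prime] (P : Sylow p A) (Q : Sylow q B), ∃ S : Subgroup G, (S : Set G) = (((P : Subgroup A).map A.subtype : Subgroup G) : Set G) * (((Q : Subgroup B).map B.subtype : Subgroup G) : Set G) := by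
  have h := H2.fac_top hAB
  have hG := H2.kegel_wielandt hA hB h
  refine ⟨hG, fun p q _ _ P Q => ?_⟩
  have key : ∀ (r : ℕ) [Fact r.Prime] (R X : Subgroup G), H3.SylowIn r R X →
      (Nat.card X).Coprime X.index → (Nat.card R).Coprime (R.relIndex ⊤) := by
    intro r _ R X hR hX
    by_cases hd : r ∣ Nat.card X
    · exact (hR.top_of_hall hX hd).card_coprime_relIndex
    · rw [hR.eq_bot_iff.2 hd, Subgroup.card_bot]; exact Nat.coprime_one_left _
  have hP := H3.sylowIn_map_subtype P
  have hQ := H3.sylowIn_map_subtype Q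
  exact ⟨_, H2.fac_iff_coe.1 (h.fac_sup_of_hall (H2.isSolvable_top_iff.2 hG) hP.1
    (H2.le_normalizer_of_sylowIn_of_isNilpotent hA hP) hQ.1
    (H2.le_normalizer_of_sylowIn_of_isNilpotent hB hQ)
    (key p _ _ hP (hcop.coprime_dvd_right h.index_left_dvd))
    (key q _ _ hQ (hcop.symm.coprime_dvd_right h.index_right_dvd)))⟩

end Cfsg.Agent.S0563
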