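import Cfsg.Statements.S0567
import Mathlib
import Cfsg.Agent.H2.Basic

set_option autoImplicit false
open Cfsg

namespace Cfsg.Agent.S0567

open scoped Pointwise commutatorElement

/-- A subgroup H of a group G is subnormal exactly when, for some m, the subgroup obtained from G by taking the commutator with H m times in succession is contained in H. -/
theorem result {G : Type*} [Group G] (H : Subgroup G) : H.IsSubnormal ↔ ∃ m : ℕ, (fun K : Subgroup G => ⁅K, H⁆)^[m] ⊤ ≤ H := by
  constructor
  · intro hH
    have key : ∀ K : Subgroup G, K.IsSubnormal → H ≤ K →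
        ∃ m : ℕ, (fun K : Subgroup G => ⁅K, H⁆)^[m] ⊤ ≤ K := by
      intro K hK
      refine H10.subnormal_induction (P := fun K => H ≤ K →
        ∃ m : ℕ, (fun K : Subgroup G => ⁅K, H⁆)^[m] ⊤ ≤ K) hK (fun _ => ⟨0, le_rfl⟩) ?_
      intro A B hAB hn _ ih hHA
      obtain ⟨m, hm⟩ := ih (hHA.trans hAB)
      refine ⟨m + 1, ?_⟩
      rw [Function.iterate_succ_apply']
      exact (Subgroup.commutator_mono hm hHA).trans (H10.commutator_le_right_of_le_normalizer hn)
    exact key H hH le_rfl
  · rintro ⟨m, hm⟩
    have key : ∀ n : ℕ, ((fun K : Subgroup G => ⁅K, H⁆)^[n] ⊤ ⊔ H).IsSubnormal := by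
      intro n
      induction n with
      | zero => simp
      | succ n ih =>
        rw [Function.iterate_succ_apply']
        set K := (fun K : Subgroup G => ⁅K, H⁆)^[n] ⊤
        refine H10.IsSubnormal_of_le_normalizer (sup_le ?_ le_sup_right) (sup_le ?_ ?_) ih
        · exact Subgroup.commutator_le_sup K H
        · have h1 : ∀ k ∈ K, MulAut.conj k • (⁅K, H⁆ ⊔ H) ≤ ⁅K, H⁆ ⊔ H := by
            intro k hk
            rw [Subgroup.smul_sup, H3.mem_normalizer_iff_conj_smul.mp
              (Subgroup.normalizer_commutator_ge_left K H hk)]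
            refine sup_le le_sup_left (H3.conj_smul_le_iff.mpr fun x hx => ?_)
            have : k * x * k⁻¹ = ⁅k, x⁆ * x := by group
            rw [this]
            exact Subgroup.mul_mem_sup (Subgroup.commutator_mem_commutator hk hx) hx
          intro k hk
          rw [H3.mem_normalizer_iff_conj_smul]
          refine le_antisymm (h1 k hk) ?_
          have := H3.conj_smul_mono k (h1 k⁻¹ (inv_mem hk))
          rwa [H3.conj_smul_conj_inv_smul] at this
        · exact le_sup_right.trans Subgroup.le_normalizer
    have := key m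
    rwa [sup_eq_right.mpr hm] at this

end Cfsg.Agent.S0567
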