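import Cfsg.Statements.S0568
import Mathlib
import Cfsg.Agent.H2.Carter

set_option autoImplicit false
open Cfsg

namespace Cfsg.Agent.S0568

/-- Let D be the system normalizer of a Hall complement system of a finite solvable group G, and let A < B be normal subgroups with no normal subgroup of G strictly between them (a chief factor). If G centralizes B modulo A then B ≤ A ⊔ D (D covers the factor); otherwise B ∩ D ≤ A (D avoids it). -/
theorem result {G : Type*} [Group G] [Finite G] [Group.IsSolvable G] (K : Nat.Primes → Subgroup G) (hK : Cfsg.IsComplementSystem K) (A B : Subgroup G) [A.Normal] [B.Normal] (hAB : A < B) (hchief : ∀ N : Subgroup G, N.Normal → A ≤ N → N ≤ B → N = A ∨ N = B) : (⁅B, (⊤ : Subgroup G)⁆ ≤ A → B ≤ A ⊔ Cfsg.systemNormalizer K) ∧ (¬ ⁅B, (⊤ : Subgroup G)⁆ ≤ A → B ⊓ Cfsg.systemNormalizer K ≤ A) := by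
  have hM := H2.isMinNormal_map_mk' hAB hchief
  have hK' := H2.isComplementSystem_map (QuotientGroup.mk'_surjective A) hK
  have hZ : ⁅B, (⊤ : Subgroup G)⁆ ≤ A ↔ B.map (QuotientGroup.mk' A) ≤ Subgroup.center _ := by
    rw [H10.commutator_le_iff_map_mk', Subgroup.map_top_of_surjective _ (QuotientGroup.mk'_surjective A),
      Subgroup.commutator_top_right_eq_bot_iff_le_center]
  rw [hZ]
  refine ⟨fun h => ?_, fun h => ?_⟩
  · have := h.trans (H2.center_le_systemNormalizer fun p => (K p).map (QuotientGroup.mk' A))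
    rwa [H2.systemNormalizer_map_mk' ‹_› hK, Subgroup.map_le_iff_le_comap, H2.comap_map_mk'_eq_sup,
      sup_comm] at this
  · have := hM.inf_systemNormalizer_eq_bot inferInstance hK' h
    rw [H2.systemNormalizer_map_mk' ‹_› hK] at this
    have h2 := (Subgroup.map_inf_le (f := QuotientGroup.mk' A) B (systemNormalizer K)).trans this.le
    rwa [le_bot_iff, Subgroup.map_eq_bot_iff, QuotientGroup.ker_mk'] at h2

end Cfsg.Agent.S0568
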