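import Cfsg.Statements.S0571
import Mathlib
import Cfsg.Agent.H2.Schmidt

set_option autoImplicit false
open Cfsg

namespace Cfsg.Agent.S0571

universe u
theorem aux (G : Type u) [Group G] [Finite G] : ∀ A B : Subgroup G, IsCyclic A → IsCyclic B →
    H2.Fac ⊤ A B → IsSupersolvable G := by
  refine H2.card_induction (P := fun G _ _ => ∀ A B : Subgroup G, IsCyclic A → IsCyclic B →
    H2.Fac ⊤ A B → IsSupersolvable G) (fun G _ _ ih A B hA hB h => ?_) G
  rcases subsingleton_or_nontrivial G with h0 | h0
  · exact H2.isSupersolvable_of_subsingleton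
  obtain ⟨N, hN, hN0, hle⟩ := H2.exists_normal_le_of_fac_abelian h
  haveI : IsCyclic N := by
    rcases hle with h | h <;> exact Subgroup.isCyclic_of_le h
  exact H2.isSupersolvable_of_isCyclic_normal N (ih _ (H1.card_quotient_lt hN0) _ _
    (isCyclic_of_surjective _ (MonoidHom.subgroupMap_surjective _ A))
    (isCyclic_of_surjective _ (MonoidHom.subgroupMap_surjective _ B)) (h.map_mk' N))

/-- If a finite group G is the product AB of two cyclic subgroups (every element is a product ab), then G is supersolvable. -/
theorem result {G : Type*} [Group G] [Finite G] (A B : Subgroup G) [IsCyclic A] [IsCyclic B] (hAB : ∀ g : G, ∃ a ∈ A, ∃ b ∈ B, g = a * b) : Cfsg.IsSupersolvable G := by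
  exact aux G A B ‹_› ‹_› (H2.fac_top hAB)

end Cfsg.Agent.S0571
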