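import Cfsg.Statements.S0574
import Mathlib
import Cfsg.Agent.H2.Kegel

set_option autoImplicit false
open Cfsg

namespace Cfsg.Agent.S0574

open scoped Pointwise commutatorElement
universe u
theorem der_le {G : Type*} [Group G] (H : Subgroup G) (k : ℕ) (h : derivedSeries G k ≤ H) (n : ℕ) :
    derivedSeries G (k + n) ≤ (derivedSeries H n).map H.subtype := by
  induction n with
  | zero => rwa [derivedSeries_zero, ← MonoidHom.range_eq_map, Subgroup.range_subtype]
  | succ n ih =>
    rw [← add_assoc, derivedSeries_succ, derivedSeries_succ, Subgroup.map_commutator]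
    exact Subgroup.commutator_mono ih ih

theorem aux (n : ℕ) : ∀ (G : Type u) [Group G] [Finite G] (A B : Subgroup G), IsMulCommutative A →
    Group.IsNilpotent B → H2.Fac ⊤ A B →
    (Nat.card (⁅B, B⁆ : Subgroup G)).primeFactorsList.length ≤ n →
    derivedSeries G (2 * (1 + n)) = ⊥ := by
  induction n with
  | zero =>
    intro G _ _ A B hA hB h hn
    rw [Nat.le_zero, List.length_eq_zero_iff, Nat.primeFactorsList_eq_nil] at hn
    haveI := Subgroup.commutator_self_eq_bot_iff.1
      (Subgroup.card_eq_one.1 (hn.resolve_left Nat.card_pos.ne'))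
    exact H2.ito_derivedSeries h
  | succ n ih =>
    intro G _ _ A B hA hB h hn
    set H := A ⊔ ⁅B, B⁆ with hH
    have hf : H2.Fac H A (B ⊓ H) := h.of_left_le le_sup_left le_top
    have hnil : Group.IsNilpotent ((B ⊓ H).subgroupOf H) := by
      haveI := H1.isNilpotent_of_le (inf_le_left : B ⊓ H ≤ B) hB
      exact Group.nilpotent_of_mulEquiv (Subgroup.subgroupOfEquivOfLe inf_le_right).symm
    have h1 : derivedSeries G 2 ≤ H := by
      have h2 := H2.normalClosure_le_of_fac (h.symm.mono le_rfl (le_sup_left : A ≤ H) le_top le_top)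
        (Subgroup.normalizer_commutator_ge_left B B) le_sup_right
      refine le_trans ?_ h2
      set N := Subgroup.normalClosure ((⁅B, B⁆ : Subgroup G) : Set G)
      haveI : IsMulCommutative (B.map (QuotientGroup.mk' N)) :=
        Subgroup.commutator_self_eq_bot_iff.1 (H10.commutator_le_iff_map_mk'.1
          Subgroup.le_normalClosure)
      have h3 := H2.ito_derivedSeries (h.map_mk' N)
      rwa [← map_derivedSeries_eq (QuotientGroup.mk'_surjective N), Subgroup.map_eq_bot_iff,
        QuotientGroup.ker_mk'] at h3
    have hle : ⁅B ⊓ H, B ⊓ H⁆ ≤ ⁅B, B⁆ := Subgroup.commutator_mono inf_le_left inf_le_left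
    have h4 := ih H (A.subgroupOf H) ((B ⊓ H).subgroupOf H) inferInstance hnil hf.subgroupOf (by
      rw [← H10.subgroupOf_commutator inf_le_right inf_le_right,
        H1.card_subgroupOf_of_le (hle.trans le_sup_right)]
      by_cases he : ⁅B ⊓ H, B ⊓ H⁆ = ⁅B, B⁆
      · have h5 := H2.eq_top_of_fac_of_sup_commutator_aux H _ _ inferInstance hnil hf.subgroupOf (by
          rw [← H10.subgroupOf_commutator inf_le_right inf_le_right, he,
            ← Subgroup.subgroupOf_sup le_sup_left le_sup_right, Subgroup.subgroupOf_self])
        rw [Subgroup.subgroupOf_eq_top] at h5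
        rw [H10.commutator_eq_bot_mono (Subgroup.commutator_self_eq_bot_iff.2 hA)
          (inf_le_right.trans h5) (inf_le_right.trans h5), Subgroup.card_bot]
        simp
      · have h5 := H1.card_mul_relIndex hle
        have h6 : Subgroup.relIndex ⁅B ⊓ H, B ⊓ H⁆ ⁅B, B⁆ ≠ 1 := fun h' =>
          he (le_antisymm hle (Subgroup.relIndex_eq_one.1 h'))
        have h7 : Subgroup.relIndex ⁅B ⊓ H, B ⊓ H⁆ ⁅B, B⁆ ≠ 0 := Subgroup.index_ne_zero_of_finite
        rw [← h5, (Nat.perm_primeFactorsList_mul Nat.card_pos.ne' h7).length_eq,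
          List.length_append] at hn
        have h8 : (Subgroup.relIndex ⁅B ⊓ H, B ⊓ H⁆ ⁅B, B⁆).primeFactorsList.length ≠ 0 := by
          rw [Ne, List.length_eq_zero_iff, Nat.primeFactorsList_eq_nil]
          tauto
        omega)
    have h5 := der_le H 2 h1 (2 * (1 + n))
    rw [h4, Subgroup.map_bot, le_bot_iff] at h5
    rw [← h5]; congr 1; ring

/-- Let the finite group G be the product AB of an abelian subgroup A and a subgroup B of nilpotency class at most two, and let Ω be the number of prime factors, with multiplicity, of the order of the commutator subgroup of B. Then the term of index 2(1 + Ω) of the derived series of G is trivial. -/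
theorem result {G : Type*} [Group G] [Finite G] (A B : Subgroup G) [IsMulCommutative A] (hB : commutator ↥B ≤ Subgroup.center ↥B) (hAB : ∀ g : G, ∃ a ∈ A, ∃ b ∈ B, g = a * b) : derivedSeries G (2 * (1 + (Nat.card ↥(commutator ↥B)).primeFactorsList.length)) = ⊥ := by
  refine aux _ G A B ‹_› ?_ (H2.fac_top hAB) ?_
  · haveI : IsMulCommutative (B ⧸ Subgroup.center B) :=
      Subgroup.Normal.quotient_commutative_iff_commutator_le.2 hB
    haveI := H2.isNilpotent_of_isMulCommutative (B ⧸ Subgroup.center B)
    exact Subgroup.isNilpotent_of_ker_le_center (QuotientGroup.mk' (Subgroup.center B)) (by simp)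
  · rw [← Subgroup.map_subtype_commutator, Subgroup.card_map_of_injective B.subtype_injective]

end Cfsg.Agent.S0574
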