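import Cfsg.Statements.S0577
import Mathlib
import Cfsg.Agent.H2.Schmidt

set_option autoImplicit false
open Cfsg

namespace Cfsg.Agent.S0577

open scoped Pointwise commutatorElement

/-- Let G be a finite minimal non-nilpotent group and Q a normal Sylow q-subgroup of G, and let D be the commutator subgroup of Q regarded in G (a normal subgroup). Then G modulo D is non-abelian and all its proper subgroups are abelian. -/
theorem result {G : Type*} [Group G] [Finite G] (hG : Cfsg.IsMinimalNonNilpotent G) (q : ℕ) [Fact q.Prime] (hq : q ∣ Nat.card G) (Q : Sylow q G) (hQ : (Q : Subgroup G).Normal) (D : Subgroup G) [D.Normal] (hD : D = (commutator ↥(Q : Subgroup G)).map (Q : Subgroup G).subtype) : ¬ IsMulCommutative (G ⧸ D) ∧ ∀ K : Subgroup (G ⧸ D), K ≠ ⊤ → IsMulCommutative K := by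
  obtain ⟨p, r, hp, hr, hpr, P, R, hP, hPc, hR, hn, h1, h2⟩ := H2.exists_schmidt hG
  haveI := Fact.mk hp
  haveI := Fact.mk hr
  rw [Subgroup.map_subtype_commutator] at hD
  have hf : H2.Fac ⊤ P R := h1 ▸ H2.fac_sup_normal_right P R
  have hqr : q = r := by
    have h3 := hq.trans (Subgroup.card_top (G := G) ▸ hf.card_dvd)
    obtain ⟨a, ha⟩ := IsPGroup.iff_card.1 hP.2
    obtain ⟨b, hb⟩ := IsPGroup.iff_card.1 hR.2
    rw [ha, hb] at h3
    have hq' : q.Prime := Fact.out
    rcases hq'.dvd_mul.1 h3 with h3 | h3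
    · exfalso
      obtain rfl : q = p := (Nat.prime_dvd_prime_iff_eq hq' hp).1 (hq'.dvd_of_dvd_pow h3)
      obtain ⟨g, -, hg⟩ := (H3.sylowIn_top Q).exists_conj hP
      rw [H3.conj_smul_eq_of_normal] at hg
      haveI : P.Normal := hg ▸ hQ
      exact hG.1 (H2.isNilpotent_of_eq_top h1 (H1.isNilpotent_sup_of_normal hP.2.isNilpotent
        hR.2.isNilpotent))
    · exact (Nat.prime_dvd_prime_iff_eq hq' hr).1 (hq'.dvd_of_dvd_pow h3)
  subst hqr
  obtain ⟨g, -, hg⟩ := (H3.sylowIn_top Q).exists_conj hR
  rw [H3.conj_smul_eq_of_normal] at hg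
  rw [hg] at hD
  refine ⟨fun h => hG.1 (H2.isNilpotent_of_quotient_of_le_frattini
    (hD ▸ H2.commutator_le_frattini_of_normal hR.2.isNilpotent)
    (H2.isNilpotent_of_isMulCommutative _)), fun K hK => ?_⟩
  have hs := QuotientGroup.mk'_surjective D
  have hKn : Group.IsNilpotent K := by
    rw [← Subgroup.map_comap_eq_self_of_surjective hs K]
    refine H1.isNilpotent_map _ (hG.2 _ fun h => hK ?_)
    rw [← Subgroup.map_comap_eq_self_of_surjective hs K, h, Subgroup.map_top_of_surjective _ hs]
  have hR' := hR.map (QuotientGroup.mk' D)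
  rw [Subgroup.map_top_of_surjective _ hs] at hR'
  haveI : (R.map (QuotientGroup.mk' D)).Normal := hn.map _ hs
  have hab : ⁅R.map (QuotientGroup.mk' D), R.map (QuotientGroup.mk' D)⁆ = ⊥ :=
    H10.commutator_le_iff_map_mk'.1 hD.ge
  refine H2.isMulCommutative_of_isNilpotent_of_forall hKn fun s hs' S _ hS => ?_
  haveI := Fact.mk hs'
  rw [← Subgroup.commutator_self_eq_bot_iff]
  by_cases hsq : s = q
  · subst hsq
    have : S ≤ R.map (QuotientGroup.mk' D) := by
      obtain ⟨y, -, hy⟩ := hR'.exists_conj_le hS le_top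
      have := H3.conj_smul_mono y⁻¹ hy
      rwa [H3.conj_inv_smul_conj_smul, H3.conj_smul_eq_of_normal] at this
    exact H10.commutator_eq_bot_mono hab this this
  · have h3 : commutator G ≤ R := H2.commutator_le_of_sup_eq_top h1
      (by rw [Subgroup.commutator_self_eq_bot_iff.2 inferInstance]; exact bot_le)
      (Subgroup.commutator_le_left _ _) (Subgroup.commutator_le_right _ _)
    have h4 : commutator (G ⧸ D) ≤ R.map (QuotientGroup.mk' D) := by
      have := Subgroup.map_mono (f := QuotientGroup.mk' D) h3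
      rwa [commutator_def, Subgroup.map_commutator, Subgroup.map_top_of_surjective _ hs] at this
    rw [eq_bot_iff, ← Subgroup.inf_eq_bot_of_coprime (H2.coprime_card_of_isPGroup_of_ne hsq hS hR'.2)]
    exact le_inf (Subgroup.commutator_le_self S) ((Subgroup.commutator_mono le_top le_top).trans h4)

end Cfsg.Agent.S0577
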