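import Cfsg.Statements.S0578
import Mathlib
import Cfsg.Agent.H2.Schmidt

set_option autoImplicit false
open Cfsg

namespace Cfsg.Agent.S0578

open scoped Pointwise commutatorElement
universe u
theorem aux (G : Type u) [Group G] [Finite G] : (∀ A : Subgroup G, IsMulCommutative A →
    Subgroup.normalizer (A : Set G) ≤ Subgroup.centralizer (A : Set G)) → IsMulCommutative G := by
  refine H2.card_induction (P := fun G _ _ => (∀ A : Subgroup G, IsMulCommutative A →
    Subgroup.normalizer (A : Set G) ≤ Subgroup.centralizer (A : Set G)) → IsMulCommutative G)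
    (fun G _ _ ih h => ?_) G
  have hsub : ∀ H : Subgroup G, H ≠ ⊤ → IsMulCommutative H := fun H hH =>
    ih H (H1.card_lt_of_ne_top hH) fun A hA => by
      rw [← Subgroup.map_subtype_le_map_subtype, H10.map_subtype_normalizer,
        H10.map_subtype_centralizer]
      exact inf_le_inf_left _ (h _ inferInstance)
  by_cases hG : Group.IsNilpotent G
  · rcases subsingleton_or_nontrivial G with h0 | h0
    · exact ⟨⟨fun a b => Subsingleton.elim _ _⟩⟩
    obtain ⟨M, hM, -⟩ := H2.exists_isCoatom_ge (bot_ne_top : (⊥ : Subgroup G) ≠ ⊤)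
    haveI := H2.normal_of_isCoatom_of_isNilpotent hM
    haveI := hsub M hM.1
    obtain ⟨x, -, hx⟩ := SetLike.exists_of_lt hM.1.lt_top
    have h1 := H2.coatom_sup_eq_top hM (N := Subgroup.zpowers x) (by rwa [Subgroup.zpowers_le])
    have h2 := Subgroup.le_normalizer_of_normal.trans (h M ‹_›) (a := Subgroup.zpowers x)
    rw [← commutator_eq_bot_iff, H2.commutator_eq_of_sup_eq_top h1]
    exact H10.commutator_eq_bot_comm (Subgroup.commutator_eq_bot_iff_le_centralizer.2 h2)
  obtain ⟨p, q, hp, hq, hpq, P, Q, hP, hPc, hQ, hn, h1, h2⟩ := H2.exists_schmidt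
    ⟨hG, fun H hH => by haveI := hsub H hH; exact H2.isNilpotent_of_isMulCommutative H⟩
  haveI := Fact.mk hq
  exact absurd (Subgroup.le_normalizer_of_normal.trans (h Q (hsub Q fun h' =>
    hG (H2.isNilpotent_of_eq_top h' hQ.2.isNilpotent)))) h2

/-- If in a finite group the normalizer of each abelian subgroup coincides with its centralizer, then the group is abelian. -/
theorem result {G : Type*} [Group G] [Finite G] (h : ∀ A : Subgroup G, IsMulCommutative A → Subgroup.normalizer (A : Set G) = Subgroup.centralizer (A : Set G)) : IsMulCommutative G := by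
  exact aux G fun A hA => (h A hA).le

end Cfsg.Agent.S0578
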