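import Cfsg.Statements.S0581
import Cfsg.Agent.H3.Misc2

set_option autoImplicit false
open Pointwise
open Cfsg

namespace Cfsg.Agent.S0581

open Cfsg.Agent.H3

open scoped Pointwise

/-- Let H be a nilpotent subgroup of a finite group G whose order is coprime to its index, and K a subgroup every prime divisor of whose order divides the order of H. Then K lies in some conjugate of H. -/
theorem result {G : Type*} [Group G] [Finite G] (H K : Subgroup G) (hH : Group.IsNilpotent H) (hHall : (Nat.card H).Coprime H.index) (hK : ∀ p : ℕ, p.Prime → p ∣ Nat.card K → p ∣ Nat.card H) : ∃ x : G, K ≤ MulAut.conj x • H := by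
  induction hn : Nat.card K using Nat.strong_induction_on generalizing K with
  | _ n ih =>
  by_cases h0 : Nat.card K = 1
  · exact ⟨1, by rw [Subgroup.card_eq_one.mp h0]; exact bot_le⟩
  have ih' : ∀ L : Subgroup G, L < K → ∃ x : G, L ≤ MulAut.conj x • H := fun L hL =>
    ih _ (hn ▸ card_lt_of_lt hL) L
      (fun p hp hd => hK p hp (hd.trans (Subgroup.card_dvd_of_le hL.le))) rfl
  have hconj : ∀ x : G, Group.IsNilpotent (MulAut.conj x • H : Subgroup G) := fun x =>
    H1.isNilpotent_map _ hH
  obtain ⟨r, hr, hd, h1⟩ := exists_hasNormalPComplement_of_forall_isNilpotent h0 fun L hL => by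
    obtain ⟨x, hx⟩ := ih' (L.map K.subtype) (lt_of_le_of_ne (Subgroup.map_subtype_le _) fun he =>
      hL (Subgroup.map_injective K.subtype_injective (by
        rw [he, ← MonoidHom.range_eq_map, Subgroup.range_subtype])))
    have := H1.isNilpotent_of_le hx (hconj x)
    exact Group.nilpotent_of_mulEquiv (L.equivMapOfInjective _ K.subtype_injective).symm
  have := Fact.mk hr
  obtain ⟨Q, hQ⟩ := exists_sylowIn r K
  obtain ⟨R, h2, h3, h4, h5, h6, -⟩ := hQ.exists_complement h1
  obtain ⟨x, hx⟩ := ih' R (lt_of_le_of_ne h2 fun he =>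
    hr.one_lt.ne' (Nat.eq_one_of_dvd_coprimes h3 (he ▸ hd) dvd_rfl))
  obtain ⟨S, hS⟩ := exists_sylowIn r (MulAut.conj x • H : Subgroup G)
  have h7 := hS.top_of_hall (by rwa [card_conj_smul, index_conj_smul])
    (by rw [card_conj_smul]; exact hK r hr hd)
  have h8 : S ≤ Subgroup.normalizer (R : Set G) :=
    (Subgroup.le_centralizer_iff.mp fun y hy => hS.mem_centralizer_of_isNilpotent (hconj x) (hx hy)
      (h3.coprime_dvd_left (R.orderOf_dvd_natCard hy))).trans (Subgroup.centralizer_le_normalizer _)
  obtain ⟨g, hg, h9⟩ := (h7.of_le h8 le_top).exists_conj_le hQ.isPGroup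
    (hQ.le.trans (Subgroup.le_normalizer.trans h4))
  refine ⟨g⁻¹ * x, ?_⟩
  rw [← conj_smul_conj_smul, ← h6]
  refine sup_le ?_ ?_
  · rw [← mem_normalizer_iff_conj_smul.mp (inv_mem hg)]
    exact conj_smul_mono _ hx
  · rw [← conj_inv_smul_conj_smul Q g]
    exact conj_smul_mono _ (h9.trans hS.le)

end Cfsg.Agent.S0581
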