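import Cfsg.Statements.S0582
import Mathlib
import Cfsg.Agent.H2.Carter
import Cfsg.Agent.H3.HallCompl

set_option autoImplicit false
open Pointwise
open Cfsg

namespace Cfsg.Agent.S0582

universe u
theorem aux (G : Type u) [Group G] [Finite G] : ∀ H K : Subgroup G, IsSupersolvable H →
    IsSupersolvable K → Nat.card H = Nat.card K → (Nat.card H).Coprime H.index →
    ∃ x : G, MulAut.conj x • H = K := by
  refine H2.card_induction (P := fun G _ _ => ∀ H K : Subgroup G, IsSupersolvable H →
    IsSupersolvable K → Nat.card H = Nat.card K → (Nat.card H).Coprime H.index →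
    ∃ x : G, MulAut.conj x • H = K) (fun G _ _ ih H K hH hK hc hHall => ?_) G
  by_cases h0 : Nat.card H = 1
  · exact ⟨1, by rw [H3.conj_one_smul, Subgroup.card_eq_one.1 h0, Subgroup.card_eq_one.1 (hc.symm.trans h0)]⟩
  obtain ⟨p, hp, hd, hmax⟩ := H2.exists_largest_prime Nat.card_pos.ne' h0
  haveI := Fact.mk hp
  have hi : H.index = K.index := by
    have := H.card_mul_index.trans K.card_mul_index.symm
    rw [hc] at this
    exact Nat.eq_of_mul_eq_mul_left Nat.card_pos this
  have key : ∀ X : Subgroup G, IsSupersolvable X → Nat.card X = Nat.card H → X.index = H.index →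
      ∃ P : Subgroup G, P ≤ X ∧ H3.SylowIn p P ⊤ ∧ X ≤ Subgroup.normalizer (P : Set G) := by
    intro X hX h1 h2
    obtain ⟨P⟩ : Nonempty (Sylow p X) := inferInstance
    haveI := H2.sylow_normal_of_isSupersolvable hX p (h1 ▸ hmax) P
    exact ⟨_, Subgroup.map_subtype_le _, (H3.sylowIn_map_subtype P).top_of_hall (by rwa [h1, h2])
      (h1 ▸ hd), H10.le_normalizer_map_subtype _⟩
  obtain ⟨P, hPH, hP, hPn⟩ := key H hH rfl rfl
  obtain ⟨Q, hQK, hQ, hQn⟩ := key K hK hc.symm hi.symm
  obtain ⟨g, -, rfl⟩ := hP.exists_conj hQ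
  suffices ∃ x : G, MulAut.conj x • MulAut.conj g • H = K by
    obtain ⟨x, hx⟩ := this
    exact ⟨x * g, by rw [← H3.conj_smul_conj_smul, hx]⟩
  have a1 := H3.conj_smul_mono g hPH
  have a2 := H3.conj_smul_mono g hPn
  rw [← H3.normalizer_conj_smul] at a2
  have a3 : IsSupersolvable (MulAut.conj g • H : Subgroup G) := H2.isSupersolvable_map _ hH
  rw [← H3.card_conj_smul H g, ← H3.index_conj_smul H g] at hHall
  rw [← H3.card_conj_smul H g] at hc hd
  generalize MulAut.conj g • H = H' at *
  generalize MulAut.conj g • P = Q at *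
  have hQ0 : Q ≠ ⊥ := fun h => (hQ.eq_bot_iff.1 h) (hd.trans (Subgroup.card_dvd_of_le le_top))
  by_cases hn : Subgroup.normalizer (Q : Set G) = ⊤
  · haveI := H2.normal_of_top_le_normalizer hn.ge
    have hcard : ∀ X : Subgroup G, Q ≤ X →
        Nat.card (X.map (QuotientGroup.mk' Q)) * Nat.card Q = Nat.card X := fun X hX => by
      have := H1.card_map_mul_card_ker_inf (QuotientGroup.mk' Q) X
      rwa [QuotientGroup.ker_mk', inf_eq_left.2 hX] at this
    obtain ⟨y, hy⟩ := ih (G ⧸ Q) (H1.card_quotient_lt hQ0) _ _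
      (H2.isSupersolvable_map (QuotientGroup.mk' Q) a3)
      (H2.isSupersolvable_map (QuotientGroup.mk' Q) hK)
      (Nat.eq_of_mul_eq_mul_right Nat.card_pos ((hcard _ a1).trans (hc.trans (hcard _ hQK).symm)))
      ((hHall.coprime_dvd_left ⟨_, (hcard _ a1).symm⟩).coprime_dvd_right (H2.index_map_mk'_dvd _ _))
    obtain ⟨x, rfl⟩ := QuotientGroup.mk'_surjective Q y
    rw [← H2.map_conj_smul, Subgroup.map_eq_map_iff, QuotientGroup.ker_mk', sup_eq_left.2 hQK,
      sup_eq_left.2 (by rw [← H3.conj_smul_eq_of_normal Q x]; exact H3.conj_smul_mono x a1)] at hy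
    exact ⟨x, hy⟩
  · obtain ⟨x, -, hx⟩ := H2.exists_mem_conj_of_subgroupOf a2 hQn (ih _ (H1.card_lt_of_ne_top hn) _ _
      (H2.isSupersolvable_of_mulEquiv (Subgroup.subgroupOfEquivOfLe a2).symm a3)
      (H2.isSupersolvable_of_mulEquiv (Subgroup.subgroupOfEquivOfLe hQn).symm hK)
      (by rw [H1.card_subgroupOf_of_le a2, H1.card_subgroupOf_of_le hQn, hc])
      (by rw [H1.card_subgroupOf_of_le a2]
          exact hHall.coprime_dvd_right (Subgroup.relIndex_dvd_index_of_le a2)))
    exact ⟨x, hx⟩

/-- Let H and K be supersolvable subgroups of a finite group G of the same order, that order being coprime to their index. Then H and K are conjugate in G. -/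
theorem result {G : Type*} [Group G] [Finite G] (H K : Subgroup G) (hH : Cfsg.IsSupersolvable H) (hK : Cfsg.IsSupersolvable K) (hcard : Nat.card H = Nat.card K) (hHall : (Nat.card H).Coprime H.index) : ∃ x : G, MulAut.conj x • H = K := by
  exact aux G H K hH hK hcard hHall

end Cfsg.Agent.S0582
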