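import Cfsg.Statements.S0586
import Mathlib
import Cfsg.Agent.H2.Frattini

set_option autoImplicit false
open Cfsg

namespace Cfsg.Agent.S0586

open scoped IsMulCommutative in
theorem aux {G : Type*} [Group G] [IsMulCommutative G] : Group.IsNilpotent G := inferInstance

/-- If the Frattini subgroup of a finite group G is trivial, then the Fitting subgroup of G equals the join of all abelian minimal normal subgroups of G. -/
theorem result {G : Type*} [Group G] [Finite G] (hΦ : frattini G = ⊥) : Cfsg.fittingSubgroup G = sSup {N : Subgroup G | N.Normal ∧ N ≠ ⊥ ∧ IsMulCommutative N ∧ ∀ K : Subgroup G, K.Normal → K ≤ N → K = ⊥ ∨ K = N} := by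
  set S := sSup {N : Subgroup G | N.Normal ∧ N ≠ ⊥ ∧ IsMulCommutative N ∧ ∀ K : Subgroup G, K.Normal → K ≤ N → K = ⊥ ∨ K = N} with hS
  have hSF : S ≤ fittingSubgroup G := by
    apply sSup_le
    rintro N ⟨h1, -, h2, -⟩
    exact H10.le_fitting aux
  have hF : IsMulCommutative (fittingSubgroup G) := by
    have := H2.commutator_le_frattini_of_normal (H10.fitting_nilpotent G)
    rw [hΦ, le_bot_iff, Subgroup.commutator_eq_bot_iff_le_centralizer] at this
    exact Subgroup.le_centralizer_iff_isMulCommutative.mp this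
  have hSn : S.Normal := by
    rw [hS, sSup_eq_iSup']
    have : ∀ N : {N : Subgroup G | N.Normal ∧ N ≠ ⊥ ∧ IsMulCommutative N ∧ ∀ K : Subgroup G, K.Normal → K ≤ N → K = ⊥ ∨ K = N}, (N : Subgroup G).Normal := fun N => N.2.1
    infer_instance
  have hSc : IsMulCommutative S := H2.isMulCommutative_of_forall fun a ha b hb =>
    H2.mul_comm_of_mem (hSF ha) (hSF hb)
  obtain ⟨H, hH⟩ := H2.exists_isComplement'_of_inf_frattini_eq_bot S (by rw [hΦ, inf_bot_eq])
  have h1 : (H ⊓ fittingSubgroup G).Normal := H2.normal_of_sup_eq_top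
    (hSF.trans (H2.le_normalizer_of_le_of_isMulCommutative inf_le_right))
    (H1.le_normalizer_inf Subgroup.le_normalizer Subgroup.le_normalizer_of_normal) hH.sup_eq_top
  have h2 : H ⊓ fittingSubgroup G = ⊥ := by
    by_contra hc
    obtain ⟨M, hM, hMl⟩ := H2.exists_isMinNormal_le h1 hc
    have h3 : M ≤ S := le_sSup ⟨hM.normal, hM.ne_bot, H2.isMulCommutative_of_forall fun a ha b hb =>
      H2.mul_comm_of_mem (hMl ha).2 (hMl hb).2, hM.min⟩
    exact hM.ne_bot (le_bot_iff.mp (hH.disjoint h3 (hMl.trans inf_le_left)))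
  have h3 := H1.sup_inf_of_le_normalizer (N := S) (H := H) Subgroup.le_normalizer_of_normal hSF
  rw [hH.sup_eq_top, top_inf_eq, h2, sup_bot_eq] at h3
  exact h3

end Cfsg.Agent.S0586
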