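import Cfsg.Statements.S0587
import Mathlib
import Cfsg.Agent.H2.Prim

set_option autoImplicit false
open Cfsg

namespace Cfsg.Agent.S0587

/-- Let G be a finite group whose largest normal p-subgroup L is nontrivial, and M a maximal subgroup of G with trivial normal core. Then L is elementary abelian, M is a complement to L, L is a minimal normal subgroup of G, the centralizer of L is L, and for every prime q such that the largest normal q-subgroup of M is nontrivial, the order of L is congruent to 1 modulo q and q ≠ p. -/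
theorem result {G : Type*} [Group G] [Finite G] (p : ℕ) [Fact p.Prime] (hL : Cfsg.pCore p G ≠ ⊥) (M : Subgroup G) (hM : IsCoatom M) (hcore : M.normalCore = ⊥) : Cfsg.IsElementaryAbelian p (Cfsg.pCore p G) ∧ Subgroup.IsComplement' (Cfsg.pCore p G) M ∧ (∀ K : Subgroup G, K.Normal → K ≤ Cfsg.pCore p G → K = ⊥ ∨ K = Cfsg.pCore p G) ∧ Subgroup.centralizer ((Cfsg.pCore p G : Subgroup G) : Set G) = Cfsg.pCore p G ∧ ∀ (q : ℕ) [Fact q.Prime], Cfsg.pCore q ↥M ≠ ⊥ → Nat.card (Cfsg.pCore p G) % q = 1 % q ∧ q ≠ p := by
  have hp := H1.isPGroup_pCore p G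
  haveI := H2.isMulCommutative_of_core hM hcore hp.isNilpotent
  have hmin := H2.isMinNormal_of_core hM hcore hL
  have h1 := H2.inf_eq_bot_of_core hM hcore hL
  have h2 := H2.sup_eq_top_of_core hM hcore hL
  have h3 := H2.centralizer_eq_of_core hM hcore hL
  refine ⟨⟨‹_›, ?_⟩, H2.isComplement'_of_normal h1 h2, hmin.min, h3, fun q _ hq => ?_⟩
  · obtain ⟨r, hr, hr'⟩ := hmin.exists_prime_of_isMulCommutative
    haveI := Fact.mk hr
    have hrp : r = p := by
      by_contra hne
      exact hL ((IsPGroup.disjoint_of_ne r p hne _ _ (H2.isPGroup_of_forall_pow_eq_one hr') hp).eq_bot_of_self)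
    exact hrp ▸ hr'
  have hQ0 : (pCore q M).map M.subtype ≠ ⊥ := by
    rwa [Ne, Subgroup.map_eq_bot_iff_of_injective _ M.subtype_injective]
  have hQn : M ≤ Subgroup.normalizer (((pCore q M).map M.subtype : Subgroup G) : Set G) :=
    H10.le_normalizer_map_subtype _
  have hQ := H1.isPGroup_map_pCore q M
  constructor
  · have := H2.card_modEq_card_inf_centralizer hQ (H2.le_normalizer_of_normal' (pCore p G) _)
    have hn : (pCore p G ⊓ Subgroup.centralizer
        (((pCore q M).map M.subtype : Subgroup G) : Set G)).Normal :=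
      H2.normal_of_sup_eq_top (H2.le_normalizer_of_le_of_isMulCommutative inf_le_left)
        (H1.le_normalizer_inf (H2.le_normalizer_of_normal' _ _) (H1.le_normalizer_centralizer hQn)) h2
    rcases hmin.min _ hn inf_le_left with h | h
    · rw [h, Subgroup.card_bot] at this
      exact this
    · exfalso
      refine hQ0 (le_bot_iff.1 (h1 ▸ le_inf ?_ (Subgroup.map_subtype_le _)))
      rw [← h3]
      exact Subgroup.le_centralizer_iff.1 (inf_eq_left.1 h)
  · rintro rfl
    exact hQ0 (H2.ne_of_core hM hcore hL hp (Subgroup.map_subtype_le _) hQn hQ)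

end Cfsg.Agent.S0587
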