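import Cfsg.Statements.S0588
import Mathlib
import Cfsg.Agent.H2.Basic

set_option autoImplicit false
open Cfsg

namespace Cfsg.Agent.S0588

/-- If a subgroup H of a finite group G contains the centralizer of every non-identity element of H, then the order of H is coprime to its index. -/
theorem result {G : Type*} [Group G] [Finite G] (H : Subgroup G) (h : ∀ x ∈ H, x ≠ 1 → Subgroup.centralizer ({x} : Set G) ≤ H) : (Nat.card H).Coprime H.index := by
  by_contra hc
  obtain ⟨p, hp, h1, h2⟩ := Nat.Prime.not_coprime_iff_dvd.mp hc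
  have := Fact.mk hp
  obtain ⟨Q, hQ⟩ := H3.exists_sylowIn p H
  obtain ⟨S, hS⟩ := hQ.isPGroup.exists_le_sylow
  have hQ0 : Q ≠ ⊥ := fun h0 => hQ.eq_bot_iff.mp h0 h1
  obtain ⟨⟨x, hx⟩, hx1⟩ := Subgroup.ne_bot_iff_exists_ne_one.mp hQ0
  have hx1' : x ≠ 1 := fun h0 => hx1 (Subtype.ext h0)
  have hS0 : (S : Subgroup G) ≠ ⊥ := fun h0 => hQ0 (le_bot_iff.mp (h0 ▸ hS))
  have h3 := H2.inf_centralizer_ne_bot S.isPGroup'.isNilpotent le_rfl Subgroup.le_normalizer hS0
  obtain ⟨⟨z, hz, hz'⟩, hz1⟩ := Subgroup.ne_bot_iff_exists_ne_one.mp h3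
  have hz1' : z ≠ 1 := fun h0 => hz1 (Subtype.ext h0)
  have hzH : z ∈ H := h x (hQ.le hx) hx1' (by
    rw [Subgroup.mem_centralizer_singleton_iff]
    exact (Subgroup.mem_centralizer_iff.mp hz' x (hS hx)).symm)
  have hSH : (S : Subgroup G) ≤ H := fun s hs => h z hzH hz1' (by
    rw [Subgroup.mem_centralizer_singleton_iff]
    exact (Subgroup.mem_centralizer_iff.mp hz' s hs))
  exact S.not_dvd_index (h2.trans (Subgroup.index_dvd_of_le hSH))

end Cfsg.Agent.S0588
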