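import Cfsg.Statements.S0589
import Mathlib
import Cfsg.Agent.H2.Frattini
import Cfsg.Agent.H2.Product
import Cfsg.Agent.H1.Frobenius
import Cfsg.Agent.H4.Frobenius

set_option autoImplicit false
open Pointwise
open Cfsg

namespace Cfsg.Agent.S0589

/-- Let H be a Frobenius complement in a finite group G and L a subgroup of G whose order divides the order of H. Then L is contained in some conjugate of H. -/
theorem result {G : Type*} [Group G] [Finite G] (H : Subgroup G) (hH : Cfsg.IsFrobeniusComplement H) (L : Subgroup G) (hL : Nat.card L ∣ Nat.card H) : ∃ x : G, L ≤ MulAut.conj x • H := by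
  by_cases hL0 : L = ⊥
  · exact ⟨1, hL0 ▸ bot_le⟩
  obtain ⟨N, hNk, hNn, hc⟩ := H4.frobenius_theorem H hH
  have hfpf := H1.fpf_of_isFrobeniusComplement hH hc.disjoint
  have hcop := H1.coprime_card_of_fpf (H2.le_normalizer_of_normal' N H) hfpf
  have hNL : N ⊓ L = ⊥ := by
    rw [inf_comm]
    exact Subgroup.inf_eq_bot_of_coprime (hcop.coprime_dvd_left hL)
  have hN0 : N ≠ ⊥ := by
    intro h
    have := hc.sup_eq_top
    rw [h, bot_sup_eq] at this
    exact hH.2.1 this
  have hfpf' : ∀ x ∈ L, x ≠ 1 → N ⊓ Subgroup.centralizer {x} = ⊥ := by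
    intro x hx hx1
    have : x ∉ frobeniusKernel H := by
      rw [← hNk]
      intro h
      have : x ∈ N ⊓ L := ⟨h, hx⟩
      rw [hNL] at this
      exact hx1 this
    simp only [frobeniusKernel, Set.mem_setOf_eq, not_or, not_forall, not_not] at this
    obtain ⟨-, g, hg⟩ := this
    refine H1.fpf_of_isFrobeniusComplement (H1.IsFrobeniusComplement.conj_smul hH g) ?_ x hg hx1
    rw [disjoint_iff, ← H3.conj_smul_eq_of_normal N g, ← H3.conj_smul_inf, disjoint_iff.1 hc.disjoint]
    exact Subgroup.smul_bot _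
  have key : ∀ X : Subgroup G, H2.Fac (N ⊔ L) N X → N ⊓ X = ⊥ →
      (∀ x ∈ X, x ≠ 1 → N ⊓ Subgroup.centralizer {x} = ⊥) →
      IsFrobeniusComplement (X.subgroupOf (N ⊔ L)) := by
    intro X hX hX0 hX1
    refine H1.isFrobeniusComplement_of_fpf (K := N.subgroupOf (N ⊔ L))
      (hX.subgroupOf.isComplement' (by
        rw [Subgroup.subgroupOf, Subgroup.subgroupOf, ← Subgroup.comap_inf, hX0]
        exact Subgroup.bot_subgroupOf _))
      ?_ ?_ fun x hx hx1 => ?_
    · rw [Ne, Subgroup.subgroupOf_eq_bot, disjoint_iff, inf_eq_left.2 le_sup_left]; exact hN0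
    · rw [Ne, Subgroup.subgroupOf_eq_bot, disjoint_iff, inf_eq_left.2 hX.right_le]
      rintro rfl
      have := hX.eq_left_of_le bot_le
      rw [sup_eq_left] at this
      exact hL0 ((inf_eq_right.2 this).symm.trans hNL)
    · rw [eq_bot_iff]
      intro y hy
      have : (y : G) ∈ N ⊓ Subgroup.centralizer {(x : G)} := by
        refine ⟨hy.1, Subgroup.mem_centralizer_singleton_iff.2 ?_⟩
        exact congrArg Subtype.val (Subgroup.mem_centralizer_singleton_iff.1 hy.2)
      rw [hX1 x hx (fun h => hx1 (Subtype.ext h))] at this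
      exact Subgroup.mem_bot.2 (Subtype.ext this)
  have h1 := key L (H2.fac_sup_normal_left N L) hNL hfpf'
  have h2 := key (H ⊓ (N ⊔ L)) ((H2.fac_of_isComplement' hc).of_left_le le_sup_left le_top)
    (by rw [← inf_assoc, disjoint_iff.1 hc.disjoint, bot_inf_eq]) (fun x hx => hfpf x hx.1)
  obtain ⟨g, hg⟩ := H1.exists_conj_eq_of_isFrobeniusComplement h1 h2
  refine ⟨g, fun x hx => ?_⟩
  have : (⟨x, Subgroup.mem_sup_right hx⟩ : (N ⊔ L : Subgroup G)) ∈ L.subgroupOf (N ⊔ L) := hx
  rw [← hg, H3.mem_conj_smul] at this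
  exact H3.mem_conj_smul.2 this.1

end Cfsg.Agent.S0589
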