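import Cfsg.Statements.S0590
import Cfsg.Agent.H9.Stab

set_option autoImplicit false
open Cfsg

namespace Cfsg.Agent.S0590

/-- Quadratic action on an elementary abelian p-group forces the acting group modulo the kernel of the action to be elementary abelian. -/
theorem result {G : Type*} [Group G] [Finite G] {p : ℕ} [Fact p.Prime] (V H : Subgroup G) (hV : Cfsg.IsElementaryAbelian p V) (hHV : H ≤ Subgroup.normalizer (V : Set G)) (hq : ⁅⁅V, H⁆, H⁆ = ⊥) : ⁅H, H⁆ ≤ Subgroup.centralizer (V : Set G) ∧ ∀ a ∈ H, a ^ p ∈ Subgroup.centralizer (V : Set G) := by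
  have h3 : ⁅⁅H, H⁆, V⁆ = ⊥ := Subgroup.commutator_commutator_eq_bot_of_rotate
    (by rwa [Subgroup.commutator_comm H V]) hq
  refine ⟨Subgroup.commutator_eq_bot_iff_le_centralizer.mp h3, fun a ha => ?_⟩
  have hz : Subgroup.zpowers a ≤ H := Subgroup.zpowers_le.mpr ha
  have : H9.Quad (H9.eaRep hV hHV) ⟨a, ha⟩ := H9.eaRep_quadratic _ (by
    rw [eq_bot_iff, ← hq]
    exact Subgroup.commutator_mono (Subgroup.commutator_mono le_rfl hz) hz)
  exact (H9.eaRep_eq_one_iff _).mp this.pow_eq_one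

end Cfsg.Agent.S0590
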