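import Cfsg.Statements.S0591
import Cfsg.Agent.H9.Stab

set_option autoImplicit false
open Cfsg

namespace Cfsg.Agent.S0591

/-- For a quadratically acting element a on an elementary abelian p-group V, the fixed points C_V(a) have order at least the square root of the order of V. -/
theorem result {G : Type*} [Group G] [Finite G] {p : ℕ} [Fact p.Prime] (V : Subgroup G) (hV : Cfsg.IsElementaryAbelian p V) (a : G) (ha : a ∈ Subgroup.normalizer (V : Set G)) (hq : ⁅⁅V, Subgroup.zpowers a⁆, Subgroup.zpowers a⁆ = ⊥) : Nat.card V ≤ Nat.card ↥(V ⊓ Subgroup.centralizer (Subgroup.zpowers a : Set G)) ^ 2 := by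
  have hz : Subgroup.zpowers a ≤ Subgroup.normalizer (V : Set G) := Subgroup.zpowers_le.mpr ha
  let x := H9.eaRep hV hz ⟨a, Subgroup.mem_zpowers a⟩ - 1
  have hx : x * x = 0 := H9.eaRep_quadratic _ hq
  have hk : LinearMap.ker x = H9.EAMod.ofSubgroup hV
      (V ⊓ Subgroup.centralizer (Subgroup.zpowers a : Set G)) := by
    ext v
    rw [LinearMap.mem_ker, LinearMap.sub_apply, sub_eq_zero, Module.End.one_apply,
      H9.eaRep_apply_eq_iff, H9.EAMod.mem_ofSubgroup, H9.centralizer_zpowers, Subgroup.mem_inf,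
      Subgroup.mem_centralizer_singleton_iff]
    exact ⟨fun h => ⟨v.val_mem, h.symm⟩, fun h => h.2.symm⟩
  rw [← H9.EAMod.card_ofSubgroup (hV := hV) inf_le_left, ← hk, ← H9.EAMod.card_eq (hV := hV),
    Submodule.card_eq_card_quotient_mul_card (LinearMap.ker x),
    Nat.card_congr (LinearMap.quotKerEquivRange x).toEquiv, sq]
  have hle : LinearMap.range x ≤ LinearMap.ker x := by
    rintro _ ⟨v, rfl⟩
    rw [LinearMap.mem_ker, ← Module.End.mul_apply, hx]; rfl
  exact Nat.mul_le_mul_left _ (Nat.card_le_card_of_injective _ (Submodule.inclusion_injective hle))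

end Cfsg.Agent.S0591
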