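import Cfsg.Statements.S0592
import Cfsg.Agent.H9.Quad1

set_option autoImplicit false
open Cfsg

namespace Cfsg.Agent.S0592


open Polynomial

/-- Two quadratically acting generators of a linear group that is not a p-group, with the p'-part of the order of their product dividing q - 1, give a homomorphism onto a subgroup of SL(2, q) that is not a p-group. -/
theorem result {K : Type*} [Field K] [Fintype K] {p : ℕ} [Fact p.Prime] [CharP K p] {W : Type*} [AddCommGroup W] [Module K W] [FiniteDimensional K W] [Finite W] [Nontrivial W] (H : Subgroup (W ≃ₗ[K] W)) (a b : W ≃ₗ[K] W) (hH : H = Subgroup.closure {a, b}) (ha : ∀ w : W, a (a w - w) = a w - w) (hb : ∀ w : W, b (b w - w) = b w - w) (hnp : ¬ IsPGroup p H) (hk : ∃ e k : ℕ, orderOf (a * b) = p ^ e * k ∧ k ∣ Fintype.card K - 1) : ∃ φ : H →* Matrix.SpecialLinearGroup (Fin 2) K, ¬ IsPGroup p φ.range := by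
  let ρ : H →* Module.End K W := (LinearEquiv.automorphismGroup.toLinearMapMonoidHom).comp H.subtype
  have hρ : ∀ (h : H) (w : W), ρ h w = (h : W ≃ₗ[K] W) w := fun _ _ => rfl
  have haH : a ∈ H := hH ▸ Subgroup.subset_closure (by simp)
  have hbH : b ∈ H := hH ▸ Subgroup.subset_closure (by simp)
  have hgen : Subgroup.closure ({⟨a, haH⟩, ⟨b, hbH⟩} : Set H) = ⊤ := by
    apply Subgroup.map_injective H.subtype_injective
    rw [MonoidHom.map_closure, ← MonoidHom.range_eq_map, Subgroup.range_subtype, Set.image_pair]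
    exact hH.symm
  have ha' : (ρ ⟨a, haH⟩ - 1) * (ρ ⟨a, haH⟩ - 1) = 0 := by
    ext w; simp only [Module.End.mul_apply, LinearMap.sub_apply, hρ, Module.End.one_apply, ha]; simp
  have hb' : (ρ ⟨b, hbH⟩ - 1) * (ρ ⟨b, hbH⟩ - 1) = 0 := by
    ext w; simp only [Module.End.mul_apply, LinearMap.sub_apply, hρ, Module.End.one_apply, hb]; simp
  set x := ρ ⟨a, haH⟩ - 1 with hx
  set y := ρ ⟨b, hbH⟩ - 1 with hy
  set g := ρ (⟨a, haH⟩ * ⟨b, hbH⟩) with hg
  have hg1 : g = (1 + x) * (1 + y) := by rw [hg, map_mul, hx, hy]; simp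
  have hz : g * (x * y + y * x) = (g - 1) * (g - 1) := by
    have e1 : g * ((1 - y) * (1 - x)) = 1 := by
      calc g * ((1 - y) * (1 - x)) = (1 + x) * (1 - y * y) * (1 - x) := by rw [hg1]; noncomm_ring
        _ = 1 - x * x := by rw [hb']; noncomm_ring
        _ = 1 := by rw [ha', sub_zero]
    calc g * (x * y + y * x) = g * ((1 + x) * (1 + y)) + g * ((1 - y) * (1 - x)) - 2 * g := by
          noncomm_ring
      _ = _ := by rw [← hg1, e1]; noncomm_ring
  obtain ⟨e, k, hek, hk⟩ := hk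
  have hsplit : (minpoly K g).Splits := by
    have h0 : (X ^ Nat.card K - X : K[X]) ≠ 0 := by
      rw [Nat.card_eq_fintype_card]
      exact FiniteField.X_pow_card_sub_X_ne_zero K Fintype.one_lt_card
    refine Splits.of_dvd ((Polynomial.splits_X_pow_nat_card_sub_X (K := K)).pow (p ^ e))
      (pow_ne_zero _ h0) (minpoly.dvd K g ?_)
    have : CharP (Module.End K W) p :=
      charP_of_injective_algebraMap (algebraMap K (Module.End K W)).injective p
    obtain ⟨c, hc⟩ := hk
    have h1 : g ^ (p ^ e * k) = 1 := by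
      rw [hg, ← map_pow, ← hek]
      have : (⟨a, haH⟩ * ⟨b, hbH⟩ : H) ^ orderOf (a * b) = 1 :=
        Subtype.ext (by simpa using pow_orderOf_eq_one (a * b))
      rw [this, map_one]
    have h2 : Nat.card K = k * c + 1 := by
      rw [Nat.card_eq_fintype_card, ← hc]; have := Fintype.card_pos (α := K); omega
    simp only [map_pow, map_sub, aeval_X]
    rw [sub_pow_char_pow_of_commute _ _ ((Commute.refl g).pow_left _), ← pow_mul, h2,
      show (k * c + 1) * p ^ e = p ^ e * k * c + p ^ e by ring, pow_add, pow_mul _ _ c, h1]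
    simp
  rcases H9.isNilpotent_or_exists_eigenvector g hsplit 1 with h | ⟨l, hl, w, hw, h⟩
  · exfalso
    apply hnp
    have hgu : ρ (⟨a, haH⟩ * ⟨b, hbH⟩)⁻¹ * g = 1 := by rw [hg, ← map_mul, inv_mul_cancel, map_one]
    have hgu' : g * ρ (⟨a, haH⟩ * ⟨b, hbH⟩)⁻¹ = 1 := by rw [hg, ← map_mul, mul_inv_cancel, map_one]
    have hzn : IsNilpotent (x * y + y * x) := by
      have : x * y + y * x = ρ (⟨a, haH⟩ * ⟨b, hbH⟩)⁻¹ * (g - 1) * (g - 1) := by
        rw [mul_assoc, ← hz, ← mul_assoc, hgu, one_mul]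
      rw [this]
      have hc : Commute (ρ (⟨a, haH⟩ * ⟨b, hbH⟩)⁻¹) (g - 1) :=
        Commute.sub_right (hgu.trans hgu'.symm) (Commute.one_right _)
      refine Commute.isNilpotent_mul_left (hc.mul_left (Commute.refl _)) ?_
      simpa using h
    intro t
    obtain ⟨m, hm⟩ := H9.pow_eq_one_of_isNilpotent_sub_one (p := p)
      (H9.isNilpotent_sub_one_of_quadratic ρ hgen ha' hb' hzn t)
    refine ⟨m, Subtype.ext (LinearEquiv.ext fun w => ?_)⟩
    rw [← hρ, map_pow, hm]; rfl
  · have hgi : Function.Injective g := fun u v huv => (a * b).injective huv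
    have hl0 : l ≠ 0 := by
      rintro rfl
      exact hw (hgi (by rw [h, zero_smul, map_zero]))
    have hμ : (l - 1) ^ 2 / l ≠ 0 := div_ne_zero (pow_ne_zero _ (sub_ne_zero.mpr hl)) hl0
    obtain ⟨φ, ι, -, h1, h2, -⟩ := H9.exists_hom_SL2 ρ hgen ha' hb' hμ hw (by
      apply hgi
      rw [← Module.End.mul_apply, hz]
      simp only [Module.End.mul_apply, LinearMap.sub_apply, Module.End.one_apply, map_sub, map_smul,
        h, smul_smul]
      rw [div_mul_cancel₀ _ hl0]
      module)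
    refine ⟨φ, fun hP => ?_⟩
    obtain ⟨m, hm⟩ := hP ⟨φ (⟨a, haH⟩ * ⟨b, hbH⟩), _, rfl⟩
    apply H9.uMat_mul_lMat_pow_ne_one hμ one_ne_zero m
    rw [← h1, ← h2, ← map_mul]
    exact congrArg Subtype.val hm

end Cfsg.Agent.S0592
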