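import Cfsg.Statements.S0594
import Cfsg.Agent.H9.Stab

set_option autoImplicit false
open Cfsg

namespace Cfsg.Agent.S0594

/-- For odd p, two quadratic generators of a faithful group that is not a p-group, one of which acts nontrivially on a normal subgroup of order prime to p, force p = 3 and a section isomorphic to SL(2,3). -/
theorem result {G : Type*} [Group G] [Finite G] {p : ℕ} [Fact p.Prime] (hp : p ≠ 2) (V H : Subgroup G) (hV : Cfsg.IsElementaryAbelian p V) (hHV : H ≤ Subgroup.normalizer (V : Set G)) (hf : H ⊓ Subgroup.centralizer (V : Set G) = ⊥) (a b : G) (hab : H = Subgroup.closure {a, b}) (ha : ⁅⁅V, Subgroup.zpowers a⁆, Subgroup.zpowers a⁆ = ⊥) (hb : ⁅⁅V, Subgroup.zpowers b⁆, Subgroup.zpowers b⁆ = ⊥) (hnp : ¬ IsPGroup p H) (Q : Subgroup G) (hQH : Q ≤ H) (hQn : H ≤ Subgroup.normalizer (Q : Set G)) (hQ : (Nat.card Q).Coprime p) (hQa : ⁅Q, Subgroup.zpowers a⁆ ≠ ⊥) : p = 3 ∧ ∃ (K L : Subgroup G) (hL : (L.subgroupOf K).Normal),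 K ≤ H ∧ Nonempty ((K ⧸ L.subgroupOf K) ≃* Matrix.SpecialLinearGroup (Fin 2) (ZMod 3)) := by
  have hker : (H9.eaRep hV hHV).ker = ⊥ := by
    rw [H9.ker_eaRep, Subgroup.subgroupOf_eq_bot, disjoint_iff, inf_comm, hf]
  have haH : a ∈ H := hab ▸ Subgroup.subset_closure (by simp)
  have hq : H9.Quad (H9.eaRep hV hHV) ⟨a, haH⟩ := H9.eaRep_quadratic _ ha
  have hz : IsPGroup p (Subgroup.zpowers a) := by
    apply H9.isPGroup_of_isEA (H9.isEA_zpowers _)
    have : (⟨a, haH⟩ : H) ^ p ∈ (H9.eaRep hV hHV).ker := hq.pow_eq_one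
    rw [hker] at this
    exact congrArg Subtype.val this
  obtain ⟨q, hq', hqp, R, hRQ, hR, -, haR, hc⟩ := H9.exists_invariant_qSubgroup hz hQ
    (by rw [Subgroup.zpowers_le]; exact hQn haH)
    (by rwa [← Subgroup.commutator_eq_bot_iff_le_centralizer, Subgroup.commutator_comm])
  rw [Subgroup.zpowers_le] at haR hc
  rw [H9.mem_centralizer_iff'] at hc
  push Not at hc
  obtain ⟨x, hx, hc⟩ := hc
  obtain ⟨h3, h⟩ := H9.natSec_of_qSubgroup hp (H9.eaRep hV hHV) hq ⊥
    (fun d hd => ⟨0, by rw [Subgroup.mem_bot.mp hd]; simp⟩) (fun g hg => hker.le hg) hq' hqp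
    (R := R.subgroupOf H) (fun r hr => by
      obtain ⟨j, hj⟩ := hR ⟨r, hr⟩
      have hj' : (r : G) ^ q ^ j = 1 := congrArg Subtype.val hj
      exact ⟨j, Subtype.ext hj'⟩)
    (H9.mem_normalizer_of_forall fun y hy => H9.conj_mem_of_mem_normalizer (B := R) haR hy)
    (x := ⟨x, hQH (hRQ hx)⟩) hx (fun h => hc (by
      rw [← commutatorElement_eq_one_iff_mul_comm]; exact congrArg Subtype.val h))
  subst h3
  exact ⟨rfl, (H9.involves_subgroup_iff H).mp h.involves_SL2⟩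

end Cfsg.Agent.S0594
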