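import Cfsg.Statements.S0602
import Cfsg.Agent.H9.Thompson

set_option autoImplicit false
open Cfsg

namespace Cfsg.Agent.S0602

/-- The Thompson subgroup is characteristic, and nontrivial as soon as p divides the group order. -/
theorem result {G : Type*} [Group G] [Finite G] {p : ℕ} [Fact p.Prime] : (Cfsg.thompsonSubgroup p G).Characteristic ∧ (p ∣ Nat.card G → Cfsg.thompsonSubgroup p G ≠ ⊥) := by
  refine ⟨H9.thompson_characteristic p, fun h h0 => ?_⟩
  obtain ⟨x, hx⟩ := exists_prime_orderOf_dvd_card' p h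
  obtain ⟨A, hA⟩ := H9.exists_maxEA p (⊤ : Subgroup G)
  have h1 := H9.le_thompsonOf hA
  rw [H9.thompsonOf_top, h0, le_bot_iff] at h1
  have h2 := hA.2.2 (Subgroup.zpowers x) le_top (H9.isEA_zpowers (hx ▸ pow_orderOf_eq_one x))
  rw [h1, Nat.card_zpowers, hx, Subgroup.card_bot] at h2
  exact absurd (Fact.out : p.Prime).one_lt (not_lt.mpr h2)

end Cfsg.Agent.S0602
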