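import Cfsg.Statements.S0614
import Cfsg.Agent.H9.FF4

set_option autoImplicit false
open Cfsg

namespace Cfsg.Agent.S0614

/-- The commutator of the p'-core with a minimal nontrivially-acting best offender is a 3-group (when p = 2) or a non-abelian 2-group (when p = 3). -/
theorem result {G : Type*} [Group G] [Finite G] {p : ℕ} [Fact p.Prime] (V H : Subgroup G) (hV : Cfsg.IsElementaryAbelian p V) (hHV : H ≤ Subgroup.normalizer (V : Set G)) (hf : H ⊓ Subgroup.centralizer (V : Set G) = ⊥) (hS1 : Subgroup.centralizer (Cfsg.pPrimeCore p ↥H : Set ↥H) ≤ Cfsg.pPrimeCore p ↥H) (hS3 : H = ⨆ A : {A : Subgroup G // A ≤ H ∧ Cfsg.IsBestOffenderOn p V A}, (A : Subgroup G)) (hH1 : H ≠ ⊥) (A : Subgroup G) (hAH : A ≤ H) (hA : Cfsg.IsBestOffenderOn p V A) (hAV : ⁅V, A⁆ ≠ ⊥) (hmin : ∀ B : Subgroup G, B ≤ A → Cfsg.IsBestOffenderOn p V B → ⁅V, B⁆ ≠ ⊥ → B = A) : (p = 2 ∧ IsPGroup 3 ↥(⁅((Cfsg.pPrimeCore p ↥H).map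 H.subtype), A⁆)) ∨ (p = 3 ∧ IsPGroup 2 ↥(⁅((Cfsg.pPrimeCore p ↥H).map H.subtype), A⁆) ∧ ¬ IsMulCommutative ↥(⁅((Cfsg.pPrimeCore p ↥H).map H.subtype), A⁆)) := by
  have h := H9.ffSet_OqOf hV hHV hf hS1
  have hm : H9.MinOff p V A := ⟨hA, hAV, hmin⟩
  rcases h.prime_of_minOff hAH hm with rfl | rfl
  · exact Or.inl ⟨rfl, h.isPGroup_commutator hAH hm ⟨1, rfl⟩⟩
  refine Or.inr ⟨rfl, h.isPGroup_commutator hAH hm ⟨3, rfl⟩, fun hc => ?_⟩
  have hE := h.fac_of_isFF ⟨A, hAH, hA, hAV, hmin, rfl⟩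
  obtain ⟨e⟩ := h.fac_equiv hE
  obtain ⟨a, b, c, d, hne⟩ := H9.exists_commutator_commutator_sl2_three
  obtain ⟨a, rfl⟩ := e.surjective a
  obtain ⟨b, rfl⟩ := e.surjective b
  obtain ⟨c, rfl⟩ := e.surjective c
  obtain ⟨d, rfl⟩ := e.surjective d
  have key := H9.commutator_sup_sup_le
    (Subgroup.normalizer_commutator_ge_right (H10.OqOf 3 H) A) (h.isEA hAH hA).1
  simp only [← map_commutatorElement, ne_eq, EmbeddingLike.map_eq_one_iff] at hne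
  exact hne (Subtype.ext (commutatorElement_eq_one_iff_mul_comm.2 (H9.isMulCommutative_iff'.1 hc _
    (key (Subgroup.commutator_mem_commutator a.2 b.2)) _
    (key (Subgroup.commutator_mem_commutator c.2 d.2)))))

end Cfsg.Agent.S0614
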