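import Cfsg.Statements.S0615
import Cfsg.Agent.H9.FF1

set_option autoImplicit false
open Cfsg

namespace Cfsg.Agent.S0615

/-- Two subnormal subgroups acting irreducibly on their incomparable commutator modules, in a faithful group with trivial largest normal p-subgroup, generate their direct product, and the commutator module splits accordingly. -/
theorem result {G : Type*} [Group G] [Finite G] {p : ℕ} [Fact p.Prime] (V E E₁ E₂ : Subgroup G) (hV : Cfsg.IsElementaryAbelian p V) (hEV : E ≤ Subgroup.normalizer (V : Set G)) (hf : E ⊓ Subgroup.centralizer (V : Set G) = ⊥) (hgen : E = E₁ ⊔ E₂) (hs₁ : (E₁.subgroupOf E).IsSubnormal) (hs₂ : (E₂.subgroupOf E).IsSubnormal) (hOp : Cfsg.pCore p ↥E = ⊥) (hirr₁ : (∀ U : Subgroup G, U ≤ ⁅V, E₁⁆ → E₁ ≤ Subgroup.normalizer (U : Set G) → U = ⊥ ∨ U = ⁅V, E₁⁆)) (hirr₂ : (∀ U : Subgroup G, U ≤ ⁅V, E₂⁆ → E₂ ≤ Subgroup.normalizer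 (U : Set G) → U = ⊥ ∨ U = ⁅V, E₂⁆)) (h12 : ¬ ⁅V, E₁⁆ ≤ ⁅V, E₂⁆) (h21 : ¬ ⁅V, E₂⁆ ≤ ⁅V, E₁⁆) (hc₁ : 2 < Nat.card E₁) (hc₂ : 2 < Nat.card E₂) : ⁅E₁, E₂⁆ = ⊥ ∧ E₁ ⊓ E₂ = ⊥ ∧ ⁅V, E₁⁆ ⊓ ⁅V, E₂⁆ = ⊥ ∧ ⁅V, E⁆ = ⁅V, E₁⁆ ⊔ ⁅V, E₂⁆ := by
  have hO := (H10.OpOf_eq_bot_iff E).2 hOp
  have s₁ : H10.SubnormalIn E₁ E := ⟨hgen ▸ le_sup_left, hs₁⟩
  have s₂ : H10.SubnormalIn E₂ E := ⟨hgen ▸ le_sup_right, hs₂⟩
  have h := H9.apart_of_irrOn hV hEV hf hO _ E₁ E₂ rfl s₁ s₂ hirr₁ hirr₂ h12 h21 hc₁ hc₂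
  refine ⟨h.comm, ?_, h.inf, le_antisymm ?_ (sup_le (Subgroup.commutator_mono le_rfl s₁.le)
    (Subgroup.commutator_mono le_rfl s₂.le))⟩
  · rw [eq_bot_iff, ← H9.inf_centralizer_commutator_eq_bot hV hEV hf hO s₁]
    refine inf_le_inf_left _ ?_
    rw [← Subgroup.commutator_eq_bot_iff_le_centralizer, Subgroup.commutator_comm, h.left]
  · have n₁ := Subgroup.normalizer_commutator_ge_right V E₁
    have n₂ := Subgroup.normalizer_commutator_ge_right V E₂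
    rw [Subgroup.commutator_comm, hgen]
    refine H10.commutator_sup_left_le (H9.le_normalizer_sup n₁ ?_) (H9.le_normalizer_sup ?_ n₂)
      (Subgroup.commutator_comm V E₁ ▸ le_sup_left) (Subgroup.commutator_comm V E₂ ▸ le_sup_right)
    · exact H10.le_normalizer_of_commutator_eq_bot (H10.commutator_eq_bot_comm h.right)
    · exact H10.le_normalizer_of_commutator_eq_bot (H10.commutator_eq_bot_comm h.left)

end Cfsg.Agent.S0615
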