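import Cfsg.Statements.S0617
import Cfsg.Agent.H9.FF4

set_option autoImplicit false
open Cfsg

namespace Cfsg.Agent.S0617

/-- Structure Theorem for failure of factorization: a faithful group generated by best offenders, with self-centralizing p'-core, is a direct product of copies of SL(2, p) (p = 2 or 3), each acting on its own plane in V, which is the direct product of these planes and C_V(H). -/
theorem result {G : Type*} [Group G] [Finite G] {p : ℕ} [Fact p.Prime] (V H : Subgroup G) (hV : Cfsg.IsElementaryAbelian p V) (hHV : H ≤ Subgroup.normalizer (V : Set G)) (hf : H ⊓ Subgroup.centralizer (V : Set G) = ⊥) (hS1 : Subgroup.centralizer (Cfsg.pPrimeCore p ↥H : Set ↥H) ≤ Cfsg.pPrimeCore p ↥H) (hS3 : H = ⨆ A : {A : Subgroup G // A ≤ H ∧ Cfsg.IsBestOffenderOn p V A}, (A : Subgroup G)) (hH1 : H ≠ ⊥) : (p = 2 ∨ p = 3) ∧ (∀ E : {E : Subgroup G // ∃ A : Subgroup G, A ≤ H ∧ Cfsg.IsBestOffenderOn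 p V A ∧ ⁅V, A⁆ ≠ ⊥ ∧ (∀ B : Subgroup G, B ≤ A → Cfsg.IsBestOffenderOn p V B → ⁅V, B⁆ ≠ ⊥ → B = A) ∧ E = ⁅((Cfsg.pPrimeCore p ↥H).map H.subtype), A⁆ ⊔ A}, H ≤ Subgroup.normalizer ((E : Subgroup G) : Set G) ∧ Nonempty (↥(E : Subgroup G) ≃* Matrix.SpecialLinearGroup (Fin 2) (ZMod p)) ∧ Nat.card ↥(⁅V, (E : Subgroup G)⁆) = p ^ 2) ∧ iSupIndep (fun E : {E : Subgroup G // ∃ A : Subgroup G, A ≤ H ∧ Cfsg.IsBestOffenderOn p V A ∧ ⁅V, A⁆ ≠ ⊥ ∧ (∀ B : Subgroup G, B ≤ A → Cfsg.IsBestOffenderOn p V B → ⁅V, B⁆ ≠ ⊥ → B = A) ∧ E = ⁅((Cfsg.pPrimeCore p ↥H).map H.subtype), A⁆ ⊔ A} => (E : Subgroup G)) ∧ (⨆ E : {E : Subgroup G // ∃ A : Subgroup G, A ≤ H ∧ Cfsg.IsBestOffenderOn p V A ∧ ⁅V, A⁆ ≠ ⊥ ∧ (∀ B : Subgroup G, B ≤ A → Cfsg.IsBestOffenderOn p V B → ⁅V, B⁆ ≠ ⊥ → B = A) ∧ E = ⁅((Cfsg.pPrimeCore p ↥H).map H.subtype), A⁆ ⊔ A}, (E : Subgroup G)) = H ∧ iSupIndep (fun o : Option {E : Subgroup G // ∃ A :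 Subgroup G, A ≤ H ∧ Cfsg.IsBestOffenderOn p V A ∧ ⁅V, A⁆ ≠ ⊥ ∧ (∀ B : Subgroup G, B ≤ A → Cfsg.IsBestOffenderOn p V B → ⁅V, B⁆ ≠ ⊥ → B = A) ∧ E = ⁅((Cfsg.pPrimeCore p ↥H).map H.subtype), A⁆ ⊔ A} => o.elim (V ⊓ Subgroup.centralizer (H : Set G)) (fun E => ⁅V, (E : Subgroup G)⁆)) ∧ (V ⊓ Subgroup.centralizer (H : Set G)) ⊔ (⨆ E : {E : Subgroup G // ∃ A : Subgroup G, A ≤ H ∧ Cfsg.IsBestOffenderOn p V A ∧ ⁅V, A⁆ ≠ ⊥ ∧ (∀ B : Subgroup G, B ≤ A → Cfsg.IsBestOffenderOn p V B → ⁅V, B⁆ ≠ ⊥ → B = A) ∧ E = ⁅((Cfsg.pPrimeCore p ↥H).map H.subtype), A⁆ ⊔ A}, ⁅V, (E : Subgroup G)⁆) = V := by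
  have h := H9.ffSet_OqOf hV hHV hf hS1
  have h1 := h.iSup_isFF_eq hS3.le
  have hVc := hV.1
  have hW : ∀ E : {E // H9.IsFF p V H (H10.OqOf p H) E}, ⁅V, E.1⁆ ≤ V := fun E =>
    H9.commutator_le_of_le_normalizer ((h.fac_of_isFF E.2).le.trans hHV)
  refine ⟨?_, fun E => ⟨h1.ge.trans h.iSup_le_normalizer, h.fac_equiv (h.fac_of_isFF E.2),
    (h.fac_of_isFF E.2).nat.card⟩, h.iSupIndep_isFF, h1, ?_, ?_⟩
  · by_contra hc
    refine hH1 (h1.symm.trans (iSup_eq_bot.2 fun E => ?_))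
    exact absurd (h.fac_prime (h.fac_of_isFF E.2)) hc
  · rintro (_ | E) <;> rw [disjoint_iff_inf_le]
    · refine le_trans (inf_le_inf (inf_le_inf_left _ (H9.centralizer_anti h.le)) (iSup₂_le ?_))
        (H1.inf_centralizer_inf_commutator_eq_bot (h.le.trans hHV) (h.coprimeV le_rfl)).le
      rintro (_ | E) hne
      · exact absurd rfl hne
      · exact (h.fac_commutator (h.fac_of_isFF E.2)).ge.trans
          (Subgroup.commutator_mono le_rfl inf_le_right)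
    · refine le_trans (inf_le_inf_left _ (iSup₂_le ?_)) (h.fac_of_isFF E.2).nat.inf_centralizer.le
      rintro (_ | E') hne
      · exact inf_le_right.trans (H9.centralizer_anti (h.fac_of_isFF E.2).le)
      · exact Subgroup.commutator_eq_bot_iff_le_centralizer.1
          (h.apart_of_isFF E'.2 E.2 fun e => hne (congrArg some (Subtype.ext e))).left
  · refine le_antisymm (sup_le inf_le_left (iSup_le hW)) ((h.sup_eq le_rfl).ge.trans (sup_le
      (le_sup_of_le_right ?_) (le_sup_of_le_left (le_inf inf_le_left ?_))))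
    · refine (Subgroup.commutator_mono le_rfl (h.le.trans h1.ge)).trans
        (H9.commutator_iSup_le (fun E => ?_) fun E => le_iSup_of_le E le_rfl)
      exact Subgroup.le_normalizer_iff_commutator_le_left.2
        ((Subgroup.commutator_mono (iSup_le hW) le_rfl).trans (le_iSup_of_le E le_rfl))
    · refine Subgroup.le_centralizer_iff.1 (h1.ge.trans (iSup_le fun E =>
        Subgroup.le_centralizer_iff.1 ?_))
      exact ((inf_le_inf_left _ (H9.centralizer_anti inf_le_right)).trans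
        (h.fac_centralizer (h.fac_of_isFF E.2)).le).trans inf_le_right

end Cfsg.Agent.S0617
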