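import Cfsg.Statements.S0619
import Cfsg.Agent.H9.Hol

set_option autoImplicit false
open Cfsg

namespace Cfsg.Agent.S0619

/-- For a p-separable group and a normal elementary abelian p-subgroup V with no nontrivial normal p-subgroup modulo its centralizer C, the Thompson subgroup J(G) moves Ω₁(Z(J(C))) only inside V. -/
theorem result {G : Type*} [Group G] [Finite G] {p : ℕ} [Fact p.Prime] (hsep : Cfsg.IsPSolvable p G) (V : Subgroup G) [V.Normal] (hV : Cfsg.IsElementaryAbelian p V) (hO : Cfsg.pCore p (G ⧸ Subgroup.centralizer (V : Set G)) = ⊥) : ⁅Cfsg.omegaOne p (Cfsg.centerThompsonOf p (Subgroup.centralizer (V : Set G))), Cfsg.thompsonSubgroup p G⁆ ≤ V := by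
  rw [← H9.thompsonOf_top, H9.thompsonOf_eq_sSup, sSup_eq_iSup']
  refine H9.commutator_iSup_le (fun _ => Subgroup.le_normalizer_of_normal) fun A => ?_
  have hA := H9.mem_maxEA.1 A.2
  have h1 := H9.omegaOne_centerThompsonOf_le (H9.mem_maxEA_of_le
    (H9.sup_mem_maxEA_of_isPSolvable hsep hV hO le_top A.2)
    (sup_le inf_le_right (H9.le_centralizer_of_le_of_comm hV.1 le_rfl le_rfl)) le_top)
  refine (Subgroup.commutator_mono h1 le_rfl).trans (H10.commutator_sup_left_le
    Subgroup.le_normalizer_of_normal Subgroup.le_normalizer ?_ (Subgroup.commutator_le_left _ _))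
  exact (Subgroup.commutator_eq_bot_iff_le_centralizer.2
    (H9.le_centralizer_of_le_of_comm hA.2.1.1 inf_le_left le_rfl)).le.trans bot_le

end Cfsg.Agent.S0619
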