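import Cfsg.Statements.S0620
import Cfsg.Agent.H9.Hol

set_option autoImplicit false
open Cfsg

namespace Cfsg.Agent.S0620

/-- Under coprime action of an elementary abelian q-group X on a p-separable group K with trivial p'-core, K is generated by the normalizer of J(S), the centralizer of Ω₁(Z(S)) and the fixed points of X. -/
theorem result {G : Type*} [Group G] [Finite G] {p : ℕ} [Fact p.Prime] {q : ℕ} [Fact q.Prime] (K X : Subgroup G) (hXK : X ≤ Subgroup.normalizer (K : Set G)) (hX : Cfsg.IsElementaryAbelian q X) (hq : ¬ q ∣ Nat.card K) (hsep : Cfsg.IsPSolvable p ↥K) (hO : Cfsg.pPrimeCore p ↥K = ⊥) (S : Sylow p ↥K) : (Subgroup.normalizer (Cfsg.thompsonSubgroupOf p (S : Subgroup ↥K) : Set ↥K) ⊔ Subgroup.centralizer (Cfsg.omegaOne p ((S : Subgroup ↥K) ⊓ Subgroup.centralizer ((S : Subgroup ↥K) : Set ↥K)) : Set ↥K) ⊔ (Subgroup.centralizer (X : Set G)).subgroupOf K) = ⊤ := by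
  have hc : H9.CharPGrp p K := H9.centralizer_pCore_le_of_isPSolvable hsep hO
  have hV := hc.isEA_vSub
  have hO' := H9.pCore_quotient_centralizer_vSub (G := K) (p := p)
  have := H9.vSub_characteristic (G := K) (p := p)
  have hF := H9.ffSet_holRep hsep hV hO'
  have hXq := H9.isPGroup_of_isEA hX
  have hN := H9.comap_ffJ_normal hsep hV hO'
  set L := (_ ⊔ _ ⊔ _ : Subgroup K)
  have h1 : (H9.holRep (H9.vSub p K)).ker ≤ L := by
    rw [H9.ker_holRep]
    exact (H9.centralizer_anti (H9.omegaZ_le_vSub S)).trans (le_sup_right.trans le_sup_left)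
  have h2 : Subgroup.normalizer (thompsonSubgroupOf p (S : Subgroup K) : Set K) ≤ L :=
    le_sup_left.trans le_sup_left
  have h3 := hF.ffJ_le (H9.isPGroup_holOp hXK hXq) (H9.holOp_le_normalizer hXK)
    (H9.holOp_le_normalizer_range hXK) (H10.le_normalizer_OqOf (H9.holOp_le_normalizer_range hXK))
    (fun h => hq (h.trans (Subgroup.card_range_dvd _)))
    (MonoidHom.range_eq_map (H9.holRep (H9.vSub p K)) ▸ (H1.isSylowIn_top S).map _)
    (Subgroup.map_mono ((Subgroup.le_normalizer.trans
      (H9.normalizer_le_normalizer_thompsonOf p _)).trans h2))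
    ((inf_le_inf_right _ hF.iSup_isFF_le).trans ((H9.map_centralizer_holOp hXK
      (H1.coprime_card_of_isPGroup hXq hq) (H1.isSolvable_of_isPGroup hXq)).ge.trans
        (Subgroup.map_mono le_sup_right)))
  rw [eq_top_iff]
  intro g _
  obtain ⟨c, hc, m, hm, rfl⟩ := H9.exists_mul_normalizer_thompsonOf S
    (H9.thompsonOf_le_comap_ffJ hsep hV hO'
      ((hc.vSub_le.trans (H9.omegaZ_le _)).trans (H1.pCore_le_sylow S))) g
  exact L.mul_mem ((Subgroup.comap_map_eq_self h1).le (h3 hc)) (h2 hm)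

end Cfsg.Agent.S0620
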