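import Cfsg.Statements.S0621
import Cfsg.Agent.H9.Hol

set_option autoImplicit false
open Cfsg

namespace Cfsg.Agent.S0621

/-- Let K be p-separable with O_p'(K) = 1, normalized by an elementary abelian q-group X for a prime q not dividing the order of K. If the Thompson factorization fails in K, then p is 2 or 3 and the fixed points of X contain a plane W of order p² and a subgroup inducing SL(2, p) on it. -/
theorem result {G : Type*} [Group G] [Finite G] {p : ℕ} [Fact p.Prime] {q : ℕ} [Fact q.Prime] (K X : Subgroup G) (hXK : X ≤ Subgroup.normalizer (K : Set G)) (hX : Cfsg.IsElementaryAbelian q X) (hq : ¬ q ∣ Nat.card K) (hsep : Cfsg.IsPSolvable p ↥K) (hO : Cfsg.pPrimeCore p ↥K = ⊥) (hnf : ¬ Cfsg.IsThompsonFactorizable p ↥K) : (p = 2 ∨ p = 3) ∧ ∃ W D : Subgroup G, W ≤ K ⊓ Subgroup.centralizer (X : Set G) ∧ D ≤ K ⊓ Subgroup.centralizer (X : Set G) ∧ Cfsg.IsElementaryAbelian p W ∧ Nat.card W = p ^ 2 ∧ D ≤ Subgroup.normalizer (W : Set G) ∧ ∃ hn : ((Subgroup.centralizer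 (W : Set G)).subgroupOf D).Normal, Nonempty ((↥D ⧸ (Subgroup.centralizer (W : Set G)).subgroupOf D) ≃* Matrix.SpecialLinearGroup (Fin 2) (ZMod p)) := by
  have hV := H9.CharPGrp.isEA_vSub (H9.centralizer_pCore_le_of_isPSolvable hsep hO)
  have hO' := H9.pCore_quotient_centralizer_vSub (G := K) (p := p)
  have := H9.vSub_characteristic (G := K) (p := p)
  have hF := H9.ffSet_holRep hsep hV hO'
  have hXq := H9.isPGroup_of_isEA hX
  obtain ⟨E, hE, -⟩ := H9.exists_isFF_le hsep hV hO'
    (mt (H9.isThompsonFactorizable_iff hO).2 hnf)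
  obtain ⟨W, hW, hN⟩ := hF.exists_nat2_centralizer (H9.isPGroup_holOp hXK hXq)
    (H9.holOp_le_normalizer hXK) (H9.holOp_le_normalizer_range hXK)
    (H10.le_normalizer_OqOf (H9.holOp_le_normalizer_range hXK))
    (fun h => hq (h.trans (Subgroup.card_range_dvd _))) hE
  obtain ⟨U, hU, rfl⟩ := H9.exists_holSub_eq (hW.trans inf_le_left)
  have h1 := H10.map_comap_inf (H9.holRep (H9.vSub p K)) (H9.ffJ p
    (H9.holSub (H9.vSub p K) (H9.vSub p K)) (H9.holRep (H9.vSub p K)).range
    (H10.OqOf p (H9.holRep (H9.vSub p K)).range))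
    ((Subgroup.centralizer (X : Set G)).subgroupOf K)
  rw [H9.map_centralizer_holOp hXK (H1.coprime_card_of_isPGroup hXq hq)
    (H1.isSolvable_of_isPGroup hXq), ← inf_assoc, inf_eq_left.2 (show H9.ffJ _ _ _ _ ≤ _ from hF.iSup_isFF_le)] at h1
  have h2 := (H9.nat2_of_holRep hU (h1 ▸ hN)).map K.subtype_injective
  refine ⟨hF.fac_prime (hF.fac_of_isFF hE), _, _, le_inf (Subgroup.map_subtype_le _) ?_,
    le_inf (Subgroup.map_subtype_le _) ?_, h2.isEA, h2.card, h2.le_normalizer, h2.nonempty_quotient⟩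
  · exact Subgroup.map_le_iff_le_comap.2
      (H9.le_centralizer_of_holSub_le hXK hU (hW.trans inf_le_right))
  · exact Subgroup.map_le_iff_le_comap.2 inf_le_right

end Cfsg.Agent.S0621
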