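import Cfsg.Statements.S0633
import Cfsg.Agent.H9.HH3

set_option autoImplicit false
open Cfsg

namespace Cfsg.Agent.S0633

/-- Theorem B of Hall and Higman on the minimal polynomial of a p-element of order p^n in a p-solvable linear group on a nonzero vector space in characteristic p with no nontrivial normal p-subgroup: its degree is p^n, except when some p^n₀ - 1 (n₀ ≤ n) is a power of a prime q for which the Sylow q-subgroups are non-abelian, in which case the degree is at least p^(n-n₀)(p^n₀ - 1). -/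
theorem result {F : Type*} [Field F] {p : ℕ} [Fact p.Prime] [CharP F p] {V : Type*} [AddCommGroup V] [Module F V] [FiniteDimensional F V] [Nontrivial V] (H : Subgroup (V ≃ₗ[F] V)) [Finite H] (hsol : Cfsg.IsPSolvable p H) (hOp : Cfsg.pCore p H = ⊥) (x : V ≃ₗ[F] V) (hx : x ∈ H) (n : ℕ) (hn : orderOf x = p ^ n) (r : ℕ) (hr : minpoly F (x : Module.End F V) = (Polynomial.X - 1) ^ r) : r = p ^ n ∨ ∃ n₀ q m : ℕ, 1 ≤ n₀ ∧ n₀ ≤ n ∧ q.Prime ∧ 1 ≤ m ∧ p ^ n₀ - 1 = q ^ m ∧ (∀ Q : Sylow q H, ¬ IsMulCommutative Q) ∧ p ^ (n - n₀) * (p ^ n₀ - 1) ≤ r := by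
  have hp : p.Prime := Fact.out
  have h1 : ((x : Module.End F V) - 1) ^ r = 0 := by
    have := minpoly.aeval F (x : Module.End F V)
    rw [hr] at this
    simpa using this
  have h2 : r ≤ p ^ n := by
    have : minpoly F (x : Module.End F V) ∣ (Polynomial.X - 1) ^ p ^ n := minpoly.dvd _ _ (by
      simp only [map_pow, map_sub, Polynomial.aeval_X, map_one]
      rw [H9.sub_one_pow_char_pow (K := F), sub_eq_zero]
      have := map_pow LinearEquiv.automorphismGroup.toLinearMapMonoidHom x (p ^ n)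
      rw [← hn, pow_orderOf_eq_one, map_one, hn] at this
      exact this.symm)
    rwa [hr, pow_dvd_pow_iff (Polynomial.X_sub_C_ne_zero 1) (Polynomial.not_isUnit_X_sub_C 1)] at this
  rcases n with _ | n
  · left
    rcases r with _ | r
    · simp at h1
    · rw [pow_zero] at h2 ⊢; omega
  rcases H9.hall_higman_B hsol hOp (x := ⟨x, hx⟩) (n := n) (by rw [← hn, Subgroup.orderOf_mk])
    (LinearEquiv.automorphismGroup.toLinearMapMonoidHom.comp H.subtype)
    (fun a b h => Subtype.ext (LinearEquiv.toLinearMap_injective h)) h1 with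
    h | ⟨n₀, q, m, Q, h3, h4, h5, h6, h7, -, h8, h9, h10⟩
  · exact Or.inl (le_antisymm h2 h)
  · refine Or.inr ⟨n₀, q, m, h3, h4, h5, h6, h7, fun S hS => h9 ?_, h10⟩
    haveI := Fact.mk h5
    obtain ⟨T, hT⟩ := h8.exists_le_sylow
    obtain ⟨g, rfl⟩ := MulAction.exists_smul_eq H S T
    refine H9.isMulCommutative_of_le ?_ hT
    rw [H9.sylow_smul_eq_map]
    infer_instance

end Cfsg.Agent.S0633
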