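import Cfsg.Statements.S0637
import Cfsg.Agent.H21.Top

set_option autoImplicit false
set_option linter.style.haveILetI false
open Cfsg

namespace Cfsg.Agent.S0637

open Cfsg.Agent.H20 Cfsg.Agent.H21 Cfsg.Agent.BG

/-- For p greater than 3, the bound p² on the order of the subgroup generated by the elements of order dividing p passes from a p-group to all its quotients. -/
theorem result {R : Type*} [Group R] [Finite R] {p : ℕ} [Fact p.Prime] (hp : 3 < p) (hR : IsPGroup p R) (hO : Nat.card ↥(Cfsg.omegaOne p (⊤ : Subgroup R)) ≤ p ^ 2) (T : Subgroup R) [T.Normal] : Nat.card ↥(Cfsg.omegaOne p (⊤ : Subgroup (R ⧸ T))) ≤ p ^ 2 := by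
  have hR' := pgroup_top_iff.2 hR
  have hn := (NormalIn.of_normal T).norm
  have h := quotient_p2_Ohm1 hR' hp hn (card_dvd_of_le_pow (hR'.to_le le_top) hO)
  haveI := (NormalIn.of_normal T).subgroupOf_normal
  have e : ((⊤ : Subgroup R) ⧸ T.subgroupOf ⊤) ≃* R ⧸ T :=
    QuotientGroup.congr _ _ Subgroup.topEquiv (by
      ext x; simp [Subgroup.mem_subgroupOf])
  rw [← card_omegaOne_congr ((Subgroup.topEquiv.trans e.symm).trans (quoEquiv hn))] at h
  exact Nat.le_of_dvd (pow_pos (Fact.out : p.Prime).pos 2) h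

end Cfsg.Agent.S0637
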