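import Cfsg.Statements.S0640
import Cfsg.Agent.H21.Top
import Cfsg.Agent.H21.Hol

set_option autoImplicit false
set_option linter.style.haveILetI false
open Cfsg

namespace Cfsg.Agent.S0640

open Cfsg.Agent.H20 Cfsg.Agent.H21 Cfsg.Agent.BG

/-- For odd p, a prime q ≠ p dividing the order of the automorphism group of a p-group of rank at most 2 divides p² - 1 and is less than p. -/
theorem result {R : Type*} [Group R] [Finite R] {p : ℕ} [Fact p.Prime] (hp : p ≠ 2) (hR : IsPGroup p R) (hrk : Cfsg.PRankLE p 2 R) (q : ℕ) (hq : q.Prime) (hqp : q ≠ p) (hdvd : q ∣ Nat.card (MulAut R)) : q ∣ p ^ 2 - 1 ∧ q < p := by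
  let φ := MonoidHom.id (MulAut R)
  have h1 : IsPGroup p ((⊤ : Subgroup R).map (Hol.l φ)) := (pgroup_top_iff.2 hR).map _
  have h2 : (C⟦(⊤ : Subgroup R).map (Hol.l φ)⟧).relIndex ((⊤ : Subgroup (MulAut R)).map (Hol.r φ)) =
      Nat.card (MulAut R) := by
    rw [← Hol.card_r_top φ, ← card_inf_mul_relIndex C⟦(⊤ : Subgroup R).map (Hol.l φ)⟧]
    have : C⟦(⊤ : Subgroup R).map (Hol.l φ)⟧ ⊓ (⊤ : Subgroup (MulAut R)).map (Hol.r φ) = ⊥ := by
      rw [eq_bot_iff]
      rintro _ ⟨h, a, -, rfl⟩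
      have h3 : a = 1 := MulEquiv.ext fun x =>
        (Hol.comm_iff φ).1 (mem_cent.1 h _ (Subgroup.mem_map_of_mem _ (Subgroup.mem_top x)))
      rw [h3, map_one]; exact one_mem _
    rw [this, Subgroup.card_bot, one_mul]
  have h := pi_Aut_rank2_pgroup h1 (odd_of_pgroup hp h1)
    (by rw [pRank_map (Hol.l_inj φ)]; exact pRankLE_top_iff.1 hrk) (Hol.le_norm_top ⊤) hq (h2 ▸ hdvd) hqp
  exact ⟨h.1, h.2.1⟩

end Cfsg.Agent.S0640
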