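import Cfsg.Statements.S0642
import Cfsg.Agent.H9.Regular

set_option autoImplicit false
open Cfsg

namespace Cfsg.Agent.S0642

/-- Among finite 2-groups the regular ones are exactly the abelian ones. -/
theorem result {G : Type*} [Group G] [Finite G] (hG : IsPGroup 2 G) : Cfsg.IsRegularPGroup 2 G ↔ ∀ a b : G, a * b = b * a := by
  haveI : Fact (Nat.Prime 2) := ⟨Nat.prime_two⟩
  constructor
  · intro h a b
    have h1 := H9.reg1_of_isRegular h
    have ha := H9.left_mem_closure_pair a b
    have hb := H9.right_mem_closure_pair a b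
    set K := Subgroup.closure ({a, b} : Set G) with hK
    have hn : K ≤ Subgroup.normalizer (Cfsg.powerClosure 2 1 ⁅K, K⁆ : Set G) :=
      (Subgroup.normalizer_commutator_ge_left _ _).trans
        (H9.normalizer_le_normalizer_powerClosure _ _ _)
    have h2 : ⁅K, K⁆ ≤ Cfsg.powerClosure 2 1 ⁅K, K⁆ := by
      refine H9.commutator_closure_pair_le (hn ha) (hn hb) ?_
      have := (Subgroup.mem_normalizer_iff.mp (hn (mul_mem (mul_mem ha hb) hb)) _).mp
        (inv_mem (h1.2 a b))
      convert this using 1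
      simp only [commutatorElement_def, pow_two]
      group
    have h3 : ∀ n, ∀ x ∈ ⁅K, K⁆, ∃ y ∈ ⁅K, K⁆, x = y ^ 2 ^ n := by
      intro n
      induction n with
      | zero => exact fun x hx => ⟨x, hx, by simp⟩
      | succ n ih =>
        intro x hx
        obtain ⟨y, hy, rfl⟩ := ih x hx
        obtain ⟨z, hz, rfl⟩ := h1.mem_powerClosure_iff.mp (h2 hy)
        exact ⟨z, hz, by rw [← pow_mul, ← pow_add, add_comm]⟩
    obtain ⟨n, hn⟩ := IsPGroup.iff_card.mp hG
    obtain ⟨y, -, hy⟩ := h3 n _ (Subgroup.commutator_mem_commutator ha hb)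
    rw [← hn, pow_card_eq_one'] at hy
    exact commutatorElement_eq_one_iff_mul_comm.mp hy
  · intro h
    exact ⟨hG, fun a b n => ⟨1, one_mem _, by rw [mul_one]; exact Commute.mul_pow (h a b) _⟩⟩

end Cfsg.Agent.S0642
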