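import Cfsg.Statements.S0645
import Cfsg.Agent.H9.Cyclic

set_option autoImplicit false
open Cfsg

namespace Cfsg.Agent.S0645


open Finset

theorem geom_aux (y : ℤ) (k : ℕ) :
    y ^ 2 ∣ (∑ i ∈ range k, (1 + y) ^ i) - k - (k.choose 2 : ℕ) * y ∧
      y ^ 2 ∣ (1 + y) ^ k - 1 - k * y := by
  induction k with
  | zero => simp
  | succ k ih =>
    obtain ⟨⟨c, hc⟩, ⟨d, hd⟩⟩ := ih
    constructor
    · rw [sum_range_succ, Nat.choose_succ_succ', Nat.choose_one_right]
      refine ⟨c + d, ?_⟩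
      push_cast
      linear_combination hc + hd
    · refine ⟨d * (1 + y) + k, ?_⟩
      push_cast
      linear_combination (1 + y) * hd

/-- Classification of p-groups with a cyclic maximal subgroup, odd p: a non-abelian one of order p^n has generators a of order p^(n-1) and b of order p, b outside the cyclic subgroup generated by a, with b a b⁻¹ = a^(1 + p^(n-2)). -/
theorem result {G : Type*} [Group G] [Finite G] {p : ℕ} [Fact p.Prime] (hp : p ≠ 2) (n : ℕ) (hn : 3 ≤ n) (hG : Nat.card G = p ^ n) (C : Subgroup G) (hC : IsCyclic C) (hCi : C.index = p) (hna : ∃ x y : G, x * y ≠ y * x) : ∃ a b : G, orderOf a = p ^ (n - 1) ∧ orderOf b = p ∧ b ∉ Subgroup.zpowers a ∧ b * a * b⁻¹ = a ^ (1 + p ^ (n - 2)) := by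
  have hpp : p.Prime := Fact.out
  obtain ⟨a, x, r, s, hoa, hr, hs, h1, h2, -, h4⟩ :=
    H9.cyclic_index_setup n (by omega) hG C hC hCi hna
  obtain ⟨m, rfl⟩ : ∃ m, n = m + 3 := ⟨n - 3, by omega⟩
  simp only [show m + 3 - 1 = m + 2 by omega, show m + 3 - 2 = m + 1 by omega] at *
  have key : ∀ u : ℤ, a ^ u = 1 ↔ (p : ℤ) ^ (m + 2) ∣ u := by
    intro u; rw [← orderOf_dvd_iff_zpow_eq_one, hoa]; push_cast; rfl
  have keq : ∀ u v : ℤ, (p : ℤ) ^ (m + 2) ∣ u - v → a ^ u = a ^ v := by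
    intro u v h
    rw [← key, zpow_sub, mul_inv_eq_one] at h; exact h
  have hpi : Prime (p : ℤ) := Nat.prime_iff_prime_int.mp hpp
  have hodd : Odd p := hpp.odd_of_ne_two hp
  have hp1 : (p : ℤ) ∣ r - 1 := by
    have h5 : (p : ℤ) ∣ r ^ p - 1 := (dvd_pow_self _ (by omega)).trans h2
    have h6 : (p : ℤ) ∣ r ^ p - r := by
      rw [← ZMod.intCast_zmod_eq_zero_iff_dvd]; push_cast; rw [ZMod.pow_card]; simp
    have := dvd_sub h5 h6
    rwa [show r ^ p - 1 - (r ^ p - r) = r - 1 by ring] at this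
  have hpr : ¬ (p : ℤ) ∣ r := by
    intro h
    have := dvd_sub h hp1
    rw [show r - (r - 1) = 1 by ring] at this
    exact hpi.not_dvd_one this
  have hm : (p : ℤ) ^ (m + 1) ∣ r - 1 := by
    have h5 := Int.emultiplicity_pow_sub_pow hpp hodd hp1 hpr p
    rw [one_pow, Nat.Prime.emultiplicity_self hpp] at h5
    rw [pow_dvd_iff_le_emultiplicity] at h2 ⊢
    rw [h5] at h2
    have : ((m + 2 : ℕ) : ℕ∞) = ((m + 1 : ℕ) : ℕ∞) + 1 := by push_cast; ring
    rw [this] at h2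
    exact (ENat.add_le_add_iff_right (by simp)).mp h2
  obtain ⟨k, hk⟩ := hm
  have hpk : ¬ (p : ℤ) ∣ k := by
    rintro ⟨c, rfl⟩
    exact h1 ⟨c, by rw [hk]; ring⟩
  obtain ⟨j, hj⟩ : ∃ j : ℕ, (p : ℤ) ∣ j * k - 1 := by
    have hk0 : (k : ZMod p) ≠ 0 := by rwa [Ne, ZMod.intCast_zmod_eq_zero_iff_dvd]
    refine ⟨((k : ZMod p)⁻¹).val, ?_⟩
    rw [← ZMod.intCast_zmod_eq_zero_iff_dvd]; push_cast
    rw [ZMod.natCast_zmod_val, inv_mul_cancel₀ hk0, sub_self]
  have hpj : ¬ p ∣ j := by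
    intro h
    have h' : (p : ℤ) ∣ j * k := Dvd.dvd.mul_right (Int.natCast_dvd_natCast.mpr h) _
    have := dvd_sub h' hj
    rw [show (j : ℤ) * k - (j * k - 1) = 1 by ring] at this
    exact hpi.not_dvd_one this
  set y := x ^ j with hy
  set q : ℤ := (p : ℤ) ^ (m + 1) with hq
  have hq2 : (p : ℤ) ^ (m + 2) ∣ q ^ 2 := by
    rw [hq, ← pow_mul]; exact pow_dvd_pow _ (by omega)
  have hqp : (p : ℤ) ^ (m + 2) = q * p := by rw [hq]; ring
  have hyr : y * a * y⁻¹ = a ^ (1 + q) := by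
    rw [hy, H9.conj_pow_of_conj_eq hr j]
    apply keq
    have hr' : r = 1 + q * k := by linear_combination hk
    obtain ⟨c, hc⟩ := (geom_aux (q * k) j).2
    obtain ⟨d, hd⟩ := hj
    obtain ⟨e, he⟩ := hq2
    refine ⟨d + e * k ^ 2 * c, ?_⟩
    rw [hr']
    rw [hqp] at he ⊢
    linear_combination hc + q * hd + k ^ 2 * c * he
  have hyp : y ^ p = a ^ (s * j) := by
    rw [hy, ← pow_mul, mul_comm j p, pow_mul, hs, ← zpow_natCast, ← zpow_mul]
  have hdiv : (p : ℤ) ∣ s * j := by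
    have h5 := H9.conj_zpow_of_conj_eq hyr (s * j)
    rw [← hyp, show y * y ^ p * y⁻¹ = y ^ p by group, hyp] at h5
    have h6 : a ^ (q * (s * j)) = 1 := by
      rw [add_mul, one_mul, zpow_add] at h5
      exact (left_eq_mul.mp h5)
    rw [key, hqp] at h6
    exact (mul_dvd_mul_iff_left (pow_ne_zero _ hpi.ne_zero)).mp h6
  obtain ⟨t, ht⟩ := hdiv
  have hb : a ^ (-t) * y ∉ Subgroup.zpowers a := by
    intro h
    apply h4 j hpj
    have := (Subgroup.zpowers a).mul_mem (Subgroup.zpow_mem_zpowers a t) h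
    simpa using this
  refine ⟨a, a ^ (-t) * y, hoa, ?_, hb, ?_⟩
  · apply orderOf_eq_prime
    · rw [H9.zpow_mul_pow_of_conj_eq hyr, hyp, ← zpow_add, key]
      obtain ⟨c, hc⟩ := (geom_aux q p).1
      obtain ⟨d, hd⟩ : p ∣ p.choose 2 :=
        hpp.dvd_choose_self (by omega) (lt_of_le_of_ne hpp.two_le (Ne.symm hp))
      obtain ⟨e, he⟩ := hq2
      rw [hd] at hc
      push_cast at hc
      refine ⟨-t * (d + e * c), ?_⟩
      rw [hqp] at he ⊢
      linear_combination (-t) * hc + ht + (-t) * c * he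
    · intro h; apply hb; rw [h]; exact one_mem _
  · have : a ^ (-t) * y * a * (a ^ (-t) * y)⁻¹ = a ^ (-t) * (y * a * y⁻¹) * (a ^ (-t))⁻¹ := by group
    rw [this, hyr, ← zpow_natCast]
    push_cast
    rw [hq]
    group

end Cfsg.Agent.S0645
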