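import Cfsg.Statements.S0656
import Cfsg.Agent.H9.Dickson

set_option autoImplicit false
open Cfsg

namespace Cfsg.Agent.S0656

/-- For odd p, a faithful group on an elementary abelian p-group with no nontrivial normal p-subgroup in which some nontrivial p-element acts quadratically has a section isomorphic to SL(2, p). -/
theorem result {G : Type*} [Group G] [Finite G] {p : ℕ} [Fact p.Prime] (hp : p ≠ 2) (V H : Subgroup G) (hV : Cfsg.IsElementaryAbelian p V) (hHV : H ≤ Subgroup.normalizer (V : Set G)) (hf : H ⊓ Subgroup.centralizer (V : Set G) = ⊥) (hO : Cfsg.pCore p ↥H = ⊥) (x : G) (hxH : x ∈ H) (hx1 : x ≠ 1) (hxp : ∃ k : ℕ, orderOf x = p ^ k) (hq : ⁅⁅V, Subgroup.zpowers x⁆, Subgroup.zpowers x⁆ = ⊥) : ∃ (K L : Subgroup G) (hL : (L.subgroupOf K).Normal), K ≤ H ∧ Nonempty ((K ⧸ L.subgroupOf K) ≃* Matrix.SpecialLinearGroup (Fin 2) (ZMod p)) := by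
  rw [← H9.involves_subgroup_iff]
  refine (H9.natSec_of_quad hp (H9.eaRep hV hHV) (a := ⟨x, hxH⟩)
    (H9.eaRep_quadratic _ hq) ?_).involves_SL2
  have hk : (H9.eaRep hV hHV).ker = ⊥ := by
    rw [H9.ker_eaRep, ← Subgroup.inf_subgroupOf_left, hf, Subgroup.bot_subgroupOf]
  rw [H9.opMod_congr hk, H9.opMod_bot, hO, Subgroup.mem_bot]
  exact fun e => hx1 (congrArg Subtype.val e)

end Cfsg.Agent.S0656
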