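import Cfsg.Statements.S0657
import Cfsg.Agent.H9.Dickson
import Cfsg.Agent.H1.Cores

set_option autoImplicit false
open Cfsg

namespace Cfsg.Agent.S0657

/-- For odd p, a group that fails to be p-stable modulo its largest normal subgroup of order prime to p, and whose upper p-series does not stop there, has a section isomorphic to SL(2, p). -/
theorem result {G : Type*} [Group G] [Finite G] {p : ℕ} [Fact p.Prime] (hp : p ≠ 2) (hO : Cfsg.pPrimeCore p G < Cfsg.pPrimePCore p G) (hns : ¬ Cfsg.IsPStable p (G ⧸ Cfsg.pPrimeCore p G)) : ∃ (K L : Subgroup G) (hL : (L.subgroupOf K).Normal), K ≤ ⊤ ∧ Nonempty ((K ⧸ L.subgroupOf K) ≃* Matrix.SpecialLinearGroup (Fin 2) (ZMod p)) := by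
  by_contra h
  have hf : ¬ Involves (Matrix.SpecialLinearGroup (Fin 2) (ZMod p)) G := by
    rintro ⟨K, L, hL, e⟩; exact h ⟨K, L, hL, le_top, e⟩
  refine hns (H9.isPStable_iff.2 ⟨(Fact.out : p.Prime).odd_of_ne_two hp, fun h0 => hO.ne' ?_,
    H9.stabCore_iff_quotient.1 (H9.stabCore_of_qdFree hp (H9.qdFree_of_sl2Free hf))⟩)
  rw [H9.pPrimePCore_eq_opMod, H9.opMod_eq_self_iff, h0]

end Cfsg.Agent.S0657
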