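import Cfsg.Statements.S0660
import Cfsg.Agent.H1.Basic

set_option autoImplicit false
open Cfsg

namespace Cfsg.Agent.S0660

open Subgroup

theorem avg {V A : Type*} [CommGroup V] [Group A] [Finite V] [Finite A] (c : A →* MulAut V)
    (hcop : (Nat.card A).Coprime (Nat.card V)) (U W : Subgroup V) (hU : ∀ a, ∀ u ∈ U, c a u ∈ U)
    (h : IsComplement' U W) :
    ∃ W' : Subgroup V, (∀ a, ∀ w ∈ W', c a w ∈ W') ∧ U ⊓ W' = ⊥ ∧ U ⊔ W' = ⊤ := by
  classical
  haveI := Fintype.ofFinite A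
  let π : V →* V := U.subtype.comp (h.QuotientMulEquiv.toMonoidHom.comp (QuotientGroup.mk' W))
  have h1 : ∀ v, π v ∈ U := fun v => Subtype.prop _
  have h2 : ∀ u ∈ U, π u = u := fun u hu =>
    congrArg Subtype.val (h.QuotientMulEquiv.apply_symm_apply ⟨u, hu⟩)
  let τ : V →* V := ∏ a : A, (c a).toMonoidHom.comp (π.comp (c a⁻¹).toMonoidHom)
  have hτ : ∀ v, τ v = ∏ a : A, c a (π (c a⁻¹ v)) := fun v => by
    simp [τ, MonoidHom.finset_prod_apply]
  have h3 : ∀ v, τ v ∈ U := fun v => by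
    rw [hτ]; exact prod_mem fun a _ => hU _ _ (h1 _)
  have h4 : ∀ u ∈ U, τ u = u ^ Nat.card A := fun u hu => by
    rw [hτ, Nat.card_eq_fintype_card, ← Finset.card_univ, ← Finset.prod_const]
    refine Finset.prod_congr rfl fun a _ => ?_
    rw [h2 _ (hU _ _ hu)]; simp
  have h5 : ∀ b v, τ (c b v) = c b (τ v) := fun b v => by
    rw [hτ, hτ, map_prod, ← Equiv.prod_comp (Equiv.mulLeft b)]
    refine Finset.prod_congr rfl fun a _ => ?_
    simp
  refine ⟨τ.ker, fun a w hw => by rw [MonoidHom.mem_ker] at hw ⊢; rw [h5, hw, map_one], ?_, ?_⟩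
  · rw [eq_bot_iff]
    rintro u ⟨hu, hu'⟩
    replace hu' : τ u = 1 := hu'
    rw [h4 u hu] at hu'
    exact (powCoprime hcop.symm).injective (by simpa using hu')
  · rw [eq_top_iff]
    intro v _
    obtain ⟨u, hu⟩ := (powCoprime (G := U) ((hcop.symm.coprime_dvd_left
      (card_subgroup_dvd_card U)))).surjective ⟨τ v, h3 v⟩
    have hu' : (u : V) ^ Nat.card A = τ v := congrArg Subtype.val hu
    rw [← mul_inv_cancel_left (u : V) v]
    refine mul_mem (mem_sup_left u.2) (mem_sup_right ?_)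
    rw [MonoidHom.mem_ker, map_mul, map_inv, h4 _ u.2, hu', inv_mul_cancel]

open scoped IsMulCommutative in

/-- Under a coprime action on an abelian group, an invariant subgroup that is complemented admits an invariant complement. -/
theorem result {G : Type*} [Group G] [Finite G] (V A U : Subgroup G) (hVab : IsMulCommutative V) (hAV : A ≤ Subgroup.normalizer (V : Set G)) (hcop : (Nat.card A).Coprime (Nat.card V)) (hUV : U ≤ V) (hAU : A ≤ Subgroup.normalizer (U : Set G)) (W : Subgroup G) (hWV : W ≤ V) (hUW : U ⊓ W = ⊥) (hUWV : U ⊔ W = V) : ∃ W' : Subgroup G, W' ≤ V ∧ A ≤ Subgroup.normalizer (W' : Set G) ∧ U ⊓ W' = ⊥ ∧ U ⊔ W' = V := by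
  have hinf : ∀ X Y : Subgroup V, X ⊓ Y = ⊥ ↔ X.map V.subtype ⊓ Y.map V.subtype = ⊥ := by
    intro X Y
    rw [← map_inf _ _ _ V.subtype_injective, map_eq_bot_iff_of_injective _ V.subtype_injective]
  have hsup : ∀ X Y : Subgroup V, X ⊔ Y = ⊤ ↔ X.map V.subtype ⊔ Y.map V.subtype = V := by
    intro X Y
    rw [← Subgroup.map_sup, ← (map_injective V.subtype_injective).eq_iff, ← MonoidHom.range_eq_map,
      range_subtype]
  have hc : IsComplement' (U.subgroupOf V) (W.subgroupOf V) := by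
    refine isComplement'_of_disjoint_and_mul_eq_univ ?_ ?_
    · rw [disjoint_iff, hinf, map_subgroupOf_eq_of_le hUV, map_subgroupOf_eq_of_le hWV, hUW]
    · rw [← mul_normal, (hsup _ _).mpr, coe_top]
      rw [map_subgroupOf_eq_of_le hUV, map_subgroupOf_eq_of_le hWV, hUWV]
  obtain ⟨W', h1, h2, h3⟩ := avg (V.normalizerMonoidHom.comp (inclusion hAV)) hcop _ _
    (fun a u hu => (mem_normalizer_iff.mp (hAU a.2) _).mp hu) hc
  rw [hinf, map_subgroupOf_eq_of_le hUV] at h2
  rw [hsup, map_subgroupOf_eq_of_le hUV] at h3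
  refine ⟨W'.map V.subtype, map_subtype_le _, fun a ha => ?_, h2, h3⟩
  refine mem_normalizer_fintype ?_
  rintro _ ⟨w, hw, rfl⟩
  exact ⟨_, h1 ⟨a, ha⟩ w hw, rfl⟩

end Cfsg.Agent.S0660
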