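import Cfsg.Statements.S0662
import Cfsg.Agent.H9.MaxClass

set_option autoImplicit false
open Cfsg

namespace Cfsg.Agent.S0662

/-- In a p-group of maximal class of order at least p³ the normal subgroups of index at least p² are exactly the terms of the lower central series, and there are exactly p + 1 normal subgroups of index p. -/
theorem result {G : Type*} [Group G] [Finite G] {p : ℕ} [Fact p.Prime] (n : ℕ) (hG : Nat.card G = p ^ n) (hcl : Group.nilpotencyClass G = n - 1) (hn : 3 ≤ n) : (∀ (N : Subgroup G) [N.Normal] (r : ℕ), 2 ≤ r → N.index = p ^ r → N = (⊤ : Subgroup G).lowerCentralSeries (r - 1)) ∧ Nat.card {N : Subgroup G // N.Normal ∧ N.index = p} = p + 1 := by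
  have h := H9.MaxClass.of_class hG hcl hn
  have hp : p.Prime := Fact.out
  refine ⟨fun N _ r hr hN => h.eq_lcs_of_index N hr hN, ?_⟩
  have h1 : Nat.card (G ⧸ commutator G) = p ^ 2 := by
    rw [← Subgroup.index_eq_card, ← Subgroup.top_lowerCentralSeries_one]
    exact h.index_lcs le_rfl (by omega)
  rw [← H9.card_subgroups_of_card_sq h1 fun hc =>
    h.not_comm (H9.isMulCommutative_of_isCyclic_quotient_commutator h.isPGroup.isNilpotent hc)]
  symm
  have hs := QuotientGroup.mk'_surjective (commutator G)
  have h2 : ∀ H : Subgroup (G ⧸ commutator G), Nat.card H = p ↔ H.index = p := by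
    intro H
    have := H.card_mul_index
    rw [h1, pow_two] at this
    constructor
    · intro h; rw [h] at this; exact Nat.eq_of_mul_eq_mul_left hp.pos this
    · intro h; rw [h] at this; exact Nat.eq_of_mul_eq_mul_right hp.pos this
  refine Nat.card_eq_of_bijective (fun H => ⟨H.1.comap (QuotientGroup.mk' _), ?_, ?_⟩) ⟨?_, ?_⟩
  · haveI := IsPGroup.isMulCommutative_of_card_eq_prime_sq h1
    exact Subgroup.Normal.comap inferInstance _
  · rw [Subgroup.index_comap_of_surjective _ hs, ← h2]; exact H.2
  · intro H K hHK
    exact Subtype.ext (Subgroup.comap_injective hs (congrArg Subtype.val hHK))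
  · rintro ⟨N, hN, hi⟩
    have h3 : commutator G ≤ N := Subgroup.Normal.quotient_commutative_iff_commutator_le.mp
      (haveI := isCyclic_of_prime_card (α := G ⧸ N) hi; IsCyclic.isMulCommutative)
    have h4 : (N.map (QuotientGroup.mk' (commutator G))).comap (QuotientGroup.mk' _) = N := by
      rw [Subgroup.comap_map_eq, QuotientGroup.ker_mk', sup_eq_left.mpr h3]
    refine ⟨⟨N.map (QuotientGroup.mk' _), ?_⟩, Subtype.ext h4⟩
    rw [h2, ← Subgroup.index_comap_of_surjective _ hs, h4, hi]

end Cfsg.Agent.S0662
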