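import Cfsg.Statements.S0663
import Cfsg.Agent.H9.Uniserial

set_option autoImplicit false
open Cfsg

namespace Cfsg.Agent.S0663

/-- A p-group acts uniserially on a p-group N of order p^n exactly when the iterated commutator chain from N has length n; in that case the chain terms are all the invariant subgroups of N and they are normal in N. -/
theorem result {L : Type*} [Group L] [Finite L] {p : ℕ} [Fact p.Prime] (N G : Subgroup L) (hN : IsPGroup p N) (hG : IsPGroup p G) (hGN : G ≤ Subgroup.normalizer (N : Set L)) (n : ℕ) (hn : Nat.card N = p ^ n) : ((∀ H : Subgroup L, H ≤ N → G ≤ Subgroup.normalizer (H : Set L) → H ≠ ⊥ → (⁅H, G⁆).relIndex H = p) ↔ Cfsg.iterCommutator N G (n - 1) ≠ ⊥ ∨ n = 0) ∧ ((∀ H : Subgroup L, H ≤ N → G ≤ Subgroup.normalizer (H : Set L) → H ≠ ⊥ → (⁅H, G⁆).relIndex H = p) → ∀ H : Subgroup L, H ≤ N → G ≤ Subgroup.normalizer (H : Set L) → (∃ i ≤ n, H = Cfsg.iterCommutator N G i) ∧ N ≤ Subgroup.normalizer (H : Set L)) := by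
  have h1 : (∀ H : Subgroup L, H ≤ N → G ≤ Subgroup.normalizer (H : Set L) → H ≠ ⊥ → (⁅H, G⁆).relIndex H = p) → Cfsg.iterCommutator N G (n - 1) ≠ ⊥ ∨ n = 0 := by
    intro h
    have key : ∀ i ≤ n, p ^ i * Nat.card (iterCommutator N G i) = p ^ n := by
      intro i
      induction i with
      | zero => intro _; rw [pow_zero, one_mul]; exact hn
      | succ i ih =>
        intro hi
        have h2 := ih (by omega)
        have h3 := h _ (H9.iterCommutator_le hGN i) (H9.le_normalizer_iterCommutator hGN i) (by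
          intro h0
          rw [h0, Subgroup.card_bot, mul_one] at h2
          have := Nat.pow_right_injective (Fact.out : p.Prime).two_le h2
          omega)
        have h4 := H9.card_mul_relIndex (H9.iterCommutator_antitone hGN (Nat.le_succ i))
        rw [H9.iterCommutator_succ] at h4 ⊢
        rw [← h2, ← h4, h3]; ring
    rcases Nat.eq_zero_or_pos n with h0 | h0
    · exact Or.inr h0
    refine Or.inl fun h2 => ?_
    have := key (n - 1) (by omega)
    rw [h2, Subgroup.card_bot, mul_one] at this
    have := Nat.pow_right_injective (Fact.out : p.Prime).two_le this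
    omega
  refine ⟨⟨h1, fun h H hH hGH hne => ?_⟩, fun h H hH hGH => ?_⟩
  · obtain ⟨i, hi, rfl⟩ := H9.exists_eq_iterCommutator hN hG hGN hn.le h hH hGH
    have hi' : i < n := lt_of_le_of_ne hi fun h0 =>
      hne (h0 ▸ H9.iterCommutator_eq_bot hN hG hGN hn.le h)
    have h4 := H9.card_mul_relIndex (H9.iterCommutator_antitone hGN (Nat.le_succ i))
    rw [H9.card_iterCommutator_eq_mul hN hG hGN hn.le h hi', mul_comm p] at h4
    exact Nat.eq_of_mul_eq_mul_left (H9.card_pos' _) h4
  · obtain ⟨i, hi, rfl⟩ := H9.exists_eq_iterCommutator hN hG hGN hn.le (h1 h) hH hGH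
    exact ⟨⟨i, hi, rfl⟩, H9.le_normalizer_iterCommutator_of_uniserial hN hG hGN hn.le (h1 h) i hi⟩

end Cfsg.Agent.S0663
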