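import Cfsg.Statements.S0666
import Cfsg.Agent.H4.Frobenius
import Cfsg.Agent.H1.Frobenius

set_option autoImplicit false
open Cfsg

namespace Cfsg.Agent.S0666

open Subgroup
open scoped IsMulCommutative Pointwise in

/-- A Frobenius group acting on a nontrivial abelian group of order prime to that of its kernel, with the kernel acting without nontrivial fixed points, has a complement with a nontrivial fixed point. -/
theorem result {G : Type*} [Group G] [Finite G] (V F : Subgroup G) (hVab : IsMulCommutative V) (hV1 : V ≠ ⊥) (hFV : F ≤ Subgroup.normalizer (V : Set G)) (H : Subgroup ↥F) (hH : Cfsg.IsFrobeniusComplement H) (hcop : (Nat.card V).Coprime (Nat.card (Cfsg.frobeniusKernel H))) (hCK : V ⊓ Subgroup.centralizer (Subtype.val '' Cfsg.frobeniusKernel H : Set G) = ⊥) : V ⊓ Subgroup.centralizer ((H.map F.subtype : Subgroup G) : Set G) ≠ ⊥ := by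
  classical
  obtain ⟨K, hK, hKn, hc⟩ := H4.frobenius_theorem H hH
  haveI := Fintype.ofFinite K
  haveI : Nontrivial V := (nontrivial_iff_ne_bot V).mpr hV1
  have hmem : ∀ a : F, a ∈ K ↔ a = 1 ∨ ∀ g : F, g⁻¹ * a * g ∉ H := fun a => by
    rw [← SetLike.mem_coe, hK]
    simp only [frobeniusKernel, Set.mem_setOf_eq, H1.mem_conj_smul]
  obtain ⟨i, -, v, hv, h⟩ := H1.exists_fixed_of_partition (H1.conjHom hFV) Finset.univ
    (fun i : Option K => i.elim K fun k => MulAut.conj (k : F) • H) Finset.univ_nonempty
    (fun a ha => by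
      by_cases haK : a ∈ K
      · refine ⟨none, ⟨Finset.mem_univ _, haK⟩, ?_⟩
        rintro (_ | k) ⟨-, hk⟩
        · rfl
        · exact absurd (H1.mem_conj_smul.mp hk) (((hmem a).mp haK).resolve_left ha _)
      · have := mt (hmem a).mpr haK
        push Not at this
        obtain ⟨g, hg⟩ := this.2
        obtain ⟨⟨k, h⟩, rfl⟩ := hc.2 g
        have hk : (k : F)⁻¹ * a * k ∈ H := by
          have := H.mul_mem (H.mul_mem h.2 hg) (H.inv_mem h.2)
          convert this using 1
          simp only [mul_inv_rev]; group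
        refine ⟨some k, ⟨Finset.mem_univ _, H1.mem_conj_smul.mpr hk⟩, ?_⟩
        rintro (_ | l) ⟨-, hl⟩
        · exact absurd hl haK
        · replace hl := H1.mem_conj_smul.mp hl
          have h1 : (k : F)⁻¹ * l ∈ H := by
            by_contra h2
            have : (k : F)⁻¹ * a * k ∈ H ⊓ MulAut.conj ((k : F)⁻¹ * l) • H :=
              ⟨hk, H1.mem_conj_smul.mpr (by convert hl using 1; group)⟩
            rw [hH.2.2 _ h2, mem_bot] at this
            exact ha (by simpa [mul_assoc, inv_mul_eq_one] using this)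
          have := disjoint_def.mp hc.disjoint (K.mul_mem (K.inv_mem k.2) l.2) h1
          rw [Subtype.ext (inv_mul_eq_one.mp this : (k : F) = l)])
    (by
      rw [Finset.card_univ, Fintype.card_option, Nat.add_sub_cancel, ← Nat.card_eq_fintype_card]
      rw [← hK] at hcop
      exact hcop.symm)
  rcases i with _ | k
  · refine absurd (Subtype.ext ?_) hv
    refine (mem_bot (G := G)).mp (hCK ▸ mem_inf.mpr ⟨v.2, ?_⟩)
    rintro _ ⟨b, hb, rfl⟩
    rw [← hK] at hb
    exact ((H1.conjHom_eq_self_iff hFV b v).mp (h b hb)).symm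
  · intro h0
    have h1 : ((H1.conjHom hFV (k : F)⁻¹ v : V) : G) ∈
        V ⊓ centralizer ((H.map F.subtype : Subgroup G) : Set G) := by
      refine ⟨Subtype.prop _, ?_⟩
      rintro _ ⟨b, hb, rfl⟩
      refine ((H1.conjHom_eq_self_iff hFV b _).mp ?_).symm
      have := h (k * b * (k : F)⁻¹) (H1.mem_conj_smul.mpr (by simpa [mul_assoc] using hb))
      conv_rhs => rw [← this]
      rw [← MulAut.mul_apply, ← MulAut.mul_apply, ← map_mul, ← map_mul]
      congr 2; group
    rw [h0, mem_bot, OneMemClass.coe_eq_one] at h1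
    exact hv (by simpa using h1)

end Cfsg.Agent.S0666
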