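import Cfsg.Statements.S0668
import Mathlib
import Cfsg.Agent.H2.Perm2

set_option autoImplicit false
open Cfsg

namespace Cfsg.Agent.S0668

/-- The equivariant linear maps between the permutation modules of two finite `G`-sets form a space whose dimension is the number of `G`-orbits on the product of the two sets. -/
theorem result {G : Type*} [Group G] {K : Type*} [Field K] {Ω₁ Ω₂ : Type*} [Fintype Ω₁] [Fintype Ω₂] [MulAction G Ω₁] [MulAction G Ω₂] : Module.finrank K ((Cfsg.permRep K G Ω₁).linHom (Cfsg.permRep K G Ω₂)).invariants = Nat.card (MulAction.orbitRel.Quotient G (Ω₁ × Ω₂)) := by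
  classical
  let F : (MulAction.orbitRel.Quotient G (Ω₁ × Ω₂) → K) →ₗ[K] ((Ω₁ → K) →ₗ[K] (Ω₂ → K)) :=
    (Matrix.toLin' (R := K) (m := Ω₂) (n := Ω₁)).toLinearMap ∘ₗ
      { toFun := fun φ => Matrix.of fun y x => φ (Quotient.mk'' (x, y))
        map_add' := fun _ _ => rfl
        map_smul' := fun _ _ => rfl }
  have hF : ∀ φ v y, F φ v y = ∑ x, φ (Quotient.mk'' (x, y)) * v x := fun φ v y => by
    simp [F, Matrix.mulVec, dotProduct]; rfl
  have hinj : Function.Injective F := by
    rw [← LinearMap.ker_eq_bot, eq_bot_iff]
    intro φ hφ
    rw [Submodule.mem_bot]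
    ext q
    induction q using Quotient.inductionOn' with | h z => ?_
    have := hF φ (Pi.single z.1 1) z.2
    rw [LinearMap.mem_ker.1 hφ] at this
    simpa [Pi.single_apply] using this.symm
  have hr : LinearMap.range F =
      ((Cfsg.permRep K G Ω₁).linHom (Cfsg.permRep K G Ω₂)).invariants := by
    ext T
    rw [Representation.mem_invariants]
    constructor
    · rintro ⟨φ, rfl⟩ g
      refine LinearMap.ext fun v => funext fun y => ?_
      rw [Representation.linHom_apply]
      simp only [LinearMap.comp_apply, H2.Pm.permRep_apply, hF, inv_inv]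
      refine Fintype.sum_equiv (MulAction.toPerm g) _ _ fun x => ?_
      congr 2
      exact Quotient.sound' ⟨g⁻¹, by simp⟩
    · intro h
      refine ⟨Quotient.lift (fun z => T (Pi.single z.1 1) z.2) ?_, ?_⟩
      · rintro a b ⟨g, rfl⟩
        have := congrArg (fun S => S (Pi.single (g • b.1) 1) (g • b.2)) (h g)
        simp only [Representation.linHom_apply, LinearMap.comp_apply, H2.Pm.permRep_apply,
          inv_smul_smul] at this
        simp only [Prod.smul_fst, Prod.smul_snd]
        rw [← this]
        refine congrArg (fun w => T w b.2) ?_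
        ext x
        simp [Pi.single_apply]
      · refine LinearMap.ext fun v => funext fun y => ?_
        rw [hF, LinearMap.pi_apply_eq_sum_univ T v, Finset.sum_apply]
        refine Finset.sum_congr rfl fun x _ => ?_
        rw [Pi.smul_apply, smul_eq_mul, mul_comm]
        congr 1
        refine congrArg (fun w => T w y) ?_
        ext z
        simp [Pi.single_apply, eq_comm]
  rw [← hr, LinearMap.finrank_range_of_inj hinj, Module.finrank_pi, Nat.card_eq_fintype_card]

end Cfsg.Agent.S0668
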