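import Cfsg.Statements.S0669
import Mathlib
import Cfsg.Agent.H2.Perm1

set_option autoImplicit false
open Cfsg

namespace Cfsg.Agent.S0669

/-- The rank of a transitive action: orbits on ordered pairs correspond to orbits of a point stabiliser. -/
theorem result {G : Type*} [Group G] {Ω : Type*} [Finite Ω] [MulAction G Ω] [MulAction.IsPretransitive G Ω] (a : Ω) : Nat.card (MulAction.orbitRel.Quotient G (Ω × Ω)) = Nat.card (MulAction.orbitRel.Quotient (MulAction.stabilizer G a) Ω) := by
  symm
  let F : MulAction.orbitRel.Quotient (MulAction.stabilizer G a) Ω →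
      MulAction.orbitRel.Quotient G (Ω × Ω) :=
    Quotient.map' (fun b => (a, b)) (by
      rintro b c ⟨g, hg⟩
      exact ⟨g.1, Prod.ext g.2 hg⟩)
  apply Nat.card_eq_of_bijective F
  constructor
  · intro x y
    induction x using Quotient.inductionOn' with | h b => ?_
    induction y using Quotient.inductionOn' with | h c => ?_
    intro h
    obtain ⟨g, hg⟩ := Quotient.exact' h
    exact Quotient.sound' ⟨⟨g, congrArg Prod.fst hg⟩, congrArg Prod.snd hg⟩
  · intro x
    induction x using Quotient.inductionOn' with | h z => ?_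
    obtain ⟨g, hg⟩ := MulAction.exists_smul_eq G z.1 a
    exact ⟨Quotient.mk'' (g • z.2), Quotient.sound' ⟨g, Prod.ext hg rfl⟩⟩

end Cfsg.Agent.S0669
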