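import Cfsg.Statements.S0681
import Cfsg.Agent.H4.Sharp2

set_option autoImplicit false
open Cfsg

namespace Cfsg.Agent.S0681

open Cfsg.Agent.H4


/-- The affine maps `x ↦ x * a + b`, `a ≠ 0`, of a near-field form a sharply doubly transitive permutation group. -/
theorem result {F : Type*} [Cfsg.NearField F] : ∃ H : Subgroup (Equiv.Perm F), (∀ σ : Equiv.Perm F, σ ∈ H ↔ ∃ a b : F, a ≠ 0 ∧ ∀ x : F, σ x = x * a + b) ∧ MulAction.IsMultiplyPretransitive H F 2 ∧ ∀ x : Fin 2 ↪ F, MulAction.stabilizer H x = ⊥ := by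
  have hz : ∀ a : F, 0 * a = 0 := fun a => by
    have := Cfsg.NearField.right_distrib (0 : F) 0 a
    rw [add_zero] at this
    exact left_eq_add.1 this
  have hneg : ∀ a c : F, (-a) * c = -(a * c) := fun a c => by
    have := Cfsg.NearField.right_distrib (-a) a c
    rw [neg_add_cancel, hz] at this
    exact eq_neg_of_add_eq_zero_left this.symm
  have hne : ∀ a c : F, a ≠ 0 → c ≠ 0 → a * c ≠ 0 := fun a c ha hc h => by
    obtain ⟨u, hu, -⟩ := Cfsg.NearField.exists_inv c hc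
    exact ha (by rw [← mul_one a, ← hu, ← mul_assoc, h, hz])
  have hinv : ∀ a : F, a ≠ 0 → ∃ u, u ≠ 0 ∧ a * u = 1 ∧ u * a = 1 := fun a ha => by
    obtain ⟨u, hu, hu'⟩ := Cfsg.NearField.exists_inv a ha
    refine ⟨u, ?_, hu, hu'⟩
    rintro rfl
    rw [hz] at hu'
    exact Cfsg.NearField.zero_ne_one hu'
  let H : Subgroup (Equiv.Perm F) :=
    { carrier := {σ | ∃ a b : F, a ≠ 0 ∧ ∀ x : F, σ x = x * a + b}
      one_mem' := ⟨1, 0, Cfsg.NearField.zero_ne_one.symm, fun x => by simp⟩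
      mul_mem' := by
        rintro σ τ ⟨a, b, ha, hσ⟩ ⟨c, d, hc, hτ⟩
        refine ⟨c * a, d * a + b, hne c a hc ha, fun x => ?_⟩
        rw [Equiv.Perm.mul_apply, hτ, hσ, Cfsg.NearField.right_distrib, mul_assoc, add_assoc]
      inv_mem' := by
        rintro σ ⟨a, b, ha, hσ⟩
        obtain ⟨u, hu0, hu, hu'⟩ := hinv a ha
        refine ⟨u, (-b) * u, hu0, fun x => ?_⟩
        rw [Equiv.Perm.inv_eq_iff_eq, hσ, ← Cfsg.NearField.right_distrib, mul_assoc, hu', mul_one,
          neg_add_cancel_right] }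
  refine ⟨H, fun σ => Iff.rfl, MulAction.is_two_pretransitive_iff.2 fun {a b c d} hab hcd => ?_,
    fun x => eq_bot_iff.2 fun g hg => ?_⟩
  · obtain ⟨u, hu0, hu, hu'⟩ := hinv (b + -a) (fun h => hab (by
      rw [← sub_eq_add_neg, sub_eq_zero] at h; exact h.symm))
    have h1 : d + -c ≠ 0 := fun h => hcd (by rw [← sub_eq_add_neg, sub_eq_zero] at h; exact h.symm)
    have h2 := hne _ _ hu0 h1
    obtain ⟨v, hv0, hv, hv'⟩ := hinv _ h2
    refine ⟨⟨⟨fun x => x * (u * (d + -c)) + (-(a * (u * (d + -c))) + c),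
      fun y => (y + -(-(a * (u * (d + -c))) + c)) * v, fun x => ?_, fun y => ?_⟩,
      _, _, h2, fun x => rfl⟩, ?_, ?_⟩
    · simp only
      rw [add_neg_cancel_right, mul_assoc, hv, mul_one]
    · simp only
      rw [mul_assoc, hv', mul_one, neg_add_cancel_right]
    · change a * (u * (d + -c)) + (-(a * (u * (d + -c))) + c) = c
      rw [add_neg_cancel_left]
    · change b * (u * (d + -c)) + (-(a * (u * (d + -c))) + c) = d
      rw [← add_assoc, ← hneg, ← Cfsg.NearField.right_distrib, ← mul_assoc, hu, one_mul,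
        neg_add_cancel_right]
  · obtain ⟨σ, a, b, ha, hσ⟩ := g
    have h0 : σ (x 0) = x 0 := congrArg (fun f : Fin 2 ↪ F => f 0) hg
    have h1 : σ (x 1) = x 1 := congrArg (fun f : Fin 2 ↪ F => f 1) hg
    have h2 : x 0 + -x 1 ≠ 0 := fun h => by
      rw [← sub_eq_add_neg, sub_eq_zero] at h
      exact absurd (x.injective h) (by decide)
    obtain ⟨u, hu0, hu, hu'⟩ := hinv _ h2
    have h3 : (x 0 + -x 1) * a = x 0 + -x 1 := by
      rw [hσ] at h0 h1
      rw [Cfsg.NearField.right_distrib, hneg]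
      nth_rewrite 2 [← h0, ← h1]
      rw [neg_add_rev, add_assoc, add_neg_cancel_left]
    have h4 : a = 1 := by rw [← one_mul a, ← hu', mul_assoc, h3]
    rw [hσ, h4, mul_one] at h0
    refine Subtype.ext (Equiv.ext fun y => ?_)
    change σ y = y
    rw [hσ, h4, mul_one, add_eq_left.1 h0, add_zero]

end Cfsg.Agent.S0681
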