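import Cfsg.Statements.S0682
import Cfsg.Agent.H4.Sharp2

set_option autoImplicit false
open Cfsg

namespace Cfsg.Agent.S0682

open Cfsg.Agent.H4


/-- A finite near-field has prime-power order; its additive group is commutative of prime exponent. -/
theorem result {F : Type*} [Cfsg.NearField F] [Finite F] : ∃ p j : ℕ, p.Prime ∧ 1 ≤ j ∧ Nat.card F = p ^ j ∧ (∀ x y : F, x + y = y + x) ∧ ∀ x : F, p • x = 0 := by
  have : Nontrivial (Multiplicative F) := ⟨(0 : F), (1 : F), Cfsg.NearField.zero_ne_one (F := F)⟩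
  obtain ⟨p, j, hp, hj, h1, h2, h3⟩ := elem_of_trans_aut (M := Multiplicative F) fun x y hx hy => by
    obtain ⟨u, hu, hu'⟩ := Cfsg.NearField.exists_inv (F := F) x.toAdd hx
    obtain ⟨v, hv, hv'⟩ := Cfsg.NearField.exists_inv (F := F) y.toAdd hy
    refine ⟨AddMonoidHom.toMultiplicative (AddMonoidHom.mk' (fun z : F => z * (u * y.toAdd))
      fun a b => Cfsg.NearField.right_distrib a b _), fun z => ⟨Multiplicative.ofAdd
        (z.toAdd * (v * x.toAdd)), ?_⟩, ?_⟩
    · change Multiplicative.ofAdd (z.toAdd * (v * x.toAdd) * (u * y.toAdd)) = z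
      rw [mul_assoc, mul_assoc, ← mul_assoc _ u, hu, one_mul, hv', mul_one]; rfl
    · change Multiplicative.ofAdd (x.toAdd * (u * y.toAdd)) = y
      rw [← mul_assoc, hu, one_mul]; rfl
  exact ⟨p, j, hp, hj, h1, h2, h3⟩

end Cfsg.Agent.S0682
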