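import Cfsg.Statements.S0683
import Cfsg.Agent.H4.Sharp2

set_option autoImplicit false
open Cfsg

namespace Cfsg.Agent.S0683

open Cfsg.Agent.H4


/-- A finite sharply doubly transitive permutation group is the affine group of a near-field: the permuted set carries a near-field structure for which the group consists exactly of the maps `x ↦ x * a + b` with `a ≠ 0`. -/
theorem result {α : Type*} [Fintype α] [DecidableEq α] (H : Subgroup (Equiv.Perm α)) [MulAction.IsMultiplyPretransitive H α 2] (hsharp : ∀ x : Fin 2 ↪ α, MulAction.stabilizer H x = ⊥) (h2 : 2 ≤ Fintype.card α) : ∃ _ : Cfsg.NearField α, ∀ σ : Equiv.Perm α, σ ∈ H ↔ ∃ a b : α, a ≠ 0 ∧ ∀ x : α, σ x = x * a + b := by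
  classical
  have : Nontrivial α := Fintype.one_lt_card_iff_nontrivial.1 h2
  obtain ⟨h3, h4⟩ := two_of_sharp2 H hsharp
  obtain ⟨M, p, j, hM, h5, h6, -, -, -, h8, -⟩ := exists_sharp2_kernel h3 h4
  obtain ⟨o, e, hoe⟩ := exists_pair_ne α
  have hr : ∀ m ∈ M, ∀ c : α, m • c = c → m = 1 := fun m hm c hc =>
    ((h5 m).1 hm).resolve_right fun h => h c hc
  have hext : ∀ m ∈ M, ∀ n ∈ M, m • o = n • o → m = n := fun m hm n hn h =>
    (inv_mul_eq_one.1 (hr _ (M.mul_mem (M.inv_mem hn) hm) o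
      (by rw [mul_smul, h, inv_smul_smul]))).symm
  have hext2 : ∀ g k : H, g • o = k • o → g • e = k • e → g = k := fun g k h h' =>
    (inv_mul_eq_one.1 (h4 _ o e hoe (by rw [mul_smul, h, inv_smul_smul])
      (by rw [mul_smul, h', inv_smul_smul]))).symm
  choose t ht ht' using h6 o
  have hd : ∀ y : α, ∃ g : H, y ≠ o → g • o = o ∧ g • e = y := fun y => by
    by_cases hy : y = o
    · exact ⟨1, fun h => absurd hy h⟩
    · obtain ⟨g, h⟩ := h3 o e o y hoe (Ne.symm hy)
      exact ⟨g, fun _ => h⟩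
  choose d hd using hd
  have hto : t o = 1 := hr _ (ht o) o (ht' o)
  have htt : ∀ x y, t (t x • y) = t x * t y := fun x y =>
    hext _ (ht _) _ (M.mul_mem (ht x) (ht y)) (by rw [ht', mul_smul, ht'])
  have hcomm : ∀ x y, t x • y = t y • x := fun x y => by
    conv_lhs => rw [← ht' y, ← mul_smul, h8 _ (ht x) _ (ht y), mul_smul, ht']
  have hconj : ∀ g : H, g • o = o → ∀ x y : α, g • t x • y = t (g • x) • g • y := fun g hg x y => by
    have : t (g • x) = g * t x * g⁻¹ := hext _ (ht _) _ (hM.conj_mem _ (ht x) g) (by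
      rw [ht', mul_smul, mul_smul, inv_smul_eq_iff.2 hg.symm, ht'])
    rw [this, mul_smul, mul_smul, inv_smul_smul]
  let mu : α → α → α := fun x y => if y = o then o else d y • x
  have hmu : ∀ x y, y ≠ o → mu x y = d y • x := fun x y hy => if_neg hy
  have hmu0 : ∀ x, mu x o = o := fun x => if_pos rfl
  have hne : ∀ (g : H) y, g • o = o → y ≠ o → g • y ≠ o := fun g y hg hy h =>
    hy (MulAction.injective g (h.trans hg.symm))
  have hde : d e = 1 := hext2 _ _ (by rw [(hd e hoe.symm).1, one_smul])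
    (by rw [(hd e hoe.symm).2, one_smul])
  have hdd : ∀ (g : H) y, g • o = o → y ≠ o → d (g • y) = g * d y := fun g y hg hy =>
    hext2 _ _ (by rw [(hd _ (hne g y hg hy)).1, mul_smul, (hd y hy).1, hg])
      (by rw [(hd _ (hne g y hg hy)).2, mul_smul, (hd y hy).2])
  let : Add α := ⟨fun x y => t x • y⟩
  let : Zero α := ⟨o⟩
  let : Neg α := ⟨fun x => (t x)⁻¹ • o⟩
  let : Mul α := ⟨mu⟩
  let : One α := ⟨e⟩
  let A : AddGroup α := AddGroup.ofLeftAxioms
    (fun x y z => by
      change t (t x • y) • z = t x • t y • z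
      rw [htt, mul_smul])
    (fun x => by
      change t o • x = x
      rw [hto, one_smul])
    (fun x => by
      change t ((t x)⁻¹ • o) • x = o
      rw [hcomm, smul_inv_smul])
  let B : Monoid α :=
    { mul_assoc := fun x y z => by
        change mu (mu x y) z = mu x (mu y z)
        by_cases hz : z = o
        · rw [hz, hmu0, hmu0, hmu0]
        by_cases hy : y = o
        · rw [hy, hmu0, hmu _ _ hz, (hd z hz).1, hmu0]
        rw [hmu _ _ hz, hmu _ _ hz, hmu _ _ hy, hmu _ _ (hne _ _ (hd z hz).1 hy),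
          hdd _ _ (hd z hz).1 hy, mul_smul]
      one_mul := fun x => by
        change mu e x = x
        by_cases hx : x = o
        · rw [hx, hmu0]
        · rw [hmu _ _ hx, (hd x hx).2]
      mul_one := fun x => by
        change mu x e = x
        rw [hmu _ _ hoe.symm, hde, one_smul] }
  refine ⟨{ A, B with
    right_distrib := fun x y z => ?_
    mul_zero := hmu0
    zero_ne_one := hoe
    exists_inv := fun x hx => ⟨(d x)⁻¹ • e, ?_, ?_⟩ }, fun σ => ⟨fun hσ => ?_, ?_⟩⟩
  · change mu (t x • y) z = t (mu x z) • mu y z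
    by_cases hz : z = o
    · rw [hz, hmu0, hmu0, hmu0, ht']
    · rw [hmu _ _ hz, hmu _ _ hz, hmu _ _ hz, hconj _ (hd z hz).1]
  · change mu x ((d x)⁻¹ • e) = e
    have h1 : (d x)⁻¹ • o = o := inv_smul_eq_iff.2 (hd x hx).1.symm
    rw [hmu _ _ (hne _ _ h1 hoe.symm), hdd _ _ h1 hoe.symm, hde, mul_one, inv_smul_eq_iff,
      (hd x hx).2]
  · change mu ((d x)⁻¹ • e) x = e
    rw [hmu _ _ hx, smul_inv_smul]
  · let g : H := ⟨σ, hσ⟩
    have h1 : ((t (g • o))⁻¹ * g) • o = o := by rw [mul_smul, inv_smul_eq_iff, ht']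
    refine ⟨((t (g • o))⁻¹ * g) • e, g • o, hne _ _ h1 hoe.symm, fun x => ?_⟩
    change g • x = t (mu x (((t (g • o))⁻¹ * g) • e)) • g • o
    rw [hmu _ _ (hne _ _ h1 hoe.symm), hdd _ _ h1 hoe.symm, hde, mul_one, hcomm, mul_smul,
      smul_inv_smul]
  · rintro ⟨a, b, ha, h⟩
    have : σ = ((t b * d a : H) : Equiv.Perm α) := Equiv.ext fun x => by
      rw [h]
      change t (mu x a) • b = (t b * d a) • x
      rw [hmu _ _ ha, hcomm, mul_smul]
    rw [this]; exact Subtype.prop _

end Cfsg.Agent.S0683
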