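import Cfsg.Statements.S0691
import Mathlib
import Cfsg.Agent.H2.Perm9

set_option autoImplicit false
open Cfsg

namespace Cfsg.Agent.S0691

def L : List (H2.Pm.M4 5) :=
  [(1, 0, 0, 1), (2, 0, 0, 3), (0, 4, 1, 0), (1, 2, 1, 3), (4, 0, 0, 4), (0, 2, 2, 0), (2, 1, 2,
  4), (0, 3, 3, 0), (2, 4, 3, 4), (4, 2, 1, 2), (3, 3, 4, 1), (3, 0, 0, 2), (0, 1, 4, 0), (4, 3,
  4, 2), (3, 1, 2, 1), (1, 4, 3, 3), (1, 3, 4, 3), (3, 2, 1, 1), (3, 4, 3, 1), (1, 1, 2, 3), (2,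
  2, 1, 4), (2, 3, 4, 4), (4, 4, 3, 2), (4, 1, 2, 2)]

def W : List (List ℕ) :=
  [[], [0], [1], [2], [0, 0], [1, 0], [2, 0], [0, 1], [2, 1], [1, 2], [2, 2], [0, 0, 0], [1, 0,
  0], [2, 0, 0], [1, 2, 0], [2, 2, 0], [2, 0, 1], [2, 2, 1], [0, 1, 2], [2, 1, 2], [2, 2, 0, 0],
  [2, 1, 2, 0], [2, 2, 0, 1], [2, 0, 1, 2]]

theorem hW : W.map (H2.Pm.evW (p := 5) (2, 0, 0, -2) (0, -1, 1, 0) (1, 2, 1, -2)) = L := by
  decide +kernel
theorem hcl : ∀ m ∈ L, m.mul (2, 0, 0, -2) ∈ L ∧ m.mul (0, -1, 1, 0) ∈ L ∧ m.mul (1, 2, 1, -2) ∈ L := by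
  decide +kernel
theorem htr : ∀ x y : ZMod 5, ¬ (x = 0 ∧ y = 0) → ∃ m ∈ L, m.1 = x ∧ m.2.2.1 = y := by
  decide +kernel
theorem hst : ∀ m ∈ L, m.1 = 1 → m.2.2.1 = 0 → m = (1, 0, 0, 1) := by decide +kernel

/-- An exceptional sharply doubly transitive group of degree 5^2: the listed matrices generate a subgroup of GL(2,5) of order 24 acting regularly on the non-zero vectors. -/
theorem result (A : Matrix.GeneralLinearGroup (Fin 2) (ZMod 5)) (B : Matrix.GeneralLinearGroup (Fin 2) (ZMod 5)) (C : Matrix.GeneralLinearGroup (Fin 2) (ZMod 5)) (hA : (A : Matrix (Fin 2) (Fin 2) (ZMod 5)) = !![2, 0; 0, -2]) (hB : (B : Matrix (Fin 2) (Fin 2) (ZMod 5)) = !![0, -1; 1, 0]) (hC : (C : Matrix (Fin 2) (Fin 2) (ZMod 5)) = !![1, 2; 1, -2]) : Nat.card (Subgroup.closure ({A, B, C} : Set (Matrix.GeneralLinearGroup (Fin 2) (ZMod 5)))) = 24 ∧ ∀ v w : Fin 2 → ZMod 5, v ≠ 0 → w ≠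 0 → ∃! h : Subgroup.closure ({A, B, C} : Set (Matrix.GeneralLinearGroup (Fin 2) (ZMod 5))), Matrix.mulVec ((h : Matrix.GeneralLinearGroup (Fin 2) (ZMod 5)) : Matrix (Fin 2) (Fin 2) (ZMod 5)) v = w := by
  haveI : Fact (Nat.Prime 5) := ⟨by norm_num⟩
  have a := H2.Pm.toM4_eq hA
  have b := H2.Pm.toM4_eq hB
  have c := H2.Pm.toM4_eq hC
  refine H2.Pm.regular_of_checks _ (fun x y h => ?_) fun h hh => hst _ ?_
  · obtain ⟨m, hm, e⟩ := htr x y h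
    rw [← hW] at hm
    obtain ⟨w, -, rfl⟩ := List.mem_map.1 hm
    obtain ⟨g, hg, e'⟩ := H2.Pm.exists_evW (Subgroup.closure {A, B, C}) (A := A) (B := B) (C := C)
      (Subgroup.subset_closure (by simp)) (Subgroup.subset_closure (by simp))
      (Subgroup.subset_closure (by simp)) w
    exact ⟨g, hg, by rwa [e', a, b, c]⟩
  · refine H2.Pm.mem_of_closed _ (· ∈ L) (by decide +kernel) ?_ h hh
    rintro s (rfl | rfl | rfl) m hm
    · rw [a]; exact (hcl m hm).1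
    · rw [b]; exact (hcl m hm).2.1
    · rw [c]; exact (hcl m hm).2.2

end Cfsg.Agent.S0691
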