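import Cfsg.Statements.S0694
import Mathlib

set_option autoImplicit false
open Cfsg

namespace Cfsg.Agent.S0694

theorem aux (q r e i : ℕ) (hq : 2 ≤ q) (hr : r.Prime) (hrq : r ∣ q - 1)
    (h2 : r = 2 → 4 ∣ q - 1 ∨ e ≤ 1) :
    r ^ e ∣ ∑ j ∈ Finset.range i, q ^ j ↔ r ^ e ∣ i := by
  have hg : ((∑ j ∈ Finset.range i, q ^ j : ℕ) : ℤ) * ((q : ℤ) - 1) = (q : ℤ) ^ i - 1 ^ i := by
    push_cast; rw [geom_sum_mul, one_pow]
  have hcast : ((q - 1 : ℕ) : ℤ) = (q : ℤ) - 1 := by rw [Nat.cast_sub (by omega)]; simp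
  have hrq' : (r : ℤ) ∣ (q : ℤ) - 1 := by rw [← hcast]; exact_mod_cast hrq
  have hnq : ¬ (r : ℤ) ∣ (q : ℤ) := fun h => by
    have := dvd_sub h hrq'
    rw [sub_sub_cancel] at this
    exact hr.one_lt.ne' (by exact_mod_cast Int.eq_one_of_dvd_one (by positivity) this)
  have hfin : emultiplicity (r : ℤ) ((q : ℤ) - 1) ≠ ⊤ :=
    finiteMultiplicity_iff_emultiplicity_ne_top.1
      (Int.finiteMultiplicity_iff.2 ⟨by simpa using hr.ne_one, by omega⟩)
  have fin : emultiplicity (r : ℤ) ((q : ℤ) ^ i - 1 ^ i) =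
      emultiplicity (r : ℤ) ((q : ℤ) - 1) + emultiplicity r i →
      (r ^ e ∣ ∑ j ∈ Finset.range i, q ^ j ↔ r ^ e ∣ i) := by
    intro h
    rw [← hg, emultiplicity_mul (Nat.prime_iff_prime_int.1 hr), add_comm,
      Int.natCast_emultiplicity] at h
    rw [pow_dvd_iff_le_emultiplicity, pow_dvd_iff_le_emultiplicity,
      ENat.add_right_injective_of_ne_top hfin h]
  rcases hr.eq_two_or_odd' with rfl | hodd
  · rcases h2 rfl with h | h
    · apply fin
      have := Int.two_pow_sub_pow' (x := q) (y := 1) i (by rw [← hcast]; exact_mod_cast h) hnq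
      rw [← Int.natCast_emultiplicity]
      exact this
    · interval_cases e
      · simp
      · have : ∑ j ∈ Finset.range i, q ^ j ≡ i [MOD 2] := by
          clear hg fin
          induction i with
          | zero => rfl
          | succ i ih =>
            rw [Finset.sum_range_succ]
            refine Nat.ModEq.add ih ?_
            simpa using ((Nat.modEq_iff_dvd' (by omega)).2 hrq).symm.pow i
        rw [pow_one, ← Nat.modEq_zero_iff_dvd, ← Nat.modEq_zero_iff_dvd]
        exact ⟨this.symm.trans, this.trans⟩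
  · exact fin (Int.emultiplicity_pow_sub_pow hr hodd hrq' hnq i)

/-- The Dickson pair condition: for a prime power `q` and `n > 1`, (every prime factor of `n` divides `q - 1`, and `4 ∣ n → 4 ∣ q - 1`) holds exactly when `q ^ n ≡ 1` modulo `n * (q - 1)` but `q ^ i` is not, for `0 < i < n`. -/
theorem result (q n : ℕ) (hq : IsPrimePow q) (hn : 1 < n) : ((∀ r : ℕ, r.Prime → r ∣ n → r ∣ q - 1) ∧ (4 ∣ n → 4 ∣ q - 1)) ↔ (q ^ n ≡ 1 [MOD n * (q - 1)] ∧ ∀ i : ℕ, 0 < i → i < n → ¬ q ^ i ≡ 1 [MOD n * (q - 1)]) := by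
  have hq2 : 2 ≤ q := hq.two_le
  let N : ℕ → ℕ := fun i => ∑ j ∈ Finset.range i, q ^ j
  have hN : ∀ i, N i * (q - 1) + 1 = q ^ i := fun i => by
    have := geom_sum_mul_add (q - 1) i
    rwa [show q - 1 + 1 = q by omega] at this
  have key : ∀ i, q ^ i ≡ 1 [MOD n * (q - 1)] ↔ n ∣ N i := fun i => by
    rw [Nat.ModEq.comm, Nat.modEq_iff_dvd' (Nat.one_le_pow _ _ (by omega)), ← hN,
      Nat.add_sub_cancel, Nat.mul_dvd_mul_iff_right (by omega)]
  simp only [key]
  constructor
  · rintro ⟨h1, h4⟩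
    have : ∀ i, n ∣ N i ↔ n ∣ i := by
      intro i
      rw [Nat.dvd_iff_prime_pow_dvd_dvd (N i) n, Nat.dvd_iff_prime_pow_dvd_dvd i n]
      refine forall_congr' fun r => forall_congr' fun e => forall_congr' fun hr =>
        forall_congr' fun hd => ?_
      rcases e with _ | e
      · simp
      refine aux q r _ i hq2 hr (h1 r hr ((dvd_pow_self r (by omega)).trans hd)) ?_
      rintro rfl
      rcases e with _ | e
      · exact Or.inr le_rfl
      · exact Or.inl (h4 (dvd_trans ⟨2 ^ e, by ring⟩ hd))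
    simp only [this]
    exact ⟨dvd_rfl, fun i h1 h2 h => absurd (Nat.le_of_dvd h1 h) (by omega)⟩
  · rintro ⟨h1, h2⟩
    haveI : NeZero n := ⟨by omega⟩
    have hsucc : ∀ i, N (i + 1) = q * N i + 1 := fun i => by
      simp only [N, Finset.sum_range_succ', pow_succ', Finset.mul_sum, pow_zero]
    have hadd : ∀ i j, N (i + j) = N i + q ^ i * N j := fun i j => by
      simp only [N, Finset.sum_range_add, pow_add, Finset.mul_sum]
    have hcop : n.Coprime q := by
      obtain ⟨m, rfl⟩ : ∃ m, n = m + 1 := ⟨n - 1, by omega⟩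
      rw [hsucc] at h1
      exact Nat.Coprime.coprime_dvd_left h1 (by simp [add_comm])
    have hinj : Function.Injective fun i : Fin n => (N i : ZMod n) := by
      have : ∀ i j : Fin n, i < j → (N i : ZMod n) ≠ N j := by
        intro i j hij e
        obtain ⟨d, hd⟩ := Nat.exists_eq_add_of_lt hij
        rw [hd, add_assoc, hadd, Nat.cast_add, left_eq_add, ZMod.natCast_eq_zero_iff] at e
        exact h2 (d + 1) (by omega) (by omega) ((hcop.pow_right _).dvd_of_dvd_mul_left e)
      intro i j e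
      rcases lt_trichotomy i j with h | h | h
      · exact absurd e (this i j h)
      · exact h
      · exact absurd e.symm (this j i h)
    have hsurj : ∀ c : ℕ, ∃ i, N i ≡ c [MOD n] := fun c => by
      obtain ⟨i, hi⟩ := (hinj.bijective_of_nat_card_le (by simp)).2 (c : ZMod n)
      exact ⟨i, (ZMod.natCast_eq_natCast_iff _ _ _).1 hi⟩
    have hr : ∀ r : ℕ, r.Prime → r ∣ n → r ∣ q - 1 := by
      intro r hr hd
      by_contra hnd
      haveI := Fact.mk hr
      have h0 : ((q - 1 : ℕ) : ZMod r) ≠ 0 := by rwa [Ne, ZMod.natCast_eq_zero_iff]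
      obtain ⟨i, hi⟩ := hsurj (-((q - 1 : ℕ) : ZMod r)⁻¹).val
      have h3 := (ZMod.natCast_eq_natCast_iff _ _ _).2 (hi.of_dvd hd)
      rw [ZMod.natCast_zmod_val] at h3
      have h4 := congrArg (Nat.cast : ℕ → ZMod r) (hN i)
      rw [Nat.cast_add, Nat.cast_mul, h3, neg_mul, inv_mul_cancel₀ h0, Nat.cast_one, neg_add_cancel,
        eq_comm, ZMod.natCast_eq_zero_iff] at h4
      exact hr.one_lt.ne' (Nat.eq_one_of_dvd_coprimes hcop hd (hr.dvd_of_dvd_pow h4))
    refine ⟨hr, fun h4 => ?_⟩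
    by_contra hn4
    have h2q := hr 2 Nat.prime_two (dvd_trans (by norm_num) h4)
    have hq4 : q % 4 = 3 := by omega
    obtain ⟨i, hi⟩ := hsurj 2
    have : ∀ i, N i % 4 = 0 ∨ N i % 4 = 1 := by
      intro i
      induction i with
      | zero => simp [N]
      | succ i ih =>
        rw [hsucc, Nat.add_mod, Nat.mul_mod, hq4]
        rcases ih with h | h <;> simp [h]
    have h5 := hi.of_dvd h4
    unfold Nat.ModEq at h5
    have := this i
    omega

end Cfsg.Agent.S0694
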