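import Cfsg.Statements.S0695
import Mathlib
import Cfsg.Agent.H2.Perm5

set_option autoImplicit false
open Cfsg

namespace Cfsg.Agent.S0695

/-- A regular normal subgroup of a doubly primitive group of finite degree at least 2 is an elementary abelian 2-group (and the degree is a power of 2), unless the degree is 3. -/
theorem result {G : Type*} [Group G] {X : Type*} [Fintype X] [MulAction G X] (hX : 2 ≤ Fintype.card X) (h2 : MulAction.IsMultiplyPreprimitive G X 2) (N : Subgroup G) [N.Normal] (htrans : MulAction.IsPretransitive N X) (hreg : ∀ x : X, MulAction.stabilizer N x = ⊥) : Fintype.card X = 3 ∨ (IsMulCommutative N ∧ (∀ n ∈ N, n ^ 2 = 1) ∧ ∃ m : ℕ, Fintype.card X = 2 ^ m) := by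
  have htr := (H2.Pm.trans_subgroup_iff N).1 htrans
  have hr : ∀ n ∈ N, ∀ a : X, n • a = a → n = 1 := fun n hn a e => by
    have : (⟨n, hn⟩ : N) ∈ MulAction.stabilizer N a := e
    rw [hreg, Subgroup.mem_bot] at this
    exact congrArg Subtype.val this
  rw [← Nat.card_eq_fintype_card] at hX ⊢
  refine (H2.Pm.regular_two_prim hX h2 htr hr).imp_right fun hsq => ⟨⟨⟨fun a b => ?_⟩⟩, hsq, ?_⟩
  · have h1 : ∀ x : N, x⁻¹ = x := fun x => by
      rw [inv_eq_iff_mul_eq_one, ← sq]; exact Subtype.ext (hsq x x.2)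
    rw [← h1 (a * b), mul_inv_rev, h1, h1]
  · obtain ⟨a⟩ : Nonempty X := (Nat.card_pos_iff.1 (by omega)).1
    have hc := H2.Pm.card_eq_of_regular htr hr a
    have : Finite N := Nat.finite_of_card_ne_zero (by omega)
    haveI : Fact (Nat.Prime 2) := ⟨Nat.prime_two⟩
    have hP : IsPGroup 2 N := fun g => ⟨1, Subtype.ext (by simpa using hsq g g.2)⟩
    rw [← hc]
    exact IsPGroup.iff_card.1 hP

end Cfsg.Agent.S0695
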