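import Cfsg.Statements.S0696
import Mathlib
import Cfsg.Agent.H2.Perm5

set_option autoImplicit false
open Cfsg

namespace Cfsg.Agent.S0696

/-- A triply primitive group of degree at least 3 having a regular normal subgroup has degree 3 or 4. -/
theorem result {G : Type*} [Group G] {X : Type*} [Fintype X] [MulAction G X] (hX : 3 ≤ Fintype.card X) (h3 : MulAction.IsMultiplyPreprimitive G X 3) (N : Subgroup G) [N.Normal] (htrans : MulAction.IsPretransitive N X) (hreg : ∀ x : X, MulAction.stabilizer N x = ⊥) : Fintype.card X = 3 ∨ Fintype.card X = 4 := by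
  have htr := (H2.Pm.trans_subgroup_iff N).1 htrans
  have hr : ∀ n ∈ N, ∀ a : X, n • a = a → n = 1 := fun n hn a e => by
    have : (⟨n, hn⟩ : N) ∈ MulAction.stabilizer N a := e
    rw [hreg, Subgroup.mem_bot] at this
    exact congrArg Subtype.val this
  rw [← Nat.card_eq_fintype_card] at hX ⊢
  exact H2.Pm.regular_three_prim hX h3 htr hr

end Cfsg.Agent.S0696
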