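import Cfsg.Statements.S0697
import Mathlib
import Cfsg.Agent.H2.Perm5

set_option autoImplicit false
open Cfsg

namespace Cfsg.Agent.S0697

/-- In a `k`-primitive permutation group which is not the whole symmetric group, a non-trivial non-regular normal subgroup is `k`-transitive. -/
theorem result {α : Type*} [Fintype α] [DecidableEq α] (G : Subgroup (Equiv.Perm α)) {k : ℕ} (hk : 1 ≤ k) (hkn : k ≤ Fintype.card α) (hG : MulAction.IsMultiplyPreprimitive G α k) (htop : G ≠ ⊤) (H : Subgroup G) [H.Normal] (hH : H ≠ ⊥) (hnr : ∃ a : α, MulAction.stabilizer H a ≠ ⊥) : MulAction.IsMultiplyPretransitive H α k := by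
  rw [← Nat.card_eq_fintype_card] at hkn
  obtain ⟨a, ha⟩ := hnr
  obtain ⟨⟨h, hh⟩, hh1⟩ := Subgroup.ne_bot_iff_exists_ne_one.1 ha
  have hk2 : k + 2 ≤ Nat.card α := by
    by_contra hlt
    exact htop (Equiv.Perm.eq_top_of_isMultiplyPretransitive
      (H2.Pm.mt_le hG.isMultiplyPretransitive (by omega) hkn))
  exact H2.Pm.mt_subgroup_of_levels H fun s hs => H2.Pm.normal_levels hkn hG H
    ⟨h.1, h.2, fun e => hh1 (Subtype.ext (Subtype.ext e)), a, hh⟩ _ hs (by omega) s rfl

end Cfsg.Agent.S0697
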