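import Cfsg.Statements.S0701
import Mathlib
import Cfsg.Agent.H2.Perm1

set_option autoImplicit false
open Cfsg

namespace Cfsg.Agent.S0701

/-- The centraliser in the full symmetric group of a transitive permutation group `G` is semiregular, and it is transitive if and only if `G` is regular. -/
theorem result {α : Type*} (G : Subgroup (Equiv.Perm α)) [MulAction.IsPretransitive G α] : (∀ c ∈ Subgroup.centralizer (G : Set (Equiv.Perm α)), ∀ a : α, c a = a → c = 1) ∧ (MulAction.IsPretransitive (Subgroup.centralizer (G : Set (Equiv.Perm α))) α ↔ ∀ a : α, MulAction.stabilizer G a = ⊥) := by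
  have h1 : ∀ c ∈ Subgroup.centralizer (G : Set (Equiv.Perm α)), ∀ a : α, c a = a → c = 1 := by
    intro c hc a ha
    ext b
    obtain ⟨g, rfl⟩ := MulAction.exists_smul_eq G a b
    have := congrArg (fun σ : Equiv.Perm α => σ a) (hc g.1 g.2)
    simp only [Equiv.Perm.coe_mul, Function.comp_apply, ha] at this
    exact this.symm
  refine ⟨h1, fun ht a => ?_, fun hr => ⟨fun a b => ?_⟩⟩
  · rw [eq_bot_iff]
    intro g hg
    rw [Subgroup.mem_bot]
    ext b
    obtain ⟨c, rfl⟩ := ht.exists_smul_eq a b
    have := congrArg (fun σ : Equiv.Perm α => σ a) (c.2 g.1 g.2)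
    have hg' : g.1 a = a := hg
    simp only [Equiv.Perm.coe_mul, Function.comp_apply, hg'] at this
    exact this
  · have hinj : ∀ (a : α) (g h : G), g • a = h • a → g = h := by
      intro a g h e
      have : h⁻¹ * g ∈ MulAction.stabilizer G a := by
        rw [MulAction.mem_stabilizer_iff, mul_smul, e, inv_smul_smul]
      rw [hr, Subgroup.mem_bot, inv_mul_eq_one] at this
      exact this.symm
    let e : ∀ a : α, G ≃ α := fun a => Equiv.ofBijective (fun g => g • a)
      ⟨hinj a, fun b => MulAction.exists_smul_eq G a b⟩
    have he : ∀ (g : G), ((e a).symm.trans (e b)) (g • a) = g • b := by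
      intro g
      have : (e a).symm (g • a) = g := (e a).symm_apply_apply g
      simp only [Equiv.trans_apply, this]; rfl
    refine ⟨⟨(e a).symm.trans (e b), ?_⟩, by
      have := he 1
      rwa [one_smul, one_smul] at this⟩
    intro g hg
    ext x
    obtain ⟨h, rfl⟩ := MulAction.exists_smul_eq G a x
    have h1 := he h
    have h2 := he (⟨g, hg⟩ * h)
    rw [mul_smul, mul_smul] at h2
    simp only [Equiv.Perm.coe_mul, Function.comp_apply, h1]
    exact h2.symm

end Cfsg.Agent.S0701
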