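import Cfsg.Statements.S0702
import Mathlib
import Cfsg.Agent.H2.Perm6

set_option autoImplicit false
open Cfsg

namespace Cfsg.Agent.S0702

/-- For a transitive permutation group `G` on a finite set, the centraliser of `G` in the symmetric group is isomorphic to `N_G(G_ω)/G_ω`, and its orbit of `ω` is the set of fixed points of `G_ω`. -/
theorem result {α : Type*} [Finite α] (G : Subgroup (Equiv.Perm α)) [MulAction.IsPretransitive G α] (a : α) : Nonempty (Subgroup.centralizer (G : Set (Equiv.Perm α)) ≃* Subgroup.normalizer ((MulAction.stabilizer G a : Subgroup G) : Set G) ⧸ (MulAction.stabilizer G a).subgroupOf (Subgroup.normalizer ((MulAction.stabilizer G a : Subgroup G) : Set G))) ∧ MulAction.orbit (Subgroup.centralizer (G : Set (Equiv.Perm α))) a = MulAction.fixedPoints (MulAction.stabilizer G a) α := by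
  have ht : ∀ a b : α, ∃ g ∈ G, g a = b := (H2.Pm.trans_subgroup_iff G).1 inferInstance
  have hex : ∀ b ∈ MulAction.fixedPoints (MulAction.stabilizer G a) α,
      ∃ c : Subgroup.centralizer (G : Set (Equiv.Perm α)), c.1 a = b := by
    intro b hb
    choose r hr using fun x => MulAction.exists_smul_eq G a x
    have key : ∀ g : G, r (g • a) • b = g • b := by
      intro g
      have := hb ⟨g⁻¹ * r (g • a), by rw [MulAction.mem_stabilizer_iff, mul_smul, hr, inv_smul_smul]⟩
      change (g⁻¹ * r (g • a)) • b = b at this
      rwa [mul_smul, inv_smul_eq_iff] at this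
    have hs : Function.Surjective fun x => r x • b := fun y => by
      obtain ⟨g, rfl⟩ := MulAction.exists_smul_eq G b y
      exact ⟨g • a, key g⟩
    refine ⟨⟨Equiv.ofBijective _ hs.bijective_of_finite, fun g hg => ?_⟩, by simpa using key 1⟩
    ext x
    obtain ⟨k, rfl⟩ := MulAction.exists_smul_eq G a x
    have h1 := key (⟨g, hg⟩ * k)
    rw [mul_smul, mul_smul] at h1
    simp only [Equiv.Perm.coe_mul, Function.comp_apply, Equiv.ofBijective_apply, key]
    exact h1.symm
  have hcomm : ∀ (c : Subgroup.centralizer (G : Set (Equiv.Perm α))) (g : G) (x : α),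
      c.1 (g • x) = g • c.1 x := fun c g x =>
    (congrArg (fun σ : Equiv.Perm α => σ x) (c.2 g.1 g.2)).symm
  have huniq : ∀ c d : Subgroup.centralizer (G : Set (Equiv.Perm α)), c.1 a = d.1 a → c = d := by
    intro c d h
    ext x
    obtain ⟨k, rfl⟩ := MulAction.exists_smul_eq G a x
    rw [hcomm, hcomm, h]
  constructor
  · choose f hf using fun n : Subgroup.normalizer ((MulAction.stabilizer G a : Subgroup G) : Set G) =>
      hex ((n : G)⁻¹ • a) (fun x => by
        have := (n.2 x.1).1 x.2
        change (x : G) • (n : G)⁻¹ • a = _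
        rw [eq_inv_smul_iff, ← mul_smul, ← mul_smul]; exact this)
    let φ : Subgroup.normalizer ((MulAction.stabilizer G a : Subgroup G) : Set G) →*
        Subgroup.centralizer (G : Set (Equiv.Perm α)) := MonoidHom.mk' f fun x y => huniq _ _ (by
      rw [hf, Subgroup.coe_mul, Subgroup.coe_mul, Equiv.Perm.mul_apply, hf, hcomm, hf, mul_inv_rev,
        mul_smul])
    have hsurj : Function.Surjective φ := fun c => by
      obtain ⟨g, hg⟩ := MulAction.exists_smul_eq G (c.1 a) a
      refine ⟨⟨g, fun x => ?_⟩, huniq _ _ ?_⟩
      · simp only [SetLike.mem_coe, MulAction.mem_stabilizer_iff, mul_smul]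
        rw [inv_smul_eq_iff.2 hg.symm, smul_eq_iff_eq_inv_smul g, inv_smul_eq_iff.2 hg.symm,
          ← hcomm, c.1.injective.eq_iff]
      · change (f _).1 a = _
        rw [hf, inv_smul_eq_iff]; exact hg.symm
    have hker : φ.ker = (MulAction.stabilizer G a).subgroupOf _ := by
      ext n
      rw [MonoidHom.mem_ker, Subgroup.mem_subgroupOf, MulAction.mem_stabilizer_iff]
      constructor
      · intro h
        have := hf n
        rw [show f n = 1 from h, eq_inv_smul_iff] at this
        exact this
      · intro h
        refine huniq _ _ ?_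
        change (f _).1 a = _
        rw [hf, inv_smul_eq_iff]; exact h.symm
    exact ⟨((QuotientGroup.quotientKerEquivOfSurjective φ hsurj).symm.trans
      (QuotientGroup.quotientMulEquivOfEq hker))⟩
  · ext b
    refine ⟨?_, hex b⟩
    rintro ⟨c, rfl⟩ x
    change (x : G) • c.1 a = c.1 a
    rw [← hcomm, x.2]

end Cfsg.Agent.S0702
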