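import Cfsg.Statements.S0703
import Mathlib
import Cfsg.Agent.H2.Perm6
import Cfsg.Agent.H2.Basic

set_option autoImplicit false
open Cfsg

namespace Cfsg.Agent.S0703

/-- An abelian transitive minimal normal subgroup `M` of a permutation group on a finite set is self-centralising in the symmetric group, regular, elementary abelian, and is the unique minimal normal subgroup. -/
theorem result {α : Type*} [Finite α] (G : Subgroup (Equiv.Perm α)) (M : Subgroup G) [M.Normal] (hM : M ≠ ⊥) (hmin : ∀ L : Subgroup G, L.Normal → L ≤ M → L = ⊥ ∨ L = M) (hab : IsMulCommutative M) (htrans : MulAction.IsPretransitive M α) : Subgroup.centralizer ((M.map G.subtype : Subgroup (Equiv.Perm α)) : Set (Equiv.Perm α)) = M.map G.subtype ∧ (∀ a : α, MulAction.stabilizer M a = ⊥) ∧ (∃ p : ℕ, p.Prime ∧ ∀ m ∈ M, m ^ p = 1) ∧ ∀ L : Subgroup G, L.Normal → L ≠ ⊥ → (∀ L' : Subgroup G, L'.Normal → L' ≤ L → L' = ⊥ ∨ L' = L) → L = M := by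
  have hc : ∀ m ∈ M, ∀ n ∈ M, m * n = n * m := fun m hm n hn =>
    congrArg Subtype.val (hab.is_comm.comm ⟨m, hm⟩ ⟨n, hn⟩)
  have h1 := H2.Pm.cent_eq_of_trans (H2.Pm.trans_map htrans) (H2.Pm.trans_map htrans)
    (H2.Pm.map_le_cent hc)
  have hM' : H2.IsMinNormal M := ⟨inferInstance, hM, hmin⟩
  refine ⟨h1, H2.Pm.stab_eq_bot_of_cent htrans hc, hM'.exists_prime_of_isMulCommutative,
    fun L hL hL0 hLmin => ?_⟩
  by_contra hne
  have hL' : H2.IsMinNormal L := ⟨hL, hL0, hLmin⟩
  have h2 := hL'.inf_eq_bot_of_ne hM' hne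
  have h3 := H2.Pm.map_le_cent (M := M) (N := L) fun m hm n hn =>
    (Subgroup.commute_of_normal_of_disjoint L M hL inferInstance (disjoint_iff.2 h2) n m hn hm).eq.symm
  rw [h1, Subgroup.map_le_map_iff_of_injective G.subtype_injective] at h3
  exact hL0 (by rw [← h2, inf_eq_left.2 h3])

end Cfsg.Agent.S0703
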