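import Cfsg.Statements.S0704
import Mathlib
import Cfsg.Agent.H2.Perm6
import Cfsg.Agent.H2.Basic

set_option autoImplicit false
open Cfsg

namespace Cfsg.Agent.S0704

/-- Two distinct transitive minimal normal subgroups `M`, `N` of a permutation group are regular, non-abelian, isomorphic, each other's centraliser in the symmetric group, and the only minimal normal subgroups. -/
theorem result {α : Type*} (G : Subgroup (Equiv.Perm α)) (M N : Subgroup G) [M.Normal] [N.Normal] (hM : M ≠ ⊥) (hN : N ≠ ⊥) (hMmin : ∀ L : Subgroup G, L.Normal → L ≤ M → L = ⊥ ∨ L = M) (hNmin : ∀ L : Subgroup G, L.Normal → L ≤ N → L = ⊥ ∨ L = N) (hMN : M ≠ N) (hMt : MulAction.IsPretransitive M α) (hNt : MulAction.IsPretransitive N α) : (∀ a : α, MulAction.stabilizer M a = ⊥) ∧ (∀ a : α, MulAction.stabilizer N a = ⊥) ∧ ¬ IsMulCommutative M ∧ Nonempty (M ≃* N) ∧ Subgroup.centralizer ((M.map G.subtype : Subgroup (Equiv.Perm α)) : Set (Equiv.Perm α)) = N.map G.subtype ∧ Subgroup.centralizer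 ((N.map G.subtype : Subgroup (Equiv.Perm α)) : Set (Equiv.Perm α)) = M.map G.subtype ∧ ∀ L : Subgroup G, L.Normal → L ≠ ⊥ → (∀ L' : Subgroup G, L'.Normal → L' ≤ L → L' = ⊥ ∨ L' = L) → L = M ∨ L = N := by
  have hM' : H2.IsMinNormal M := ⟨inferInstance, hM, hMmin⟩
  have hN' : H2.IsMinNormal N := ⟨inferInstance, hN, hNmin⟩
  have hcomm : ∀ {A B : Subgroup G}, H2.IsMinNormal A → H2.IsMinNormal B → A ≠ B →
      ∀ m ∈ A, ∀ n ∈ B, m * n = n * m := fun hA hB h m hm n hn =>
    (Subgroup.commute_of_normal_of_disjoint _ _ hA.normal hB.normal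
      (disjoint_iff.2 (hA.inf_eq_bot_of_ne hB h)) m n hm hn).eq
  have c1 := hcomm hM' hN' hMN
  have c2 := hcomm hN' hM' hMN.symm
  have r1 := H2.Pm.stab_eq_bot_of_cent hNt c2
  have r2 := H2.Pm.stab_eq_bot_of_cent hMt c1
  have e1 := H2.Pm.cent_eq_of_trans (H2.Pm.trans_map hMt) (H2.Pm.trans_map hNt)
    (H2.Pm.map_le_cent c1)
  have e2 := H2.Pm.cent_eq_of_trans (H2.Pm.trans_map hNt) (H2.Pm.trans_map hMt)
    (H2.Pm.map_le_cent c2)
  refine ⟨r1, r2, fun hab => ?_, ?_, e1, e2, fun L hL hL0 hLmin => ?_⟩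
  · have h3 := H2.Pm.map_le_cent (M := M) (N := M) fun m hm n hn =>
      congrArg Subtype.val (hab.is_comm.comm ⟨m, hm⟩ ⟨n, hn⟩)
    rw [e1, Subgroup.map_le_map_iff_of_injective G.subtype_injective] at h3
    exact hMN (hN'.eq_of_le hM'.normal h3 hM)
  · rcases isEmpty_or_nonempty α with he | ⟨⟨a⟩⟩
    · exact absurd (Subsingleton.elim _ _) hM
    have inj : ∀ {A : Subgroup G}, (∀ a : α, MulAction.stabilizer A a = ⊥) → ∀ x y : A,
        (x : G) • a = (y : G) • a → x = y := by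
      intro A hA x y h
      have : y⁻¹ * x ∈ MulAction.stabilizer A a := by
        rw [MulAction.mem_stabilizer_iff, mul_smul, inv_smul_eq_iff]; exact h
      rw [hA, Subgroup.mem_bot, inv_mul_eq_one] at this
      exact this.symm
    choose f hf using fun m : M => hNt.exists_smul_eq a ((m : G)⁻¹ • a)
    have hf' : ∀ m, (f m : G) • a = (m : G)⁻¹ • a := hf
    let φ : M →* N := MonoidHom.mk' f fun x y => inj r2 _ _ (by
      rw [hf', Subgroup.coe_mul, Subgroup.coe_mul, mul_smul, hf', ← mul_smul (f x : G),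
        ← c1 _ (M.inv_mem y.2) _ (f x).2, mul_smul, hf', mul_inv_rev, mul_smul])
    refine ⟨MulEquiv.ofBijective φ ⟨fun x y h => ?_, fun n => ?_⟩⟩
    · have h1 : f x = f y := h
      have := inj r1 x⁻¹ y⁻¹ (by rw [Subgroup.coe_inv, Subgroup.coe_inv, ← hf', ← hf', h1])
      exact inv_injective this
    · obtain ⟨m, hm⟩ := hMt.exists_smul_eq a ((n : G) • a)
      refine ⟨m⁻¹, inj r2 _ _ ?_⟩
      change (f m⁻¹ : G) • a = _
      rw [hf', Subgroup.coe_inv, inv_inv]; exact hm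
  · by_contra hne
    push_neg at hne
    have hL' : H2.IsMinNormal L := ⟨hL, hL0, hLmin⟩
    have h3 := H2.Pm.map_le_cent (hcomm hM' hL' hne.1.symm)
    rw [e1, Subgroup.map_le_map_iff_of_injective G.subtype_injective] at h3
    exact hne.2 (hN'.eq_of_le hL h3 hL0)

end Cfsg.Agent.S0704
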