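import Cfsg.Statements.S0707
import Mathlib
import Cfsg.Agent.H2.Perm1

set_option autoImplicit false
open Cfsg

namespace Cfsg.Agent.S0707

/-- In a primitive permutation group, distinct points have distinct stabilisers unless the group is regular of prime degree. -/
theorem result {α : Type*} (G : Subgroup (Equiv.Perm α)) [MulAction.IsPreprimitive G α] (h : ¬ (Nat.card α).Prime ∨ ∃ a : α, MulAction.stabilizer G a ≠ ⊥) {a b : α} (hab : a ≠ b) : MulAction.stabilizer G a ≠ MulAction.stabilizer G b := by
  intro heq
  haveI : Nontrivial α := ⟨⟨a, b, hab⟩⟩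
  have hco := MulAction.IsPreprimitive.isCoatom_stabilizer_of_isPreprimitive G a
  obtain ⟨g, hg⟩ := MulAction.exists_smul_eq G a b
  have hgn : g ∈ Subgroup.normalizer (MulAction.stabilizer G a : Set G) := by
    intro x
    simp only [SetLike.mem_coe]
    conv_rhs => rw [heq, ← hg]
    simp [MulAction.mem_stabilizer_iff, mul_smul]
  have hn : Subgroup.normalizer (MulAction.stabilizer G a : Set G) = ⊤ := by
    apply hco.2
    refine lt_of_le_of_ne Subgroup.le_normalizer fun e => ?_
    rw [← e, MulAction.mem_stabilizer_iff, hg] at hgn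
    exact hab hgn.symm
  haveI hN := Subgroup.normalizer_eq_top_iff.1 hn
  have hbot : ∀ c : α, MulAction.stabilizer G c = ⊥ := by
    have : MulAction.stabilizer G a = ⊥ := by
      rw [eq_bot_iff]
      intro x hx
      rw [Subgroup.mem_bot]
      ext c
      obtain ⟨y, rfl⟩ := MulAction.exists_smul_eq G a c
      have := hN.conj_mem x hx y⁻¹
      rw [MulAction.mem_stabilizer_iff, mul_smul, mul_smul, inv_inv, inv_smul_eq_iff] at this
      exact this
    intro c
    obtain ⟨y, rfl⟩ := MulAction.exists_smul_eq G a c
    rw [MulAction.stabilizer_smul_eq_stabilizer_map_conj, this, Subgroup.map_bot]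
  rcases h with h | ⟨c, hc⟩
  · apply h
    rw [hbot a] at hco
    have hnt : Nontrivial G := by
      by_contra hs
      rw [not_nontrivial_iff_subsingleton] at hs
      exact hco.1 (Subsingleton.elim _ _)
    haveI : IsSimpleOrder (Subgroup G) := ⟨fun H => by
      rcases eq_or_ne H ⊥ with h0 | h0
      · exact Or.inl h0
      · exact Or.inr (hco.2 H (bot_lt_iff_ne_bot.2 h0))⟩
    have hs : IsSimpleGroup G := ⟨fun H _ => eq_bot_or_eq_top H⟩
    have hc : IsCyclic G := by
      obtain ⟨x, hx⟩ := exists_ne (1 : G)
      refine ⟨⟨x, fun y => ?_⟩⟩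
      have : Subgroup.zpowers x = ⊤ := (eq_bot_or_eq_top _).resolve_left (by simpa using hx)
      have hy : y ∈ Subgroup.zpowers x := this ▸ Subgroup.mem_top y
      exact hy
    have hp : (Nat.card G).Prime := Group.is_simple_iff_prime_card.1 hs
    rwa [H2.Pm.card_eq_of_trans (G := G) a, hbot a, Subgroup.card_bot, mul_one] at hp
  · exact hc (hbot c)

end Cfsg.Agent.S0707
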