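import Cfsg.Statements.S0708
import Mathlib
import Cfsg.Agent.H2.Perm7

set_option autoImplicit false
open Cfsg

namespace Cfsg.Agent.S0708

/-- Tits' argument: a sharply 4-transitive group (no finiteness assumed) has finite degree at most 11, and at most 6 when the degree is even. -/
theorem result {G : Type*} [Group G] {Ω : Type*} [MulAction G Ω] (h4 : MulAction.IsMultiplyPretransitive G Ω 4) (hsharp : ∀ x : Fin 4 ↪ Ω, MulAction.stabilizer G x = ⊥) (hne : Nonempty (Fin 4 ↪ Ω)) : Finite Ω ∧ Nat.card Ω ≤ 11 ∧ (Even (Nat.card Ω) → Nat.card Ω ≤ 6) := by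
  obtain ⟨x⟩ := hne
  refine H2.Pm.sharp_four h4 (fun g a b c d h1 h2 h3 h4 h5 h6 e1 e2 e3 e4 => ?_)
    (a := x 0) (b := x 1) (p := x 2) (q := x 3) (x.injective.ne (by decide))
    (x.injective.ne (by decide)) (x.injective.ne (by decide)) (x.injective.ne (by decide))
    (x.injective.ne (by decide)) (x.injective.ne (by decide))
  have inj : Function.Injective ![a, b, c, d] := by
    clear e1 e2 e3 e4
    intro i j; fin_cases i <;> fin_cases j <;> simp_all [eq_comm]
  have : g ∈ MulAction.stabilizer G (⟨![a, b, c, d], inj⟩ : Fin 4 ↪ Ω) := by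
    ext i; fin_cases i
    exacts [e1, e2, e3, e4]
  rwa [hsharp, Subgroup.mem_bot] at this

end Cfsg.Agent.S0708
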