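import Cfsg.Statements.S0709
import Mathlib
import Cfsg.Agent.H2.Perm8

set_option autoImplicit false
open Cfsg

namespace Cfsg.Agent.S0709

/-- Witt's Lemma for constructing transitive extensions. Points `q 1, …, q t` (`t ≥ 2`) of a finite set are given; `G` fixes `q i` for `i ≥ 3` and is doubly transitive on the remaining points; `s 1 ∈ G` swaps `q 1, q 2`; for `2 ≤ i ≤ t-1`, `s i` swaps `q i, q (i+1)` and fixes the other `q j`; with `H` the stabiliser of `q 1, q 2` in `G`: `s i ^ 2 ∈ H`, `(s i * s (i+1)) ^ 3 ∈ H`, `(s i * s j) ^ 2 ∈ H` for `j ≥ i + 2`, and `s i` (`i ≥ 2`) normalises the stabiliser of `q 2` in `G`. Then `G` and the `s i` generate a `t`-transitive group whose pointwise stabiliser of the `q`'s is `H`. -/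
theorem result {α : Type*} [Fintype α] [DecidableEq α] (t : ℕ) (ht : 2 ≤ t) (q : ℕ → α) (hq : ∀ i j : ℕ, 1 ≤ i → i ≤ t → 1 ≤ j → j ≤ t → q i = q j → i = j) (G : Subgroup (Equiv.Perm α)) (hfix : ∀ g ∈ G, ∀ i : ℕ, 3 ≤ i → i ≤ t → g (q i) = q i) (h2 : ∀ a b c d : α, (∀ i, 3 ≤ i → i ≤ t → a ≠ q i ∧ b ≠ q i ∧ c ≠ q i ∧ d ≠ q i) → a ≠ b → c ≠ d → ∃ g ∈ G, g a = c ∧ g b = d) (s : ℕ → Equiv.Perm α) (hs1 : s 1 ∈ G) (hs1q : s 1 (q 1) = q 2 ∧ s 1 (q 2) = q 1) (hsq : ∀ i : ℕ, 2 ≤ i → i + 1 ≤ t → s i (q i) = q (i + 1) ∧ s i (q (i + 1)) = q i ∧ ∀ j : ℕ, 1 ≤ j → j ≤ t → j ≠ i → j ≠ i + 1 → s i (q j) = q j) (H : Subgroup (Equiv.Perm α)) (hH : H = G ⊓ MulAction.stabilizer (Equiv.Perm α) (q 1) ⊓ MulAction.stabilizer (Equiv.Perm α) (q 2)) (hsq2 : ∀ i : ℕ, 1 ≤ i → i + 1 ≤ t → s i ^ 2 ∈ H) (hbraid : ∀ i : ℕ, 1 ≤ i → i + 2 ≤ t → (s i * s (i + 1)) ^ 3 ∈ H) (hcomm : ∀ i j : ℕ, 1 ≤ i → i + 2 ≤ j → j + 1 ≤ t → (s i * s j) ^ 2 ∈ H ∧ (s j * s i) ^ 2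 ∈ H) (hnorm : ∀ i : ℕ, 2 ≤ i → i + 1 ≤ t → ∀ g ∈ G ⊓ MulAction.stabilizer (Equiv.Perm α) (q 2), s i * g * (s i)⁻¹ ∈ G ⊓ MulAction.stabilizer (Equiv.Perm α) (q 2)) : MulAction.IsMultiplyPretransitive ↥(Subgroup.closure ((G : Set (Equiv.Perm α)) ∪ {x | ∃ i : ℕ, 2 ≤ i ∧ i + 1 ≤ t ∧ x = s i})) α t ∧ Subgroup.closure ((G : Set (Equiv.Perm α)) ∪ {x | ∃ i : ℕ, 2 ≤ i ∧ i + 1 ≤ t ∧ x = s i}) ⊓ fixingSubgroup (Equiv.Perm α) {x | ∃ i : ℕ, 1 ≤ i ∧ i ≤ t ∧ x = q i} = H := by
  let K : ℕ → Subgroup (Equiv.Perm α) := fun i =>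
    if i ≤ 1 then G ⊓ MulAction.stabilizer (Equiv.Perm α) (q 2) else
      Subgroup.closure ((G : Set (Equiv.Perm α)) ∪ {x | ∃ j : ℕ, 2 ≤ j ∧ j + 1 ≤ i ∧ x = s j})
  have hK1 : K 1 = G ⊓ MulAction.stabilizer (Equiv.Perm α) (q 2) := rfl
  have hK : ∀ i, 2 ≤ i → K i = Subgroup.closure ((G : Set (Equiv.Perm α)) ∪
      {x | ∃ j : ℕ, 2 ≤ j ∧ j + 1 ≤ i ∧ x = s j}) := fun i hi => if_neg (by omega)
  have hK2 : K 2 = G := by
    rw [hK 2 le_rfl, Set.eq_empty_of_forall_notMem (s := {x | _}) (by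
      rintro x ⟨j, h1, h2, -⟩; omega), Set.union_empty, Subgroup.closure_eq]
  have hsucc : ∀ i, 2 ≤ i → K (i + 1) = K i ⊔ Subgroup.closure {s i} := by
    intro i hi
    rw [hK i hi, hK (i + 1) (by omega), ← Subgroup.closure_union, Set.union_assoc]
    congr 2
    ext x
    constructor
    · rintro ⟨j, h1, h2, rfl⟩
      rcases (show j + 1 ≤ i ∨ j = i by omega) with h | rfl
      · exact Or.inl ⟨j, h1, h, rfl⟩
      · exact Or.inr rfl
    · rintro (⟨j, h1, h2, rfl⟩ | rfl)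
      · exact ⟨j, h1, by omega, rfl⟩
      · exact ⟨i, hi, le_rfl, rfl⟩
  have hle : ∀ i, 1 ≤ i → K i ≤ K (i + 1) := by
    intro i hi
    rcases hi.eq_or_lt with rfl | h
    · rw [hK1, hK2]; exact inf_le_left
    · rw [hsucc i h]; exact le_sup_left
  have hmono : ∀ i j, 1 ≤ i → i ≤ j → K i ≤ K j := by
    intro i j hi hij
    induction j, hij using Nat.le_induction with
    | base => exact le_rfl
    | succ j hj ih => exact ih.trans (hle j (by omega))
  have hHK : ∀ i, 1 ≤ i → H ≤ K i := fun i hi => le_trans (by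
    rw [hH, hK1]; exact inf_le_inf_right _ inf_le_left) (hmono 1 i le_rfl hi)
  have hsK : ∀ i, 1 ≤ i → s i ∈ K (i + 1) := by
    intro i hi
    rcases hi.eq_or_lt with rfl | h
    · rwa [hK2]
    · rw [hsucc i h]; exact Subgroup.mem_sup_right (Subgroup.subset_closure rfl)
  have hqne : ∀ i j, 1 ≤ i → i ≤ t → 1 ≤ j → j ≤ t → i ≠ j → q i ≠ q j :=
    fun i j h1 h2 h3 h4 h e => h (hq i j h1 h2 h3 h4 e)
  have hsq' : ∀ i, 1 ≤ i → i + 1 ≤ t → s i (q i) = q (i + 1) := by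
    intro i hi hit
    rcases hi.eq_or_lt with rfl | h
    · exact hs1q.1
    · exact (hsq i h hit).1
  have hsq'' : ∀ i, 1 ≤ i → i + 1 ≤ t → s i (q (i + 1)) = q i := by
    intro i hi hit
    rcases hi.eq_or_lt with rfl | h
    · exact hs1q.2
    · exact (hsq i h hit).2.1
  have hfixK : ∀ i j, 1 ≤ i → i < j → j ≤ t → ∀ g ∈ K i, g (q j) = q j := by
    intro i j hi hij hj
    rcases hi.eq_or_lt with rfl | h
    · rw [hK1]
      intro g hg
      rcases (show j = 2 ∨ 3 ≤ j by omega) with rfl | h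
      · exact hg.2
      · exact hfix g hg.1 j h hj
    · rw [hK i h]
      change _ ≤ MulAction.stabilizer (Equiv.Perm α) (q j)
      rw [Subgroup.closure_le]
      rintro x (hx | ⟨l, h1, h2, rfl⟩)
      · exact hfix x hx j (by omega) hj
      · exact (hsq l h1 (by omega)).2.2 j (by omega) hj (by omega) (by omega)
  have hdc1 : ∀ g ∈ K 2, g ∈ K 1 ∨ ∃ x ∈ K 1, ∃ y ∈ K 1, g = x * s 1 * y := by
    rw [hK1, hK2]
    intro g hg
    by_cases h : g (q 2) = q 2
    · exact Or.inl ⟨hg, h⟩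
    obtain ⟨x, hx, x1, x2⟩ := h2 (q 2) (q 1) (q 2) (g (q 2)) (fun i h3 hi =>
      ⟨hqne 2 i (by omega) ht (by omega) hi (by omega), hqne 1 i le_rfl (by omega) (by omega) hi
        (by omega), hqne 2 i (by omega) ht (by omega) hi (by omega), fun e =>
        hqne 2 i (by omega) ht (by omega) hi (by omega)
          (g.injective (e.trans (hfix g hg i h3 hi).symm))⟩)
      (hqne 2 1 (by omega) ht le_rfl (by omega) (by omega)) (Ne.symm h)
    refine Or.inr ⟨x, ⟨hx, x1⟩, (x * s 1)⁻¹ * g, ⟨G.mul_mem (G.inv_mem (G.mul_mem hx hs1)) hg, ?_⟩,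
      by group⟩
    change ((x * s 1)⁻¹ * g) (q 2) = q 2
    rw [Equiv.Perm.mul_apply, Equiv.Perm.inv_eq_iff_eq, Equiv.Perm.mul_apply, hs1q.2, x2]
  have hconj : ∀ i j, 1 ≤ j → j + 2 ≤ i → i + 1 ≤ t → s i * s j * (s i)⁻¹ ∈ K (i - 1) := by
    intro i j hj hji hi
    have h1 := hHK (i - 1) (by omega) (hcomm j i hj hji hi).1
    have h2 := hHK (i - 1) (by omega) (hsq2 i (by omega) hi)
    have h3 := hmono (j + 1) (i - 1) (by omega) (by omega) (hsK j hj)
    have := Subgroup.mul_mem _ (Subgroup.mul_mem _ (Subgroup.inv_mem _ h3) h1) (Subgroup.inv_mem _ h2)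
    convert this using 1
    rw [sq, sq]; group
  have hnormK : ∀ i, 2 ≤ i → i + 1 ≤ t → ∀ x ∈ K (i - 1), s i * x * (s i)⁻¹ ∈ K (i - 1) := by
    intro i hi hit
    rcases hi.eq_or_lt with rfl | h
    · exact hnorm 2 le_rfl hit
    have h1 : ∀ x ∈ K 1, s i * x * (s i)⁻¹ ∈ K (i - 1) := fun x hx =>
      hmono 1 _ le_rfl (by omega) (hnorm i hi hit x hx)
    change K (i - 1) ≤ (K (i - 1)).comap (MulAut.conj (s i)).toMonoidHom
    conv_lhs => rw [hK (i - 1) (by omega)]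
    rw [Subgroup.closure_le]
    rintro x (hx | ⟨l, l1, l2, rfl⟩)
    · rcases hdc1 x (hK2 ▸ hx) with h | ⟨u, hu, v, hv, rfl⟩
      · exact h1 x h
      · exact Subgroup.mul_mem _ (Subgroup.mul_mem (Subgroup.comap _ _) (h1 u hu)
          (hconj i 1 le_rfl (by omega) hit)) (h1 v hv)
    · exact hconj i l (by omega) (by omega) hit
  have hdc : ∀ i, 1 ≤ i → i + 1 ≤ t → ∀ g ∈ K (i + 1), g ∈ K i ∨
      ∃ x ∈ K i, ∃ y ∈ K i, g = x * s i * y := by
    intro i hi
    induction i, hi using Nat.le_induction with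
    | base => exact fun _ => hdc1
    | succ i hi ih =>
      intro hit
      rw [hsucc (i + 1) (by omega)]
      exact H2.Pm.witt_step (hle i hi) (hsK i hi) (ih (by omega))
        (hnormK (i + 1) (by omega) hit) (hHK i hi (hsq2 (i + 1) (by omega) hit))
        (hHK (i + 1) (by omega) (hbraid i hi hit))
  have hstab : ∀ i, 1 ≤ i → i + 1 ≤ t → ∀ g ∈ K (i + 1), g (q (i + 1)) = q (i + 1) → g ∈ K i := by
    intro i hi hit g hg hgq
    refine (hdc i hi hit g hg).resolve_right ?_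
    rintro ⟨x, hx, y, hy, rfl⟩
    rw [Equiv.Perm.mul_apply, Equiv.Perm.mul_apply, hfixK i (i + 1) hi (by omega) hit y hy,
      hsq'' i hi hit] at hgq
    exact hqne i (i + 1) hi (by omega) (by omega) hit (by omega)
      (x.injective (hgq.trans (hfixK i (i + 1) hi (by omega) hit x hx).symm))
  have htr : ∀ i, 1 ≤ i → i ≤ t → ∀ a, (∀ j, i < j → j ≤ t → a ≠ q j) → ∃ g ∈ K i, g (q 1) = a := by
    intro i hi
    induction i, hi using Nat.le_induction with
    | base =>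
      intro _ a ha
      obtain ⟨x, hx, x1, x2⟩ := h2 (q 2) (q 1) (q 2) a (fun i h3 hi =>
        ⟨hqne 2 i (by omega) ht (by omega) hi (by omega), hqne 1 i le_rfl (by omega) (by omega) hi
          (by omega), hqne 2 i (by omega) ht (by omega) hi (by omega), ha i (by omega) hi⟩)
        (hqne 2 1 (by omega) ht le_rfl (by omega) (by omega)) (ha 2 (by omega) ht).symm
      exact ⟨x, ⟨hx, x1⟩, x2⟩
    | succ i hi ih =>
      intro hit a ha
      by_cases h : a = q (i + 1)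
      · obtain ⟨g, hg, hga⟩ := ih (by omega) (q i) fun j h1 h2 =>
          hqne i j hi (by omega) (by omega) h2 (by omega)
        exact ⟨s i * g, Subgroup.mul_mem _ (hsK i hi) (hle i hi hg), by
          rw [Equiv.Perm.mul_apply, hga, hsq' i hi hit, h]⟩
      · obtain ⟨g, hg, hga⟩ := ih (by omega) a fun j h1 h2 => by
          rcases (show j = i + 1 ∨ i + 1 < j by omega) with rfl | h3
          · exact h
          · exact ha j h3 h2
        exact ⟨g, hle i hi hg, hga⟩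
  rw [← hK t ht]
  constructor
  · have : ∀ m, m ≤ t → MulAction.IsMultiplyPretransitive (K t) α m := by
      intro m
      induction m with
      | zero => exact fun _ => H2.Pm.mt_zero
      | succ m ih =>
        intro hm
        refine H2.Pm.mt_succ' (ih (by omega)) (s₀ := (Finset.Ioc (t - m) t).image q) ?_
          fun a b ha hb => ?_
        · rw [Finset.card_image_of_injOn (fun i hi j hj e => by
            simp only [Finset.coe_Ioc, Set.mem_Ioc] at hi hj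
            exact hq i j (by omega) hi.2 (by omega) hj.2 e)]
          simp; omega
        simp only [Finset.mem_image, Finset.mem_Ioc, not_exists, not_and] at ha hb
        obtain ⟨g, hg, hga⟩ := htr (t - m) (by omega) (by omega) a fun j h1 h2 => (ha j ⟨h1, h2⟩ ·.symm)
        obtain ⟨k, hk, hkb⟩ := htr (t - m) (by omega) (by omega) b fun j h1 h2 => (hb j ⟨h1, h2⟩ ·.symm)
        have hm := Subgroup.mul_mem _ hk (Subgroup.inv_mem _ hg)
        refine ⟨⟨k * g⁻¹, hmono _ _ (by omega) (by omega) hm⟩, fun x hx => ?_, ?_⟩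
        · obtain ⟨j, hj, rfl⟩ := Finset.mem_image.1 hx
          rw [Finset.mem_Ioc] at hj
          exact hfixK (t - m) j (by omega) hj.1 hj.2 _ hm
        · change (k * g⁻¹) a = b
          rw [Equiv.Perm.mul_apply, ← hga, ← hkb]; simp
    exact this t le_rfl
  · apply le_antisymm
    · rintro g ⟨hg, hg'⟩
      have hg'' : ∀ i, 1 ≤ i → i ≤ t → g (q i) = q i := fun i h1 h2 =>
        (mem_fixingSubgroup_iff _).1 hg' _ ⟨i, h1, h2, rfl⟩
      have : ∀ m, m + 1 ≤ t → g ∈ K (t - m) := by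
        intro m
        induction m with
        | zero => exact fun _ => hg
        | succ m ih =>
          intro hm
          apply hstab (t - (m + 1)) (by omega) (by omega)
          · rw [show t - (m + 1) + 1 = t - m by omega]; exact ih (by omega)
          · exact hg'' _ (by omega) (by omega)
      have h1 := this (t - 1) (by omega)
      rw [show t - (t - 1) = 1 by omega, hK1] at h1
      rw [hH]
      exact ⟨⟨h1.1, hg'' 1 le_rfl (by omega)⟩, h1.2⟩
    · refine le_inf (hHK t (by omega)) fun g hg => (mem_fixingSubgroup_iff _).2 ?_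
      rintro _ ⟨i, h1, h2, rfl⟩
      rcases h1.eq_or_lt with rfl | h
      · rw [hH] at hg; exact hg.1.2
      · exact hfixK 1 i le_rfl h h2 g (hHK 1 le_rfl hg)

end Cfsg.Agent.S0709
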