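import Cfsg.Statements.S0712
import Mathlib
import Cfsg.Agent.H2.Perm5

set_option autoImplicit false
open Cfsg

namespace Cfsg.Agent.S0712

/-- Jordan: a primitive group in which the pointwise stabiliser of a set `s` is doubly transitive on the complement of `s` (which has at least 2 points) is `(|s| + 2)`-transitive. -/
theorem result {α : Type*} [Fintype α] [DecidableEq α] (G : Subgroup (Equiv.Perm α)) (hG : MulAction.IsPreprimitive G α) (s : Set α) {m : ℕ} (hsm : s.ncard = m) (hm : m + 2 ≤ Fintype.card α) (h2 : MulAction.IsMultiplyPretransitive (fixingSubgroup G s) (SubMulAction.ofFixingSubgroup G s) 2) : MulAction.IsMultiplyPretransitive G α (m + 2) := by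
  classical
  rw [← Nat.card_eq_fintype_card] at hm
  have h2' := H2.Pm.mt_two_iff.1 h2
  obtain ⟨a, ha⟩ : ∃ a, a ∉ s := by
    by_contra h
    push_neg at h
    rw [Set.eq_univ_of_forall h, Set.ncard_univ] at hsm
    omega
  have h1 : MulAction.IsMultiplyPretransitive G α (m + 1) := by
    rcases m with _ | m
    · exact MulAction.is_one_pretransitive_iff.2 inferInstance
    · exact (hG.isMultiplyPreprimitive hsm (by omega)
        (MulAction.isPreprimitive_of_is_two_pretransitive h2)).isMultiplyPretransitive
  refine H2.Pm.mt_succ' h1 (s₀ := insert a s.toFinite.toFinset) (by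
    rw [Finset.card_insert_of_notMem (by simpa), ← Set.ncard_eq_toFinset_card, hsm])
    fun b c hb hc => ?_
  simp only [Finset.mem_insert, Set.Finite.mem_toFinset, not_or] at hb hc
  obtain ⟨g, h3, h4⟩ := h2' ⟨a, ha⟩ ⟨b, hb.2⟩ ⟨a, ha⟩ ⟨c, hc.2⟩
    (fun e => hb.1 (congrArg Subtype.val e).symm) (fun e => hc.1 (congrArg Subtype.val e).symm)
  refine ⟨g, fun x hx => ?_, congrArg Subtype.val h4⟩
  simp only [Finset.mem_insert, Set.Finite.mem_toFinset] at hx
  rcases hx with rfl | hx
  · exact congrArg Subtype.val h3
  · exact (mem_fixingSubgroup_iff G).1 g.2 x hx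

end Cfsg.Agent.S0712
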