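import Cfsg.Statements.S0714
import Mathlib
import Cfsg.Agent.H2.Perm2

set_option autoImplicit false
open Cfsg

namespace Cfsg.Agent.S0714

/-- Over any field, the permutation module of the alternating group of degree at least 5 has exactly four invariant subspaces: zero, the constant functions, the functions with coordinate sum zero, and everything. -/
theorem result {α : Type*} [Fintype α] [DecidableEq α] (hα : 5 ≤ Fintype.card α) {K : Type*} [Field K] (W : Subrepresentation (Cfsg.permRep K (alternatingGroup α) α)) : W.toSubmodule = ⊥ ∨ W = Cfsg.permConstants K (alternatingGroup α) α ∨ W = Cfsg.permSumZero K (alternatingGroup α) α ∨ W.toSubmodule = ⊤ := by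
  by_cases hc : ∀ v ∈ W.toSubmodule, ∀ a b, v a = v b
  · by_cases h0 : W.toSubmodule = ⊥
    · exact Or.inl h0
    refine Or.inr (Or.inl (Subrepresentation.toSubmodule_injective ?_))
    obtain ⟨w, hw, hw0⟩ := Submodule.exists_mem_ne_zero_of_ne_bot h0
    obtain ⟨a, ha⟩ := Function.ne_iff.1 hw0
    refine le_antisymm (fun v hv => H2.Pm.mem_const_iff.2 ⟨v a, fun x => hc v hv x a⟩) fun z hz => ?_
    obtain ⟨c, hc'⟩ := H2.Pm.mem_const_iff.1 hz
    have : z = (c * (w a)⁻¹) • w := by
      ext x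
      have ha' : w a ≠ 0 := ha
      rw [hc', Pi.smul_apply, hc w hw x a, smul_eq_mul, inv_mul_cancel_right₀ ha']
    rw [this]
    exact W.toSubmodule.smul_mem _ hw
  push_neg at hc
  obtain ⟨v, hv, a, b, hab⟩ := hc
  have hab' : a ≠ b := fun e => hab (by rw [e])
  have h3 := H2.Pm.mt_two_iff.1 (H2.Pm.mt_le (alternatingGroup.isMultiplyPretransitive α)
    (show 2 ≤ _ by rw [Nat.card_eq_fintype_card]; omega) (by omega))
  have hcyc : ∀ u ∈ W.toSubmodule, ∀ x y z : α, x ≠ y → x ≠ z → y ≠ z →
      (fun w => u (Equiv.swap x y (Equiv.swap x z w))) - u ∈ W.toSubmodule := by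
    intro u hu x y z hxy hxz hyz
    have := W.apply_mem_toSubmodule (⟨Equiv.swap x y * Equiv.swap x z,
      (Equiv.Perm.isThreeCycle_swap_mul_swap_same hxy hxz hyz).mem_alternatingGroup⟩⁻¹) hu
    exact W.toSubmodule.sub_mem this hu
  have hex : ∀ s : Finset α, s.card < 5 → ∃ x, x ∉ s := fun s hs => by
    by_contra h
    push_neg at h
    rw [Finset.eq_univ_of_forall h, Finset.card_univ] at hs
    omega
  obtain ⟨c, hc⟩ := hex {a, b} (Finset.card_le_two.trans_lt (by omega))
  obtain ⟨d, hd⟩ := hex {a, b, c} (Finset.card_le_three.trans_lt (by omega))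
  obtain ⟨e, he⟩ := hex {a, b, c, d} (Finset.card_le_four.trans_lt (by omega))
  simp only [Finset.mem_insert, Finset.mem_singleton, not_or] at hc hd he
  have h1 := hcyc v hv a c b (Ne.symm hc.1) hab' hc.2
  set u := (fun w => v (Equiv.swap a c (Equiv.swap a b w))) - v with hu
  have hua : u a ≠ 0 := by
    rw [hu, Pi.sub_apply, Equiv.swap_apply_left, Equiv.swap_apply_of_ne_of_ne hab'.symm (Ne.symm hc.2),
      sub_ne_zero]
    exact hab.symm
  have hud : u d = 0 := by
    rw [hu, Pi.sub_apply, Equiv.swap_apply_of_ne_of_ne hd.1 hd.2.1,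
      Equiv.swap_apply_of_ne_of_ne hd.1 hd.2.2, sub_self]
  have hue : u e = 0 := by
    rw [hu, Pi.sub_apply, Equiv.swap_apply_of_ne_of_ne he.1 he.2.1,
      Equiv.swap_apply_of_ne_of_ne he.1 he.2.2.1, sub_self]
  have h2 := W.toSubmodule.smul_mem (u a)⁻¹ (hcyc u h1 a e d (Ne.symm he.1) (Ne.symm hd.1) he.2.2.2)
  have h4 : (u a)⁻¹ • ((fun w => u (Equiv.swap a e (Equiv.swap a d w))) - u) =
      Pi.single e 1 - Pi.single a 1 := by
    ext w
    simp only [Pi.smul_apply, Pi.sub_apply, smul_eq_mul]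
    by_cases w1 : w = a
    · subst w1
      simp [Equiv.swap_apply_of_ne_of_ne hd.1 (Ne.symm he.2.2.2), hud, hua, Ne.symm he.1]
    by_cases w2 : w = d
    · subst w2
      simp [hud, hue, w1, Ne.symm he.2.2.2]
    by_cases w3 : w = e
    · subst w3
      simp [Equiv.swap_apply_of_ne_of_ne w1 w2, hue, hua, w1]
    · simp [Equiv.swap_apply_of_ne_of_ne w1 w2, Equiv.swap_apply_of_ne_of_ne w1 w3, w1, w3]
  rw [h4] at h2
  have h5 : ∀ x : α, (Pi.single x 1 - Pi.single a 1 : α → K) ∈ W.toSubmodule := by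
    intro x
    by_cases hx : x = a
    · simp [hx]
    obtain ⟨g, g1, g2⟩ := h3 e a x a he.1 hx
    have := W.apply_mem_toSubmodule g h2
    convert this using 1
    ext w
    simp only [H2.Pm.permRep_apply, Pi.sub_apply, Pi.single_apply, inv_smul_eq_iff, g1, g2]
  have h6 : ∀ f : α → K, f - (∑ x, f x) • Pi.single a 1 ∈ W.toSubmodule := by
    intro f
    have : f - (∑ x, f x) • Pi.single a 1 = ∑ x, f x • (Pi.single x 1 - Pi.single a 1 : α → K) := by
      simp only [smul_sub, Finset.sum_sub_distrib, Finset.sum_smul]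
      congr 1
      ext w
      simp [Finset.sum_apply, Pi.single_apply]
    rw [this]
    exact Submodule.sum_mem _ fun x _ => W.toSubmodule.smul_mem _ (h5 x)
  by_cases hs : ∀ f ∈ W.toSubmodule, ∑ x, f x = 0
  · refine Or.inr (Or.inr (Or.inl (Subrepresentation.toSubmodule_injective
      (le_antisymm hs fun f hf => ?_))))
    have := h6 f
    rwa [H2.Pm.mem_sumZero_iff.1 hf, zero_smul, sub_zero] at this
  · push_neg at hs
    obtain ⟨f, hf, hf0⟩ := hs
    refine Or.inr (Or.inr (Or.inr (eq_top_iff.2 fun g _ => ?_)))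
    have h7 : (Pi.single a 1 : α → K) ∈ W.toSubmodule := by
      have := W.toSubmodule.smul_mem (∑ x, f x)⁻¹ (W.toSubmodule.sub_mem hf (h6 f))
      rwa [sub_sub_cancel, inv_smul_smul₀ hf0] at this
    simpa using W.toSubmodule.add_mem (h6 g) (W.toSubmodule.smul_mem (∑ x, g x) h7)

end Cfsg.Agent.S0714
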