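import Cfsg.Statements.S0716
import Mathlib
import Cfsg.Agent.H2.Commutant
import Cfsg.Agent.S0669

set_option autoImplicit false
open Cfsg

namespace Cfsg.Agent.S0716

open H2.Pm H4 MulAction

/-- (a) If all non-principal irreducible constituents of the permutation character of a transitive group have the same degree `f`, the character is multiplicity-free and all non-trivial subdegrees equal `f`. (b) A transitive group of rank at most 5 has multiplicity-free permutation character. -/
theorem result {G : Type*} [Group G] [Fintype G] {Ω : Type*} [Fintype Ω] [MulAction G Ω] [MulAction.IsPretransitive G Ω] (a : Ω) : ((f : ℕ) → (∀ χ : G → ℂ, Cfsg.IsIrrCharacter G χ → χ ≠ (fun _ => 1) → Cfsg.classInner (fun g : G => (Nat.card (MulAction.fixedBy Ω g) : ℂ)) χ ≠ 0 → χ 1 = f) → (∀ χ : G → ℂ, Cfsg.IsIrrCharacter G χ → Cfsg.classInner (fun g : G => (Nat.card (MulAction.fixedBy Ω g) : ℂ)) χ = 0 ∨ Cfsg.classInner (fun g : G => (Nat.card (MulAction.fixedBy Ω g) : ℂ)) χ = 1) ∧ ∀ b : Ω, b ≠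 a → Nat.card (MulAction.orbit (MulAction.stabilizer G a) b) = f) ∧ (Nat.card (MulAction.orbitRel.Quotient (MulAction.stabilizer G a) Ω) ≤ 5 → ∀ χ : G → ℂ, Cfsg.IsIrrCharacter G χ → Cfsg.classInner (fun g : G => (Nat.card (MulAction.fixedBy Ω g) : ℂ)) χ = 0 ∨ Cfsg.classInner (fun g : G => (Nat.card (MulAction.fixedBy Ω g) : ℂ)) χ = 1) := by
  classical
  haveI : Nonempty Ω := ⟨a⟩
  rw [← character_permRep]
  have hπ := isCharacter_character (permRep ℂ G Ω)
  choose m hm using fun χ : IrrCharacter G => hπ.classInner_nat χ.2.isCharacter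
  have hm1 : m (irrOne G) = 1 := by exact_mod_cast (hm (irrOne G)).symm.trans (mult_one (Ω := Ω))
  have hr : 1 + ∑ χ ∈ Finset.univ.erase (irrOne G), m χ * m χ =
      Nat.card (orbitRel.Quotient (stabilizer G a) Ω) := by
    have h1 := hπ.isClassFunction.classInner_eq_sum (permRep ℂ G Ω).character
    simp only [hm, map_natCast] at h1
    rw [character_permRep, ← Finset.add_sum_erase _ _ (Finset.mem_univ (irrOne G)), hm1] at h1
    rw [← S0669.result a]
    exact_mod_cast h1.symm.trans (classInner_permChar_permChar Ω Ω)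
  have key : ∀ f : ℕ, (∀ χ : G → ℂ, IsIrrCharacter G χ → χ ≠ (fun _ => 1) →
      classInner (permRep ℂ G Ω).character χ ≠ 0 → χ 1 = f) → (∀ χ, m χ ≤ 1) ∧
      ∀ b : Ω, b ≠ a → Nat.card (orbit (stabilizer G a) b) = f := by
    intro f hf
    have h1 : ∀ b, b ≠ a → f ≤ Nat.card (orbit (stabilizer G a) b) := fun b hb =>
      Nat.le_of_dvd (Nat.card_pos_iff.2 ⟨⟨b, mem_orbit_self b⟩, inferInstance⟩)
        (dvd_subdegree f (fun χ h1 h2 h3 => ⟨1, by simp [hf χ h1 h2 h3]⟩) hb)
    have h2 : Fintype.card Ω = 1 + ∑ χ ∈ Finset.univ.erase (irrOne G), m χ * f := by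
      have h2 := hπ.isClassFunction.apply_eq_sum 1
      rw [Representation.char_one, Module.finrank_pi,
        ← Finset.add_sum_erase _ _ (Finset.mem_univ (irrOne G)), hm, hm1, irrOne_apply,
        Finset.sum_congr rfl (g := fun χ => (m χ : ℂ) * f) fun χ hχ => by
          by_cases h0 : classInner (permRep ℂ G Ω).character χ = 0
          · rw [← hm, h0, zero_mul, zero_mul]
          · rw [hf χ χ.2 (fun e => Finset.ne_of_mem_erase hχ (Subtype.ext e)) h0, hm]] at h2
      exact_mod_cast h2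
    haveI := Fintype.ofFinite (orbitRel.Quotient (stabilizer G a) Ω)
    have h3 : Fintype.card Ω = 1 + ∑ q ∈ Finset.univ.erase (Quotient.mk'' a :
        orbitRel.Quotient (stabilizer G a) Ω), Nat.card (orbitRel.Quotient.orbit q) := by
      rw [← Nat.card_eq_fintype_card, Nat.card_congr (selfEquivSigmaOrbits' (stabilizer G a) Ω),
        Nat.card_sigma, ← Finset.add_sum_erase _ _ (Finset.mem_univ (Quotient.mk'' a))]
      congr 1
      rw [orbitRel.Quotient.orbit_mk, Nat.card_coe_set_eq, Set.ncard_eq_one]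
      exact ⟨a, Set.eq_singleton_iff_unique_mem.2 ⟨mem_orbit_self a, by
        rintro _ ⟨g, rfl⟩; exact g.2⟩⟩
    have h4 : ∀ q ∈ Finset.univ.erase (Quotient.mk'' a : orbitRel.Quotient (stabilizer G a) Ω),
        f ≤ Nat.card (orbitRel.Quotient.orbit q) := fun q hq => by
      induction q using Quotient.inductionOn' with | h b => ?_
      exact h1 b (by rintro rfl; simp at hq)
    have h5 : ∑ q ∈ Finset.univ.erase (Quotient.mk'' a : orbitRel.Quotient (stabilizer G a) Ω), f =
        ∑ χ ∈ Finset.univ.erase (irrOne G), m χ * m χ * f := by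
      rw [← Finset.sum_mul, Finset.sum_const, Finset.card_erase_of_mem (Finset.mem_univ _),
        Finset.card_univ, ← Nat.card_eq_fintype_card, ← hr, Nat.add_sub_cancel_left, smul_eq_mul]
    have h6 : ∀ χ ∈ Finset.univ.erase (irrOne G), m χ * f ≤ m χ * m χ * f := fun χ _ =>
      Nat.mul_le_mul_right _ (Nat.le_mul_self _)
    have h7 := Finset.sum_le_sum h4
    have h8 := Finset.sum_le_sum h6
    refine ⟨fun χ => ?_, fun b hb => ((Finset.sum_eq_sum_iff_of_le h4).1 (by omega)
      (Quotient.mk'' b) (Finset.mem_erase.2 ⟨fun e => ?_, Finset.mem_univ _⟩)).symm⟩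
    · by_cases h9 : χ = irrOne G
      · rw [h9, hm1]
      by_contra h10
      have h11 := (Finset.sum_eq_sum_iff_of_le h6).1 (by omega) χ (by simp [h9])
      have h12 := hf χ χ.2 (fun e => h9 (Subtype.ext e)) (by rw [hm]; norm_cast; omega)
      have h13 : 0 < f := Nat.pos_of_ne_zero (by rintro rfl; exact χ.2.apply_one_ne_zero (by simpa using h12))
      have := Nat.eq_of_mul_eq_mul_right h13 h11
      nlinarith
    · obtain ⟨g, hg⟩ := Quotient.exact' e
      exact hb (hg.symm.trans g.2)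
  have key2 : (∀ χ, m χ ≤ 1) → ∀ χ : G → ℂ, IsIrrCharacter G χ →
      classInner (permRep ℂ G Ω).character χ = 0 ∨ classInner (permRep ℂ G Ω).character χ = 1 :=
    fun h χ hχ => by
      rw [hm ⟨χ, hχ⟩]
      exact_mod_cast Nat.le_one_iff_eq_zero_or_eq_one.1 (h _)
  refine ⟨fun f hf => ⟨key2 (key f hf).1, (key f hf).2⟩, fun h5 => key2 ?_⟩
  by_contra hn
  push_neg at hn
  obtain ⟨χ, hχ⟩ := hn
  obtain ⟨f, hf⟩ := χ.2.isCharacter.exists_degree
  refine (key f fun ψ h1 h2 h3 => ?_).1 χ |>.not_gt hχ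
  by_contra h4
  have h6 := Finset.sum_le_sum_of_subset (f := fun χ => m χ * m χ)
    (show {χ, ⟨ψ, h1⟩} ⊆ Finset.univ.erase (irrOne G) by
      intro x hx
      simp only [Finset.mem_insert, Finset.mem_singleton] at hx
      rcases hx with rfl | rfl
      · exact Finset.mem_erase.2 ⟨by rintro rfl; omega, Finset.mem_univ _⟩
      · exact Finset.mem_erase.2 ⟨fun e => h2 (congrArg Subtype.val e), Finset.mem_univ _⟩)
  rw [Finset.sum_pair (by rintro rfl; exact h4 hf)] at h6
  have h7 : m ⟨ψ, h1⟩ ≠ 0 := fun e => h3 (by rw [hm ⟨ψ, h1⟩, e, Nat.cast_zero])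
  have := Nat.pos_of_ne_zero h7
  nlinarith

end Cfsg.Agent.S0716
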