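import Cfsg.Statements.S0717
import Mathlib
import Cfsg.Agent.H2.Commutant

set_option autoImplicit false
open Cfsg

namespace Cfsg.Agent.S0717

open H2.Pm Matrix H4

/-- All suborbits of a transitive group are self-paired (every pair of points is interchanged by some group element) if and only if the permutation character is multiplicity-free and each of its irreducible constituents is real-valued. -/
theorem result {G : Type*} [Group G] [Fintype G] {Ω : Type*} [Fintype Ω] [MulAction G Ω] [MulAction.IsPretransitive G Ω] : (∀ a b : Ω, ∃ g : G, g • a = b ∧ g • b = a) ↔ ∀ χ : G → ℂ, Cfsg.IsIrrCharacter G χ → Cfsg.classInner (fun g : G => (Nat.card (MulAction.fixedBy Ω g) : ℂ)) χ ≠ 0 → Cfsg.classInner (fun g : G => (Nat.card (MulAction.fixedBy Ω g) : ℂ)) χ = 1 ∧ ∀ g : G, (starRingEnd ℂ) (χ g) = χ g := by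
  classical
  rw [← character_permRep]
  constructor
  · intro h χ hχ h0
    have hs : ∀ M : Matrix Ω Ω ℂ, InvM G M → Mᵀ = M := fun M hM => by
      ext x y
      obtain ⟨g, h1, h2⟩ := h x y
      rw [transpose_apply, ← hM g x y, h1, h2]
    refine ⟨(mult_le_one (fun A B hA hB => LinearMap.toMatrix'.injective ?_) hχ).resolve_left h0,
      fun g => ?_⟩
    · rw [← hs _ (hA.mul hB).invM, Module.End.mul_eq_comp, Module.End.mul_eq_comp,
        LinearMap.toMatrix'_comp, LinearMap.toMatrix'_comp, transpose_mul, hs _ hA.invM,
        hs _ hB.invM]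
    · have h1 := (comm_proj (ρ := permRep ℂ G Ω) hχ.isClassFunction).invM
      have h2 := h1.th_transpose g
      rw [hs _ h1, toLin'_toMatrix', th_proj hχ, Pi.smul_apply, Pi.smul_apply,
        hχ.isCharacter.apply_inv] at h2
      exact (mul_left_cancel₀ h0 h2).symm
  · intro h a b
    have hM := invM_orbM (G := G) ℂ a b
    have := eq_zero_of_mult_free (M := (orbM G ℂ a b)ᵀ - orbM G ℂ a b)
      (fun χ hχ => or_iff_not_imp_left.2 fun h0 => (h χ hχ h0).1)
      (fun g x y => by simp [hM g]) fun χ h1 h2 => by
        rw [map_sub, om_sub, sub_eq_zero, om, om, classInner_def, classInner_def,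
          ← Equiv.sum_comp (Equiv.inv G)]
        simp only [hM.th_transpose, Equiv.inv_apply, inv_inv, h1.isCharacter.apply_inv,
          (h χ h1 (by simp [h2])).2]
    have h1 := congrFun (congrFun (sub_eq_zero.1 this) a) b
    simp only [orbM, transpose_apply, of_apply] at h1
    by_contra hn
    rw [if_neg hn, if_pos ⟨1, by simp⟩] at h1
    exact zero_ne_one h1

end Cfsg.Agent.S0717
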