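import Cfsg.Statements.S0718
import Mathlib
import Cfsg.Agent.H2.Commutant

set_option autoImplicit false
open Cfsg

namespace Cfsg.Agent.S0718

open H2.Pm Matrix

/-- Multiplicity-freeness of the permutation character is equivalent to commutativity of the centraliser ring, i.e. of the algebra of `G`-equivariant endomorphisms of the complex permutation module. -/
theorem result {G : Type*} [Group G] [Fintype G] {Ω : Type*} [Fintype Ω] [MulAction G Ω] : (∀ χ : G → ℂ, Cfsg.IsIrrCharacter G χ → Cfsg.classInner (fun g : G => (Nat.card (MulAction.fixedBy Ω g) : ℂ)) χ = 0 ∨ Cfsg.classInner (fun g : G => (Nat.card (MulAction.fixedBy Ω g) : ℂ)) χ = 1) ↔ ∀ S T : (Ω → ℂ) →ₗ[ℂ] (Ω → ℂ), S ∈ ((Cfsg.permRep ℂ G Ω).linHom (Cfsg.permRep ℂ G Ω)).invariants → T ∈ ((Cfsg.permRep ℂ G Ω).linHom (Cfsg.permRep ℂ G Ω)).invariants → S ∘ₗ T = T ∘ₗ S := by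
  classical
  rw [← character_permRep]
  have key : ∀ S : (Ω → ℂ) →ₗ[ℂ] (Ω → ℂ), S ∈ ((Cfsg.permRep ℂ G Ω).linHom
      (Cfsg.permRep ℂ G Ω)).invariants ↔ Comm (Cfsg.permRep ℂ G Ω) S := fun S => by
    rw [Representation.mem_invariants]
    refine forall_congr' fun g => ?_
    rw [Representation.linHom_apply]
    change _ * (S * _) = S ↔ _
    constructor
    · intro h
      conv_lhs => rw [← h]
      rw [mul_assoc, mul_assoc, ← map_mul, inv_mul_cancel, map_one, mul_one]
    · intro h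
      rw [← mul_assoc, ← h, mul_assoc, ← map_mul, mul_inv_cancel, map_one, mul_one]
  simp only [key]
  refine ⟨fun hm S T hS hT => ?_, fun h χ => mult_le_one h⟩
  have := eq_zero_of_mult_free hm ((hS.mul hT).sub (hT.mul hS)).invM fun χ h1 h2 => by
    rw [toLin'_toMatrix', om_sub, om_mul h1 h2 hS, om_mul h1 h2 hT, mul_comm, sub_self]
  exact sub_eq_zero.1 (LinearMap.toMatrix'.map_eq_zero_iff.1 this)

end Cfsg.Agent.S0718
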