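import Cfsg.Statements.S0719
import Mathlib
import Cfsg.Agent.H2.Rank3

set_option autoImplicit false
open Cfsg

namespace Cfsg.Agent.S0719

open H2.Pm MulAction

/-- Groups of Wielandt type: if a primitive group of degree `2m` has rank 3 and permutation character `1 + χ₁ + χ₂` with irreducible `χ₁, χ₂` of degrees `m - 1` and `m`, then `m = 2a² + 2a + 1` for some positive integer `a` and the two non-trivial subdegrees are `a(2a+1)` and `(a+1)(2a+1)`. -/
theorem result {G : Type*} [Group G] [Fintype G] {Ω : Type*} [Fintype Ω] [MulAction G Ω] (hprim : MulAction.IsPreprimitive G Ω) {m : ℕ} (hm : Fintype.card Ω = 2 * m) (a₀ : Ω) (hrank : Nat.card (MulAction.orbitRel.Quotient (MulAction.stabilizer G a₀) Ω) = 3) (χ₁ χ₂ : G → ℂ) (h₁ : Cfsg.IsIrrCharacter G χ₁) (h₂ : Cfsg.IsIrrCharacter G χ₂) (hπ : (fun g : G => (Nat.card (MulAction.fixedBy Ω g) : ℂ)) = fun g => 1 + χ₁ g + χ₂ g) (hd₁ : χ₁ 1 = (m : ℂ) - 1) (hd₂ : χ₂ 1 = m) : ∃ a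 : ℕ, 0 < a ∧ m = 2 * a ^ 2 + 2 * a + 1 ∧ ∀ b : Ω, b ≠ a₀ → Nat.card (MulAction.orbit (MulAction.stabilizer G a₀) b) = a * (2 * a + 1) ∨ Nat.card (MulAction.orbit (MulAction.stabilizer G a₀) b) = (a + 1) * (2 * a + 1) := by
  obtain ⟨b, c, hb, hc, hbc, h⟩ := exists_of_rank_three hrank
  rw [← character_permRep] at hπ
  have key : ∀ y, y ≠ a₀ → orbit (stabilizer G a₀) y = orbit (stabilizer G a₀) b ∨
      orbit (stabilizer G a₀) y = orbit (stabilizer G a₀) c := fun y hy =>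
    ((h y).resolve_left hy).imp orbit_eq_iff.2 orbit_eq_iff.2
  rcases le_total (Nat.card (orbit (stabilizer G a₀) b)) (Nat.card (orbit (stabilizer G a₀) c))
    with hle | hle
  · obtain ⟨u, h1, h2, h3, h4⟩ := wielandt_type hm hb hc hbc h hle h₁ h₂ hπ hd₁ hd₂
    exact ⟨u, h1, h2, fun y hy => (key y hy).imp (fun e => by rw [e, h3]) fun e => by rw [e, h4]⟩
  · obtain ⟨u, h1, h2, h3, h4⟩ := wielandt_type hm hc hb
      (fun e => hbc (mem_orbit_symm.1 e)) (fun y => (h y).imp_right Or.symm) hle h₁ h₂ hπ hd₁ hd₂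
    exact ⟨u, h1, h2, fun y hy => (key y hy).symm.imp (fun e => by rw [e, h3]) fun e => by rw [e, h4]⟩

end Cfsg.Agent.S0719
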