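import Cfsg.Statements.S0720
import Cfsg.Agent.H25.Deg2p

set_option autoImplicit false
open Cfsg

namespace Cfsg.Agent.S0720

open MulAction Finset Cfsg.Agent.H25.W2

/-- Wielandt's Theorem on primitive groups of degree `2p`: such a group is doubly transitive, or it has rank 3, `p = 2a² + 2a + 1`, and subdegrees `a(2a+1)` and `(a+1)(2a+1)`. -/
theorem result {α : Type*} [Fintype α] [DecidableEq α] {p : ℕ} (hp : p.Prime) (hα : Fintype.card α = 2 * p) (G : Subgroup (Equiv.Perm α)) (hG : MulAction.IsPreprimitive G α) (a₀ : α) : MulAction.IsMultiplyPretransitive G α 2 ∨ (Nat.card (MulAction.orbitRel.Quotient (MulAction.stabilizer G a₀) α) = 3 ∧ ∃ a : ℕ, 0 < a ∧ p = 2 * a ^ 2 + 2 * a + 1 ∧ ∀ b : α, b ≠ a₀ → Nat.card (MulAction.orbit (MulAction.stabilizer G a₀) b) = a * (2 * a + 1) ∨ Nat.card (MulAction.orbit (MulAction.stabilizer G a₀) b) = (a + 1) * (2 * a + 1)) := by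
  classical
  haveI := Fact.mk hp
  by_cases h2 : IsMultiplyPretransitive G α 2
  · exact .inl h2
  right
  have hpos := hp.two_le
  have hdvd : p ∣ Nat.card G := by
    rw [← (stabilizer G a₀).index_mul_card, index_stabilizer_of_transitive, Nat.card_eq_fintype_card, hα]
    exact (Dvd.intro_left 2 rfl).mul_right _
  obtain ⟨t, ht⟩ := exists_prime_orderOf_dvd_card' p hdvd
  have ht' : orderOf (t : Equiv.Perm α) = p := by rw [Subgroup.orderOf_coe, ht]
  obtain ⟨n, hn⟩ := Equiv.Perm.cycleType_prime_order (ht' ▸ hp)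
  have hsupp : #(t : Equiv.Perm α).support = (n + 1) * p := by
    rw [← Equiv.Perm.sum_cycleType, hn, ht', Multiset.sum_replicate, smul_eq_mul]
  have hfree : ∀ u : α, t • u ≠ u := by
    rcases Nat.eq_zero_or_pos n with rfl | hn0
    · exfalso
      have hc : (t : Equiv.Perm α).IsCycle := Equiv.Perm.card_cycleType_eq_one.1 (by rw [hn]; simp)
      refine h2 (hG.is_two_pretransitive (n := p - 1) ?_ (by rw [Nat.card_eq_fintype_card]; omega)
        (Equiv.Perm.isPretransitive_of_isCycle_mem hc t.2))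
      rw [← coe_compl, Set.ncard_coe_finset, card_compl, hsupp]; omega
    · intro u
      have : (t : Equiv.Perm α).support = univ := eq_univ_of_card _ (le_antisymm (card_le_univ _) (by
        rw [hsupp, hα]; exact Nat.mul_le_mul_right _ (by omega)))
      exact Equiv.Perm.mem_support.1 (this ▸ mem_univ u)
  obtain ⟨D⟩ := exists_dat hα ht hfree
  obtain ⟨E, e1, e2, e3, e4, e5⟩ := D.exists_E
  have hE : D.Idem E := ⟨e1, e2, e3, e4, e5⟩
  obtain ⟨cl, hcl, hcl0⟩ := exists_cl (G := G) a₀
  haveI := Fintype.ofFinite (orbitRel.Quotient (stabilizer G a₀) α)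
  obtain ⟨i, j, hij, hi, hj, hall, a, ha, hpa, hki, hkj⟩ := core hE (trace_one hE h2) cl hcl a₀
    (fun i => Quotient.inductionOn i fun w => ⟨w, hcl0 w⟩)
  refine ⟨?_, a, ha, hpa, fun b hb => ?_⟩
  · rw [Nat.card_eq_fintype_card, ← card_univ, card_eq_three]
    exact ⟨cl a₀ a₀, i, j, hi.symm, hj.symm, hij, by ext q; simpa using hall q⟩
  · have hk : Nat.card (orbit (stabilizer G a₀) b) = #{w | cl a₀ w = cl a₀ b} := by
      rw [Nat.card_coe_set_eq, ← Set.ncard_coe_finset]
      congr 1
      ext w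
      simp only [coe_filter, mem_univ, true_and, Set.mem_setOf_eq, hcl0]
      exact (Quotient.eq (r := orbitRel (stabilizer G a₀) α)).symm
    rw [hk]
    rcases hall (cl a₀ b) with e | e | e
    · obtain ⟨g, e1, e2⟩ := (hcl _ _ _ _).1 e
      exact absurd (MulAction.injective g (e2.trans e1.symm)) hb
    · rw [e]; exact .inl hki
    · rw [e]; exact .inr hkj

end Cfsg.Agent.S0720
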