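import Cfsg.Statements.S0722
import Mathlib
import Cfsg.Agent.H2.Perm1

set_option autoImplicit false
open Cfsg

namespace Cfsg.Agent.S0722

/-- In a primitive group `H`, with `N` a minimal normal subgroup and `K` a point stabiliser, `K ⊓ N` is maximal among proper `K`-invariant subgroups of `N`. -/
theorem result {α : Type*} [Finite α] (H : Subgroup (Equiv.Perm α)) [MulAction.IsPreprimitive H α] (N : Subgroup H) [N.Normal] (hN : N ≠ ⊥) (hmin : ∀ M : Subgroup H, M.Normal → M ≤ N → M = ⊥ ∨ M = N) (a : α) (X : Subgroup H) (hX : X ≤ N) (hKX : MulAction.stabilizer H a ⊓ N ≤ X) (hinv : MulAction.stabilizer H a ≤ Subgroup.normalizer (X : Set H)) : X = MulAction.stabilizer H a ⊓ N ∨ X = N := by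
  rcases subsingleton_or_nontrivial α with hs | hs
  · exact absurd (Subsingleton.elim _ _) hN
  have hco := MulAction.IsPreprimitive.isCoatom_stabilizer_of_isPreprimitive H a
  by_cases hXK : X ≤ MulAction.stabilizer H a
  · exact Or.inl (le_antisymm (le_inf hXK hX) hKX)
  right
  have htop : MulAction.stabilizer H a ⊔ X = ⊤ := hco.2 _ (left_lt_sup.2 hXK)
  have hn : X.Normal := by
    rw [← Subgroup.normalizer_eq_top_iff, eq_top_iff, ← htop]
    exact sup_le hinv Subgroup.le_normalizer
  exact (hmin X hn hX).resolve_left fun h => hXK (h ▸ bot_le)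

end Cfsg.Agent.S0722
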