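import Cfsg.Statements.S0723
import Cfsg.Agent.H24.Sco
import Cfsg.Agent.S0721
import Cfsg.Agent.S0722

set_option autoImplicit false
open Cfsg

namespace Cfsg.Agent.S0723

/-- The core of the O'Nan–Scott Theorem. Let `H` be a primitive permutation group on a finite set whose unique minimal normal subgroup `N` is non-abelian, and `K` a point stabiliser. Then there are a non-abelian simple group `T` and an isomorphism `N ≃* T^m` (`m ≥ 1`) under which `K ⊓ N` becomes either a product `∏ K_i` of proper subgroups `K_i < T`, or the set of functions constant on each block of a partition of the index set into blocks of one common size `k ≥ 2`. -/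
theorem result {α : Type*} [Finite α] (H : Subgroup (Equiv.Perm α)) [MulAction.IsPreprimitive H α] (N : Subgroup H) [N.Normal] (hN : N ≠ ⊥) (hmin : ∀ M : Subgroup H, M.Normal → M ≤ N → M = ⊥ ∨ M = N) (huniq : ∀ L : Subgroup H, L.Normal → L ≠ ⊥ → (∀ M : Subgroup H, M.Normal → M ≤ L → M = ⊥ ∨ M = L) → L = N) (hnab : ¬ IsMulCommutative N) (a : α) : ∃ (T : Type) (_ : Group T) (m : ℕ) (e : N ≃* (Fin m → T)), IsSimpleGroup T ∧ ¬ IsMulCommutative T ∧ 0 < m ∧ ((∃ K : Fin m → Subgroup T, (∀ i, K i ≠ ⊤) ∧ ∀ n : N, (n : H) ∈ MulAction.stabilizer H a ↔ ∀ i, e n i ∈ K i) ∨ (∃ (k : ℕ) (c : Fin m → Fin m), 2 ≤ k ∧ (∀ j : Fin m, Nat.card {i : Fin m // c i = j} = k ∨ Nat.card {i : Fin m // c i = j} = 0) ∧ ∀ n : N, (n : H) ∈ MulAction.stabilizer H a ↔ ∀ i j : Fin m, c i = c j → e n i = e n j)) := by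
  open Subgroup Cfsg.Agent.H24 in
  open scoped commutatorElement in
    classical
    obtain ⟨T, iT, m, hT, hm, ⟨e⟩⟩ := S0721.result N hN hmin
    have na : ¬ IsMulCommutative T := fun h => hnab ⟨⟨fun x y => e.injective (by
      rw [map_mul, map_mul]; funext i; exact h.is_comm.comm _ _)⟩⟩
    have : Nonempty (Fin m) := ⟨⟨0, hm⟩⟩
    rcases subsingleton_or_nontrivial α with hs | hs
    · exact absurd (Subsingleton.elim _ _) hN
    have hco := MulAction.IsPreprimitive.isCoatom_stabilizer_of_isPreprimitive H a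
    set K := MulAction.stabilizer H a with hK
    have hNK : ¬ N ≤ K := fun h => by
      have h1 : ∀ n ∈ N, ∀ b : α, n • b = b := fun n hn b => by
        obtain ⟨g, rfl⟩ := MulAction.exists_smul_eq H a b
        have := h (‹N.Normal›.conj_mem n hn g⁻¹)
        rw [hK, MulAction.mem_stabilizer_iff, inv_inv, mul_smul, mul_smul, inv_smul_eq_iff] at this
        exact this
      refine hN (eq_bot_iff.2 fun n hn => mem_bot.2 (Subtype.ext (Equiv.ext fun b => h1 n hn b)))
    have htop : K ⊔ N = ⊤ := hco.2 _ (left_lt_sup.2 hNK)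
    let ψ : H →* MulAut (Fin m → T) := (MulAut.congr e).toMonoidHom.comp (MulAut.conjNormal (H := N))
    have hψ : ∀ k (n : N), ψ k (e n) = e (MulAut.conjNormal k n) := fun k n => by simp [ψ]
    let F : Subgroup (Fin m → T) → Subgroup H := fun X => (X.comap e.toMonoidHom).map N.subtype
    have hF : ∀ X (n : N), (n : H) ∈ F X ↔ e n ∈ X := fun X n => by simp [F]
    have hFN : ∀ X, F X ≤ N := fun X => map_subtype_le _
    have hFK : ∀ X : Subgroup (Fin m → T), (∀ φ ∈ K.map ψ, ∀ x ∈ X, φ x ∈ X) →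
        K ≤ normalizer (F X : Set H) := fun X hX => by
      have h1 : ∀ k ∈ K, ∀ n ∈ F X, k * n * k⁻¹ ∈ F X := fun k hk n hn => by
        have := hX _ (mem_map_of_mem ψ hk) _ ((hF X ⟨n, hFN X hn⟩).1 hn)
        rw [hψ, ← hF] at this
        exact this
      intro k hk
      refine mem_normalizer_iff.2 fun n => ⟨h1 k hk n, fun hn => ?_⟩
      simpa [mul_assoc] using h1 _ (K.inv_mem hk) _ hn
    have hext : ∀ X Y : Subgroup (Fin m → T), F X = F Y → X = Y := fun X Y h => by
      ext x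
      obtain ⟨n, rfl⟩ := e.surjective x
      rw [← hF, h, hF]
    let M : Subgroup (Fin m → T) := (K.subgroupOf N).comap e.symm.toMonoidHom
    have hM : ∀ n : N, e n ∈ M ↔ (n : H) ∈ K := fun n => by simp [M, mem_subgroupOf]
    have hFM : F M = K ⊓ N := le_antisymm
      (fun n hn => ⟨(hM ⟨n, hFN _ hn⟩).1 ((hF M ⟨n, hFN _ hn⟩).1 hn), hFN _ hn⟩)
      fun n hn => (hF M ⟨n, hn.2⟩).2 ((hM ⟨n, hn.2⟩).2 hn.1)
    have hFT : F ⊤ = N := le_antisymm (hFN _) fun n hn => (hF ⊤ ⟨n, hn⟩).2 (mem_top _)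
    have hFB : F ⊥ = ⊥ := eq_bot_iff.2 fun n hn => by
      have := (hF ⊥ ⟨n, hFN _ hn⟩).1 hn
      rw [mem_bot, map_eq_one_iff _ e.injective] at this
      exact mem_bot.2 (congrArg Subtype.val this)
    obtain ⟨e', h⟩ := Sco.main (M := M) na (K.map ψ)
      (fun h => hNK fun n hn => (hM ⟨n, hn⟩).1 (h ▸ mem_top _))
      (by
        rintro _ ⟨k, hk, rfl⟩ x hx
        obtain ⟨n, rfl⟩ := e.surjective x
        rw [hψ, hM]
        exact K.mul_mem (K.mul_mem hk ((hM n).1 hx)) (K.inv_mem hk))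
      (fun X h1 h2 => (S0722.result H N hN hmin a (F X) (hFN X)
        (hFM ▸ fun n hn => (hF X ⟨n, hFN _ hn⟩).2 (h1 ((hF M ⟨n, hFN _ hn⟩).1 hn))) (hFK X h2)).imp
          (fun h => hext _ _ (h.trans hFM.symm)) fun h => hext _ _ (h.trans hFT.symm))
      (fun X h1 h2 => (hmin (F X) (by
          rw [← normalizer_eq_top_iff, eq_top_iff, ← htop]
          refine sup_le (hFK X h2) ?_
          have := le_normalizer_map (H := X.comap e.toMonoidHom) N.subtype
          rwa [normalizer_eq_top, ← MonoidHom.range_eq_map, range_subtype] at this) (hFN X)).imp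
          (fun h => hext _ _ (h.trans hFB.symm)) fun h => hext _ _ (h.trans hFT.symm))
    refine ⟨T, iT, m, e.trans e', hT, na, hm, h.imp ?_ ?_⟩
    · rintro ⟨L, h1, h2⟩
      exact ⟨L, h1, fun n => by rw [← hM, h2]; rfl⟩
    · rintro ⟨k, c, h1, h2, h3⟩
      exact ⟨k, c, h1, h2, fun n => by rw [← hM, h3]; rfl⟩

end Cfsg.Agent.S0723
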