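import Cfsg.Statements.S0726
import Mathlib
import Cfsg.Agent.H2.Perm1

set_option autoImplicit false
open Cfsg

namespace Cfsg.Agent.S0726

/-- The left and right regular permutation representations of a group are each other's centralisers in the symmetric group: the centraliser of the left regular image is the right regular image, and a transitive subgroup centralising the left regular image is the whole right regular image. -/
theorem result {G : Type*} [Group G] : Subgroup.centralizer ((MulAction.toPermHom G G).range : Set (Equiv.Perm G)) = (MulAction.toPermHom Gᵐᵒᵖ G).range ∧ ∀ H : Subgroup (Equiv.Perm G), H ≤ Subgroup.centralizer ((MulAction.toPermHom G G).range : Set (Equiv.Perm G)) → MulAction.IsPretransitive H G → H = (MulAction.toPermHom Gᵐᵒᵖ G).range := by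
  have h1 : Subgroup.centralizer ((MulAction.toPermHom G G).range : Set (Equiv.Perm G)) = (MulAction.toPermHom Gᵐᵒᵖ G).range := by
    ext σ
    constructor
    · intro h
      refine ⟨MulOpposite.op (σ 1), ?_⟩
      ext x
      have := congrArg (fun τ : Equiv.Perm G => τ 1) (h _ ⟨x, rfl⟩)
      simpa using this
    · rintro ⟨y, rfl⟩ _ ⟨x, rfl⟩
      ext z
      simp [mul_assoc]
  refine ⟨h1, fun H hH ht => le_antisymm (h1 ▸ hH) ?_⟩
  rintro _ ⟨y, rfl⟩
  obtain ⟨h, hh⟩ := ht.exists_smul_eq 1 y.unop
  obtain ⟨z, hz⟩ := (h1 ▸ hH) h.2
  have : z = y := by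
    have h2 : h.1 1 = y.unop := hh
    rw [← hz] at h2
    apply MulOpposite.unop_injective
    simpa using h2
  rw [← this, hz]; exact h.2

end Cfsg.Agent.S0726
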