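import Cfsg.Statements.S0729
import Cfsg.Agent.H4.Zass7

set_option autoImplicit false
open Cfsg

namespace Cfsg.Agent.S0729

open Cfsg.Agent.H4


/-- In a sharply triply transitive group of even degree at least 6, the two-point stabiliser `H = G_{a,b}` has a normal subgroup of index 2 that is normalised by the element `s` interchanging `a, b` and fixing a third point `c`. -/
theorem result {α : Type*} [Fintype α] [DecidableEq α] (heven : Even (Fintype.card α)) (h6 : 6 ≤ Fintype.card α) (G : Subgroup (Equiv.Perm α)) (h3 : MulAction.IsMultiplyPretransitive G α 3) (hsharp : ∀ x : Fin 3 ↪ α, MulAction.stabilizer G x = ⊥) {a b c : α} (hab : a ≠ b) (hac : a ≠ c) (hbc : b ≠ c) (s : G) (hsa : s • a = b) (hsb : s • b = a) (hsc : s • c = c) : ∃ N : Subgroup G, N ≤ MulAction.stabilizer G a ⊓ MulAction.stabilizer G b ∧ (N.subgroupOf (MulAction.stabilizer G a ⊓ MulAction.stabilizer G b)).Normal ∧ N.relIndex (MulAction.stabilizer G a ⊓ MulAction.stabilizer G b) = 2 ∧ ∀ n ∈ N, s * n * s⁻¹ ∈ N := by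
  have h := zt_of_sharp3 G h3 hsharp (exists_third_of_card (by omega))
  have h1 := h.card_St2_of_three h3 hab hac.symm hbc.symm
  have h2 := h.card_K hab
  rw [Nat.card_eq_fintype_card (α := α)] at h2
  have h4 : S3 G a b c s := ⟨h, hab, hac.symm, hbc.symm, by
    rw [Nat.card_eq_fintype_card (α := α)]; omega, by rw [Nat.even_iff] at *; omega, hsa, hsb, hsc⟩
  obtain ⟨A, h5, h6, -, h7⟩ := h4.exists_half
  have h8 : A.relIndex (St2 G a b) = 2 :=
    Nat.eq_of_mul_eq_mul_left Nat.card_pos ((H1.card_mul_relIndex h5).trans (by omega))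
  exact ⟨A, h5, Subgroup.normal_of_index_eq_two h8, h8, fun n hn => by
    rw [h7 n hn]; exact inv_mem hn⟩

end Cfsg.Agent.S0729
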