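import Cfsg.Statements.S0733
import Mathlib
import Cfsg.Agent.H2.Perm1

set_option autoImplicit false
open Cfsg

namespace Cfsg.Agent.S0733

/-- A permutation group of affine type — generated by the translations of a finite vector space `V` over `ZMod p` together with a group `G₀` of linear automorphisms — is primitive on `V` if and only if `G₀` is irreducible on `V`. -/
theorem result {p : ℕ} [Fact p.Prime] {V : Type*} [AddCommGroup V] [Module (ZMod p) V] [Finite V] [Nontrivial V] (G₀ : Subgroup (V ≃ₗ[ZMod p] V)) (G : Subgroup (Equiv.Perm V)) (hG : ∀ σ : Equiv.Perm V, σ ∈ G ↔ ∃ g ∈ G₀, ∃ b : V, ∀ x : V, σ x = (g : V ≃ₗ[ZMod p] V) x + b) : MulAction.IsPreprimitive G V ↔ ∀ W : Submodule (ZMod p) V, (∀ g ∈ G₀, ∀ v ∈ W, (g : V ≃ₗ[ZMod p] V) v ∈ W) → W = ⊥ ∨ W = ⊤ := by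
  have htr : ∀ b : V, Equiv.addRight b ∈ G := fun b => (hG _).2 ⟨1, G₀.one_mem, b, fun x => rfl⟩
  have hlin : ∀ g ∈ G₀, (g : V ≃ₗ[ZMod p] V).toEquiv ∈ G := fun g hg =>
    (hG _).2 ⟨g, hg, 0, fun x => by simp⟩
  haveI : MulAction.IsPretransitive G V := ⟨fun a b => ⟨⟨_, htr (b - a)⟩, by
    change a + (b - a) = b; abel⟩⟩
  rw [← MulAction.isCoatom_stabilizer_iff_preprimitive G (0 : V)]
  constructor
  · intro hco W hW
    let K : Subgroup G :=
      { carrier := {σ | σ.1 0 ∈ W}
        one_mem' := W.zero_mem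
        mul_mem' := fun {σ τ} hσ hτ => by
          obtain ⟨g, hg, b, hb⟩ := (hG _).1 σ.2
          change σ.1 (τ.1 0) ∈ W
          have h1 : σ.1 0 ∈ W := hσ
          rw [hb] at h1 ⊢
          exact W.add_mem (hW g hg _ hτ) (by simpa using h1)
        inv_mem' := fun {σ} hσ => by
          obtain ⟨g, hg, b, hb⟩ := (hG _).1 σ⁻¹.2
          have h1 : σ⁻¹.1 (σ.1 0) = 0 := by simp
          change σ⁻¹.1 0 ∈ W
          rw [hb] at h1 ⊢
          rw [map_zero, zero_add, eq_neg_of_add_eq_zero_right h1]
          exact W.neg_mem (hW g hg _ hσ) }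
    have hle : MulAction.stabilizer G (0 : V) ≤ K := fun σ hσ => by
      have : σ.1 0 = 0 := hσ
      change σ.1 0 ∈ W
      rw [this]; exact W.zero_mem
    rcases hle.eq_or_lt with h | h
    · left
      rw [eq_bot_iff]
      intro w hw
      have : (⟨_, htr w⟩ : G) ∈ K := by
        change 0 + w ∈ W
        simpa using hw
      rw [← h] at this
      have h2 : 0 + w = 0 := this
      simpa using h2
    · right
      rw [eq_top_iff]
      intro w _
      have : (⟨_, htr w⟩ : G) ∈ K := hco.2 _ h ▸ Subgroup.mem_top _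
      have h2 : 0 + w ∈ W := this
      simpa using h2
  · intro hirr
    refine ⟨fun h => ?_, fun K hK => ?_⟩
    · obtain ⟨w, hw⟩ := exists_ne (0 : V)
      have : (⟨_, htr w⟩ : G) ∈ MulAction.stabilizer G (0 : V) := h ▸ Subgroup.mem_top _
      have h2 : 0 + w = 0 := this
      exact hw (by simpa using h2)
    · let A : AddSubgroup V :=
        { carrier := {w | (⟨_, htr w⟩ : G) ∈ K}
          zero_mem' := by
            have : (⟨_, htr 0⟩ : G) = 1 := Subtype.ext (by ext; simp)
            change _ ∈ K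
            rw [this]; exact K.one_mem
          add_mem' := fun {a b} ha hb => by
            have : (⟨_, htr (a + b)⟩ : G) = ⟨_, htr b⟩ * ⟨_, htr a⟩ :=
              Subtype.ext (by ext; simp [add_assoc])
            change _ ∈ K
            rw [this]; exact K.mul_mem hb ha
          neg_mem' := fun {a} ha => by
            have : (⟨_, htr (-a)⟩ : G) = ⟨_, htr a⟩⁻¹ := Subtype.ext (by ext; simp)
            change _ ∈ K
            rw [this]; exact K.inv_mem ha }
      have hdec : ∀ σ : G, (⟨_, htr (σ.1 0)⟩ : G)⁻¹ * σ ∈ K := fun σ => hK.le (by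
        rw [MulAction.mem_stabilizer_iff, mul_smul, inv_smul_eq_iff]
        change σ.1 0 = 0 + σ.1 0
        simp)
      rcases hirr (AddSubgroup.toZModSubmodule p A) (fun g hg v hv => by
        have h1 : (⟨_, hlin g hg⟩ : G) ∈ K := hK.le (by
          change g 0 = 0
          simp)
        have : (⟨_, htr (g v)⟩ : G) = ⟨_, hlin g hg⟩ * ⟨_, htr v⟩ * ⟨_, hlin g hg⟩⁻¹ := by
          rw [eq_mul_inv_iff_mul_eq]
          exact Subtype.ext (by ext; simp)
        change (⟨_, htr (g v)⟩ : G) ∈ K
        rw [this]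
        exact K.mul_mem (K.mul_mem h1 hv) (K.inv_mem h1)) with h | h
      · exfalso
        obtain ⟨σ, hσ, hσ'⟩ := SetLike.exists_of_lt hK
        have h1 : (⟨_, htr (σ.1 0)⟩ : G) ∈ K := by
          have := K.mul_mem hσ (K.inv_mem (hdec σ))
          simpa using this
        have h2 : σ.1 0 ∈ AddSubgroup.toZModSubmodule p A := h1
        rw [h] at h2
        exact hσ' h2
      · rw [eq_top_iff]
        intro σ _
        have h2 : σ.1 0 ∈ AddSubgroup.toZModSubmodule p A := h ▸ Submodule.mem_top
        have := K.mul_mem h2 (hdec σ)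
        simpa using this

end Cfsg.Agent.S0733
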