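import Cfsg.Statements.S0734
import Mathlib
import Cfsg.Agent.H2.Perm1

set_option autoImplicit false
open Cfsg

namespace Cfsg.Agent.S0734

/-- Higman's criterion for primitivity: a transitive action on a finite set is primitive if and only if every non-trivial orbital graph (edges = images of a fixed pair of distinct points) is connected. -/
theorem result {G : Type*} [Group G] {Ω : Type*} [Finite Ω] [MulAction G Ω] [MulAction.IsPretransitive G Ω] [Nontrivial Ω] : MulAction.IsPreprimitive G Ω ↔ ∀ a b : Ω, a ≠ b → (SimpleGraph.fromRel fun x y : Ω => ∃ g : G, g • a = x ∧ g • b = y).Connected := by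
  constructor
  · intro hp a b hab
    set Γ := SimpleGraph.fromRel fun x y : Ω => ∃ g : G, g • a = x ∧ g • b = y with hΓ
    have hadj : ∀ (g : G) x y, Γ.Adj x y → Γ.Adj (g • x) (g • y) := by
      intro g x y h
      rw [hΓ, SimpleGraph.fromRel_adj] at h ⊢
      refine ⟨fun e => h.1 (MulAction.injective g e), h.2.imp ?_ ?_⟩ <;>
      · rintro ⟨k, rfl, rfl⟩
        exact ⟨g * k, mul_smul _ _ _, mul_smul _ _ _⟩
    have hre : ∀ (g : G) x y, Γ.Reachable x y → Γ.Reachable (g • x) (g • y) := by
      intro g x y h
      exact h.map (⟨fun x => g • x, fun {x y} => hadj g x y⟩ : Γ →g Γ)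
    let K : Subgroup G :=
      { carrier := {g | Γ.Reachable a (g • a)}
        one_mem' := by simp
        mul_mem' := fun {g h} hg hh => by
          have := hre g _ _ hh
          rw [← mul_smul] at this
          exact hg.trans this
        inv_mem' := fun {g} hg => by
          have := hre g⁻¹ _ _ hg
          rw [inv_smul_smul] at this
          exact this.symm }
    have hco := MulAction.IsPreprimitive.isCoatom_stabilizer_of_isPreprimitive G a
    obtain ⟨g, hg⟩ := MulAction.exists_smul_eq G a b
    have hK : K = ⊤ := by
      apply hco.2
      refine lt_of_le_of_ne (fun x hx => ?_) fun e => ?_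
      · change Γ.Reachable a (x • a)
        rw [hx]
      · have : g ∈ K := by
          change Γ.Reachable a (g • a)
          rw [hg]
          exact SimpleGraph.Adj.reachable (by
            rw [hΓ, SimpleGraph.fromRel_adj]; exact ⟨hab, Or.inl ⟨1, one_smul _ _, one_smul _ _⟩⟩)
        rw [← e, MulAction.mem_stabilizer_iff, hg] at this
        exact hab this.symm
    have hall : ∀ x, Γ.Reachable a x := by
      intro x
      obtain ⟨k, rfl⟩ := MulAction.exists_smul_eq G a x
      have : k ∈ K := hK ▸ Subgroup.mem_top k
      exact this
    exact SimpleGraph.Connected.mk fun x y => (hall x).symm.trans (hall y)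
  · intro h
    refine MulAction.IsPreprimitive.mk fun {B} hB => ?_
    by_cases hs : B.Subsingleton
    · exact Or.inl hs
    right
    obtain ⟨a, ha, b, hb, hab⟩ := Set.not_subsingleton_iff.1 hs
    have key : ∀ (g : G), (g • a ∈ B ↔ g • b ∈ B) := by
      intro g
      constructor
      · intro h1
        have := hB.smul_eq_of_mem ha h1
        rw [← this]; exact Set.smul_mem_smul_set hb
      · intro h1
        have := hB.smul_eq_of_mem hb h1
        rw [← this]; exact Set.smul_mem_smul_set ha
    rw [Set.eq_univ_iff_forall]
    intro x
    obtain ⟨w⟩ := (h a b hab).preconnected a x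
    have : ∀ u v (w : (SimpleGraph.fromRel fun x y : Ω => ∃ g : G, g • a = x ∧ g • b = y).Walk u v),
        u ∈ B → v ∈ B := by
      intro u v w
      induction w with
      | nil => exact id
      | cons hadj _ ih =>
        intro hu
        apply ih
        rw [SimpleGraph.fromRel_adj] at hadj
        rcases hadj.2 with ⟨g, rfl, rfl⟩ | ⟨g, rfl, rfl⟩
        · exact (key g).1 hu
        · exact (key g).2 hu
    exact this a x w ha

end Cfsg.Agent.S0734
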