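import Cfsg.Statements.S0735
import Mathlib
import Cfsg.Agent.H2.Perm5

set_option autoImplicit false
open Cfsg

namespace Cfsg.Agent.S0735
open scoped Pointwise

/-- A 2-homogeneous permutation group (transitive on 2-subsets) of even order is doubly transitive; a non-trivial 2-homogeneous group is primitive. -/
theorem result {α : Type*} [Fintype α] [DecidableEq α] (G : Subgroup (Equiv.Perm α)) (h2 : MulAction.IsPretransitive G (Set.powersetCard α 2)) (hα : 3 ≤ Fintype.card α) : (Even (Nat.card G) → MulAction.IsMultiplyPretransitive G α 2) ∧ (G ≠ ⊥ → MulAction.IsPreprimitive G α) := by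
  have key : ∀ a b c d : α, a ≠ b → c ≠ d → ∃ g : G, (g • a = c ∧ g • b = d) ∨ (g • a = d ∧ g • b = c) := by
    intro a b c d hab hcd
    obtain ⟨g, hg⟩ := h2.exists_smul_eq ⟨{a, b}, Finset.card_pair hab⟩ ⟨{c, d}, Finset.card_pair hcd⟩
    have h1 : g • ({a, b} : Finset α) = {c, d} := congrArg Subtype.val hg
    simp only [Finset.smul_finset_insert, Finset.smul_finset_singleton] at h1
    refine ⟨g, ?_⟩
    have h3 := congrArg (fun s : Finset α => (s : Set α)) h1
    simp only [Finset.coe_insert, Finset.coe_singleton] at h3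
    exact Set.pair_eq_pair_iff.1 h3
  constructor
  · intro he
    haveI : Fact (Nat.Prime 2) := ⟨Nat.prime_two⟩
    obtain ⟨t, ht⟩ := exists_prime_orderOf_dvd_card' (G := G) 2 he.two_dvd
    obtain ⟨x, hx⟩ := H2.Pm.exists_smul_ne (X := α) (g := t) (fun e => by simp [e] at ht)
    have ht2 : t • t • x = x := by rw [← mul_smul, ← sq, ← ht, pow_orderOf_eq_one, one_smul]
    rw [H2.Pm.mt_two_iff]
    intro a b c d hab hcd
    obtain ⟨g, hg | hg⟩ := key a b c d hab hcd
    · exact ⟨g, hg⟩
    obtain ⟨k, hk | hk⟩ := key x (t • x) c d hx.symm hcd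
    · refine ⟨k * t * k⁻¹ * g, ?_, ?_⟩
      · rw [mul_smul, hg.1, ← hk.2, mul_smul, mul_smul, inv_smul_smul, ht2, hk.1]
      · rw [mul_smul, hg.2, ← hk.1, mul_smul, mul_smul, inv_smul_smul, hk.2]
    · refine ⟨k * t * k⁻¹ * g, ?_, ?_⟩
      · rw [mul_smul, hg.1, ← hk.1, mul_smul, mul_smul, inv_smul_smul, hk.2]
      · rw [mul_smul, hg.2, ← hk.2, mul_smul, mul_smul, inv_smul_smul, ht2, hk.1]
  · intro _
    haveI : MulAction.IsPretransitive G α := ⟨fun a b => by
      by_cases hab : a = b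
      · exact ⟨1, by simp [hab]⟩
      obtain ⟨c, hc⟩ : ∃ c, c ∉ ({a, b} : Finset α) := by
        by_contra h
        push_neg at h
        have := Finset.card_pair hab
        rw [Finset.eq_univ_of_forall h, Finset.card_univ] at this
        omega
      simp only [Finset.mem_insert, Finset.mem_singleton, not_or] at hc
      obtain ⟨g, hg | hg⟩ := key a b a c hab (Ne.symm hc.1)
      · obtain ⟨k, hk | hk⟩ := key a b b c hab (Ne.symm hc.2)
        · exact ⟨k, hk.1⟩
        · exact ⟨g⁻¹ * k, by rw [mul_smul, hk.1, inv_smul_eq_iff, hg.2]⟩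
      · exact ⟨g⁻¹, by rw [inv_smul_eq_iff, hg.2]⟩⟩
    refine MulAction.IsPreprimitive.mk fun {B} hB => ?_
    by_cases hs : B.Subsingleton
    · exact Or.inl hs
    right
    obtain ⟨a, ha, b, hb, hab⟩ := Set.not_subsingleton_iff.1 hs
    rw [Set.eq_univ_iff_forall]
    intro z
    by_cases hz : a = z
    · exact hz ▸ ha
    obtain ⟨g, hg | hg⟩ := key a b a z hab hz
    · rw [← hB.smul_eq_of_mem ha (hg.1.symm ▸ ha : g • a ∈ B), ← hg.2]
      exact Set.smul_mem_smul_set hb
    · rw [← hB.smul_eq_of_mem hb (hg.2.symm ▸ ha : g • b ∈ B), ← hg.1]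
      exact Set.smul_mem_smul_set ha

end Cfsg.Agent.S0735
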