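import Cfsg.Statements.S0737
import Mathlib
import Cfsg.Agent.H2.Kantor
import Cfsg.Agent.H2.Perm8
import Cfsg.Agent.S0735
import Cfsg.Agent.FT
import Cfsg.Agent.H12.Transport

set_option autoImplicit false
open Cfsg

namespace Cfsg.Agent.S0737

open MulAction Subgroup

/-- A non-trivial 2-homogeneous permutation group that is not doubly transitive has odd order and degree `p^f ≡ 3 (mod 4)`, and is permutation-isomorphic to a group of semi-affine transformations `x ↦ a φ(x) + b` of the field with `p^f` elements containing all translations. -/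
theorem result {α : Type*} [Fintype α] [DecidableEq α] (G : Subgroup (Equiv.Perm α)) (hne : G ≠ ⊥) (h2 : MulAction.IsPretransitive G (Set.powersetCard α 2)) (hn2 : ¬ MulAction.IsMultiplyPretransitive G α 2) : Odd (Nat.card G) ∧ ∃ (p f : ℕ) (_ : Fact p.Prime), p ≠ 2 ∧ Fintype.card α = p ^ f ∧ p ^ f % 4 = 3 ∧ ∃ e : α ≃ GaloisField p f, (∀ g : G, e.symm.trans (((g : Equiv.Perm α)).trans e) ∈ Cfsg.semiaffineGroup (GaloisField p f)) ∧ ∀ b : GaloisField p f, ∃ g : G, ∀ x : α, e ((g : Equiv.Perm α) x) = e x + b := by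
  have hcard : Nat.card α = Fintype.card α := Nat.card_eq_fintype_card
  obtain ⟨⟨g₀, hg₀⟩, hg1⟩ := ne_bot_iff_exists_ne_one.1 hne
  obtain ⟨a, ha⟩ := H2.Pm.exists_smul_ne (X := α) hg1
  replace ha : g₀ a ≠ a := ha
  have hα : 3 ≤ Fintype.card α := by
    by_contra hlt
    have hall : ∀ x, x = a ∨ x = g₀ a := by
      intro x
      by_contra hx
      push_neg at hx
      have := Finset.card_le_univ ({a, g₀ a, x} : Finset α)
      rw [Finset.card_eq_three.2 ⟨_, _, _, Ne.symm ha, hx.1.symm, hx.2.symm, rfl⟩] at this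
      omega
    have h3 : g₀ (g₀ a) = a := (hall _).resolve_right (g₀.injective.ne ha)
    refine hn2 (H2.Pm.mt_two_iff.2 fun b c d e hbc hde => ?_)
    by_cases h : b = d
    · refine ⟨1, by simpa using h, ?_⟩
      rcases hall b with h1 | h1 <;> rcases hall c with h2 | h2 <;> rcases hall e with h3 | h3 <;>
        simp_all
    · refine ⟨⟨g₀, hg₀⟩, ?_⟩
      change g₀ b = d ∧ g₀ c = e
      rcases hall b with h1 | h1 <;> rcases hall c with h2 | h2 <;> rcases hall d with h4 | h4 <;>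
        rcases hall e with h5 | h5 <;> simp_all
  obtain ⟨h3, h4⟩ := S0735.result G h2 hα
  have hodd : Odd (Nat.card G) := Nat.not_even_iff_odd.1 (mt h3 hn2)
  refine ⟨hodd, ?_⟩
  haveI := h4 hne
  haveI := FT.solvable_of_odd hodd
  haveI := (nontrivial_iff_ne_bot G).2 hne
  obtain ⟨N, hN, hNc, p, hp, hNp⟩ := H2.exists_isMinNormal_of_isSolvable (G := G)
  haveI := hN.1
  haveI := Fact.mk hp
  have htr := (H2.Pm.trans_subgroup_iff N).1 (H2.Pm.normal_trans' (X := α) N hN.2)
  have hr : ∀ m ∈ N, ∀ a : α, m • a = a → m = 1 := fun m hm a =>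
    H2.Pm.eq_one_of_commute_trans htr fun g hg => H2.mul_comm_of_mem hm hg
  have h5 := H2.Pm.card_eq_of_regular htr hr a
  obtain ⟨f, hf⟩ := IsPGroup.iff_card.1 hNp
  have hf0 : f ≠ 0 := by rintro rfl; rw [pow_zero] at hf; omega
  have h6 := H2.Pm.card_eq_of_trans (G := G) a
  have hq : Odd (p ^ f) := hodd.of_dvd_nat (hf ▸ card_subgroup_dvd_card N)
  have hp2 : p ≠ 2 := by
    rintro rfl
    exact Nat.not_even_iff_odd.2 hq (Nat.even_pow.2 ⟨even_two, hf0⟩)
  haveI : Nonempty (Set.powersetCard α 2) := ⟨⟨{a, g₀ a}, Finset.card_pair (Ne.symm ha)⟩⟩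
  have h7 := H2.Pm.card_dvd_of_trans (G := G) (X := Set.powersetCard α 2)
  obtain ⟨k, hk⟩ := hq
  rw [Set.powersetCard.card, Nat.choose_two_right, ← h5, hf, hk, Nat.add_sub_cancel, mul_left_comm,
    Nat.mul_div_cancel_left _ two_pos] at h7
  have h8 : Odd k := hodd.of_dvd_nat ((Dvd.intro_left _ rfl).trans h7)
  have h9 : p ^ f % 4 = 3 := by obtain ⟨j, hj⟩ := h8; omega
  rw [h6, ← h5, hf, hk, Nat.mul_dvd_mul_iff_left (by omega)] at h7
  obtain ⟨A, hA1, hA2, hA3⟩ : ∃ A : Subgroup G, IsMulCommutative A ∧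
      stabilizer G a ≤ normalizer (A : Set G) ∧
      ∀ W ≤ N, A ≤ normalizer (W : Set G) → W = ⊥ ∨ W = N := by
    by_cases hf1 : f = 1
    · refine ⟨⊥, inferInstance, H2.le_normalizer_of_normal' _ _, fun W hW _ => ?_⟩
      rw [hf1, pow_one] at hf
      exact ((Nat.dvd_prime hp).1 (hf ▸ card_dvd_of_le hW)).imp card_eq_one.1
        fun e => eq_of_le_of_card_ge hW (by omega)
    obtain ⟨r, hr1, hr2, hr3⟩ := H2.zsigmondy hp.one_lt (show 1 < f by omega)
      (fun e => hp2 e.1) (by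
        rintro ⟨rfl, -⟩
        obtain ⟨j, rfl⟩ := hp.odd_of_ne_two hp2
        rw [show (2 * j + 1) ^ 2 = 4 * (j * j + j) + 1 by ring] at h9
        omega)
    refine H2.Pm.exists_irred_of_zsig hodd inferInstance (eq_bot_iff.2 fun c hc =>
      H2.Pm.eq_one_of_commute_trans htr (fun g hg => (hc.2 g hg).symm) hc.1) hf hr1 hr2 hr3 hf0 ?_
    rw [hk, Nat.add_sub_cancel] at hr2
    refine ((hr1.dvd_mul.1 hr2).resolve_left fun e => hr3 1 one_pos (by omega) (e.trans ?_)).trans h7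
    obtain ⟨j, hj⟩ := hp.odd_of_ne_two hp2
    rw [pow_one]
    omega
  obtain ⟨F, _, _, e, h10, h11⟩ := H2.Pm.exists_semiaffine htr hr hN.2 a hA2 hA3
  obtain ⟨φ⟩ := H12.nonempty_ringEquiv_of_natCard_eq (F := F) (K := GaloisField p f) (by
    rw [GaloisField.card _ _ hf0, Nat.card_congr e, ← h5, hf])
  refine ⟨p, f, inferInstance, hp2, by rw [← hcard, ← h5, hf], h9, e.symm.trans φ.toEquiv,
    fun g => ?_, fun b => ?_⟩
  · obtain ⟨m, c, σ, hm, h7⟩ := h10 g
    refine ⟨Units.mk0 (φ m) (by simpa using hm), φ c, φ.symm.trans (σ.trans φ), fun x => ?_⟩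
    have := h7 (φ.symm x)
    change (g : Equiv.Perm α) _ = _ at this
    simp [this]
  · obtain ⟨g, hg⟩ := h11 (φ.symm b)
    refine ⟨g, fun x => ?_⟩
    have := hg (e.symm x)
    change (g : Equiv.Perm α) _ = _ at this
    rw [Equiv.apply_symm_apply] at this
    simp [this]

end Cfsg.Agent.S0737
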