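import Cfsg.Statements.S0739
import Cfsg.Agent.H4.Zass3

set_option autoImplicit false
open Cfsg

namespace Cfsg.Agent.S0739

open Cfsg.Agent.H4


/-- In a finite Zassenhaus group whose two-point stabiliser `H = G_{a,b}` has odd order `d`, and which has no normal `q`-complement for any prime `q ∣ d`, `H` is cyclic, `C_G(H) = H`, and every element swapping `a` and `b` inverts each element of `H`. -/
theorem result {G Ω : Type*} [Group G] [Finite G] [MulAction G Ω] [Fintype Ω] (hZ : Cfsg.IsZassenhausGroup G Ω) {a b : Ω} (hab : a ≠ b) (hodd : Odd (Nat.card ↥(MulAction.stabilizer G a ⊓ MulAction.stabilizer G b))) (hnil : ∀ q : ℕ, q.Prime → q ∣ Nat.card ↥(MulAction.stabilizer G a ⊓ MulAction.stabilizer G b) → ¬ ∃ N : Subgroup G, N.Normal ∧ N.index = q ^ (Nat.card G).factorization q) : IsCyclic ↥(MulAction.stabilizer G a ⊓ MulAction.stabilizer G b) ∧ Subgroup.centralizer ((MulAction.stabilizer G a ⊓ MulAction.stabilizer G b : Subgroup G) : Set G) = MulAction.stabilizer G a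 ⊓ MulAction.stabilizer G b ∧ ∀ s : G, s • a = b → s • b = a → ∀ h ∈ MulAction.stabilizer G a ⊓ MulAction.stabilizer G b, s * h * s⁻¹ = h⁻¹ := by
  have h := hZ.zt
  have hc := h.comm_of_odd hab hodd hnil
  have hinv := fun s h1 h2 => h.inverts_of_odd' hab hodd hnil (s := s) h1 h2
  refine ⟨h.isCyclic_St2 hab, le_antisymm (fun g hg => ?_) fun x hx y hy => ?_, hinv⟩
  · obtain ⟨⟨x, hx⟩, hx1⟩ := Subgroup.ne_bot_iff_exists_ne_one.1 (hZ.St2_ne_bot hab)
    exact h.centralizer_St2_of_inverts hab hodd hinv hx (fun h1 => hx1 (Subtype.ext h1))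
      (hg x hx).symm
  · exact congrArg Subtype.val (mul_comm' (⟨y, hy⟩ : St2 G a b) ⟨x, hx⟩)

end Cfsg.Agent.S0739
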