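import Cfsg.Statements.S0740
import Cfsg.Agent.H4.Zass3

set_option autoImplicit false
open Cfsg

namespace Cfsg.Agent.S0740

open Cfsg.Agent.H4


/-- In a finite Zassenhaus group any two points `a ≠ b` are swapped by an involution; every such involution has exactly one fixed point when the degree is odd and 0 or 2 fixed points when the degree is even; and if the two-point stabiliser has even order, some such involution has exactly 2 fixed points. -/
theorem result {G Ω : Type*} [Group G] [Finite G] [MulAction G Ω] [Fintype Ω] (hZ : Cfsg.IsZassenhausGroup G Ω) {a b : Ω} (hab : a ≠ b) : (∃ s : G, orderOf s = 2 ∧ s • a = b ∧ s • b = a) ∧ (∀ s : G, orderOf s = 2 → s • a = b → s • b = a → (Odd (Fintype.card Ω) → Nat.card (MulAction.fixedBy Ω s) = 1) ∧ (Even (Fintype.card Ω) → Nat.card (MulAction.fixedBy Ω s) = 0 ∨ Nat.card (MulAction.fixedBy Ω s) = 2)) ∧ (Even (Fintype.card Ω) → Even (Nat.card ↥(MulAction.stabilizer G a ⊓ MulAction.stabilizer G b)) → ∃ s : G, orderOf s = 2 ∧ s • a = b ∧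 s • b = a ∧ Nat.card (MulAction.fixedBy Ω s) = 2) := by
  have h := hZ.zt
  rw [← Nat.card_eq_fintype_card]
  refine ⟨h.exists_invol_swap hab, fun s hs _ _ => ⟨fun h1 => h.card_fixedBy_invol_odd h1 hs,
    fun h1 => h.card_fixedBy_invol_even h1 hs⟩, fun _ hd => ?_⟩
  obtain ⟨⟨z, hz⟩, hz2⟩ := exists_prime_orderOf_dvd_card' 2 hd.two_dvd
  rw [Subgroup.orderOf_mk] at hz2
  obtain ⟨x, h1, h2⟩ := h.exists_invol_swap_of hab hz2
  refine ⟨_, ((MulAut.conj x).orderOf_eq z).trans hz2, h1, h2, card_fixedBy_St2 h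
    (fun h3 => hab (smul_left_cancel x h3)) (conj_mem_St2 hz x) ?_⟩
  have : z ≠ 1 := by rintro rfl; simp at hz2
  simpa using this

end Cfsg.Agent.S0740
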