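import Cfsg.Statements.S0754


set_option autoImplicit false
open Cfsg

namespace Cfsg.Agent.S0754

/-- In a field F with q^2 elements, every non-zero μ with μ^q = μ (that is, μ in the subfield of order q) has exactly q + 1 solutions λ of λ^(q+1) = μ. -/
theorem result {F : Type*} [Field F] [Fintype F] {q : ℕ} (hF : Fintype.card F = q ^ 2) (μ : F) (hμ : μ ≠ 0) (hμq : μ ^ q = μ) : Nat.card {x : F // x ^ (q + 1) = μ} = q + 1 := by
  classical
  have hq2 : 2 ≤ q := by
    by_contra! h
    have h1 : 1 < Fintype.card F := Fintype.one_lt_card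
    interval_cases q <;> simp_all
  have hcard : Nat.card Fˣ = (q + 1) * (q - 1) := by
    rw [Nat.card_units, Nat.card_eq_fintype_card, hF]
    obtain ⟨r, rfl⟩ : ∃ r, q = r + 1 := ⟨q - 1, by omega⟩
    simp only [add_tsub_cancel_right]
    apply Nat.sub_eq_of_eq_add
    ring
  -- the power map on units
  let f : Fˣ →* Fˣ := powMonoidHom (q + 1)
  have hker : Nat.card f.ker = q + 1 := by
    rw [IsCyclic.card_powMonoidHom_ker, hcard, Nat.gcd_mul_right_left]
  let u : Fˣ := Units.mk0 μ hμ
  have hu : u ∈ f.range := by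
    have hu1 : u ^ (q - 1) = 1 := by
      ext
      have : μ ^ (q - 1) * μ = 1 * μ := by
        rw [← pow_succ, Nat.sub_add_cancel (by omega), hμq, one_mul]
      simpa [u] using mul_right_cancel₀ hμ this
    obtain ⟨g, hg⟩ := IsCyclic.exists_generator (α := Fˣ)
    obtain ⟨k, hk⟩ : ∃ k : ℕ, g ^ k = u := by
      have := hg u
      rwa [← mem_powers_iff_mem_zpowers] at this
    have ho : orderOf g = (q + 1) * (q - 1) := by
      rw [orderOf_eq_card_of_forall_mem_zpowers hg, hcard]
    have hd : orderOf g ∣ k * (q - 1) := by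
      rw [orderOf_dvd_iff_pow_eq_one, pow_mul, hk, hu1]
    rw [ho] at hd
    obtain ⟨j, hj⟩ := Nat.dvd_of_mul_dvd_mul_right (by omega) hd
    exact ⟨g ^ j, by simp only [f, powMonoidHom_apply]; rw [← pow_mul, mul_comm, ← hj, hk]⟩
  obtain ⟨x, hx⟩ := hu
  refine Eq.trans ?_ hker
  have hx' : (x : F) ^ (q + 1) = μ := by
    have := congrArg Units.val hx
    simpa [f, u] using this
  refine Nat.card_congr
    { toFun := fun y => ⟨Units.mk0 y.1 (fun h => hμ (by rw [← y.2, h]; simp)) * x⁻¹, ?_⟩
      invFun := fun y => ⟨(y.1 : F) * x, ?_⟩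
      left_inv := fun y => ?_
      right_inv := fun y => ?_ }
  · rw [MonoidHom.mem_ker]
    ext
    simp [f, mul_pow, y.2, hx', hμ]
  · have := congrArg Units.val (MonoidHom.mem_ker.mp y.2)
    simp only [f, powMonoidHom_apply, Units.val_pow_eq_pow_val, Units.val_one] at this
    rw [mul_pow, this, hx', one_mul]
  · ext; simp
  · ext; simp

end Cfsg.Agent.S0754
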