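import Cfsg.Statements.S0756
import Cfsg.Agent.H13.MaxSing

set_option autoImplicit false
open Cfsg

namespace Cfsg.Agent.S0756

/-- Classification of symmetric bilinear forms over finite fields of odd characteristic: if B is non-degenerate symmetric on V of dimension n + 1 and α is a fixed non-square of F, there is an orthogonal basis b_0, ..., b_n with B(b_i, b_i) = 1 for i < n and B(b_n, b_n) ∈ {1, α}. -/
theorem result {F V : Type*} [Field F] [Finite F] [AddCommGroup V] [Module F V] [FiniteDimensional F V] (h2 : (2 : F) ≠ 0) (B : LinearMap.BilinForm F V) (hS : B.IsSymm) (hB : B.Nondegenerate) {n : ℕ} (hn : Module.finrank F V = n + 1) (α : F) (hα : ¬ IsSquare α) : ∃ b : Module.Basis (Fin (n + 1)) F V, (∀ i j, i ≠ j → B (b i) (b j) = 0) ∧ (∀ i, i ≠ Fin.last n → B (b i) (b i) = 1) ∧ (B (b (Fin.last n)) (b (Fin.last n)) = 1 ∨ B (b (Fin.last n)) (b (Fin.last n)) = α) := by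
  classical
  have hα0 : α ≠ 0 := by rintro rfl; exact hα IsSquare.zero
  have hQ := H13.nd_toQuadraticMap h2 hS.eq hB
  have key : ∀ c : F, c ≠ 0 → H13.disc (LinearMap.BilinMap.toQuadraticMap B) =
      H13.sgn ((2 : F) ^ (n + 1)) * H13.sgn c → ∃ b : Module.Basis (Fin (n + 1)) F V,
      (∀ i j, i ≠ j → B (b i) (b j) = 0) ∧ (∀ i, i ≠ Fin.last n → B (b i) (b i) = 1) ∧
      B (b (Fin.last n)) (b (Fin.last n)) = c := by
    intro c hc h
    let w : Fin (n + 1) → F := fun i => if i = Fin.last n then c else 1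
    have hw : ∀ i, w i ≠ 0 := fun i => by simp only [w]; split_ifs <;> simp [hc]
    have hR := H13.nd_weightedSumSquares h2 hw
    obtain ⟨e, he⟩ := hR.exists_isometry_of_disc_eq h2 hQ (by simp [hn]) (by
      rw [h, hR.disc_eq (Pi.basisFun F _), H13.gdet_weightedSumSquares,
        ← H13.sgn_mul (pow_ne_zero _ h2) hc]
      simp [w])
    have hp := (H13.SemiSim.ofIsometry e he).map_polar
    have hp' : ∀ x y, B (e x) (e y) = ∑ i, w i * x i * y i := fun x y => by
      have : QuadraticMap.polar (LinearMap.BilinMap.toQuadraticMap B) (e x) (e y) =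
        (1 : F) * QuadraticMap.polar (QuadraticMap.weightedSumSquares F w) x y := hp x y
      rw [H13.polar_toQuadraticMap_symm hS.eq, H13.polar_weightedSumSquares, one_mul] at this
      apply mul_left_cancel₀ h2
      rw [this, Finset.mul_sum]
      exact Finset.sum_congr rfl fun i _ => by ring
    refine ⟨(Pi.basisFun F _).map e, fun i j hij => ?_, fun i hi => ?_, ?_⟩
    · simp [hp', Pi.single_apply, hij, hij.symm]
    · simp [hp', Pi.single_apply, w, hi]
    · simp [hp', Pi.single_apply, w]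
  by_cases h : H13.disc (LinearMap.BilinMap.toQuadraticMap B) = H13.sgn ((2 : F) ^ (n + 1))
  · obtain ⟨b, h1, h3, h4⟩ := key 1 one_ne_zero (by rw [h, H13.sgn_one, mul_one])
    exact ⟨b, h1, h3, Or.inl h4⟩
  · obtain ⟨b, h1, h3, h4⟩ := key α hα0 (by
      rw [H13.sgn_eq_neg_one_iff.mpr hα, mul_neg, mul_one, ← Int.units_ne_iff_eq_neg]; exact h)
    exact ⟨b, h1, h3, Or.inr h4⟩

end Cfsg.Agent.S0756
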