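import Cfsg.Statements.S0757
import Cfsg.Agent.H13.MaxSing

set_option autoImplicit false
open Cfsg

namespace Cfsg.Agent.S0757

/-- The two diagonal forms Σ x_i^2 and Σ_(i<n) x_i^2 + α x_n^2 on F^(n+1), with α a non-square and 2 ≠ 0 in F, are inequivalent quadratic forms (so over a finite field of odd order there are exactly two classes of non-singular symmetric bilinear forms in each dimension). -/
theorem result {F : Type*} [Field F] (h2 : (2 : F) ≠ 0) (n : ℕ) (α : F) (hα : ¬ IsSquare α) : ¬ (QuadraticMap.weightedSumSquares F (fun _ : Fin (n + 1) => (1 : F))).Equivalent (QuadraticMap.weightedSumSquares F (fun i : Fin (n + 1) => if i = Fin.last n then α else (1 : F))) := by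
  rintro ⟨e⟩
  let w : Fin (n + 1) → F := fun i => if i = Fin.last n then α else 1
  obtain ⟨t, ht, h⟩ := H13.gdet_basis_change
    (QuadraticMap.polarBilin (QuadraticMap.weightedSumSquares F w)) (Pi.basisFun F (Fin (n + 1)))
    ((Pi.basisFun F (Fin (n + 1))).map e.toLinearEquiv)
  have h1 : H13.gdet (QuadraticMap.polarBilin (QuadraticMap.weightedSumSquares F w))
      ((Pi.basisFun F (Fin (n + 1))).map e.toLinearEquiv) =
      H13.gdet (QuadraticMap.polarBilin (QuadraticMap.weightedSumSquares F
        (fun _ : Fin (n + 1) => (1 : F)))) (Pi.basisFun F (Fin (n + 1))) := by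
    unfold H13.gdet
    congr 1
    ext i j
    exact ((H13.SemiSim.ofIsometry e.toLinearEquiv e.map_app).map_polar _ _).trans (one_mul _)
  rw [h1, H13.gdet_weightedSumSquares, H13.gdet_weightedSumSquares] at h
  simp only [Finset.prod_const_one, w, Finset.prod_ite_eq', Finset.mem_univ, if_true] at h
  apply hα
  refine ⟨t⁻¹, ?_⟩
  have h3 : (2 : F) ^ Fintype.card (Fin (n + 1)) ≠ 0 := pow_ne_zero _ h2
  field_simp
  apply mul_left_cancel₀ h3
  linear_combination -h

end Cfsg.Agent.S0757
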