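import Cfsg.Statements.S0759
import Cfsg.Agent.H13.MaxSing

set_option autoImplicit false
open Cfsg

namespace Cfsg.Agent.S0759

/-- Type of the orthonormal form: over a finite field of odd order q and for m ≥ 1, the quadratic form Σ_(i<2m) x_i² on F^(2m) admits an m-dimensional subspace on which it vanishes identically if and only if it is not the case that q ≡ 3 (mod 4) and m is odd. -/
theorem result {F : Type*} [Field F] [Fintype F] (h2 : (2 : F) ≠ 0) (m : ℕ) (hm : 1 ≤ m) : (∃ W : Submodule F (Fin (2 * m) → F), Module.finrank F W = m ∧ ∀ w ∈ W, ∑ i, w i ^ 2 = 0) ↔ ¬ (Fintype.card F % 4 = 3 ∧ Odd m) := by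
  have hR := H13.nd_weightedSumSquares h2 (w := fun _ : Fin (2 * m) => (1 : F))
    (fun _ => one_ne_zero)
  have h1 := hR.isPlus_iff_disc h2 (m := m) (by simp)
  rw [hR.disc_eq (Pi.basisFun F _), H13.gdet_weightedSumSquares, Fintype.card_fin, pow_mul',
    H13.sgn_sq_mul (pow_ne_zero _ h2) (by simp), Finset.prod_const_one, H13.sgn_one, eq_comm,
    H13.sgn_neg_one_pow_eq_one_iff (H13.odd_card_of_two_ne_zero h2)] at h1
  have h3 : Fintype.card F ^ m % 4 = 1 ↔ ¬ (Fintype.card F % 4 = 3 ∧ Odd m) := by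
    have := Nat.odd_iff.mp (H13.odd_card_of_two_ne_zero h2)
    rw [Nat.pow_mod]
    by_cases h3 : Fintype.card F % 4 = 3
    · rw [h3]
      rcases Nat.even_or_odd' m with ⟨k, rfl | rfl⟩
      · simp [pow_mul, Nat.pow_mod]
      · simp [pow_succ, pow_mul, Nat.pow_mod, Nat.mul_mod]
    · have h4 : Fintype.card F % 4 = 1 := by omega
      simp [h4]
  rw [← h3, ← h1]
  constructor
  · rintro ⟨W, h4, h5⟩
    exact ⟨W, by simp [h4], fun w hw => by simpa [pow_two] using h5 w hw⟩
  · rintro ⟨W, h4, h5⟩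
    exact ⟨W, by simpa using h4, fun w hw => by simpa [pow_two] using h5 w hw⟩

end Cfsg.Agent.S0759
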