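import Cfsg.Statements.S0761
import Cfsg.Agent.H13.Witt

set_option autoImplicit false
open Cfsg

namespace Cfsg.Agent.S0761

/-- Hyperbolic partners: let B be a non-degenerate bilinear form on a finite-dimensional space, either alternating, or symmetric with 2 ≠ 0. If Z is a subspace on which B vanishes, x ∉ Z is isotropic and orthogonal to Z, then there is an isotropic y with B x y = 1 which is orthogonal to Z. -/
theorem result {F V : Type*} [Field F] [AddCommGroup V] [Module F V] [FiniteDimensional F V] (B : LinearMap.BilinForm F V) (hB : B.Nondegenerate) (hform : B.IsAlt ∨ (B.IsSymm ∧ (2 : F) ≠ 0)) (x : V) (Z : Submodule F V) (hxZ : x ∉ Z) (hx : B x x = 0) (hxz : ∀ z ∈ Z, B x z = 0) (hZ : ∀ z ∈ Z, ∀ z' ∈ Z, B z z' = 0) : ∃ y : V, B y y = 0 ∧ B x y = 1 ∧ ∀ z ∈ Z, B z y = 0 := by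
  have hrefl : ∀ u v, B u v = 0 → B v u = 0 := by
    rcases hform with h | ⟨h, -⟩
    · exact h.isRefl
    · exact h.isRefl
  obtain ⟨φ, hφ1, hφ2, -⟩ := H13.exists_dual_ne_zero_two Z hxZ hxZ
  obtain ⟨y, hy⟩ := H13.exists_repr_dual (σ := RingHom.id F) (fun _ => rfl) B.flip hB.2
    ((φ x)⁻¹ • φ)
  have hy1 : B x y = 1 := by
    have := hy x
    simpa [hφ2] using this
  have hy2 : ∀ z ∈ Z, B z y = 0 := fun z hz => by
    have := hy z
    simpa [hφ1 z hz] using this
  rcases hform with h | ⟨h, h2⟩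
  · exact ⟨y, h y, hy1, hy2⟩
  · have hyx : B y x = 1 := by rw [← h.eq, hy1]
    refine ⟨y - (B y y / 2) • x, ?_, ?_, fun z hz => ?_⟩
    · simp [hy1, hyx, hx]
      field_simp
      ring
    · simp [hy1, hx]
    · simp [hy2 z hz, hrefl _ _ (hxz z hz)]

end Cfsg.Agent.S0761
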