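import Cfsg.Statements.S0763
import Cfsg.Agent.H13.Hyp

set_option autoImplicit false
open Cfsg

namespace Cfsg.Agent.S0763

/-- Binary quadratic forms in characteristic two over a finite field: if Q is a quadratic form on a 2-dimensional space whose polar form is non-degenerate, then either there are vectors v, w with Q v = Q w = 0 and polar value 1 (Q is xy in these coordinates), or there are v, w and μ with Q v = 1, Q w = μ, polar value 1 and x² + x + μ without roots in F (Q is x² + xy + μy²). -/
theorem result {F V : Type*} [Field F] [Finite F] [CharP F 2] [AddCommGroup V] [Module F V] (Q : QuadraticForm F V) (h2 : Module.finrank F V = 2) (hQ : (QuadraticMap.polarBilin Q).Nondegenerate) : (∃ v w : V, LinearIndependent F ![v, w] ∧ Q v = 0 ∧ Q w = 0 ∧ QuadraticMap.polar Q v w = 1) ∨ (∃ (v w : V) (μ : F), LinearIndependent F ![v, w] ∧ (∀ x : F, x ^ 2 + x + μ ≠ 0) ∧ Q v = 1 ∧ Q w = μ ∧ QuadraticMap.polar Q v w = 1) := by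
  have hQ' := H13.nd_iff.mpr hQ
  have : FiniteDimensional F V := Module.finite_of_finrank_eq_succ h2
  have h0 : (2 : F) = 0 := CharTwo.two_eq_zero
  have key : ∀ v w : V, QuadraticMap.polar Q v w = 1 → LinearIndependent F ![v, w] := by
    intro v w h
    rw [LinearIndependent.pair_iff]
    intro s t hst
    have h1 := congrArg (fun x => QuadraticMap.polar Q v x) hst
    have h3 := congrArg (fun x => QuadraticMap.polar Q x w) hst
    simp [h, h0] at h1 h3
    exact ⟨h3, h1⟩
  by_cases h : ∃ v, v ≠ 0 ∧ Q v = 0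
  · obtain ⟨v, hv0, hv⟩ := h
    obtain ⟨w, hw, hvw⟩ := hQ'.exists_hyp hv hv0
    exact Or.inl ⟨v, w, key v w hvw, hv, hw, hvw⟩
  · push Not at h
    obtain ⟨v, hv⟩ := hQ'.exists_eq h2.ge 1
    obtain ⟨w, -, hw⟩ := hQ'.exists_perp_one ⊥ (x := v) (by rintro rfl; simp at hv)
    rw [QuadraticMap.polar_comm] at hw
    refine Or.inr ⟨v, w, Q w, key v w hw, fun x hx => h (x • v + w) (fun h1 => ?_) ?_, hv, rfl, hw⟩
    · exact one_ne_zero (LinearIndependent.pair_iff.mp (key v w hw) x 1 (by simpa using h1)).2
    · simp [H13.Q_add, H13.Q_smul, hv, hw]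
      linear_combination hx

end Cfsg.Agent.S0763
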