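import Cfsg.Statements.S0765
import Cfsg.Agent.H12.SBridge

set_option autoImplicit false
open Cfsg

namespace Cfsg.Agent.S0765

/-- Generation of the symplectic group by symplectic transvections: the subgroup of Sp_2m(F) generated by all matrices of maps x ↦ x + c f(x, w) w is the whole group. -/
theorem result {F : Type*} [Field F] (m : ℕ) : Subgroup.closure {A : Matrix.symplecticGroup (Fin m) F | ∃ (w : Fin m ⊕ Fin m → F) (c : F), (A : Matrix (Fin m ⊕ Fin m) (Fin m ⊕ Fin m) F) = Cfsg.sympTransvection m w c} = ⊤ := by
    refine Subgroup.map_injective (f := (H12.spEquiv (Fin m) F : _ →* H12.UG (H12.spB (Fin m) F))) (H12.spEquiv _ F).injective ?_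
    rw [H12.map_closure_sympTransvection, H12.sd_spB.TG_eq_top rfl,
      Subgroup.map_top_of_surjective _ (H12.spEquiv _ F).surjective]

end Cfsg.Agent.S0765
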