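import Cfsg.Statements.S0766
import Cfsg.Agent.H12.SBridge
import Cfsg.Agent.S0765

set_option autoImplicit false
open Cfsg

namespace Cfsg.Agent.S0766

/-- The subgroup generated by the symplectic transvections acts transitively on ordered pairs (u, v) with f(u, v) = 1. -/
theorem result {F : Type*} [Field F] (m : ℕ) (u v u' v' : Fin m ⊕ Fin m → F) (h : Cfsg.sympForm m F u v = 1) (h' : Cfsg.sympForm m F u' v' = 1) : ∃ A ∈ Subgroup.closure {A : Matrix.symplecticGroup (Fin m) F | ∃ (w : Fin m ⊕ Fin m → F) (c : F), (A : Matrix (Fin m ⊕ Fin m) (Fin m ⊕ Fin m) F) = Cfsg.sympTransvection m w c}, (A : Matrix (Fin m ⊕ Fin m) (Fin m ⊕ Fin m) F).mulVec u = u' ∧ (A : Matrix (Fin m ⊕ Fin m) (Fin m ⊕ Fin m) F).mulVec v = v' := by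
    have D : H12.SD (H12.spB (Fin m) F) := H12.sd_spB
    have h1 : H12.SP (H12.spB (Fin m) F) u v :=
      ⟨D.self_eq_zero rfl _, D.self_eq_zero rfl _, (H12.spB_eq _ _).trans h⟩
    have h2 : H12.SP (H12.spB (Fin m) F) u' v' :=
      ⟨D.self_eq_zero rfl _, D.self_eq_zero rfl _, (H12.spB_eq _ _).trans h'⟩
    obtain ⟨g, h3, h4⟩ := h1.witt D h2
    refine ⟨(H12.spEquiv _ F).symm g, by rw [S0765.result]; trivial, ?_, ?_⟩
    · rw [H12.spEquiv_symm_mulVec, h3]
    · rw [H12.spEquiv_symm_mulVec, h4]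

end Cfsg.Agent.S0766
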