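import Cfsg.Statements.S0767
import Cfsg.Agent.H12.SBridge

set_option autoImplicit false
open Cfsg

namespace Cfsg.Agent.S0767

/-- The root group of a point: T_v(c) T_v(d) = T_v(c + d), and for A in the symplectic group with A v = a v, the conjugate A T_v(c) A⁻¹ is again some T_v(d). -/
theorem result {F : Type*} [Field F] (m : ℕ) (v : Fin m ⊕ Fin m → F) : (∀ c d : F, Cfsg.sympTransvection m v c * Cfsg.sympTransvection m v d = Cfsg.sympTransvection m v (c + d)) ∧ ∀ (A : Matrix (Fin m ⊕ Fin m) (Fin m ⊕ Fin m) F) (a : F), A ∈ Matrix.symplecticGroup (Fin m) F → A.mulVec v = a • v → ∀ c : F, ∃ d : F, A * Cfsg.sympTransvection m v c * A⁻¹ = Cfsg.sympTransvection m v d := by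
    have D : H12.SD (H12.spB (Fin m) F) := H12.sd_spB
    have hv := D.self_eq_zero rfl v
    refine ⟨fun c d => ?_, fun A a hA h c => ⟨c * (a * a), ?_⟩⟩
    · rw [← H12.coe_symm_tv, ← H12.coe_symm_tv, ← H12.coe_symm_tv, neg_add,
        ← H12.tv_mul D hv rfl rfl, map_mul]
      rfl
    · have h1 := H12.conj_tv D (H12.spEquiv _ F ⟨A, hA⟩) v (-c)
      rw [H12.spEquiv_apply, h, H12.tv_smul D hv rfl, RingHom.id_apply, neg_mul] at h1
      rw [← H12.coe_symm_tv, ← H12.coe_symm_tv, ← h1, map_mul, map_mul, map_inv,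
        MulEquiv.symm_apply_apply, Submonoid.coe_mul, Submonoid.coe_mul, SymplecticGroup.coe_inv']

end Cfsg.Agent.S0767
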