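import Cfsg.Statements.S0768
import Cfsg.Agent.H12.SBridge

set_option autoImplicit false
open scoped LinearAlgebra.Projectivization
open Cfsg

open scoped Pointwise

namespace Cfsg.Agent.S0768

theorem smul_mk {F : Type*} [Field F] (m : ℕ) (g : H12.UG (H12.spB (Fin m) F))
    (v : Fin m ⊕ Fin m → F) (hv : v ≠ 0) : ∃ k : Cfsg.spGL m F, ∀ (x) (hx : x ≠ 0),
      k • Projectivization.mk F x hx = Projectivization.mk F (g.1 x) (H12.UG_ne_zero g hx) := by
  refine ⟨⟨(H12.glEq _ F).symm g.1, fun u w => ?_⟩, fun x hx => ?_⟩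
  · change Cfsg.sympForm m F (Matrix.mulVec ((H12.glEq _ F).symm g.1).1 u)
      (Matrix.mulVec ((H12.glEq _ F).symm g.1).1 w) = _
    rw [← H12.glEq_apply, ← H12.glEq_apply, MulEquiv.apply_symm_apply, ← H12.spB_eq, ← H12.spB_eq,
      H12.UG_map]
  · rw [Subgroup.smul_def, Projectivization.smul_mk]
    congr 1
    change Matrix.mulVec ((H12.glEq _ F).symm g.1).1 x = _
    rw [← H12.glEq_apply, MulEquiv.apply_symm_apply]

/-- Primitivity: for m ≥ 1 and F finite, the symplectic group of the form sympForm (as a subgroup of the general linear group) acts primitively on the projective space of F^(2m). -/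
theorem result {F : Type*} [Field F] [Finite F] (m : ℕ) (hm : 1 ≤ m) : MulAction.IsPreprimitive ↥(Cfsg.spGL m F) (ℙ F (Fin m ⊕ Fin m → F)) := by
    have D : H12.SD (H12.spB (Fin m) F) := H12.sd_spB
    have hi := D.self_eq_zero rfl
    have htr : MulAction.IsPretransitive (Cfsg.spGL m F) (ℙ F (Fin m ⊕ Fin m → F)) := ⟨fun x y => by
      induction x using Projectivization.ind with | h x hx => ?_
      induction y using Projectivization.ind with | h y hy => ?_
      obtain ⟨g, rfl⟩ := D.witt_one hx hy (by rw [hi, hi])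
      obtain ⟨k, hk⟩ := smul_mk m g x hx
      exact ⟨k, hk x hx⟩⟩
    refine ⟨fun {S} hS => ?_⟩
    rcases S.subsingleton_or_nontrivial with h | ⟨a, ha, b, hb, hab⟩
    · exact Or.inl h
    right
    induction a using Projectivization.ind with | h a ha0 => ?_
    induction b using Projectivization.ind with | h b hb0 => ?_
    have key : ∀ x, x ≠ 0 → ∃ (hx : a ≠ 0) (hy : x ≠ 0) (k : Cfsg.spGL m F),
        Projectivization.mk F a hx ∈ k • S ∧ Projectivization.mk F x hy ∈ k • S := fun x hx =>
      D.rel_of_invariant (R := fun x y => ∃ (hx : x ≠ 0) (hy : y ≠ 0) (k : Cfsg.spGL m F),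
        Projectivization.mk F x hx ∈ k • S ∧ Projectivization.mk F y hy ∈ k • S)
        (fun x y ⟨hx, hy, k, h1, h2⟩ => ⟨hy, hx, k, h2, h1⟩)
        (fun x y z ⟨hx, hy, k, h1, h2⟩ ⟨_, hz, k', h3, h4⟩ => ⟨hx, hz, k, h1, by
          rw [hS.smul_eq_smul_of_nonempty ⟨_, h2, h3⟩]; exact h4⟩)
        (fun x c hx hc => by
          obtain ⟨k, hk⟩ := htr.exists_smul_eq (Projectivization.mk F a ha0)
            (Projectivization.mk F x hx)
          have h1 : Projectivization.mk F x hx ∈ k • S := ⟨_, ha, hk⟩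
          refine ⟨hx, smul_ne_zero hc hx, k, h1, ?_⟩
          rwa [(Projectivization.mk_eq_mk_iff' F _ _ (smul_ne_zero hc hx) hx).mpr ⟨c, rfl⟩])
        (fun g _ x y ⟨hx, hy, k, h1, h2⟩ => by
          obtain ⟨j, hj⟩ := smul_mk m g x hx
          refine ⟨H12.UG_ne_zero g hx, H12.UG_ne_zero g hy, j * k, ?_, ?_⟩
          · rw [← hj x hx, mul_smul]; exact Set.smul_mem_smul_set h1
          · rw [← hj y hy, mul_smul]; exact Set.smul_mem_smul_set h2)
        (hi a) ha0 (hi b) (fun hm => by
          obtain ⟨c, hc⟩ := Submodule.mem_span_singleton.mp hm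
          exact hab ((Projectivization.mk_eq_mk_iff' F _ _ hb0 ha0).mpr ⟨c, hc⟩).symm)
        ⟨ha0, hb0, 1, by simpa using ha, by simpa using hb⟩ (hi a) ha0 (hi x) hx
    refine Set.eq_univ_of_forall fun x => ?_
    induction x using Projectivization.ind with | h x hx => ?_
    obtain ⟨_, _, k, h1, h2⟩ := key x hx
    rwa [hS.smul_eq_of_nonempty ⟨_, h1, ha⟩] at h2

end Cfsg.Agent.S0768
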