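import Cfsg.Statements.S0770
import Cfsg.Agent.H13.Mono

set_option autoImplicit false
open Cfsg

namespace Cfsg.Agent.S0770

/-- For a field with at least 3 elements, an invertible matrix normalises the subgroup of invertible diagonal matrices of GL_n if and only if it is monomial (exactly one non-zero entry in each row). -/
theorem result {F : Type*} [Field F] (hF : ∃ a : F, a ≠ 0 ∧ a ≠ 1) (n : ℕ) (g : Matrix.GeneralLinearGroup (Fin n) F) : g ∈ Subgroup.normalizer ((Units.map (Matrix.diagonalRingHom (Fin n) F).toMonoidHom).range : Subgroup (Matrix.GeneralLinearGroup (Fin n) F)) ↔ ∀ i : Fin n, ∃! j : Fin n, (g : Matrix (Fin n) (Fin n) F) i j ≠ 0 := by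
  obtain ⟨a, ha0, ha1⟩ := hF
  refine H13.mem_normalizer_diag (Cfsg.glToMat (Fin n) F) (fun t => ?_) fun j j' hj => ?_
  · constructor
    · rintro ⟨d, rfl⟩
      exact ⟨d.1, rfl⟩
    · rintro ⟨d, hd⟩
      have h1 : IsUnit (Matrix.diagonal d) := hd ▸ t.isUnit
      rw [Matrix.isUnit_diagonal] at h1
      exact ⟨h1.unit, Units.ext hd.symm⟩
  · have h1 : IsUnit (Function.update (1 : Fin n → F) j a) := by
      rw [Pi.isUnit_iff]
      intro i
      by_cases h : i = j
      · simp [h, ha0]
      · simp [h]
    refine ⟨_, ⟨h1.unit, rfl⟩, ?_⟩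
    change Matrix.diagonal (Function.update (1 : Fin n → F) j a) j j ≠
      Matrix.diagonal (Function.update (1 : Fin n → F) j a) j' j'
    simp [hj.symm, ha1]

end Cfsg.Agent.S0770
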