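import Cfsg.Statements.S0771
import Cfsg.Agent.H13.Par
import Cfsg.Agent.H12.Lin

set_option autoImplicit false
open Cfsg

namespace Cfsg.Agent.S0771

/-- Maximal parabolic of GL_n(q): the stabiliser of the coordinate subspace spanned by the first k basis vectors has order q^(k(n-k)) · |GL_k(q)| · |GL_(n-k)(q)| (unipotent radical of order q^(k(n-k)) and Levi complement GL_k × GL_(n-k)). -/
theorem result {F : Type*} [Field F] [Fintype F] {q : ℕ} (hF : Fintype.card F = q) (n k : ℕ) (hk : k ≤ n) : Nat.card ↥(Cfsg.stabilizing (Cfsg.glToMat (Fin n) F) {v : Fin n → F | ∀ i : Fin n, k ≤ (i : ℕ) → v i = 0}) = q ^ (k * (n - k)) * (∏ i : Fin k, (q ^ k - q ^ (i : ℕ))) * ∏ i : Fin (n - k), (q ^ (n - k) - q ^ (i : ℕ)) := by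
  obtain ⟨l, rfl⟩ := Nat.exists_eq_add_of_le hk
  rw [Nat.add_sub_cancel_left, ← H12.card_GL_fin hF, ← H12.card_GL_fin hF]
  have := H13.card_GL_block (F := F) (k := Fin k) (l := Fin l)
  rw [Fintype.card_fin, Fintype.card_fin, Nat.card_eq_fintype_card (α := F), hF] at this
  rw [← this]
  symm
  refine Nat.card_congr (Equiv.subtypeEquiv
    (Units.mapEquiv (Matrix.reindexAlgEquiv F F finSumFinEquiv).toMulEquiv).toEquiv fun g => ?_)
  rw [H13.mem_stabilizing_coord]
  constructor
  · intro h i j hi hj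
    obtain ⟨i, rfl⟩ := finSumFinEquiv.surjective i
    obtain ⟨j, rfl⟩ := finSumFinEquiv.surjective j
    rcases i with i | i
    · simp at hi; omega
    rcases j with j | j
    · change g.1 (finSumFinEquiv.symm _) (finSumFinEquiv.symm _) = 0
      rw [Equiv.symm_apply_apply, Equiv.symm_apply_apply]
      exact h i j
    · simp at hj
  · intro h i j
    have := h (finSumFinEquiv (.inr i)) (finSumFinEquiv (.inl j)) (by simp) (by simp)
    change g.1 (finSumFinEquiv.symm _) (finSumFinEquiv.symm _) = 0 at this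
    rwa [Equiv.symm_apply_apply, Equiv.symm_apply_apply] at this

end Cfsg.Agent.S0771
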