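import Cfsg.Statements.S0772
import Cfsg.Agent.H13.Par
import Cfsg.Agent.H12.Lin

set_option autoImplicit false
open Cfsg

namespace Cfsg.Agent.S0772

/-- Maximal parabolics are maximal: over a finite field, for 0 < k < n the stabiliser in GL_n of the span of the first k coordinate vectors is a maximal proper subgroup. -/
theorem result {F : Type*} [Field F] [Finite F] (n k : ℕ) (hk0 : 0 < k) (hkn : k < n) : IsCoatom (Cfsg.stabilizing (Cfsg.glToMat (Fin n) F) {v : Fin n → F | ∀ i : Fin n, k ≤ (i : ℕ) → v i = 0}) := by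
  classical
  set S := Cfsg.stabilizing (Cfsg.glToMat (Fin n) F) {v : Fin n → F | ∀ i : Fin n, k ≤ (i : ℕ) → v i = 0} with hS
  let W := H13.coordSub F (fun i : Fin n => k ≤ (i : ℕ))
  have hmem : ∀ g, g ∈ S ↔ ∀ v, v ∈ W ↔ H12.glEq (Fin n) F g v ∈ W := fun g => Iff.rfl
  constructor
  · intro h
    have hne : (⟨k, hkn⟩ : Fin n) ≠ ⟨0, by omega⟩ := by simp; omega
    have : Matrix.SpecialLinearGroup.toGL (Matrix.SpecialLinearGroup.transvection hne (1 : F)) ∈ S := h ▸ Subgroup.mem_top _
    rw [hS, H13.mem_stabilizing_coord] at this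
    have := this ⟨k, hkn⟩ ⟨0, by omega⟩ le_rfl (by simp; omega)
    change Matrix.transvection _ _ _ _ _ = 0 at this
    simp [Matrix.transvection, Matrix.one_apply_ne hne] at this
  · intro M hM
    obtain ⟨g, hg, hg'⟩ := SetLike.exists_of_lt hM
    have h1 : H12.SLV F (Fin n → F) ≤ M.map (H12.glEq (Fin n) F : _ →* _) := by
      refine H12.SLV_le_of_stab (W := W) (fun x _ hx => ?_) (g := H12.glEq (Fin n) F g) ⟨g, hg, rfl⟩ hg'
      obtain ⟨x, rfl⟩ := (H12.glEq (Fin n) F).surjective x
      exact ⟨x, hM.le ((hmem x).2 hx), rfl⟩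
    rw [eq_top_iff]
    intro x _
    let d := H12.dilGL (⟨0, by omega⟩ : Fin n) (Matrix.GeneralLinearGroup.det x)
    have hd : d ∈ M := hM.le (by
      rw [hS, H13.mem_stabilizing_coord]
      intro i j hi hj
      change (d : Matrix _ _ F) i j = 0
      rw [H12.dilGL_coe, Matrix.diagonal_apply_ne]
      rintro rfl; exact hj hi)
    have h2 : H12.glEq (Fin n) F (x * d⁻¹) ∈ H12.SLV F (Fin n → F) := by
      rw [H12.mem_SLV, H12.det_glEq, ← Matrix.GeneralLinearGroup.val_det_apply, map_mul, map_inv,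
        H12.det_dilGL, mul_inv_cancel, Units.val_one]
    obtain ⟨y, hy, hy'⟩ := h1 h2
    have := (H12.glEq (Fin n) F).injective hy'
    subst this
    have := M.mul_mem hy hd
    rwa [inv_mul_cancel_right] at this

end Cfsg.Agent.S0772
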