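import Cfsg.Statements.S0773
import Cfsg.Agent.H13.Par

set_option autoImplicit false
open Cfsg

namespace Cfsg.Agent.S0773

open Matrix in
/-- inverse transpose followed by a permutation of the coordinates -/
def flipT {F : Type*} [Field F] {ι : Type*} [Fintype ι] [DecidableEq ι] (e : ι ≃ ι) :
    GL ι F →* GL ι F :=
  MonoidHom.mk' (fun g => ⟨(g⁻¹).1ᵀ.submatrix e e, g.1ᵀ.submatrix e e,
    by rw [submatrix_mul_equiv, ← transpose_mul, Units.mul_inv, transpose_one, submatrix_one_equiv],
    by rw [submatrix_mul_equiv, ← transpose_mul, Units.inv_mul, transpose_one, submatrix_one_equiv]⟩)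
    fun a b => Units.ext (by
      simp only [Units.val_mul, submatrix_mul_equiv, _root_.mul_inv_rev, transpose_mul])

theorem flipT_flipT {F : Type*} [Field F] {n : ℕ} (g : GL (Fin n) F) :
    flipT Fin.revPerm (flipT Fin.revPerm g) = g := by
  ext i j
  change g.1 (Fin.rev (Fin.rev i)) (Fin.rev (Fin.rev j)) = _
  rw [Fin.rev_rev, Fin.rev_rev]

theorem flipT_mem {F : Type*} [Field F] {n k l : ℕ} (h : k + l = n) {g : GL (Fin n) F}
    (hg : g ∈ Cfsg.stabilizing (Cfsg.glToMat (Fin n) F) {v : Fin n → F | ∀ i : Fin n, k ≤ (i : ℕ) → v i = 0}) :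
    flipT Fin.revPerm g ∈ Cfsg.stabilizing (Cfsg.glToMat (Fin n) F) {v : Fin n → F | ∀ i : Fin n, l ≤ (i : ℕ) → v i = 0} := by
  have := Subgroup.inv_mem _ hg
  rw [H13.mem_stabilizing_coord] at this ⊢
  intro i j hi hj
  exact this j.rev i.rev (by rw [Fin.val_rev]; omega) (by rw [Fin.val_rev]; omega)

theorem finrank_c (F : Type*) [Field F] {n k : ℕ} (h : k ≤ n) :
    Module.finrank F (H13.coordSub F fun i : Fin n => k ≤ (i : ℕ)) = k := by
  rw [H13.finrank_coordSub]
  simp only [not_le]
  rw [Nat.card_eq_fintype_card, Fintype.card_subtype]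
  simpa using Fin.card_filter_val_lt (n := n) (m := k) |>.trans (min_eq_right h)

/-- The stabilisers in GL_n(F), F finite, of the coordinate subspaces of dimensions k and n − k are isomorphic groups, but when 2k ≠ n (and 0 < k < n) no element of GL_n conjugates one onto the other. -/
theorem result {F : Type*} [Field F] [Finite F] (n k : ℕ) (hk0 : 0 < k) (hkn : k < n) (h2 : 2 * k ≠ n) : Nonempty (↥(Cfsg.stabilizing (Cfsg.glToMat (Fin n) F) {v : Fin n → F | ∀ i : Fin n, k ≤ (i : ℕ) → v i = 0}) ≃* ↥(Cfsg.stabilizing (Cfsg.glToMat (Fin n) F) {v : Fin n → F | ∀ i : Fin n, n - k ≤ (i : ℕ) → v i = 0})) ∧ ∀ g : Matrix.GeneralLinearGroup (Fin n) F, (Cfsg.stabilizing (Cfsg.glToMat (Fin n) F) {v : Fin n → F | ∀ i : Fin n, k ≤ (i : ℕ) → v i = 0}).map (MulAut.conj g).toMonoidHom ≠ Cfsg.stabilizing (Cfsg.glToMat (Fin n) F) {v : Fin n → F | ∀ i : Fin n, n - k ≤ (i : ℕ) → v i = 0} := by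
  constructor
  · exact ⟨{ toFun := fun g => ⟨flipT Fin.revPerm g.1, flipT_mem (k := k) (by omega) g.2⟩
             invFun := fun g => ⟨flipT Fin.revPerm g.1, flipT_mem (k := n - k) (by omega) g.2⟩
             left_inv := fun g => Subtype.ext (flipT_flipT g.1)
             right_inv := fun g => Subtype.ext (flipT_flipT g.1)
             map_mul' := fun a b => Subtype.ext (map_mul (flipT Fin.revPerm) a.1 b.1) }⟩
  · intro g hg
    let W := H13.coordSub F (fun i : Fin n => k ≤ (i : ℕ))
    let U := H13.coordSub F (fun i : Fin n => n - k ≤ (i : ℕ))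
    let e := H12.glEq (Fin n) F
    let W' := W.map (e g : (Fin n → F) →ₗ[F] (Fin n → F))
    have hW : Module.finrank F W' = k := by
      rw [LinearEquiv.finrank_map_eq, finrank_c F hkn.le]
    have hU : Module.finrank F U = n - k := finrank_c F (Nat.sub_le _ _)
    have key : ∀ x : GL (Fin n) F, (∀ v ∈ W', e x v ∈ W') ↔ ∀ v ∈ U, e x v ∈ U := fun x => by
      have h1 := H13.mem_stabilizing_iff (f := Cfsg.glToMat (Fin n) F) (W := U) (h := x)
      have h2 := H13.mem_stabilizing_iff (f := Cfsg.glToMat (Fin n) F) (W := W) (h := g⁻¹ * x * g)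
      refine Iff.trans ?_ h1
      rw [H13.coe_coordSub, ← hg, Subgroup.mem_map_equiv]
      refine Iff.trans ?_ h2.symm
      change _ ↔ ∀ v ∈ W, e (g⁻¹ * x * g) v ∈ W
      simp only [W', Submodule.mem_map_equiv, map_mul, map_inv, LinearEquiv.mul_apply,
        LinearEquiv.coe_inv]
      exact ⟨fun h v hv => h _ (by simpa using hv), fun h v hv => by simpa using h _ hv⟩
    have hW' : W' ≠ ⊤ := fun h => by rw [h, finrank_top] at hW; simp at hW; omega
    have hU' : U ≠ ⊤ := fun h => by rw [h, finrank_top] at hU; simp at hU; omega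
    have h3 : U ≤ W' := H13.le_of_stab_le hU' fun x hx => by
      obtain ⟨x, rfl⟩ := e.surjective x
      exact (key x).1 fun v hv => by rwa [hx v hv]
    have h4 : W' ≤ U := H13.le_of_stab_le hW' fun x hx => by
      obtain ⟨x, rfl⟩ := e.surjective x
      exact (key x).2 fun v hv => by rwa [hx v hv]
    rw [le_antisymm h3 h4, hW] at hU
    omega

end Cfsg.Agent.S0773
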