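import Cfsg.Statements.S0774
import Cfsg.Agent.H13.Par

set_option autoImplicit false
open Cfsg

namespace Cfsg.Agent.S0774

/-- Borel subgroup of the symplectic group: the elements of Sp_2m(q) stabilising each of the totally isotropic coordinate subspaces ⟨e_0, ..., e_k⟩ (k < m) form a subgroup of order q^(m²) (q − 1)^m. -/
theorem result {F : Type*} [Field F] [Fintype F] {q : ℕ} (hF : Fintype.card F = q) (m : ℕ) : Nat.card ↥(⨅ k : Fin m, Cfsg.stabilizing (Cfsg.spToMat m F) {v : Fin m ⊕ Fin m → F | (∀ i : Fin m, (k : ℕ) < (i : ℕ) → v (Sum.inl i) = 0) ∧ ∀ i : Fin m, v (Sum.inr i) = 0}) = q ^ (m ^ 2) * (q - 1) ^ m := by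
  have hmem : ∀ A : Matrix.symplecticGroup (Fin m) F, (A ∈ ⨅ k : Fin m, Cfsg.stabilizing (Cfsg.spToMat m F) {v : Fin m ⊕ Fin m → F | (∀ i : Fin m, (k : ℕ) < (i : ℕ) → v (Sum.inl i) = 0) ∧ ∀ i : Fin m, v (Sum.inr i) = 0}) ↔
      (∀ i j, A.1 (.inr i) (.inl j) = 0) ∧ ∀ i j, j < i → A.1 (.inl i) (.inl j) = 0 := fun A => by
    have h1 : ∀ k : Fin m, {v : Fin m ⊕ Fin m → F | (∀ i : Fin m, (k : ℕ) < (i : ℕ) → v (Sum.inl i) = 0) ∧ ∀ i : Fin m, v (Sum.inr i) = 0} =
        {v | ∀ i, Sum.elim (fun i : Fin m => k < i) (fun _ => True) i → v i = 0} := fun k => by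
      ext v; simp
    simp only [Subgroup.mem_iInf, h1, H13.mem_stabilizing_coord]
    constructor
    · intro h
      exact ⟨fun i j => h j _ _ trivial (lt_irrefl j), fun i j hij => h j _ _ hij (lt_irrefl j)⟩
    · rintro ⟨h2, h3⟩ k (i | i) (j | j) hi hj
      · exact h3 i j ((not_lt.1 hj).trans_lt hi)
      · exact absurd trivial hj
      · exact h2 i j
      · exact absurd trivial hj
  rw [show Nat.card _ = Nat.card {A // _} from rfl,
    H13.card_siegel (fun a => ∀ i j, j < i → a.1 i j = 0) _ (fun A hA => ((hmem A).1 hA).1)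
      (fun a s => (hmem _).trans ⟨fun h => h.2, fun h => ⟨fun _ _ => rfl, h⟩⟩),
    H13.card_GL_upper, Nat.card_eq_fintype_card, hF, Fintype.card_fin, mul_right_comm, ← pow_add]
  congr 2
  have h1 := Nat.triangle_succ m
  have h2 := Nat.two_mul_div_two_of_even (Nat.even_mul_pred_self m)
  rw [Nat.add_sub_cancel, mul_comm] at h1
  rcases m with _ | m
  · rfl
  · rw [Nat.add_sub_cancel] at *
    nlinarith

end Cfsg.Agent.S0774
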