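import Cfsg.Statements.S0775
import Cfsg.Agent.H12.SBridge

set_option autoImplicit false
open Cfsg

namespace Cfsg.Agent.S0775

/-- Maximal parabolics of the symplectic group: if W is a k-dimensional subspace of F^(2m) on which the symplectic form vanishes identically, its stabiliser in Sp_2m(q) has order q^(k(k+1)/2 + 2k(m−k)) · |Sp_(2m−2k)(q)| · |GL_k(q)|. -/
theorem result {F : Type*} [Field F] [Fintype F] {q : ℕ} (hF : Fintype.card F = q) (m k : ℕ) (hk : k ≤ m) (W : Submodule F (Fin m ⊕ Fin m → F)) (hWk : Module.finrank F W = k) (hW : ∀ u ∈ W, ∀ v ∈ W, Cfsg.sympForm m F u v = 0) : Nat.card ↥(Cfsg.stabilizing (Cfsg.spToMat m F) (W : Set (Fin m ⊕ Fin m → F))) = q ^ (k * (k + 1) / 2 + 2 * k * (m - k)) * (q ^ ((m - k) ^ 2) * ∏ i ∈ Finset.range (m - k), (q ^ (2 * (i + 1)) - 1)) * ∏ i : Fin k, (q ^ k - q ^ (i : ℕ)) := by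
    have D : H12.SD (H12.spB (Fin m) F) := H12.sd_spB
    have hW' : ∀ u ∈ W, ∀ v ∈ W, H12.spB (Fin m) F u v = 0 := fun u hu v hv =>
      (H12.spB_eq u v).trans (hW u hu v hv)
    let b := Module.finBasisOfFinrankEq F W hWk
    rw [H12.card_eq_of_map_injective (H12.spEquiv (Fin m) F).injective (H12.map_stabilizing_sp W),
      D.card_stabW hW' b, H12.card_linearEquiv, hWk, hF,
      D.card_fixF_sp (r := m - k) (e := fun i => (b i : Fin m ⊕ Fin m → F)) (by rw [H12.finrank_sp, Fintype.card_fin]; omega)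
        (b.linearIndependent.map' W.subtype W.ker_subtype) (fun i j => hW' _ (b i).2 _ (b j).2),
      Nat.card_eq_fintype_card, hF, H12.spOrd]
    have : k * (k + 1) / 2 = k * (k - 1) / 2 + k := by
      rw [← Nat.triangle_succ, mul_comm]; rfl
    rw [this]; ring

end Cfsg.Agent.S0775
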