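import Cfsg.Statements.S0777
import Cfsg.Agent.H13.Mono
import Cfsg.Agent.H12.Lin

set_option autoImplicit false
open Cfsg

namespace Cfsg.Agent.S0777

/-- Weyl group of type C_m: for q ≥ 4 the diagonal matrices of Sp_2m(q) form a torus T ≅ (C_(q−1))^m (the elements stabilising every coordinate axis), and the normaliser of T in Sp_2m(q) has order 2^m · m! · (q − 1)^m. -/
theorem result {F : Type*} [Field F] [Fintype F] {q : ℕ} (hF : Fintype.card F = q) (hq : 4 ≤ q) (m : ℕ) : Nat.card ↥(Subgroup.normalizer (⨅ i : Fin m ⊕ Fin m, Cfsg.stabilizing (Cfsg.spToMat m F) ((Submodule.span F {(Pi.single i (1 : F) : Fin m ⊕ Fin m → F)} : Submodule F (Fin m ⊕ Fin m → F)) : Set (Fin m ⊕ Fin m → F)) : Set (Matrix.symplecticGroup (Fin m) F))) = 2 ^ m * Nat.factorial m * (q - 1) ^ m := by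
  classical
  obtain ⟨a, ha0, ha⟩ := H12.exists_sq_ne_one_of_card (F := F) (by omega)
  have hT : ∀ t : Matrix.symplecticGroup (Fin m) F, (t ∈ ⨅ i : Fin m ⊕ Fin m, Cfsg.stabilizing (Cfsg.spToMat m F) ((Submodule.span F {(Pi.single i (1 : F) : Fin m ⊕ Fin m → F)} : Submodule F (Fin m ⊕ Fin m → F)) : Set (Fin m ⊕ Fin m → F))) ↔ ∃ d, Cfsg.spToMat m F t = Matrix.diagonal d := fun t => by
    simp only [Subgroup.mem_iInf, H13.mem_stabilizing_axis]
    constructor
    · intro h
      refine ⟨fun i => Cfsg.spToMat m F t i i, ?_⟩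
      ext i j
      by_cases hij : i = j
      · simp [hij]
      · rw [h j i hij, Matrix.diagonal_apply_ne _ hij]
    · rintro ⟨d, hd⟩ j i hij
      rw [hd, Matrix.diagonal_apply_ne _ hij]
  have hd : ∀ i : Fin m, ∃ t : Matrix.symplecticGroup (Fin m) F, t.1 = Matrix.diagonal
      (Sum.elim (Function.update 1 i a) (Function.update 1 i a⁻¹)) := fun i => by
    refine ⟨⟨Matrix.diagonal (Sum.elim (Function.update 1 i a) (Function.update 1 i a⁻¹)), ?_⟩, rfl⟩
    rw [SymplecticGroup.mem_iff, Matrix.diagonal_transpose]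
    ext j k
    rw [Matrix.mul_diagonal, Matrix.diagonal_mul, H13.J_apply]
    split_ifs with h
    · subst h
      rcases j with j | j <;> by_cases hj : j = i <;> simp [hj, ha0]
    · simp
  have h1 : a ≠ 1 := by rintro rfl; simp at ha
  have h2 : a ≠ a⁻¹ := fun h => ha (by rw [sq]; nth_rewrite 2 [h]; exact mul_inv_cancel₀ ha0)
  have := H13.card_monomial_sp (F := F) (l := Fin m)
  rw [Fintype.card_fin, Nat.card_eq_fintype_card (α := F), hF] at this
  rw [← this, Set.iInf_eq_iInter, ← Subgroup.coe_iInf]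
  refine Nat.card_congr (Equiv.subtypeEquivRight fun g =>
    H13.mem_normalizer_diag (Cfsg.spToMat m F) hT fun j j' hj => ?_)
  obtain ⟨t, ht⟩ := hd (j.elim id id)
  refine ⟨t, (hT t).2 ⟨_, ht⟩, ?_⟩
  change t.1 j j ≠ t.1 j' j'
  rw [ht, Matrix.diagonal_apply_eq, Matrix.diagonal_apply_eq]
  rcases j with j | j <;> rcases j' with j' | j' <;> by_cases h : j' = j <;>
    simp_all [h2.symm]

end Cfsg.Agent.S0777
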