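import Cfsg.Statements.S0778
import Cfsg.Agent.H13.Par

set_option autoImplicit false
open Cfsg

namespace Cfsg.Agent.S0778

/-- The elements of Sp_2m(F) stabilising both W = ⟨e_1..e_m⟩ and U = ⟨f_1..f_m⟩ form a subgroup isomorphic to GL_m(F) (block-diagonal matrices diag(X, X^(−ᵀ)) up to the sign convention of J), for m ≥ 1 or m = 0 alike. -/
theorem result {F : Type*} [Field F] (m : ℕ) : Nonempty (↥(Cfsg.stabilizing (Cfsg.spToMat m F) {v : Fin m ⊕ Fin m → F | ∀ i : Fin m, v (Sum.inr i) = 0} ⊓ Cfsg.stabilizing (Cfsg.spToMat m F) {v : Fin m ⊕ Fin m → F | ∀ i : Fin m, v (Sum.inl i) = 0}) ≃* Matrix.GeneralLinearGroup (Fin m) F) := by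
  refine ⟨(MulEquiv.subgroupCongr ?_).trans (MonoidHom.ofInjective H13.leviSp_injective).symm⟩
  ext A
  have h1 : {v : Fin m ⊕ Fin m → F | ∀ i : Fin m, v (Sum.inr i) = 0} =
      {v | ∀ i, Sum.elim (fun _ => False) (fun _ => True) i → v i = 0} := by ext v; simp
  have h2 : {v : Fin m ⊕ Fin m → F | ∀ i : Fin m, v (Sum.inl i) = 0} =
      {v | ∀ i, Sum.elim (fun _ => True) (fun _ => False) i → v i = 0} := by ext v; simp
  rw [H13.mem_range_leviSp, Subgroup.mem_inf, h1, h2, H13.mem_stabilizing_coord,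
    H13.mem_stabilizing_coord]
  simp

end Cfsg.Agent.S0778
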