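import Cfsg.Statements.S0779
import Cfsg.Agent.H12.SBridge

set_option autoImplicit false
open Cfsg

namespace Cfsg.Agent.S0779

/-- Unitary transvections: let |F| = q², h the standard Hermitian form Σ x_i y_i^q and v ≠ 0 with h(v, v) = 0. The linear map x ↦ x + c h(x, v) v is an isometry of h if and only if c = 0 or c^(q−1) = −1. -/
theorem result {F : Type*} [Field F] [Fintype F] {q : ℕ} (hF : Fintype.card F = q ^ 2) (n : ℕ) (v : Fin n → F) (hv : v ≠ 0) (hv0 : Cfsg.hermForm n F q v v = 0) (c : F) : (∀ x y : Fin n → F, Cfsg.hermForm n F q ((Cfsg.unitaryTransvection n q v c).mulVec x) ((Cfsg.unitaryTransvection n q v c).mulVec y) = Cfsg.hermForm n F q x y) ↔ (c = 0 ∨ c ^ (q - 1) = -1) := by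
    have D := H12.sd_uB hF n
    have hv' := (H12.uB_eq_zero hF).mpr hv0
    have h2 := H12.two_le_of_card_eq_sq hF
    have h1 : H12.frobq hF (c / H12.skw hF) = c / H12.skw hF ↔ (c = 0 ∨ c ^ (q - 1) = -1) := by
      rw [map_div₀, H12.frobq_skw, div_neg, ← neg_div, div_left_inj' (H12.skw_ne hF), H12.frobq_apply]
      have : c ^ q = c * c ^ (q - 1) := by rw [← pow_succ', Nat.sub_add_cancel (by omega)]
      rw [this]
      by_cases hc : c = 0
      · simp [hc]
      · simp only [hc, false_or]
        exact ⟨fun h => mul_left_cancel₀ hc (by linear_combination -h), fun h => by rw [h]; ring⟩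
    rw [H12.preserves_iff_uB hF, ← h1]
    simp only [H12.unitaryTransvection_mulVec' hF]
    refine ⟨D.fix_of_isometry hv' hv, fun h x y => ?_⟩
    rw [← H12.tv_apply D hv' h, ← H12.tv_apply D hv' h, H12.UG_map]

end Cfsg.Agent.S0779
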