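import Cfsg.Statements.S0780
import Cfsg.Agent.H12.SBridge

set_option autoImplicit false
open Cfsg

namespace Cfsg.Agent.S0780

/-- Generation of SU_n(q), n ≥ 3, (n, q) ≠ (3, 2), by unitary transvections: the subgroup generated by the elements whose matrix is x ↦ x + c h(x, v) v with v isotropic is all of SU_n(q). -/
theorem result {F : Type*} [Field F] [Fintype F] {q : ℕ} (hF : Fintype.card F = q ^ 2) (n : ℕ) (hn : 3 ≤ n) (h32 : ¬ (n = 3 ∧ q = 2)) : Subgroup.closure {A : ↥(Cfsg.SU n F q) | ∃ (v : Fin n → F) (c : F), Cfsg.hermForm n F q v v = 0 ∧ ((A : Matrix.SpecialLinearGroup (Fin n) F) : Matrix (Fin n) (Fin n) F) = Cfsg.unitaryTransvection n q v c} = ⊤ := by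
    have D := H12.sd_uB hF n
    rw [eq_top_iff, ← Subgroup.map_le_map_iff_of_injective (f := (H12.suEquiv hF n : _ →* H12.SUG (H12.uB hF n)))
      (H12.suEquiv hF n).injective, Subgroup.map_top_of_surjective _ (H12.suEquiv hF n).surjective,
      ← D.closure_tvS (D.TG_eq_SUG D.ns (H12.th_uB hF h32)), Subgroup.closure_le]
    rintro _ ⟨v, c, rfl⟩
    by_cases h : H12.uB hF n v v = 0 ∧ H12.frobq hF c = c
    · exact ⟨(H12.suEquiv hF n).symm _, Subgroup.subset_closure ⟨v, _, (H12.uB_eq_zero hF).mp h.1,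
        H12.coe_suEquiv_symm_tvS hF h.1 h.2⟩, MulEquiv.apply_symm_apply _ _⟩
    · rw [show D.tvS v c = 1 from Subtype.ext (H12.tv_of_not h)]
      exact one_mem _

end Cfsg.Agent.S0780
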