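import Cfsg.Statements.S0781
import Cfsg.Agent.H12.SBridge

set_option autoImplicit false
open Cfsg

namespace Cfsg.Agent.S0781

/-- In SU_n(q) with n ≥ 4, or n = 3 and q > 2, every element whose matrix is a unitary transvection x ↦ x + c h(x, v) v (v isotropic) is a commutator ⁅B, C⁆ of two elements of SU_n(q). -/
theorem result {F : Type*} [Field F] [Fintype F] {q : ℕ} (hF : Fintype.card F = q ^ 2) (n : ℕ) (hn : 4 ≤ n ∨ (n = 3 ∧ 3 ≤ q)) (A : ↥(Cfsg.SU n F q)) (v : Fin n → F) (c : F) (hv0 : Cfsg.hermForm n F q v v = 0) (hA : ((A : Matrix.SpecialLinearGroup (Fin n) F) : Matrix (Fin n) (Fin n) F) = Cfsg.unitaryTransvection n q v c) : A ∈ commutatorSet ↥(Cfsg.SU n F q) := by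
    have D := H12.sd_uB hF n
    have h1 := H12.suEquiv_eq_tv hF hv0 hA
    have h2 : D.tvS v (c / H12.skw hF) ∈ commutatorSet _ := by
      by_cases h : H12.frobq hF (c / H12.skw hF) = c / H12.skw hF
      · exact D.tvS_mem_commutatorSet_of_trace (by simp; omega) v
          (H13.exists_add_conj_eq (H12.frobq_ne_id hF) D.invol h)
      · exact ⟨1, 1, Subtype.ext (by simp [H12.tv_of_not (fun h' => h h'.2)])⟩
    obtain ⟨a, b, h3⟩ := h2
    refine ⟨(H12.suEquiv hF n).symm a, (H12.suEquiv hF n).symm b, (H12.suEquiv hF n).injective ?_⟩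
    rw [map_commutatorElement, MulEquiv.apply_symm_apply, MulEquiv.apply_symm_apply, h3, h1]

end Cfsg.Agent.S0781
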