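import Cfsg.Statements.S0782
import Cfsg.Agent.H12.SBridge

set_option autoImplicit false
open Cfsg

namespace Cfsg.Agent.S0782

/-- Maximal parabolics of SU_n(q): if W is a k-dimensional subspace of F^n (n ≥ 1, |F| = q²) on which the Hermitian form vanishes, then (q + 1) times the order of its stabiliser in SU_n(q) equals q^(k(2n−3k)) · |GL_k(q²)| · |GU_(n−2k)(q)|, where |GU_m(q)| = q^(m(m−1)/2) Π_(i=1..m) (q^i − (−1)^i). -/
theorem result {F : Type*} [Field F] [Fintype F] {q : ℕ} (hF : Fintype.card F = q ^ 2) (n k : ℕ) (hn : 1 ≤ n) (hk : 2 * k ≤ n) (W : Submodule F (Fin n → F)) (hWk : Module.finrank F W = k) (hW : ∀ u ∈ W, ∀ v ∈ W, Cfsg.hermForm n F q u v = 0) : (q + 1) * Nat.card ↥((Cfsg.stabilizing (Cfsg.slToMat n F) (W : Set (Fin n → F))).subgroupOf (Cfsg.SU n F q)) = q ^ (k * (2 * n - 3 * k)) * (∏ i : Fin k, ((q ^ 2) ^ k - (q ^ 2) ^ (i : ℕ))) * (q ^ ((n - 2 * k) * ((n - 2 * k) - 1) / 2) * ∏ i ∈ Finset.range (n - 2 * k), (if Even i then q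 ^ (i + 1) + 1 else q ^ (i + 1) - 1)) := by
    have D := H12.sd_uB hF n
    have : Nonempty (Fin n) := ⟨⟨0, hn⟩⟩
    have hW' : ∀ u ∈ W, ∀ v ∈ W, H12.uB hF n u v = 0 := fun u hu v hv =>
      (H12.uB_eq_zero hF).mpr (hW v hv u hu)
    let b := Module.finBasisOfFinrankEq F W hWk
    have h1 := D.card_stabW_eq_mul (H12.frobq_ne_id hF) hW'
    rw [H12.card_N1_frobq, D.card_stabW hW' b, H12.card_linearEquiv, hWk, hF,
      D.card_fixF_unitary (H12.frobq_ne_id hF) (r := n - 2 * k) (e := fun i => (b i : Fin n → F))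
        (by rw [Module.finrank_fin_fun]; omega)
        (b.linearIndependent.map' W.subtype W.ker_subtype) (fun i j => hW' _ (b i).2 _ (b j).2),
      Nat.card_eq_fintype_card (α := F), hF, H12.q0_frobq, H12.guOrd] at h1
    have h2 : Nat.card ↥((Cfsg.stabilizing (Cfsg.slToMat n F) (W : Set (Fin n → F))).subgroupOf
        (Cfsg.SU n F q)) = Nat.card (H12.stabW (H12.uB hF n) W ⊓ H12.SUG _ : Subgroup _) := by
      rw [Nat.card_congr (H12.subgroupCongrOfMem (H12.suEquiv hF n)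
        ((Cfsg.stabilizing (Cfsg.slToMat n F) (W : Set (Fin n → F))).subgroupOf (Cfsg.SU n F q))
        ((H12.stabW _ W).subgroupOf (H12.SUG _)) fun _ => forall_congr' fun _ => Iff.comm).toEquiv,
        ← Subgroup.inf_subgroupOf_right]
      exact Nat.card_congr (Subgroup.subgroupOfEquivOfLe inf_le_right).toEquiv
    rw [h2, ← h1]
    obtain ⟨r, rfl⟩ : ∃ r, n = 2 * k + r := ⟨n - 2 * k, by omega⟩
    have h3 : k * (2 * (2 * k + r) - 3 * k) = 2 * (k * r + k * (k - 1) / 2) + k := by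
      rw [show 2 * (2 * k + r) - 3 * k = k + 2 * r by omega, mul_add 2,
        Nat.mul_div_cancel' (Nat.even_mul_pred_self k).two_dvd]
      rcases k with _ | k
      · simp
      · simp; ring
    rw [h3, Nat.add_sub_cancel_left]; ring

end Cfsg.Agent.S0782
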