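import Cfsg.Statements.S0783
import Cfsg.Agent.H12.SMore

set_option autoImplicit false
open Cfsg

namespace Cfsg.Agent.S0783

/-- PGU_n(q)/PSU_n(q) is cyclic of order (n, q+1): for n ≥ 2 and |F| = q² there is a surjective homomorphism from GU_n(q) onto the cyclic group of order gcd(n, q + 1) whose kernel is generated by the determinant-one elements together with the centre. -/
theorem result {F : Type*} [Field F] [Fintype F] {q : ℕ} (hF : Fintype.card F = q ^ 2) (n : ℕ) (hn : 2 ≤ n) : ∃ φ : ↥(Cfsg.GU n F q) →* Multiplicative (ZMod (Nat.gcd n (q + 1))), Function.Surjective φ ∧ φ.ker = (Matrix.GeneralLinearGroup.det : Matrix.GeneralLinearGroup (Fin n) F →* Fˣ).ker.subgroupOf (Cfsg.GU n F q) ⊔ Subgroup.center ↥(Cfsg.GU n F q) := by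
    have D := H12.sd_uB hF n
    have : Nonempty (Fin n) := ⟨⟨0, by omega⟩⟩
    let N := H12.N1 (H12.frobq hF)
    let δ : Cfsg.GU n F q →* N := ((H12.udet _).comp (H12.guEquiv hF n : _ →* H12.UG (H12.uB hF n))).codRestrict N
      fun g => D.udet_mem_N1 _
    have hδ : ∀ g, (δ g : Fˣ) = Matrix.GeneralLinearGroup.det g.1 := H12.udet_guEquiv hF
    have hδ' : ∀ g, (δ g : Fˣ) = H12.udet _ (H12.guEquiv hF n g) := fun _ => rfl
    have hs : Function.Surjective δ := fun a => by
      obtain ⟨g, hg⟩ := (D.range_udet (H12.frobq_ne_id hF)).ge a.2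
      exact ⟨(H12.guEquiv hF n).symm g, Subtype.ext (by rw [hδ', MulEquiv.apply_symm_apply, hg])⟩
    let R := (powMonoidHom n : N →* N).range
    have hc : Nat.card (N ⧸ R) = Nat.gcd n (q + 1) := by
      rw [← Subgroup.index, IsCyclic.index_powMonoidHom_range, H12.card_N1_frobq, Nat.gcd_comm]
    have hcyc : IsCyclic (N ⧸ R) := isCyclic_of_surjective _ (QuotientGroup.mk'_surjective R)
    rw [← hc]
    refine ⟨((zmodCyclicMulEquiv hcyc).symm : _ →* _).comp ((QuotientGroup.mk' R).comp δ),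
      (zmodCyclicMulEquiv hcyc).symm.surjective.comp ((QuotientGroup.mk'_surjective R).comp hs), ?_⟩
    have hz : ∀ g, g ∈ Subgroup.center (Cfsg.GU n F q) ↔
        H12.guEquiv hF n g ∈ (H12.scalUG (H12.uB hF n)).range := fun g => by
      rw [← D.center_UG D.ns (by simpa using hn), ← H12.map_center_equiv (H12.guEquiv hF n)]
      exact (Subgroup.mem_map_iff_mem (H12.guEquiv hF n).injective).symm
    ext g
    rw [MonoidHom.mem_ker, MonoidHom.comp_apply, MonoidHom.coe_coe, map_eq_one_iff _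
      (zmodCyclicMulEquiv hcyc).symm.injective, MonoidHom.comp_apply, QuotientGroup.mk'_apply,
      QuotientGroup.eq_one_iff, Subgroup.mem_sup_of_normal_right]
    constructor
    · rintro ⟨a, ha⟩
      let z := (H12.guEquiv hF n).symm (H12.scalUG _ a)
      have h1 : δ z = δ g := Subtype.ext (by
        rw [hδ', MulEquiv.apply_symm_apply, H12.udet_scalUG, ← ha]; simp)
      refine ⟨g * z⁻¹, ?_, z, (hz z).mpr ⟨a, by simp [z]⟩, by simp⟩
      rw [Subgroup.mem_subgroupOf, MonoidHom.mem_ker, ← hδ, map_mul, map_inv, h1]; simp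
    · rintro ⟨x, hx, z, hz', rfl⟩
      obtain ⟨a, ha⟩ := (hz z).mp hz'
      refine ⟨a, Subtype.ext ?_⟩
      rw [Subgroup.mem_subgroupOf, MonoidHom.mem_ker, ← hδ] at hx
      rw [map_mul, Subgroup.coe_mul, hx, hδ', ← ha, H12.udet_scalUG]; simp

end Cfsg.Agent.S0783
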