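import Cfsg.Statements.S0785
import Cfsg.Agent.H13.Bridge

set_option autoImplicit false
open Cfsg

namespace Cfsg.Agent.S0785

/-- det(I) = {±1}: for a quadratic form on F^n whose polar form is non-degenerate, every element of the isometry group has determinant 1 or −1, and as soon as Q takes a non-zero value some isometry has determinant −1. -/
theorem result {F : Type*} [Field F] {n : ℕ} (Q : QuadraticForm F (Fin n → F)) (hQ : (QuadraticMap.polarBilin Q).Nondegenerate) : (∀ g : ↥(Cfsg.isometryGroup F ⇑Q), ((g : Matrix.GeneralLinearGroup (Fin n) F) : Matrix (Fin n) (Fin n) F).det = 1 ∨ ((g : Matrix.GeneralLinearGroup (Fin n) F) : Matrix (Fin n) (Fin n) F).det = -1) ∧ ((∃ v, Q v ≠ 0) → ∃ g : ↥(Cfsg.isometryGroup F ⇑Q), ((g : Matrix.GeneralLinearGroup (Fin n) F) : Matrix (Fin n) (Fin n) F).det = -1) := by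
  refine ⟨fun g => ?_, fun ⟨v, hv⟩ => ⟨(H13.toOG Q).symm (H13.refl Q v), ?_⟩⟩
  · let B := QuadraticMap.polarBilin Q
    let M := LinearMap.toMatrix₂' F B
    have hM : M.det ≠ 0 := by
      have := (LinearMap.nondegenerate_iff_det_ne_zero (Pi.basisFun F (Fin n))).mp hQ
      simpa [M, LinearMap.toMatrix₂_basisFun] using this
    have h1 : B.compl₁₂ (Matrix.toLin' (H13.mat g)) (Matrix.toLin' (H13.mat g)) = B := by
      exact LinearMap.ext₂ fun x y => H13.OG_polar (H13.toOG Q g) x y
    have h2 := congrArg (fun C => (LinearMap.toMatrix₂' F C).det) h1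
    simp only [LinearMap.toMatrix₂'_compl₁₂, Matrix.det_mul, Matrix.det_transpose,
      LinearMap.toMatrix'_toLin'] at h2
    have h3 : (H13.mat g).det * (H13.mat g).det = 1 := by
      apply mul_left_cancel₀ hM
      change M.det * _ = M.det * 1
      linear_combination h2
    exact mul_self_eq_one_iff.mp h3
  · rw [H13.det_mat, MulEquiv.apply_symm_apply, H13.det_refl hv]

end Cfsg.Agent.S0785
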