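import Cfsg.Statements.S0787
import Cfsg.Agent.H13.Bridge

set_option autoImplicit false
open Cfsg

namespace Cfsg.Agent.S0787

/-- Existence and uniqueness of Ω: if F is finite, n ≥ 2, Q is a quadratic form on F^n with non-degenerate polar form and (|F|, n) ≠ (2, 4), then the group of isometries of determinant one has a unique subgroup of index 2. -/
theorem result {F : Type*} [Field F] [Fintype F] {n : ℕ} (hn : 2 ≤ n) (Q : QuadraticForm F (Fin n → F)) (hQ : (QuadraticMap.polarBilin Q).Nondegenerate) (h : Fintype.card F ≠ 2 ∨ n ≠ 4) : ∃! H : Subgroup ↥(Cfsg.specialIsometryGroup F ⇑Q), H.index = 2 := by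
  have hQ' := H13.nd_iff.mpr hQ
  have hG : H13.Good Q := H13.good_of_card (by simpa using h)
  have hn' : 2 ≤ Module.finrank F (Fin n → F) := by simpa using hn
  set S := Cfsg.specialIsometryGroup F ⇑Q with hS
  have hmem : ∀ g : ↥(Cfsg.isometryGroup F ⇑Q), g ∈ S ↔
      ((H13.dickson hQ' hG (H13.toOG Q g) : ℤ) : F) = 1 := fun g => by
    rw [← H13.det_eq_dickson hQ' hG, ← H13.det_mat, hS, Cfsg.specialIsometryGroup,
      MonoidHom.mem_ker, ← Units.val_inj]
    rfl
  have hle : Cfsg.Omega F ⇑Q ≤ S := fun g hg => by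
    rw [H13.mem_Omega_iff, hQ'.mem_commutator_iff hG] at hg
    rw [hmem, hg.1]; simp
  have hidx : ((Cfsg.Omega F ⇑Q).subgroupOf S).index = 2 := by
    have h1 := Subgroup.relIndex_mul_index hle
    rw [H13.index_commutator_equiv (H13.toOG Q)] at h1
    change (Cfsg.Omega F ⇑Q).relIndex S = 2
    by_cases h2 : (2 : F) = 0
    · have : S = ⊤ := by
        rw [eq_top_iff]
        intro g _
        rw [hmem]
        rcases Int.units_eq_one_or (H13.dickson hQ' hG (H13.toOG Q g)) with h | h <;> rw [h]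
        · simp
        · simp; linear_combination -h2
      rw [hQ'.index_commutator_even hG h2 (by omega), this, Subgroup.index_top, mul_one] at h1
      rwa [this]
    · have h3 : S = ((H13.dickson hQ' hG).comp (H13.toOG Q).toMonoidHom).ker := by
        ext g
        rw [hmem, MonoidHom.mem_ker, ← H13.det_eq_dickson hQ' hG, H13.det_eq_one_iff hQ' hG h2]
        rfl
      obtain ⟨u, hu⟩ := hQ'.exists_eq hn' 1
      have h4 : S.index = 2 := by
        rw [h3, Subgroup.index_ker]
        have : ((H13.dickson hQ' hG).comp (H13.toOG Q).toMonoidHom).range = ⊤ := by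
          rw [eq_top_iff]
          rintro d -
          rcases Int.units_eq_one_or d with rfl | rfl
          · exact ⟨1, by simp⟩
          · exact ⟨(H13.toOG Q).symm (H13.refl Q u), by
              simp [H13.dickson_refl hQ' hG (v := u) (by simp [hu])]⟩
        rw [this]; simp
      rw [hQ'.index_commutator_odd h2 hn', h4] at h1
      omega
  refine ⟨_, hidx, fun H hH => ?_⟩
  have hHn : H.Normal := Subgroup.normal_of_index_eq_two hH
  have hSn : S.Normal := by rw [hS, Cfsg.specialIsometryGroup]; infer_instance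
  -- the commutator subgroup lies in `H`
  have hsq : ∀ g : ↥(Cfsg.isometryGroup F ⇑Q), g ∈ S → g * g ∈ H.map S.subtype := fun g hg =>
    ⟨⟨g, hg⟩ * ⟨g, hg⟩, Subgroup.mul_self_mem_of_index_two hH _, rfl⟩
  let r : (Fin n → F) → ↥(Cfsg.isometryGroup F ⇑Q) := fun v => (H13.toOG Q).symm (H13.refl Q v)
  let T : Set ↥(Cfsg.isometryGroup F ⇑Q) := {g | ∃ v, Q v ≠ 0 ∧ g = r v}
  have hT : Subgroup.closure T = ⊤ := by
    rw [eq_top_iff]
    intro g _
    rw [H13.closure_map_toOG, hQ'.eq_top_of_refl hG (Subgroup.closure _) ?_]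
    · trivial
    · intro v hv
      apply Subgroup.subset_closure
      exact ⟨r v, ⟨v, hv, rfl⟩, MulEquiv.apply_symm_apply _ _⟩
  let K : Subgroup ↥(Cfsg.isometryGroup F ⇑Q) :=
    Subgroup.closure {g | ∃ u v, Q u ≠ 0 ∧ Q v ≠ 0 ∧ g = r u * r v * (r u * r v)}
  have hr : ∀ g v, g * r v * g⁻¹ = r ((H13.toOG Q g).1 v) := fun g v => by
    apply (H13.toOG Q).injective
    simp [r, H13.conj_refl]
  have hKn : K.Normal := by
    refine ⟨fun x hx g => ?_⟩
    induction hx using Subgroup.closure_induction with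
    | mem x hx =>
      obtain ⟨u, v, hu, hv, rfl⟩ := hx
      refine Subgroup.subset_closure ⟨(H13.toOG Q g).1 u, (H13.toOG Q g).1 v, by simpa using hu,
        by simpa using hv, ?_⟩
      rw [← hr, ← hr]; group
    | one => simp
    | mul a b _ _ ha hb => simpa [mul_assoc] using K.mul_mem ha hb
    | inv a _ ha => simpa [mul_assoc] using K.inv_mem ha
  have hK : Cfsg.Omega F ⇑Q ≤ K := by
    rw [Cfsg.Omega, ← Subgroup.Normal.quotient_commutative_iff_commutator_le]
    have hc : Subgroup.closure ((QuotientGroup.mk' K) '' T) = ⊤ := by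
      rw [← MonoidHom.map_closure, hT]
      exact Subgroup.map_top_of_surjective _ (QuotientGroup.mk'_surjective K)
    have hcomm : ∀ a ∈ (QuotientGroup.mk' K) '' T, ∀ b ∈ (QuotientGroup.mk' K) '' T,
        a * b = b * a := by
      rintro _ ⟨_, ⟨u, hu, rfl⟩, rfl⟩ _ ⟨_, ⟨v, hv, rfl⟩, rfl⟩
      change ((r u * r v : ↥(Cfsg.isometryGroup F ⇑Q)) : _ ⧸ K) = (r v * r u : ↥(Cfsg.isometryGroup F ⇑Q))
      rw [eq_comm, QuotientGroup.eq]
      refine Subgroup.subset_closure ⟨u, v, hu, hv, ?_⟩
      simp [r, ← map_inv, H13.refl_inv]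
    refine ⟨⟨fun a b => ?_⟩⟩
    have ha : a ∈ Subgroup.closure ((QuotientGroup.mk' K) '' T) := by rw [hc]; trivial
    have hb : b ∈ Subgroup.closure ((QuotientGroup.mk' K) '' T) := by rw [hc]; trivial
    exact Subgroup.closure_induction₂ (p := fun a b _ _ => Commute a b)
      (fun a b ha hb => hcomm a ha b hb)
      (fun _ _ => Commute.one_left _) (fun _ _ => Commute.one_right _)
      (fun _ _ _ _ _ _ h1 h2 => h1.mul_left h2) (fun _ _ _ _ _ _ h1 h2 => h1.mul_right h2)
      (fun _ _ _ _ h => h.inv_left) (fun _ _ _ _ h => h.inv_right) ha hb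
  have hKH : K ≤ H.map S.subtype := by
    rw [Subgroup.closure_le]
    rintro _ ⟨u, v, hu, hv, rfl⟩
    apply hsq
    rw [hmem]
    simp [r, H13.dickson_refl hQ' hG hu, H13.dickson_refl hQ' hG hv]
  have hfin : (Cfsg.Omega F ⇑Q).subgroupOf S ≤ H := fun g hg => by
    obtain ⟨g', h1, h2⟩ := hKH (hK hg)
    rwa [← Subtype.ext h2]
  have h5 := Subgroup.relIndex_mul_index hfin
  rw [hidx, hH] at h5
  have h6 : ((Cfsg.Omega F ⇑Q).subgroupOf S).relIndex H = 1 := by omega
  exact le_antisymm (Subgroup.relIndex_eq_one.mp h6) hfin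

end Cfsg.Agent.S0787
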