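import Cfsg.Statements.S0790
import Cfsg.Agent.H13.Disc

set_option autoImplicit false
open Cfsg

namespace Cfsg.Agent.S0790

/-- −1 ∈ Ω⁺_2m(q) iff q^m ≡ 1 (mod 4), for q odd and m ≥ 1 (so that in the other case SO⁺_2m(q) = 2 × Ω⁺_2m(q)). -/
theorem result {F : Type*} [Field F] [Fintype F] {q : ℕ} (hF : Fintype.card F = q) (hodd : Odd q) (m : ℕ) (hm : 1 ≤ m) : (∃ g : ↥(Cfsg.isometryGroup F (Cfsg.quadFormPlus m F)), g ∈ Cfsg.Omega F (Cfsg.quadFormPlus m F) ∧ ((g : Matrix.GeneralLinearGroup (Fin m ⊕ Fin m) F) : Matrix (Fin m ⊕ Fin m) (Fin m ⊕ Fin m) F) = -1) ↔ q ^ m % 4 = 1 := by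
  subst hF
  have h2 := H13.two_ne_zero_of_odd_card hodd
  have h1 := (H13.nd_QPlus (m := m) (F := F)).negOne_mem_iff h2
  rw [H13.disc_QPlus, H13.sgn_neg_one_pow_eq_one_iff hodd] at h1
  simp only [Module.finrank_fintype_fun_eq_card, Fintype.card_sum, Even.add_self, true_and] at h1
  rw [← h1]
  constructor
  · rintro ⟨g, hg, hg'⟩
    have : H13.toOG (H13.QPlus m F) g = H13.negOne _ := H13.OG_ext fun x => by
      rw [(H13.mat_eq_iff (Q := H13.QPlus m F) g _).mp hg', H13.negOne_apply]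
      simp [Matrix.neg_mulVec]
    rw [← this]
    exact (H13.mem_Omega_iff (Q := H13.QPlus m F) g).mp hg
  · intro h
    refine ⟨(H13.toOG (H13.QPlus m F)).symm (H13.negOne _),
      (H13.mem_Omega_iff (Q := H13.QPlus m F) _).mpr (by simpa using h),
      (H13.mat_eq_iff (Q := H13.QPlus m F) _ _).mpr fun x => ?_⟩
    simp [H13.negOne_apply, Matrix.neg_mulVec]

end Cfsg.Agent.S0790
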