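import Cfsg.Statements.S0791
import Cfsg.Agent.H13.Disc

set_option autoImplicit false
open Cfsg

namespace Cfsg.Agent.S0791

/-- −1 ∈ Ω⁻_2m(q) iff q^m ≡ −1 (mod 4), for q odd and m ≥ 1; for the minus-type form quadFormMinus (m−1) with anisotropic binary part. -/
theorem result {F : Type*} [Field F] [Fintype F] {q : ℕ} (hF : Fintype.card F = q) (hodd : Odd q) (m : ℕ) (hm : 1 ≤ m) (a b : F) (hab : ∀ z₁ z₂ : F, z₁ ^ 2 + a * z₁ * z₂ + b * z₂ ^ 2 = 0 → z₁ = 0 ∧ z₂ = 0) : (∃ g : ↥(Cfsg.isometryGroup F (Cfsg.quadFormMinus (m - 1) F a b)), g ∈ Cfsg.Omega F (Cfsg.quadFormMinus (m - 1) F a b) ∧ ((g : Matrix.GeneralLinearGroup ((Fin (m - 1) ⊕ Fin (m - 1)) ⊕ Fin 2) F) : Matrix ((Fin (m - 1) ⊕ Fin (m - 1)) ⊕ Fin 2) ((Fin (m - 1) ⊕ Fin (m - 1)) ⊕ Fin 2) F) = -1) ↔ q ^ m % 4 = 3 := by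
  subst hF
  have h2 := H13.two_ne_zero_of_odd_card hodd
  have h1 := (H13.nd_QMinus (m := m - 1) hab).negOne_mem_iff h2
  rw [H13.disc_QMinus h2 _ hab, Nat.sub_add_cancel hm, neg_eq_iff_eq_neg,
    H13.sgn_neg_one_pow_eq_neg_one_iff hodd] at h1
  have h3 : Even (Module.finrank F ((Fin (m - 1) ⊕ Fin (m - 1)) ⊕ Fin 2 → F)) := by
    simp [Nat.even_add]
  simp only [h3, true_and] at h1
  rw [← h1]
  constructor
  · rintro ⟨g, hg, hg'⟩
    have : H13.toOG (H13.QMinus (m - 1) F a b) g = H13.negOne _ := H13.OG_ext fun x => by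
      rw [(H13.mat_eq_iff (Q := H13.QMinus (m - 1) F a b) g _).mp hg', H13.negOne_apply]
      simp [Matrix.neg_mulVec]
    rw [← this]
    exact (H13.mem_Omega_iff (Q := H13.QMinus (m - 1) F a b) g).mp hg
  · intro h
    refine ⟨(H13.toOG (H13.QMinus (m - 1) F a b)).symm (H13.negOne _),
      (H13.mem_Omega_iff (Q := H13.QMinus (m - 1) F a b) _).mpr (by simpa using h),
      (H13.mat_eq_iff (Q := H13.QMinus (m - 1) F a b) _ _).mpr fun x => ?_⟩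
    simp [H13.negOne_apply, Matrix.neg_mulVec]

end Cfsg.Agent.S0791
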