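import Cfsg.Statements.S0794
import Cfsg.Agent.H13.Bridge

set_option autoImplicit false
open Cfsg

namespace Cfsg.Agent.S0794

/-- For q odd, n ≥ 5 and Q with non-degenerate polar form: an isometry whose matrix is a Siegel transformation T_(u,v)(c) (u, v singular and orthogonal) is a commutator in the isometry group, so lies in Ω. -/
theorem result {F : Type*} [Field F] [Fintype F] (h2 : (2 : F) ≠ 0) {n : ℕ} (hn : 5 ≤ n) (Q : QuadraticForm F (Fin n → F)) (hQ : (QuadraticMap.polarBilin Q).Nondegenerate) (u v : Fin n → F) (hu : Q u = 0) (hv : Q v = 0) (huv : QuadraticMap.polar ⇑Q u v = 0) (c : F) (g : ↥(Cfsg.isometryGroup F ⇑Q)) (hg : ((g : Matrix.GeneralLinearGroup (Fin n) F) : Matrix (Fin n) (Fin n) F) = Cfsg.siegelMatrix ⇑Q u v c) : g ∈ commutatorSet ↥(Cfsg.isometryGroup F ⇑Q) ∧ g ∈ Cfsg.Omega F ⇑Q := by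
  have hQ' := H13.nd_iff.mpr hQ
  rw [H13.mat_eq_sieg_iff g hu hv huv] at hg
  suffices h : g ∈ commutatorSet ↥(Cfsg.isometryGroup F ⇑Q) from
    ⟨h, by rw [Cfsg.Omega, commutator_eq_closure]; exact Subgroup.subset_closure h⟩
  have key : H13.toOG Q g ∈ commutatorSet (H13.OG Q) := by
    rw [hg]
    by_cases hu0 : u = 0
    · rw [hu0, H13.sieg_zero_left]; exact one_mem_commutatorSet _
    by_cases hvu : v ∈ F ∙ u
    · obtain ⟨d, rfl⟩ := Submodule.mem_span_singleton.mp hvu
      rw [smul_smul, H13.sieg_smul_self hu]; exact one_mem_commutatorSet _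
    obtain ⟨k, hk1, hk2⟩ := hQ'.witt_two (x := u) (y := v) (x' := u) (y' := -v)
      (H13.linearIndependent_pair_of_notMem hu0 hvu)
      (H13.linearIndependent_pair_of_notMem hu0 (by simpa using hvu)) rfl (by simp)
      (by simp [huv])
    refine ⟨k, H13.sieg Q u ((c / 2) • v), ?_⟩
    rw [commutatorElement_def, H13.conj_sieg, hk1, map_smul, hk2,
      ← H13.sieg_neg hu (by simp [huv]), ← H13.sieg_add hu (by simp [huv]) (by simp [huv])]
    congr 1
    match_scalars
    field_simp
    ring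
  obtain ⟨a, b, hab⟩ := key
  refine ⟨(H13.toOG Q).symm a, (H13.toOG Q).symm b, (H13.toOG Q).injective ?_⟩
  rw [map_commutatorElement, MulEquiv.apply_symm_apply, MulEquiv.apply_symm_apply, hab]

end Cfsg.Agent.S0794
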