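import Cfsg.Statements.S0795
import Cfsg.Agent.H13.Simple

set_option autoImplicit false
open Cfsg

namespace Cfsg.Agent.S0795

/-- Generation of Ω by root elements: for q odd, n ≥ 5 and Q with non-degenerate polar form on F^n, the commutator subgroup of the isometry group equals the subgroup generated by the isometries whose matrices are Siegel transformations T_(u,v)(c) with u, v singular and orthogonal. -/
theorem result {F : Type*} [Field F] [Fintype F] (h2 : (2 : F) ≠ 0) {n : ℕ} (hn : 5 ≤ n) (Q : QuadraticForm F (Fin n → F)) (hQ : (QuadraticMap.polarBilin Q).Nondegenerate) : Cfsg.Omega F ⇑Q = Subgroup.closure {g : ↥(Cfsg.isometryGroup F ⇑Q) | ∃ (u v : Fin n → F) (c : F), Q u = 0 ∧ Q v = 0 ∧ QuadraticMap.polar ⇑Q u v = 0 ∧ ((g : Matrix.GeneralLinearGroup (Fin n) F) : Matrix (Fin n) (Fin n) F) = Cfsg.siegelMatrix ⇑Q u v c} := by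
  ext g
  rw [H13.mem_Omega_iff, H13.closure_map_toOG]
  have h := (H13.nd_iff.mpr hQ).closure_Root (by simpa using hn)
  rw [← show _ = commutator _ from h]
  congr! 2
  ext x
  constructor
  · rintro ⟨u, a, hu, ha, hua, rfl⟩
    exact ⟨(H13.toOG Q).symm _, ⟨u, a, -1, hu, ha, hua, (H13.mat_eq_sieg_iff _ hu ha hua _).mpr
      (by simp)⟩, MulEquiv.apply_symm_apply _ _⟩
  · rintro ⟨g, ⟨u, a, c, hu, ha, hua, h⟩, rfl⟩
    exact ⟨u, (-c) • a, hu, by simp [H13.Q_smul, ha], by simp [hua],
      (H13.mat_eq_sieg_iff _ hu ha hua _).mp h⟩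

end Cfsg.Agent.S0795
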