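import Cfsg.Statements.S0797
import Cfsg.Agent.H13.Bridge

set_option autoImplicit false
open Cfsg

namespace Cfsg.Agent.S0797

/-- O^ε_2m(q) ≅ Ω.2² for q odd: if F is finite of odd characteristic, n ≥ 2 is even and Q has non-degenerate polar form on F^n, the isometry group of Q has exactly three subgroups of index 2. -/
theorem result {F : Type*} [Field F] [Fintype F] (h2 : (2 : F) ≠ 0) {n : ℕ} (hn : 2 ≤ n) (heven : Even n) (Q : QuadraticForm F (Fin n → F)) (hQ : (QuadraticMap.polarBilin Q).Nondegenerate) : Nat.card {H : Subgroup ↥(Cfsg.isometryGroup F ⇑Q) // H.index = 2} = 3 := by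
  classical
  have hQ' := H13.nd_iff.mpr hQ
  have hG : H13.Good Q := H13.good_of_two_ne_zero h2
  have hn' : 2 ≤ Module.finrank F (Fin n → F) := by simpa using hn
  let φ : ↥(Cfsg.isometryGroup F ⇑Q) →* ℤˣ × ℤˣ :=
    ((H13.dickson hQ' hG).prod (H13.spinor hQ' hG)).comp (H13.toOG Q).toMonoidHom
  have hker : φ.ker = commutator _ := by
    ext g
    rw [H13.mem_Omega_iff, hQ'.commutator_eq hG]; rfl
  have hsurj : Function.Surjective φ := by
    have h1 := Subgroup.index_ker φ
    rw [hker, H13.index_commutator_equiv (H13.toOG Q), hQ'.index_commutator_odd h2 hn'] at h1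
    rw [← MonoidHom.range_eq_top]
    apply Subgroup.eq_top_of_card_eq
    rw [← h1]; simp
  have e : {H : Subgroup ↥(Cfsg.isometryGroup F ⇑Q) // H.index = 2} ≃
      {H : Subgroup (ℤˣ × ℤˣ) // H.index = 2} :=
    { toFun := fun H => ⟨H.1.map φ, by
        rw [Subgroup.index_map_eq _ hsurj, H.2]
        rw [hker]
        have := Subgroup.normal_of_index_eq_two H.2
        rw [← Subgroup.Normal.quotient_commutative_iff_commutator_le]
        have : Fact (Nat.Prime 2) := ⟨Nat.prime_two⟩
        have := isCyclic_of_prime_card (p := 2) (α := _ ⧸ H.1) H.2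
        exact IsCyclic.isMulCommutative⟩
      invFun := fun H => ⟨H.1.comap φ, by rw [Subgroup.index_comap_of_surjective _ hsurj, H.2]⟩
      left_inv := fun H => by
        apply Subtype.ext
        apply Subgroup.comap_map_eq_self
        rw [hker]
        have := Subgroup.normal_of_index_eq_two H.2
        rw [← Subgroup.Normal.quotient_commutative_iff_commutator_le]
        have : Fact (Nat.Prime 2) := ⟨Nat.prime_two⟩
        have := isCyclic_of_prime_card (p := 2) (α := _ ⧸ H.1) H.2
        exact IsCyclic.isMulCommutative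
      right_inv := fun H => Subtype.ext (Subgroup.map_comap_eq_self_of_surjective hsurj _) }
  rw [Nat.card_congr e]
  -- subgroups of index two of the four-group are generated by one non-trivial element
  have e2 : {x : ℤˣ × ℤˣ // x ≠ 1} ≃ {H : Subgroup (ℤˣ × ℤˣ) // H.index = 2} := by
    have ho : ∀ x : ℤˣ × ℤˣ, x ≠ 1 → orderOf x = 2 := fun x hx =>
      orderOf_eq_prime (by ext <;> simp) hx
    refine Equiv.ofBijective (fun x => ⟨Subgroup.zpowers x.1, ?_⟩) ⟨?_, ?_⟩
    · have := (Subgroup.zpowers x.1).index_mul_card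
      rw [Nat.card_zpowers, ho x.1 x.2] at this
      simp at this
      omega
    · rintro ⟨x, hx⟩ ⟨y, hy⟩ hxy
      have h1 : Subgroup.zpowers x = Subgroup.zpowers y := congrArg Subtype.val hxy
      have h3 : x ∈ Subgroup.zpowers y := h1 ▸ Subgroup.mem_zpowers x
      rw [mem_zpowers_iff_mem_range_orderOf, ho y hy] at h3
      simp only [Finset.mem_image, Finset.mem_range] at h3
      obtain ⟨k, hk, rfl⟩ := h3
      interval_cases k
      · simp at hx
      · simp
    · rintro ⟨H, hH⟩
      have h1 := H.index_mul_card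
      have h0 : Nat.card (ℤˣ × ℤˣ) = 4 := by simp
      rw [hH, h0] at h1
      have h3 : Nat.card H = 2 := by omega
      have : Fact (Nat.Prime 2) := ⟨Nat.prime_two⟩
      obtain ⟨⟨x, hx⟩, hx1⟩ := exists_prime_orderOf_dvd_card' (G := H) 2 (by rw [h3])
      have hx2 : x ≠ 1 := by
        rintro rfl
        have : (⟨1, hx⟩ : H) = 1 := rfl
        simp [this] at hx1
      refine ⟨⟨x, hx2⟩, Subtype.ext ?_⟩
      apply Subgroup.eq_of_le_of_card_ge (by simpa using hx)
      rw [Nat.card_zpowers, ho x hx2, h3]
  rw [← Nat.card_congr e2, Nat.card_eq_fintype_card]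
  rfl

end Cfsg.Agent.S0797
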