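import Cfsg.Statements.S0798
import Cfsg.Agent.H13.Refl

set_option autoImplicit false
open Cfsg

namespace Cfsg.Agent.S0798

/-- For q odd, n ≥ 2 even, Q with non-degenerate polar form (n, |F|) ≠ (4, 3), and a fixed c ≠ 0: the subgroup of the isometry group generated by the reflections r_v with Q(v) ∈ c·(F^×)² has index 2. -/
theorem result {F : Type*} [Field F] [Fintype F] (h2 : (2 : F) ≠ 0) {n : ℕ} (hn : 2 ≤ n) (heven : Even n) (Q : QuadraticForm F (Fin n → F)) (hQ : (QuadraticMap.polarBilin Q).Nondegenerate) (h43 : ¬ (n = 4 ∧ Fintype.card F = 3)) (c : F) (hc : c ≠ 0) : (Subgroup.closure {g : ↥(Cfsg.isometryGroup F ⇑Q) | ∃ (v : Fin n → F) (t : F), t ≠ 0 ∧ Q v = c * t ^ 2 ∧ ((g : Matrix.GeneralLinearGroup (Fin n) F) : Matrix (Fin n) (Fin n) F) = Cfsg.reflectionMatrix ⇑Q v}).index = 2 := by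
  have hQ' := H13.nd_iff.mpr hQ
  have h1 := hQ'.index_closure_RefN h2 (c := c) (by
    rw [Module.finrank_fin_fun, Nat.card_eq_fintype_card]
    obtain ⟨k, rfl⟩ := heven
    omega) hc
  rw [← Subgroup.index_comap_of_surjective _ (f := (H13.toOG Q).toMonoidHom)
    (H13.toOG Q).surjective] at h1
  refine (congrArg _ ?_).trans h1
  ext g
  rw [H13.closure_map_toOG, Subgroup.mem_comap]
  congr! 1
  refine le_antisymm ((Subgroup.closure_le _).mpr ?_) (Subgroup.closure_mono ?_)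
  · rintro _ ⟨g, ⟨v, t, ht, h3, h4⟩, rfl⟩
    rw [(H13.mat_eq_refl_iff g v).mp h4]
    exact H13.refl_mem_closure_RefN hc (h3 ▸ mul_ne_zero hc (pow_ne_zero _ ht))
      (by rw [h3, mul_comm, H13.sgn_sq_mul ht hc])
  · rintro _ ⟨v, hv, rfl⟩
    exact ⟨(H13.toOG Q).symm _, ⟨v, 1, one_ne_zero, by simpa using hv, H13.mat_symm_refl v⟩,
      by simp⟩

end Cfsg.Agent.S0798
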