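import Cfsg.Statements.S0800
import Cfsg.Agent.H12.DicksonPSL

set_option autoImplicit false
open Cfsg

namespace Cfsg.Agent.S0800

/-- Tori of SL_2(q): if g ∈ SL_2(q) has order coprime to the characteristic p, then the order of g divides q − 1 or q + 1. -/
theorem result {F : Type*} [Field F] [Fintype F] {q : ℕ} (hF : Fintype.card F = q) (p : ℕ) [Fact p.Prime] [CharP F p] (g : Matrix.SpecialLinearGroup (Fin 2) F) (hg : Nat.Coprime (orderOf g) p) : orderOf g ∣ q - 1 ∨ orderOf g ∣ q + 1 := by
  subst hF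
  exact H12.sl2_orderOf_dvd p ((Nat.Prime.coprime_iff_not_dvd Fact.out).1 hg.symm)

end Cfsg.Agent.S0800
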