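import Cfsg.Statements.S0802
import Cfsg.Agent.H12.DicksonPSL

set_option autoImplicit false
open Cfsg

namespace Cfsg.Agent.S0802

/-- PSL_2(p^n) has a subgroup isomorphic to A_4 if and only if it is not the case that p = 2 and n is odd. -/
theorem result {F : Type*} [Field F] [Fintype F] (p n : ℕ) [Fact p.Prime] [CharP F p] (hF : Fintype.card F = p ^ n) : (∃ H : Subgroup (Matrix.ProjectiveSpecialLinearGroup (Fin 2) F), Nonempty (H ≃* alternatingGroup (Fin 4))) ↔ ¬ (p = 2 ∧ Odd n) := by
  have hq : 1 < Fintype.card F := Fintype.one_lt_card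
  constructor
  · rintro ⟨H, ⟨e⟩⟩ ⟨rfl, hn⟩
    let f := (Matrix.ProjectiveSpecialLinearGroup.toPGL.comp H.subtype).comp e.symm.toMonoidHom
    have hf : Function.Injective f := Matrix.ProjectiveSpecialLinearGroup.toPGL_injective.comp
      (H.subtype_injective.comp e.symm.injective)
    have h1 : H12.alt4b * H12.alt4a * H12.alt4b⁻¹ * H12.alt4a =
        H12.alt4a * (H12.alt4b * H12.alt4a * H12.alt4b⁻¹) ∧ H12.alt4b ≠ 1 := by decide +kernel
    have ha : f H12.alt4a ^ 2 = 1 := by rw [← map_pow, H12.alt4_rels.1, map_one]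
    have ha1 : f H12.alt4a ≠ 1 := (map_ne_one_iff f hf).2 H12.alt4_rels.2.2.2
    have hb : orderOf (f H12.alt4b) = 3 := by
      rw [orderOf_injective f hf]; exact orderOf_eq_prime H12.alt4_rels.2.1 h1.2
    have hab := congrArg f h1.1
    simp only [map_mul, map_inv] at hab
    generalize f H12.alt4a = a at *
    generalize f H12.alt4b = b at *
    obtain ⟨x, hx⟩ := H12.exists_fixed_of_pow_char 2 (k := 1) ha
    have hu : a ∈ H12.unip x := (H12.mem_unip_iff 2).2 ⟨hx, ha⟩
    have h2 : (b * a * b⁻¹) • x = x :=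
      H12.eq_of_mem_unip_of_smul_eq hu ha1 (by rw [← mul_smul, ← hab, mul_smul, hx])
    have h3 : b⁻¹ • x = x := H12.eq_of_mem_unip_of_smul_eq hu ha1 (by
      rwa [mul_smul, mul_smul, smul_eq_iff_eq_inv_smul] at h2)
    have h4 := ((H12.mem_unip_iff 2).1 (H12.pow_mem_unip_of_fix h3)).2
    rw [← pow_mul, ← orderOf_dvd_iff_pow_eq_one, orderOf_inv, hb, hF] at h4
    obtain ⟨k, rfl⟩ := hn
    have h5 : 2 ^ (2 * k + 1) % 3 = 2 := by
      rw [pow_succ, pow_mul, Nat.mul_mod, Nat.pow_mod]; simp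
    generalize 2 ^ (2 * k + 1) = q at *
    omega
  · intro h
    by_cases h2 : p = 2
    · subst h2
      obtain ⟨k, rfl⟩ : Even n := Nat.not_odd_iff_even.1 fun hn => h ⟨rfl, hn⟩
      have h5 : 2 ^ (k + k) % 3 = 1 := by
        rw [← two_mul, pow_mul, Nat.pow_mod]; simp
      obtain ⟨x, hx⟩ := exists_prime_orderOf_dvd_card' (G := Fˣ) 3 (by
        rw [Nat.card_units, Nat.card_eq_fintype_card]; omega)
      have h3 : IsPrimitiveRoot (x : F) 3 := by
        rw [IsPrimitiveRoot.coe_units_iff, ← hx]; exact IsPrimitiveRoot.orderOf x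
      have := h3.geom_sum_eq_zero (by norm_num)
      simp only [Finset.sum_range_succ, Finset.range_zero, Finset.sum_empty] at this
      exact H12.exists_alt4_of_root (x := x) (y := 0) (by linear_combination this)
    · exact H12.exists_alt4 (by
        exact_mod_cast H12.natCast_ne_zero_of_not_dvd (F := F) p (n := 2)
          (fun h => h2 ((Nat.prime_dvd_prime_iff_eq Fact.out Nat.prime_two).1 h)))

end Cfsg.Agent.S0802
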