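import Cfsg.Statements.S0808
import Cfsg.Agent.H12.KleinDih

set_option autoImplicit false
open Cfsg

namespace Cfsg.Agent.S0808

theorem one_class {G : Type*} [Group G] [Finite G] {n : ℕ} {x a s : G}
    (hconj : ∀ y, orderOf y = 2 → IsConj x y)
    (hD : H12.IsDihedralPair (Subgroup.centralizer {x}) a s) (ho : orderOf a = 2 * n)
    (hxa : x = a ^ n) (hn : Odd n) {W : Subgroup G} (hW : IsKleinFour W) :
    ∃ g, W = (Subgroup.closure {x, s}).map (MulAut.conj g).toMonoidHom := by
  refine (H12.klein_conj_cases hconj hD ho hxa hW).elim id fun ⟨g, hg⟩ => ?_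
  obtain ⟨k, rfl⟩ := hn
  have h1 : ∀ j : ℤ, a ^ j * s = s * a ^ (-j) := fun j => by
    rw [H11.zpow_mul_of_inv hD.2.2.1, zpow_neg]
  have h2 : Subgroup.closure {x, s * a} = Subgroup.closure {x, s * a * x} := by
    apply le_antisymm <;> rw [Subgroup.closure_le] <;> rintro _ (rfl | rfl)
    · exact Subgroup.subset_closure (by simp)
    · exact (Subgroup.mul_mem_cancel_right _ (Subgroup.subset_closure (a := x) (by simp))).1
        (Subgroup.subset_closure (by simp))
    · exact Subgroup.subset_closure (by simp)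
    · exact Subgroup.mul_mem _ (Subgroup.subset_closure (by simp)) (Subgroup.subset_closure (by simp))
  refine ⟨g * a ^ (-(k + 1 : ℤ)), ?_⟩
  rw [hg, h2, MonoidHom.map_closure, MonoidHom.map_closure, Set.image_pair, Set.image_pair, hxa]
  congr 2
  · simp only [MulEquiv.coe_toMonoidHom, MulAut.conj_apply]; group
  · simp only [MulEquiv.coe_toMonoidHom, MulAut.conj_apply, mul_assoc g, h1]; group

theorem not_conj {G : Type*} [Group G] [Finite G] {n : ℕ} {x a s : G}
    (hconj : ∀ y, orderOf y = 2 → IsConj x y)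
    (hD : H12.IsDihedralPair (Subgroup.centralizer {x}) a s) (ho : orderOf a = 2 * n)
    (hxa : x = a ^ n) (hn : Even n) (hV : IsKleinFour (Subgroup.closure {x, s}))
    (h12 : 12 * Nat.card {V : Subgroup G // IsKleinFour V} = Nat.card G) :
    ¬ ∃ g, Subgroup.closure {x, s * a} =
      (Subgroup.closure {x, s}).map (MulAut.conj g).toMonoidHom := by
  rintro ⟨g, hg⟩
  have h1 : Nat.card {V : Subgroup G // IsKleinFour V} =
      (Subgroup.normalizer (Subgroup.closure {x, s} : Set G)).index := by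
    rw [← H12.card_conj_subgroups]
    refine Nat.card_congr (Equiv.subtypeEquivRight fun W => ⟨fun hW => ?_, ?_⟩)
    · refine (H12.klein_conj_cases hconj hD ho hxa hW).elim id fun ⟨k, hk⟩ => ⟨k * g, ?_⟩
      rw [hk, hg, Subgroup.map_map]
      congr 1
      ext z; simp [mul_assoc]
    · rintro ⟨k, rfl⟩
      exact H11.isKleinFour_cj hV k
  rw [h1, ← (Subgroup.normalizer (Subgroup.closure {x, s} : Set G)).card_mul_index] at h12
  have h2 := Nat.eq_of_mul_eq_mul_right (Nat.pos_of_ne_zero Subgroup.index_ne_zero_of_finite) h12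
  obtain ⟨k, rfl⟩ := hn
  have h0 := orderOf_pos a
  have h3 : orderOf (a ^ k) = 4 := by
    rw [orderOf_pow, ho, show 2 * (k + k) = 4 * k by ring, Nat.gcd_mul_left_left,
      Nat.mul_div_cancel _ (by omega)]
  have h4 : H12.IsDihedralPair (Subgroup.closure {a ^ k, s}) (a ^ k) s :=
    ⟨rfl, hD.2.1, by rw [← conj_pow, hD.2.2.1, inv_pow],
      fun h => hD.2.2.2 (Subgroup.zpowers_le.2 (Subgroup.pow_mem _ (Subgroup.mem_zpowers a) k) h)⟩
  have h5 : Subgroup.closure {a ^ k, s} ≤ Subgroup.normalizer (Subgroup.closure {x, s} : Set G) := by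
    rw [Subgroup.closure_le]
    rintro _ (rfl | rfl)
    · rw [SetLike.mem_coe, ← H11.map_conj_eq_iff_mem_normalizer]
      refine Subgroup.eq_of_le_of_card_ge ?_ (H11.card_map_conj _ _).ge
      rw [MonoidHom.map_closure, Set.image_pair, Subgroup.closure_le]
      rintro _ (rfl | rfl)
      · refine Subgroup.subset_closure (Or.inl ?_)
        simp only [MulEquiv.coe_toMonoidHom, MulAut.conj_apply, hxa]; group
      · have : (MulAut.conj (a ^ k)).toMonoidHom s = s * x⁻¹ := by
          simp only [MulEquiv.coe_toMonoidHom, MulAut.conj_apply, hxa,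
            H11.pow_mul_of_inv hD.2.2.1]; group
        rw [this]
        exact Subgroup.mul_mem _ (Subgroup.subset_closure (by simp))
          (Subgroup.inv_mem _ (Subgroup.subset_closure (by simp)))
    · exact Subgroup.le_normalizer (Subgroup.subset_closure (by simp))
  have h6 := Subgroup.card_dvd_of_le h5
  rw [h4.card, h3, ← h2] at h6
  omega

/-- Conjugacy classes of four-groups in PSL_2(q), q odd: if q ≡ 3 or 5 (mod 8) all Klein four-subgroups are conjugate; if q ≡ 1 or 7 (mod 8) there are two Klein four-subgroups which are not conjugate, and every Klein four-subgroup is conjugate to one of them. -/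
theorem result {F : Type*} [Field F] [Fintype F] {q : ℕ} (hF : Fintype.card F = q) (hodd : Odd q) : ((q % 8 = 3 ∨ q % 8 = 5) → ∀ V W : Subgroup (Matrix.ProjectiveSpecialLinearGroup (Fin 2) F), IsKleinFour V → IsKleinFour W → ∃ g : Matrix.ProjectiveSpecialLinearGroup (Fin 2) F, W = V.map (MulAut.conj g).toMonoidHom) ∧ ((q % 8 = 1 ∨ q % 8 = 7) → ∃ V₁ V₂ : Subgroup (Matrix.ProjectiveSpecialLinearGroup (Fin 2) F), IsKleinFour V₁ ∧ IsKleinFour V₂ ∧ (¬ ∃ g : Matrix.ProjectiveSpecialLinearGroup (Fin 2) F, V₂ = V₁.map (MulAut.conj g).toMonoidHom) ∧ ∀ W : Subgroup (Matrix.ProjectiveSpecialLinearGroup (Fin 2) F), IsKleinFour W → (∃ g : Matrix.ProjectiveSpecialLinearGroup (Fin 2) F, W = V₁.map (MulAut.conj g).toMonoidHom) ∨ (∃ g : Matrix.ProjectiveSpecialLinearGroup (Fin 2) F, W = V₂.map (MulAut.conj g).toMonoidHom)) := by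
  subst hF
  have h2 := H12.two_ne_zero_of_odd_card hodd
  obtain ⟨n, -, hn⟩ := H12.exists_four_mul_eq hodd
  obtain ⟨x, hx⟩ := H12.exists_invol_psl2 (F := F)
  obtain ⟨a, s, hD, ho, hxa⟩ := H12.centralizer_invol h2 hx hn
  have hconj := fun y => H12.psl2_isConj_invol (y := y) h2 hx
  have hK : ∀ b ∈ Subgroup.zpowers a, IsKleinFour (Subgroup.closure {x, s * b}) := fun b hb =>
    H11.isKleinFour_closure hx (hD.orderOf_mul hb).2.2
      (fun e => (hD.orderOf_mul hb).1 (e ▸ hxa ▸ Subgroup.pow_mem _ (Subgroup.mem_zpowers a) n))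
      (Subgroup.mem_centralizer_singleton_iff.1 (hD.orderOf_mul hb).2.1).symm
  have hV : IsKleinFour (Subgroup.closure {x, s}) := mul_one s ▸ hK 1 (one_mem _)
  refine ⟨fun h V W hV hW => ?_, fun h => ⟨_, _, hV, hK a (Subgroup.mem_zpowers a), ?_,
    fun W hW => H12.klein_conj_cases hconj hD ho hxa hW⟩⟩
  · have hn' : Odd n := Nat.odd_iff.2 (by omega)
    obtain ⟨g, rfl⟩ := one_class hconj hD ho hxa hn' hV
    obtain ⟨k, rfl⟩ := one_class hconj hD ho hxa hn' hW
    refine ⟨k * g⁻¹, ?_⟩
    rw [Subgroup.map_map]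
    congr 1
    ext z; simp [mul_assoc]
  · exact not_conj hconj hD ho hxa (Nat.even_iff.2 (by omega)) hV
      (H12.twelve_mul_card_klein hx hconj (fun y hy => H12.centralizer_invol h2 hy hn))

end Cfsg.Agent.S0808
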