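import Cfsg.Statements.S0809
import Cfsg.Agent.H12.PSL2Dih

set_option autoImplicit false
open Cfsg

namespace Cfsg.Agent.S0809

/-- In SL_2(q), q odd: any two subgroups of order 4 are conjugate, and the normaliser of a subgroup of order 4 has order 2(q − 1) if q ≡ 1 (mod 4) and 2(q + 1) if q ≡ 3 (mod 4); consequently all involutions of PSL_2(q) are conjugate. -/
theorem result {F : Type*} [Field F] [Fintype F] {q : ℕ} (hF : Fintype.card F = q) (hodd : Odd q) (A : Subgroup (Matrix.SpecialLinearGroup (Fin 2) F)) (hA : Nat.card A = 4) : (∀ B : Subgroup (Matrix.SpecialLinearGroup (Fin 2) F), Nat.card B = 4 → ∃ g : Matrix.SpecialLinearGroup (Fin 2) F, B = A.map (MulAut.conj g).toMonoidHom) ∧ (q % 4 = 1 → Nat.card ↥(Subgroup.normalizer (A : Set (Matrix.SpecialLinearGroup (Fin 2) F))) = 2 * (q - 1)) ∧ (q % 4 = 3 → Nat.card ↥(Subgroup.normalizer (A : Set (Matrix.SpecialLinearGroup (Fin 2) F))) = 2 * (q + 1)) ∧ (∀ x y : Matrix.ProjectiveSpecialLinearGroup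 (Fin 2) F, orderOf x = 2 → orderOf y = 2 → IsConj x y) := by
  subst hF
  have h2 := H12.two_ne_zero_of_odd_card hodd
  obtain ⟨g, hg, rfl⟩ := H12.exists_gen_of_card_four h2 hA
  have hg4 := H12.trace_sq_ne_four_of_mul_self h2 hg
  refine ⟨fun B hB => ?_, fun h => ?_, fun h => ?_, fun x y hx hy => H12.psl2_isConj_invol h2 hx hy⟩
  · obtain ⟨h, hh, rfl⟩ := H12.exists_gen_of_card_four h2 hB
    obtain ⟨k, rfl⟩ := H12.exists_conj_of_trace_eq hg4
      ((H12.sl2_trace_of_mul_self hh).trans (H12.sl2_trace_of_mul_self hg).symm)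
    exact ⟨k, by rw [MonoidHom.map_zpowers]; rfl⟩
  · obtain ⟨t, h1, -, h3⟩ := H12.exists_torus_of_mul_self h2 hg (Or.inl rfl) (by omega)
    rw [H12.card_normalizer_zpowers hg4, h3, Nat.card_zpowers, h1]
  · obtain ⟨t, h1, -, h3⟩ := H12.exists_torus_of_mul_self h2 hg (Or.inr rfl) (by omega)
    rw [H12.card_normalizer_zpowers hg4, h3, Nat.card_zpowers, h1]

end Cfsg.Agent.S0809
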