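import Cfsg.Statements.S0812
import Cfsg.Agent.H12.PSL2Dih

set_option autoImplicit false
open Cfsg

namespace Cfsg.Agent.S0812

/-- For q ∉ {2, 3, 5, 7, 9, 11}, PSL_2(q) has a maximal subgroup isomorphic to the dihedral group of order 2(q − 1)/d, d = gcd(2, q − 1). -/
theorem result {F : Type*} [Field F] [Fintype F] {q : ℕ} (hF : Fintype.card F = q) (hq : q ∉ ({2, 3, 5, 7, 9, 11} : Finset ℕ)) : ∃ H : Subgroup (Matrix.ProjectiveSpecialLinearGroup (Fin 2) F), IsCoatom H ∧ Nonempty (H ≃* DihedralGroup ((q - 1) / Nat.gcd 2 (q - 1))) := by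
  subst hF
  obtain ⟨p, hp, n, hpp, hn⟩ := FiniteField.card' F
  have : Fact p.Prime := ⟨hpp⟩
  have hq1 : 1 < Fintype.card F := Fintype.one_lt_card
  simp only [Finset.mem_insert, Finset.mem_singleton, not_or] at hq
  obtain ⟨H, a, s, h, ho⟩ := H12.exists_dihedralPair (F := F) (Or.inl rfl) (by omega)
  have hG := H12.card_PSL2 (F := F) rfl
  have hpa : ¬ p ∣ orderOf a := fun hd => H12.natCast_card_sub_one_ne_zero (F := F)
    ((CharP.cast_eq_zero_iff F p _).2 (hd.trans (ho ▸ Nat.div_dvd_of_dvd (Nat.gcd_dvd_right _ _))))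
  generalize hq' : Fintype.card F = q at *
  have hd : Nat.gcd 2 (q - 1) = 1 ∧ q % 2 = 0 ∨ Nat.gcd 2 (q - 1) = 2 ∧ q % 2 = 1 := by
    rcases Nat.even_or_odd (q - 1) with h | h
    · exact Or.inr ⟨Nat.gcd_eq_left h.two_dvd, by obtain ⟨k, hk⟩ := h; omega⟩
    · exact Or.inl ⟨Nat.Coprime.gcd_eq_one (by simpa using h), by obtain ⟨k, hk⟩ := h; omega⟩
  refine ⟨H, ⟨fun htop => ?_, fun M hM => ?_⟩, ho ▸ h.nonempty_equiv⟩
  · have h1 := h.card
    rw [htop, Subgroup.card_top] at h1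
    rw [h1, ho, show q ^ 2 - 1 = (q + 1) * (q - 1) by simpa using Nat.sq_sub_sq q 1] at hG
    have h2 : (q + 1) * 6 ≤ q * ((q + 1) * (q - 1)) := by
      rw [mul_left_comm]
      exact Nat.mul_le_mul_left _ (Nat.mul_le_mul (show 3 ≤ q by omega) (show 2 ≤ q - 1 by omega))
    rcases hd with ⟨hd1, hd2⟩ | ⟨hd1, hd2⟩ <;> rw [hd1] at hG <;> omega
  · by_contra hM'
    have h1 := M.card_mul_index
    have h2 : M.index ≠ 1 := fun e => hM' (Subgroup.index_eq_one.1 e)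
    rw [← h1] at hG
    have key := H12.overgroup_dihedral p h hpa
      (by rcases hd with ⟨hd1, hd2⟩ | ⟨hd1, hd2⟩ <;> rw [hd1] at ho <;> omega) hM hM'
    rw [hq'] at key
    rcases key with h3 | ⟨h3, h4⟩ | ⟨h3, h4⟩ | ⟨h3, h4⟩ | ⟨r, h3, h4, h5⟩
    · rcases hd with ⟨hd1, hd2⟩ | ⟨hd1, hd2⟩ <;> rw [hd1] at ho h3 <;> omega
    any_goals
      have : q ≤ 11 := by rcases hd with ⟨hd1, hd2⟩ | ⟨hd1, hd2⟩ <;> rw [hd1] at ho <;> omega
      rw [h4] at hG
      interval_cases q <;>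
        simp only [Nat.reduceSub, Nat.reduceGcd, Nat.reducePow, Nat.reduceMul] at hG ho <;> omega
    have h6 : q ≤ 2 * r + 3 := by rcases hd with ⟨hd1, hd2⟩ | ⟨hd1, hd2⟩ <;> rw [hd1] at ho <;> omega
    obtain rfl : r = 3 := by nlinarith
    omega

end Cfsg.Agent.S0812
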