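import Cfsg.Statements.S0814
import Cfsg.Agent.H28.Sp4A

set_option autoImplicit false
open Cfsg

namespace Cfsg.Agent.S0814



/-- |Aut(PSp_2m(q))| = gcd(2, q−1) · f · |PSp_2m(q)| for q = p^f, m ≥ 2, (m, q) ≠ (2, 2), with an extra factor 2 exactly when m = 2 and p = 2. -/
theorem result {F : Type*} [Field F] [Fintype F] (p f : ℕ) [Fact p.Prime] (hf : 1 ≤ f) (hF : Fintype.card F = p ^ f) (m : ℕ) (hm : 2 ≤ m) (h22 : m = 2 → 3 ≤ p ^ f) : Nat.card (MulAut (Cfsg.PSp m F)) = (if m = 2 ∧ p = 2 then 2 else 1) * Nat.gcd 2 (p ^ f - 1) * f * Nat.card (Cfsg.PSp m F) := by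
  have := H28.charP_of_card hF
  have hT := H28.triv_Sp (F := F) hm
  split_ifs with h
  · obtain ⟨rfl, rfl⟩ := h
    rw [Subgroup.card_eq_card_quotient_mul_card_subgroup (Inn _), hT.card_inn, (H28.out_Sp4 hF).2,
      Nat.coprime_two_left.2 (Nat.Even.sub_odd (Nat.one_le_two_pow) (even_two.pow_of_ne_zero
      (by omega)) odd_one), mul_one]
  · rw [hT.card_aut (H28.surj_Sp hm fun e h2 => h ⟨e, (ringChar.eq F p).symm.trans
      (CharP.ringChar_of_prime_eq_zero Nat.prime_two (by exact_mod_cast h2))⟩) _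
      (H28.multSp_surjective (by omega)) (H28.ker_multSp _), H28.index_map_ker_Sp hm,
      H28.card_ringAut hF, Nat.card_eq_fintype_card, hF, one_mul]

end Cfsg.Agent.S0814
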