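import Cfsg.Statements.S0818
import Cfsg.Agent.H13.GamO
import Cfsg.Agent.H28.FieldAut

set_option autoImplicit false
open Cfsg

namespace Cfsg.Agent.S0818

/-- |Aut(PΩ⁻_2m(q))| for q = p^f, m ≥ 4 (form quadFormMinus (m−1) with anisotropic binary part): |PΩ⁻_2m(q)| times f, times 2 if p = 2, and times 4 or 8 if p is odd according as m(q−1)/2 is even or odd. -/
theorem result {F : Type*} [Field F] [Fintype F] (p f : ℕ) [Fact p.Prime] (hf : 1 ≤ f) (hF : Fintype.card F = p ^ f) (m : ℕ) (hm : 4 ≤ m) (a b : F) (hab : ∀ z₁ z₂ : F, z₁ ^ 2 + a * z₁ * z₂ + b * z₂ ^ 2 = 0 → z₁ = 0 ∧ z₂ = 0) : Nat.card (MulAut (Cfsg.POmega F (Cfsg.quadFormMinus (m - 1) F a b))) = (if p = 2 then 2 else (if Even (m * (p ^ f - 1) / 2) then 4 else 8)) * f * Nat.card (Cfsg.POmega F (Cfsg.quadFormMinus (m - 1) F a b)) := by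
  have hQ := H13.nd_QMinus (m := m - 1) hab
  have hV : Module.finrank F ((Fin (m - 1) ⊕ Fin (m - 1)) ⊕ Fin 2 → F) = 2 * m := by simp; omega
  have hP := H13.not_isPlus_QMinus (m := m - 1) hab
  have h := hQ.card_range_autHom_even (m := m) (by omega) hV
  rw [hQ.range_autHom (by omega) (fun _ => hP), Subgroup.card_top,
    show Nat.card (RingAut F) = f from H28.card_ringAut hF,
    hQ.card_OG_eq_gcd_minus (H13.good_QMinus hab) hP (by omega) hV, Nat.card_eq_fintype_card (α := F),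
    hF] at h
  rw [← H13.coe_QMinus, ← Nat.card_congr (H13.autEquiv _).toEquiv,
    Nat.card_congr (H13.pomegaEquiv _).toEquiv, h, ← mul_assoc, ← mul_assoc]
  congr 1
  rw [mul_assoc, mul_comm]
  congr 1
  rw [Nat.gcd_rec]
  split_ifs with h1 h2
  · subst h1
    have : 2 ∣ (2 ^ f) ^ m := dvd_pow (dvd_pow_self 2 (by omega)) (by omega)
    have h3 : ((2 ^ f) ^ m + 1) % 4 = 1 ∨ ((2 ^ f) ^ m + 1) % 4 = 3 := by omega
    rcases h3 with h3 | h3 <;> rw [h3] <;> rfl
  all_goals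
    obtain ⟨k, hk⟩ : Odd (p ^ f) := ((Fact.out : p.Prime).odd_of_ne_two h1).pow
    rw [hk, Nat.add_sub_cancel, mul_left_comm, Nat.mul_div_cancel_left _ two_pos] at h2
    have h3 : (2 * k + 1) ^ m % 4 = (1 + 2 * (m * k)) % 4 := by
      clear hm hV hP h hQ h2
      induction m with
      | zero => simp
      | succ m ih =>
        rw [pow_succ, Nat.mul_mod, ih, ← Nat.mul_mod]
        have : (1 + 2 * (m * k)) * (2 * k + 1) = 1 + 2 * ((m + 1) * k) + 4 * (m * k * k) := by ring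
        rw [this, Nat.add_mul_mod_self_left]
    rw [hk]
  · rw [Nat.even_iff] at h2
    rw [show ((2 * k + 1) ^ m + 1) % 4 = 2 by omega]; rfl
  · rw [Nat.even_iff] at h2
    rw [show ((2 * k + 1) ^ m + 1) % 4 = 0 by omega]; rfl

end Cfsg.Agent.S0818
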