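import Cfsg.Statements.S0819
import Cfsg.Agent.H28.Semisimple
import Cfsg.Agent.H12.Lin
import Cfsg.Agent.S2388

set_option autoImplicit false
open Cfsg

namespace Cfsg.Agent.S0819

open Polynomial in
theorem dvd_norm {F : Type*} [Field F] [Finite F] {f : F[X]} (hm : f.Monic) (hf : Irreducible f) :
    f ∣ X ^ ((Nat.card F ^ f.natDegree - 1) / (Nat.card F - 1)) -
      C ((-1) ^ f.natDegree * f.coeff 0) := by
  have : Fact (Irreducible f) := ⟨hf⟩
  have := H28.finite_adjoinRoot hm.ne_zero
  have : Finite (AdjoinRoot f) := Module.finite_of_finite F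
  have h1 := FiniteField.algebraMap_norm_eq_pow (K := F) (x := AdjoinRoot.root f)
  have h2 := Algebra.PowerBasis.norm_gen_eq_coeff_zero_minpoly (AdjoinRoot.powerBasis hm.ne_zero)
  rw [AdjoinRoot.minpoly_powerBasis_gen_of_monic hm, AdjoinRoot.powerBasis_gen,
    AdjoinRoot.powerBasis_dim] at h2
  rw [h2, Module.natCard_eq_pow_finrank (K := F) (V := AdjoinRoot f), H28.finrank_adjoinRoot] at h1
  rw [← AdjoinRoot.mk_eq_zero, map_sub, map_pow, AdjoinRoot.mk_X, AdjoinRoot.mk_C, ← h1]
  exact sub_self _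

/-- No element of PSL_3(4) has order 15. -/
theorem result {F : Type*} [Field F] [Fintype F] (hF : Fintype.card F = 4) (g : Matrix.ProjectiveSpecialLinearGroup (Fin 3) F) : orderOf g ≠ 15 := by
  classical
  intro hg
  have h2 : CharP F 2 := charP_of_card_eq_prime_pow (p := 2) (f := 2) hF
  have hq : Nat.card F = 4 := by rw [Nat.card_eq_fintype_card, hF]
  have hc : Nat.card (Subgroup.center (Matrix.SpecialLinearGroup (Fin 3) F)) = 3 := by
    rw [H12.card_center_SL, hq]; rfl
  obtain ⟨a, rfl⟩ := QuotientGroup.mk_surjective g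
  have h3 := orderOf_dvd_iff_pow_eq_one.1 hg.dvd
  have h5 : a ^ 45 = 1 := by
    rw [← QuotientGroup.mk_pow, QuotientGroup.eq_one_iff] at h3
    have := pow_card_eq_one' (x := (⟨_, h3⟩ : Subgroup.center _))
    rw [hc] at this
    exact (pow_mul a 15 3).trans (congrArg Subtype.val this)
  have hs : H28.IsSS (H28.med a.1) := H28.isSS_of_coprime (p := 2) (by
    rw [S2388.ord_coe]
    exact Nat.Coprime.coprime_dvd_left (orderOf_dvd_of_pow_eq_one h5) (by norm_num))
  have h6 : ∀ k, a ^ k ∈ Subgroup.center _ → 15 ∣ k := fun k hk => by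
    rw [← hg, orderOf_dvd_iff_pow_eq_one, ← QuotientGroup.mk_pow, QuotientGroup.eq_one_iff]
    exact hk
  by_cases h7 : ∀ x ∈ H28.med a.1, x.f.natDegree ∣ 3
  · have := H28.pow_eq_one_of_isSS (Matrix.SpecialLinearGroup.toGL a) hs h7
    rw [hq, ← map_pow, map_eq_one_iff _ Matrix.SpecialLinearGroup.toGL_injective] at this
    exact absurd (h6 _ (this ▸ Subgroup.one_mem _)) (by norm_num)
  push Not at h7
  obtain ⟨x, hx, hx'⟩ := h7
  have h8 := H28.natDegree_le_of_mem_med _ hx
  rw [hs x hx, one_mul, Fintype.card_fin] at h8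
  have h9 : x.f.natDegree = 2 := by
    have := x.natDegree_f_pos
    interval_cases x.f.natDegree <;> simp_all
  obtain ⟨M, hM⟩ := Multiset.exists_cons_of_mem hx
  have h10 := H28.card_eq_sum_med a.1
  rw [hM, Multiset.map_cons, Multiset.sum_cons, hs x hx, h9, Fintype.card_fin] at h10
  obtain ⟨y, rfl, hy⟩ : ∃ y, M = {y} ∧ y.f.natDegree = 1 := by
    induction M using Multiset.induction_on with
    | empty => simp at h10
    | cons y M _ =>
      have := Nat.mul_pos y.pos y.natDegree_f_pos
      rw [Multiset.map_cons, Multiset.sum_cons] at h10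
      refine ⟨y, ?_, Nat.eq_one_of_mul_eq_one_left (m := y.k) (by omega)⟩
      induction M using Multiset.induction_on with
      | empty => rfl
      | cons z M _ =>
        have := Nat.mul_pos z.pos z.natDegree_f_pos
        rw [Multiset.map_cons, Multiset.sum_cons] at h10
        omega
  have hyM : y ∈ H28.med a.1 := by simp [hM]
  have h11 := H28.det_eq_of_charpoly a.1
  rw [a.2, H28.charpoly_eq_prod_med, hs.map_poly, hM, Fintype.card_fin] at h11
  simp only [Multiset.map_cons, Multiset.map_singleton, Multiset.prod_cons, Multiset.prod_singleton,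
    Polynomial.mul_coeff_zero, CharTwo.neg_eq, one_pow, one_mul] at h11
  have h12 := dvd_norm x.monic x.irred
  have h13 := dvd_norm y.monic y.irred
  rw [hq, h9, CharTwo.neg_eq, one_pow, one_mul] at h12
  rw [hq, hy, CharTwo.neg_eq, one_pow, one_mul] at h13
  have h14 : y.f.coeff 0 ^ 5 = x.f.coeff 0 := by
    have := FiniteField.pow_card_sub_one_eq_one (y.f.coeff 0) (right_ne_zero_of_mul_eq_one h11.symm)
    rw [hF] at this
    norm_num at this
    linear_combination (y.f.coeff 0 ^ 5) * h11 + x.f.coeff 0 * (y.f.coeff 0 ^ 3 + 1) * this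
  have h15 : Polynomial.aeval a.1 (Polynomial.X ^ 5 - Polynomial.C (x.f.coeff 0)) = 0 := by
    rw [H28.aeval_eq_zero_iff_med]
    intro z hz
    rw [H28.PP.poly, hs z hz, pow_one]
    rw [hM] at hz
    rcases Multiset.mem_cons.1 hz with rfl | hz
    · exact h12
    · rw [Multiset.mem_singleton.1 hz, ← h14, map_pow]
      exact h13.trans (by simpa using sub_dvd_pow_sub_pow _ _ 5)
  refine absurd (h6 5 (Subgroup.mem_center_iff.2 fun b => Subtype.ext ?_)) (by norm_num)
  simp only [map_sub, map_pow, Polynomial.aeval_X, Polynomial.aeval_C, sub_eq_zero] at h15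
  change b.1 * a.1 ^ 5 = a.1 ^ 5 * b.1
  rw [h15, Algebra.commutes]

end Cfsg.Agent.S0819
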