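import Cfsg.Statements.S0821
import Cfsg.Agent.H13.Rank2
import Cfsg.Agent.H13.Center
import Cfsg.Agent.H13.PermMod
import Cfsg.Agent.H13.Inv2O
import Mathlib

set_option autoImplicit false
open Cfsg

namespace Cfsg.Agent.S0821


open Module H13

theorem li_of_simul {F M P J : Type*} [Field F] [AddCommGroup M] [Module F M]
    (T : J → M →ₗ[F] M) (v : P → M) (μ : P → J → F) (hμ : Function.Injective μ)
    (hv : ∀ p, v p ≠ 0) (h : ∀ j p, T j (v p) = μ p j • v p) : LinearIndependent F v := by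
  classical
  refine linearIndependent_iff'.2 fun s => ?_
  induction s using Finset.induction_on with
  | empty => simp
  | insert a s ha ih =>
    intro g hg
    rw [Finset.sum_insert ha] at hg
    have key : ∀ p ∈ s, g p = 0 := by
      intro p hp
      obtain ⟨j, hj⟩ := Function.ne_iff.1 (hμ.ne (show p ≠ a from fun h => ha (h ▸ hp)))
      have h1 := congrArg (T j) hg
      simp only [map_add, map_sum, map_smul, h, map_zero] at h1
      have h2 : ∑ x ∈ s, (g x * (μ x j - μ a j)) • v x = 0 := by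
        have h3 := congrArg (μ a j • ·) hg
        simp only [smul_add, Finset.smul_sum, smul_zero] at h3
        have : ∑ x ∈ s, (g x * (μ x j - μ a j)) • v x =
            (g a • μ a j • v a + ∑ x ∈ s, g x • μ x j • v x) -
              (μ a j • g a • v a + ∑ x ∈ s, μ a j • g x • v x) := by
          rw [smul_comm (μ a j) (g a), add_sub_add_left_eq_sub, ← Finset.sum_sub_distrib]
          exact Finset.sum_congr rfl fun x _ => by module
        rw [this, h1, h3, sub_zero]
      exact (mul_eq_zero.1 (ih _ h2 p hp)).resolve_right (sub_ne_zero.2 hj)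
    intro i hi
    rcases Finset.mem_insert.1 hi with rfl | hi
    · rw [Finset.sum_eq_zero fun x hx => by rw [key x hx, zero_smul], add_zero] at hg
      exact (smul_eq_zero.1 hg).resolve_right (hv _)
    · exact key i hi

theorem mul_list_prod {F A ι : Type*} [Field F] [Ring A] [Algebra F A] (a : A) (x : ι → A) (s : ι → F)
    (h : ∀ i, a * x i = s i • (x i * a)) (l : List ι) :
    a * (l.map x).prod = (l.map s).prod • ((l.map x).prod * a) := by
  induction l with
  | nil => simp
  | cons i l ih =>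
    simp only [List.map_cons, List.prod_cons]
    rw [← mul_assoc, h, smul_mul_assoc, mul_assoc, ih, mul_smul_comm, smul_smul, mul_assoc]

theorem anti_bound {F V : Type*} [Field F] [AddCommGroup V] [Module F V] [FiniteDimensional F V]
    [Nontrivial V] (h2 : (2 : F) ≠ 0) {m : ℕ} (γ : Fin (2 * m) → (End F V)ˣ)
    (h : ∀ i j, i ≠ j → (γ i : End F V) * γ j = -(γ j * γ i)) :
    2 ^ (2 * m) ≤ finrank F V ^ 2 := by
  classical
  let x : (Fin (2 * m) → ℤˣ) → Fin (2 * m) → (End F V)ˣ := fun ε i => if ε i = 1 then 1 else γ i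
  let s : (Fin (2 * m) → ℤˣ) → Fin (2 * m) → Fin (2 * m) → ℤˣ := fun ε j i => if i = j then 1 else ε i
  let c : ℤˣ →* F := (Int.castRingHom F : ℤ →* F).comp (Units.coeHom ℤ)
  have hc : Function.Injective c := by
    rw [injective_iff_map_eq_one]
    intro a ha
    rcases Int.units_eq_one_or a with rfl | rfl
    · rfl
    · exfalso; apply h2
      have : (-1 : F) = 1 := by simpa [c] using ha
      linear_combination -this
  let L : (Fin (2 * m) → ℤˣ) → End F V := fun ε => ((List.finRange _).map fun i => (x ε i : End F V)).prod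
  have hL : ∀ ε, IsUnit (L ε) := fun ε => by
    refine List.prod_isUnit fun a ha => ?_
    obtain ⟨i, -, rfl⟩ := List.mem_map.1 ha
    exact (x ε i).isUnit
  have hli : LinearIndependent F L := by
    refine li_of_simul (fun j => (LinearMap.mulLeft F (γ j : End F V)).comp
      (LinearMap.mulRight F ((γ j)⁻¹ : (End F V)ˣ))) L (fun ε j => c (∏ i, s ε j i)) ?_
      (fun ε => (hL ε).ne_zero) fun j ε => ?_
    · intro ε δ hεδ
      have h1 : ∀ ε : Fin (2 * m) → ℤˣ, ∀ j, (∏ i, s ε j i) * ε j = ∏ i, ε i := fun ε j => by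
        rw [← Finset.mul_prod_erase _ _ (Finset.mem_univ j), ← Finset.mul_prod_erase _ ε (Finset.mem_univ j)]
        simp only [s, if_true, one_mul]
        rw [mul_comm]
        congr 1
        exact Finset.prod_congr rfl fun i hi => if_neg (Finset.ne_of_mem_erase hi)
      have h3 : ∀ j, ε j / δ j = (∏ i, ε i) / ∏ i, δ i := fun j => by
        rw [← h1 ε j, ← h1 δ j, hc (congrFun hεδ j), mul_div_mul_left_eq_div]
      have h4 : (∏ i, ε i) / ∏ i, δ i = 1 := by
        rw [← Finset.prod_div_distrib, Finset.prod_congr rfl fun j _ => h3 j]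
        simp [pow_mul]
      funext j
      exact div_eq_one.1 ((h3 j).trans h4)
    · have := mul_list_prod (F := F) (γ j : End F V) (fun i => (x ε i : End F V)) (fun i => c (s ε j i))
        (fun i => by
          by_cases hij : i = j
          · subst hij
            by_cases he : ε i = 1 <;> simp [x, s, he]
          · rcases Int.units_eq_one_or (ε i) with he | he
            · simp [x, s, he]
            · simp [x, s, he, hij, c, h j i (Ne.symm hij)]) (List.finRange _)
      simp only [LinearMap.comp_apply, LinearMap.mulRight_apply, LinearMap.mulLeft_apply]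
      rw [← mul_assoc, this, smul_mul_assoc, mul_assoc, Units.mul_inv, mul_one, map_prod,
        Fin.prod_univ_def]
  have := hli.fintype_card_le_finrank
  simpa [finrank_linearMap, sq] using this

theorem core {F V : Type*} [Field F] [AddCommGroup V] [Module F V] [FiniteDimensional F V]
    [Finite V] (h2 : (2 : F) ≠ 0) {B : V →ₛₗ[RingHom.id F] V →ₗ[F] F} (D : H12.SD B) {m : ℕ} (hm : 3 ≤ m)
    (hV : finrank F V = 2 * m)
    (Φ : (Fin (2 * m) → ℤˣ) →* H12.UG B ⧸ Subgroup.center (H12.UG B)) (hΦ : Function.Injective Φ)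
    (hc1 : ∀ i j, IsConj (Φ (Pi.mulSingle i (-1))) (Φ (Pi.mulSingle j (-1))))
    (hc2 : ∀ i j, i ≠ j → IsConj (Φ (Pi.mulSingle i (-1)))
      (Φ (Pi.mulSingle i (-1) * Pi.mulSingle j (-1)))) : False := by
  have hnt : Nontrivial V := Module.nontrivial_of_finrank_pos (R := F) (by omega)
  have hz : ∀ z ∈ Subgroup.center (H12.UG B), z = 1 ∨ ∀ x, z.1 x = -x := fun z hz => by
    obtain ⟨a, ha⟩ := (D.mem_center_UG_iff H12.ns_id (by omega)).1 hz
    obtain ⟨x, hx⟩ := exists_ne (0 : V)
    obtain ⟨y, hy⟩ : ∃ y, B x y ≠ 0 := by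
      by_contra! h
      exact hx (D.sep x h)
    have h1 := z.2 x y
    simp only [ha, map_smul, LinearMap.map_smulₛₗ, RingHom.id_apply, LinearMap.smul_apply,
      smul_eq_mul] at h1
    have h3 : (a - 1) * (a + 1) * B x y = 0 := by linear_combination h1
    rcases mul_eq_zero.1 ((mul_eq_zero.1 h3).resolve_right hy) with h | h
    · left; exact H12.UG_ext fun x => by rw [ha, sub_eq_zero.1 h]; simp
    · right; intro x; rw [ha, eq_neg_of_add_eq_zero_left h]; simp
  have hz2 : ∀ z ∈ Subgroup.center (H12.UG B), z * z = 1 := fun z h => by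
    rcases hz z h with rfl | h
    · simp
    · exact H12.UG_ext fun x => by
        show z.1 (z.1 x) = x
        rw [h, h, neg_neg]
  have hsq : ∀ a b : H12.UG B, IsConj (a : H12.UG B ⧸ Subgroup.center (H12.UG B)) b →
      a * a ∈ Subgroup.center _ → b * b = a * a := fun a b hab ha => by
    obtain ⟨g, hg⟩ := isConj_iff.1 hab
    obtain ⟨g, rfl⟩ := QuotientGroup.mk_surjective g
    rw [← QuotientGroup.mk_inv, ← QuotientGroup.mk_mul, ← QuotientGroup.mk_mul,
      QuotientGroup.eq] at hg
    have h1 := hz2 _ hg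
    have h3 := Subgroup.mem_center_iff.1 hg
    generalize hw : (g * a * g⁻¹)⁻¹ * b = w at h1 h3
    obtain rfl : b = g * a * g⁻¹ * w := by rw [← hw]; group
    calc g * a * g⁻¹ * w * (g * a * g⁻¹ * w) = g * a * g⁻¹ * (w * (g * a * g⁻¹)) * w := by group
      _ = g * (a * a) * g⁻¹ * (w * w) := by rw [← h3]; group
      _ = a * a := by rw [h1, Subgroup.mem_center_iff.1 ha g]; group
  choose γ hγ using fun i : Fin (2 * m) => QuotientGroup.mk_surjective (Φ (Pi.mulSingle i (-1)))
  have hγ2 : ∀ i, γ i * γ i ∈ Subgroup.center _ := fun i => by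
    rw [← QuotientGroup.eq_one_iff, QuotientGroup.mk_mul, hγ, ← map_mul, ← Pi.mulSingle_mul]
    simp
  let i0 : Fin (2 * m) := ⟨0, by omega⟩
  have h1 : ∀ i, γ i * γ i = γ i0 * γ i0 := fun i => hsq _ _ (by rw [hγ, hγ]; exact hc1 _ _) (hγ2 _)
  have h3 : ∀ i j, i ≠ j → γ i * γ j * (γ i * γ j) = γ i0 * γ i0 := fun i j hij => by
    rw [← h1 i]
    exact hsq _ _ (by rw [QuotientGroup.mk_mul, hγ, hγ, ← map_mul]; exact hc2 _ _ hij) (hγ2 _)
  have hc := hγ2 i0
  generalize γ i0 * γ i0 = c at h1 h3 hc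
  have h4 : ∀ i j, i ≠ j → γ i * γ j = c * (γ j * γ i) := fun i j hij => by
    have h5 := Subgroup.mem_center_iff.1 hc
    have h6 := hz2 _ hc
    have : γ i * γ j * (γ i * γ j) * (γ j * γ i) = γ i * γ j * (c * c) := by
      calc _ = γ i * γ j * (γ i * (γ j * γ j) * γ i) := by group
        _ = _ := by rw [h1 j, h5, mul_assoc c, h1]
    rw [h6, h3 i j hij, mul_one] at this
    exact this.symm
  rcases hz c hc with rfl | hc1
  · let A := Subgroup.closure (Set.range γ)
    have hcomm : ∀ a ∈ Set.range γ, ∀ b ∈ Set.range γ, a * b = b * a := by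
      rintro _ ⟨i, rfl⟩ _ ⟨j, rfl⟩
      by_cases hij : i = j
      · rw [hij]
      · rw [h4 i j hij, one_mul]
    have hA : ∀ a b : A, a * b = b * a := (Subgroup.isMulCommutative_closure hcomm).is_comm.comm
    have hA2 : ∀ a : A, a * a = 1 := fun ⟨a, ha⟩ => by
      induction ha using Subgroup.closure_induction with
      | mem x hx => obtain ⟨i, rfl⟩ := hx; exact Subtype.ext (h1 i)
      | one => exact Subtype.ext (by simp)
      | mul x y hx hy ihx ihy =>
        have := hA ⟨x, hx⟩ ⟨y, hy⟩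
        show (⟨x, hx⟩ * ⟨y, hy⟩ : A) * (⟨x, hx⟩ * ⟨y, hy⟩) = 1
        rw [mul_assoc, ← mul_assoc (⟨y, hy⟩ : A), ← this, mul_assoc, ihy, mul_one, ihx]
      | inv x hx ih =>
        show (⟨x, hx⟩ : A)⁻¹ * (⟨x, hx⟩ : A)⁻¹ = 1
        rw [← mul_inv_rev, ih, inv_one]
    have : Finite (V ≃ₗ[F] V) := Finite.of_injective (fun g : V ≃ₗ[F] V => (g : V → V)) DFunLike.coe_injective
    have hcard := card_le_sp_aux h2 m D hV A inferInstance hA hA2
    have hle : Φ.range ≤ A.map (QuotientGroup.mk' _) := by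
      rintro _ ⟨ε, rfl⟩
      rw [← Subgroup.mem_comap, ← Finset.univ_prod_mulSingle ε]
      refine Subgroup.prod_mem _ fun j _ => ?_
      rcases Int.units_eq_one_or (ε j) with h | h <;> rw [h]
      · simp
      · exact ⟨γ j, Subgroup.subset_closure ⟨j, rfl⟩, hγ j⟩
    have h5 := (Subgroup.card_le_of_le hle).trans ((Nat.le_of_dvd Nat.card_pos
      (Subgroup.card_map_dvd _ _)).trans hcard)
    rw [← Nat.card_congr (MonoidHom.ofInjective hΦ).toEquiv] at h5
    simp at h5
    have := (Nat.pow_le_pow_iff_right (by norm_num)).1 h5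
    omega
  · have := anti_bound h2 (fun i => (LinearMap.GeneralLinearGroup.generalLinearEquiv F V).symm (γ i).1)
      fun i j hij => LinearMap.ext fun x => by
        have := congrArg (fun g : H12.UG B => g.1 x) (h4 i j hij)
        exact this.trans (hc1 _)
    rw [hV, mul_comm 2 m, pow_mul] at this
    have h5 := lt_of_pow_lt_pow_left₀ 2 (by positivity) (this.trans_lt (Nat.pow_lt_pow_left (Nat.lt_succ_self _) two_ne_zero))
    have h6 : ∀ k, (k + 3) * 2 + 1 < 2 ^ (k + 3) := fun k => by
      induction k with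
      | zero => norm_num
      | succ k ih => rw [show k + 1 + 3 = (k + 3) + 1 by ring, pow_succ]; omega
    have := h6 (m - 3)
    rw [Nat.sub_add_cancel hm] at this
    omega

/-- PSp_2m(q) ≇ PΩ_(2m+1)(q) for q odd and m ≥ 3 (they have the same order). -/
theorem result {F : Type*} [Field F] [Fintype F] (hodd : Odd (Fintype.card F)) (m : ℕ) (hm : 3 ≤ m) : IsEmpty (Cfsg.PSp m F ≃* Cfsg.POmega F (Cfsg.quadFormOdd m F)) := by
  classical
  refine ⟨fun e => ?_⟩
  have h2 : (2 : F) ≠ 0 := two_ne_zero_of_odd_card hodd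
  let Q := sqQ (Fin (2 * m + 1)) F
  have hQ : ND Q := nd_weightedSumSquares h2 fun _ => one_ne_zero
  have hV : finrank F ((Fin (2 * m + 1)) → F) = 2 * m + 1 := by simp
  obtain ⟨s⟩ := hQ.nonempty_semiSim_odd (nd_QOdd (m := m) h2) (m := m) hV (by simp; omega)
  have hG : Good Q := Or.inr (Or.inl (by omega))
  have hZ : Subgroup.center (Om Q) = ⊥ := hQ.center_Om_eq_bot hG (by omega) (Or.inr fun h => by
    have := ((hQ.negOne_mem_iff h2).1 h).1
    rw [hV] at this
    exact absurd this (by simp))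
  let e1 : POm Q ≃* H12.UG (H12.spB (Fin m) F) ⧸ Subgroup.center _ :=
    (s.pomEquiv.trans (pomegaEquiv (QOdd m F)).symm).trans
      (e.symm.trans (centerQuotEquiv (H12.spEquiv (Fin m) F)))
  have h0 : ∀ i, Q (Pi.basisFun F (Fin (2 * m + 1)) i) = 1 := fun i => by simp [Q, Pi.single_apply]
  have h : OB Q (Pi.basisFun F (Fin (2 * m + 1))) := ⟨h2, fun i j hij => by
    simp [Q, polar_weightedSumSquares, Pi.single_apply, hij.symm], fun i => (h0 i).trans_ne one_ne_zero⟩
  let τ : (Fin (2 * m + 1)) → (Fin (2 * m + 1)) → OG Q := fun i j => refl Q (Pi.basisFun F (Fin (2 * m + 1)) i) * refl Q (Pi.basisFun F (Fin (2 * m + 1)) j)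
  have hτ : ∀ i j, τ i j ∈ Om Q := fun i j =>
    hQ.refl_mul_refl_mem_commutator (h.ne i) (by rw [h0, h0])
  have hτc : ∀ i j, τ i j = τ j i := fun i j => by
    by_cases hij : i = j
    · rw [hij]
    · exact refl_commute (h.orth i j hij)
  have hperm : ∀ (σ : Equiv.Perm (Fin (2 * m + 1))) i j, permSq (Fin (2 * m + 1)) F σ * τ i j * (permSq (Fin (2 * m + 1)) F σ)⁻¹ = τ (σ i) (σ j) := by
    intro σ i j
    have : ∀ i, (permSq (Fin (2 * m + 1)) F σ).1 (Pi.basisFun F (Fin (2 * m + 1)) i) = Pi.basisFun F (Fin (2 * m + 1)) (σ i) := fun i => by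
      funext k
      show Pi.basisFun F _ i (σ.symm k) = _
      simp [Pi.single_apply, Equiv.symm_apply_eq]
    simp only [τ]
    rw [← this, ← this, ← conj_refl, ← conj_refl]
    group
  have hconj : ∀ i j k l, i ≠ j → k ≠ l → IsConj (⟨τ i j, hτ i j⟩ : Om Q) ⟨τ k l, hτ k l⟩ := by
    intro i j k l hij hkl
    obtain ⟨σ, h1, h3⟩ : ∃ σ : Equiv.Perm (Fin (2 * m + 1)), σ i = k ∧ σ j = l := by
      refine ⟨Equiv.swap (Equiv.swap i k j) l * Equiv.swap i k, ?_, by simp⟩
      simp only [Equiv.Perm.mul_apply, Equiv.swap_apply_left]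
      refine Equiv.swap_apply_of_ne_of_ne (fun h => hij ?_) hkl
      exact (Equiv.swap i k).injective (by rw [← h]; simp)
    have hm : ∀ σ : Equiv.Perm (Fin (2 * m + 1)), Equiv.Perm.sign σ = 1 → permSq (Fin (2 * m + 1)) F σ ∈ Om Q := fun σ hσ => by
      refine map_mem_commutator _ ?_
      rw [alternatingGroup.commutator_perm_eq (by simp; omega)]
      exact hσ
    rw [isConj_subgroup_iff]
    rcases Int.units_eq_one_or (Equiv.Perm.sign σ) with h4 | h4
    · exact ⟨_, hm σ h4, by rw [hperm, h1, h3]⟩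
    · refine ⟨_, hm (σ * Equiv.swap i j) (by simp [h4, hij]), ?_⟩
      rw [hperm, hτc]
      simp [h1, h3]
  let φ0 : (Fin (2 * m) → ℤˣ) →* ((Fin (2 * m + 1)) → ℤˣ) :=
    { toFun := fun ε => Fin.cons (∏ i, ε i) ε
      map_one' := by funext k; refine Fin.cases ?_ (fun k => ?_) k <;> simp
      map_mul' := fun ε δ => by
        funext k; refine Fin.cases ?_ (fun k => ?_) k <;> simp [Finset.prod_mul_distrib] }
  have hφ0 : ∀ j, h.sgns (φ0 (Pi.mulSingle j (-1))) = τ 0 j.succ := fun j => by
    simp only [τ]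
    rw [← h.sgns_single, ← h.sgns_single, ← map_mul]
    congr 1
    funext k
    refine Fin.cases ?_ (fun k => ?_) k
    · simp [φ0, Pi.mulSingle_apply, (Fin.succ_ne_zero j).symm]
    · simp [φ0, Pi.mulSingle_apply]
  have hmem : ∀ ε, (h.sgns.comp φ0) ε ∈ Om Q := fun ε => by
    rw [← Subgroup.mem_comap, ← Finset.univ_prod_mulSingle ε]
    refine Subgroup.prod_mem _ fun j _ => ?_
    rcases Int.units_eq_one_or (ε j) with h' | h' <;> rw [h']
    · simp
    · rw [Subgroup.mem_comap, MonoidHom.comp_apply, hφ0]; exact hτ _ _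
  let φ1 : (Fin (2 * m) → ℤˣ) →* Om Q := (h.sgns.comp φ0).codRestrict _ hmem
  have hφ1 : ∀ j, φ1 (Pi.mulSingle j (-1)) = ⟨τ 0 j.succ, hτ _ _⟩ := fun j => Subtype.ext (hφ0 j)
  let π : Om Q →* H12.UG (H12.spB (Fin m) F) ⧸ Subgroup.center _ :=
    e1.toMonoidHom.comp (QuotientGroup.mk' _)
  refine core h2 H12.sd_spB hm (by simp; omega) (π.comp φ1) ?_ (fun i j => ?_) fun i j hij => ?_
  · refine (e1.injective.comp ?_).comp (f := φ1) fun ε δ hεδ => ?_
    · rw [← MonoidHom.ker_eq_bot_iff, QuotientGroup.ker_mk', hZ]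
    · have := h.sgns_injective (congrArg Subtype.val hεδ)
      funext k
      simpa [φ0] using congrFun this k.succ
  · refine π.map_isConj ?_
    rw [hφ1, hφ1]
    exact hconj _ _ _ _ (Fin.succ_ne_zero _).symm (Fin.succ_ne_zero _).symm
  · refine π.map_isConj ?_
    rw [map_mul, hφ1, hφ1]
    have : (⟨τ 0 i.succ, hτ _ _⟩ * ⟨τ 0 j.succ, hτ _ _⟩ : Om Q) = ⟨τ i.succ j.succ, hτ _ _⟩ := by
      refine Subtype.ext ?_
      show τ 0 i.succ * τ 0 j.succ = τ i.succ j.succ
      rw [hτc 0]
      simp only [τ]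
      rw [mul_assoc, ← mul_assoc (refl Q (Pi.basisFun F (Fin (2 * m + 1)) 0)), refl_mul_self, one_mul]
    rw [this]
    exact hconj _ _ _ _ (Fin.succ_ne_zero _).symm fun h => hij (Fin.succ_injective _ h)

end Cfsg.Agent.S0821
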