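import Cfsg.Statements.S0822
import Cfsg.Agent.H13.WE6
import Cfsg.Agent.H12.Transport

set_option autoImplicit false
open Cfsg

namespace Cfsg.Agent.S0822

/-- PSU_4(2) ≅ PSp_4(3): with |F| = 4 and |K| = 3, the projective special unitary group of the standard Hermitian form on F^4 is isomorphic to PSp_4(K). -/
theorem result {F K : Type*} [Field F] [Fintype F] [Field K] [Fintype K] (hF : Fintype.card F = 4) (hK : Fintype.card K = 3) : Nonempty (Cfsg.PSU 4 F 2 ≃* Cfsg.PSp 2 K) := by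
  obtain ⟨V, _, _, _, Q, hQ, hV, ⟨e⟩⟩ := H13.exists_e6_equiv
  obtain ⟨e1⟩ := H13.exists_form_equiv_PSp4 (by decide) hQ hV
  have h2 := H13.exists_form_equiv_PSU4 (F := ZMod 2) (K := F) (by simpa using hF) H13.nd_e6_two
    (by simp) H13.not_isPlus_e6
  rw [ZMod.card] at h2
  obtain ⟨e2⟩ := h2
  obtain ⟨σ⟩ := H12.nonempty_ringEquiv_zmod (p := 3) hK
  exact ⟨e2.symm.trans <| e.trans <| e1.trans (H12.pspCongr 2 σ.symm)⟩

end Cfsg.Agent.S0822
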