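import Cfsg.Statements.S0825
import Cfsg.Agent.H13.Two

set_option autoImplicit false
open Cfsg

namespace Cfsg.Agent.S0825

/-- O⁺_6(2) ≅ S_8: the isometry group of the hyperbolic form x_1y_1 + x_2y_2 + x_3y_3 over the field with 2 elements is isomorphic to the symmetric group on 8 letters. -/
theorem result {F : Type*} [Field F] [Fintype F] (hF : Fintype.card F = 2) : Nonempty (↥(Cfsg.isometryGroup F (Cfsg.quadFormPlus 3 F)) ≃* Equiv.Perm (Fin 8)) := by
  obtain ⟨e⟩ := H13.nonempty_equiv_perm_eight
  exact ⟨((H13.toOG (H13.QPlus 3 F)).trans (H13.SemiSim.coord' (ZMod.ringEquivOfPrime F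
    Nat.prime_two hF).symm fun v => by simp [H13.QPlus_apply]).conj).trans e⟩

end Cfsg.Agent.S0825
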