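import Cfsg.Statements.S0826
import Cfsg.Agent.H13.PermMod

set_option autoImplicit false
open Cfsg Cfsg.Agent.H13 QuadraticMap

namespace Cfsg.Agent.S0826

open Module H12 in
/-- An isometric action fixing `e` induces one on `e^⊥/e`. -/
theorem exists_quot {F V G : Type*} [Field F] [AddCommGroup V] [Module F V] [Group G] {σ : F →+* F}
    {B : V →ₛₗ[σ] V →ₗ[F] F} (D : SD B) {e f : V} (h : SP B e f) (ρ : Representation F G V)
    (h1 : ∀ g x y, B (ρ g x) (ρ g y) = B x y) (h2 : ∀ g, ρ g e = e) :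
    ∃ φ : G →* UG (res B (spp B e f)), ∀ g x, ((φ g).1 x : V) = ρ g x + B f (ρ g x) • e := by
  have h3 : ∀ g (x : spp B e f), B e (ρ g x) = 0 := fun g x => by
    have := h1 g e x
    rwa [h2, spp_left x] at this
  let L : G → spp B e f →ₗ[F] spp B e f := fun g => LinearMap.codRestrict _
    ((ρ g + (B f ∘ₗ ρ g).smulRight e) ∘ₗ (spp B e f).subtype) fun x => by
      simpa [h3] using h.proj_mem D (ρ g x)
  have hL : ∀ g x, (L g x : V) = ρ g x + B f (ρ g x) • e := fun g x => rfl
  have hm : ∀ g g' x, L g (L g' x) = L (g * g') x := fun g g' x => Subtype.ext (by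
    simp only [hL, map_add, map_smul, h2, map_mul, Module.End.mul_apply, h.fe D, smul_eq_mul]
    module)
  have h1' : ∀ x, L 1 x = x := fun x => Subtype.ext (by simp [hL, spp_right x])
  refine ⟨MonoidHom.mk' (fun g => ⟨LinearEquiv.ofLinearMap (L g) (L g⁻¹)
    (LinearMap.ext fun x => by simp [hm, h1']) (LinearMap.ext fun x => by simp [hm, h1']),
    fun x y => ?_⟩) fun g g' => UG_ext fun x => (hm g g' x).symm, hL⟩
  change B (L g x) (L g y) = B x y
  simp [hL, h1, h3, D.comm0 (h3 g x), h.ee]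

/-- S_2n ≤ Sp_(2n−2)(2) for n ≥ 3: there is an injective homomorphism from the symmetric group on 2n letters into the symplectic group of degree 2n − 2 over the field with two elements. -/
theorem result (n : ℕ) (hn : 3 ≤ n) : ∃ f : Equiv.Perm (Fin (2 * n)) →* Matrix.symplecticGroup (Fin (n - 1)) (ZMod 2), Function.Injective f := by
  have hQ : ND (wtQ (Fin (2 * n))) := nd_wtQ (by simp)
  have D := hQ.sd
  let z : Fin (2 * n) := ⟨0, by omega⟩
  have hB : ∀ x, polarBilin (wtQ (Fin (2 * n))) 1 x = ∑ i, x i := fun x => by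
    simp [polar_wtQ, CharTwo.two_eq_zero, dotProduct]
  have hp : H12.SP (σ := RingHom.id _) (polarBilin (wtQ (Fin (2 * n)))) 1 (Pi.single z 1) :=
    ⟨D.self_eq_zero rfl _, D.self_eq_zero rfl _, by simp [hB]⟩
  obtain ⟨φ, hφ⟩ := exists_quot D hp ((LinearEquiv.automorphismGroup.toLinearMapMonoidHom.comp
    (Subgroup.subtype _)).comp (permOG (Fin (2 * n)))) (fun g x y => OG_polar (permOG _ g) x y)
    fun g => rfl
  have h5 := hp.finrank_spp D
  obtain ⟨e⟩ := (hp.sd D).nonempty_UG_equiv_sp (m := n - 1) (by simp at h5; omega)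
  refine ⟨e.toMonoidHom.comp φ, e.injective.comp ((injective_iff_map_eq_one _).2 fun σ hσ => ?_)⟩
  refine perm_eq_one_of_scalar (by simp; omega) (c := (1 : ZMod 2)) fun x hx => ?_
  obtain ⟨a, w, rfl⟩ := hp.exists_eq_of_perp D (x := x) ((hB x).trans hx)
  have := hφ σ w
  rw [hσ] at this
  obtain ⟨c, hc⟩ : ∃ c : ZMod 2, w.1 = (permOG _ σ).1 w.1 + c • 1 := ⟨_, this⟩
  refine ⟨-c, fun i => ?_⟩
  have := congrFun hc i
  simp only [Pi.add_apply, permOG_apply, Pi.smul_apply, Pi.one_apply, smul_eq_mul, mul_one] at this ⊢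
  linear_combination -this

end Cfsg.Agent.S0826
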