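import Cfsg.Statements.S0828
import Cfsg.Agent.H12.SMore

set_option autoImplicit false
open Cfsg

namespace Cfsg.Agent.S0828

/-- The symplectic generalised quadrangle over a field with q elements: the number of 2-dimensional subspaces of F^4 on which the symplectic form vanishes is (q + 1)(q² + 1), and every non-zero vector lies in exactly q + 1 of them. -/
theorem result {F : Type*} [Field F] [Fintype F] {q : ℕ} (hF : Fintype.card F = q) : Nat.card {W : Submodule F (Fin 2 ⊕ Fin 2 → F) // Module.finrank F W = 2 ∧ ∀ u ∈ W, ∀ v ∈ W, Cfsg.sympForm 2 F u v = 0} = (q + 1) * (q ^ 2 + 1) ∧ ∀ v : Fin 2 ⊕ Fin 2 → F, v ≠ 0 → Nat.card {W : Submodule F (Fin 2 ⊕ Fin 2 → F) // Module.finrank F W = 2 ∧ v ∈ W ∧ ∀ u ∈ W, ∀ w ∈ W, Cfsg.sympForm 2 F u w = 0} = q + 1 := by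
    have D : H12.SD (H12.spB (Fin 2) F) := H12.sd_spB
    have h2 : 2 ≤ q := hF ▸ Fintype.one_lt_card
    have h4 : ∀ k, 1 ≤ q ^ k := fun k => Nat.one_le_pow _ _ (by omega)
    have h6 : (2 : ℤ) ≤ q := by exact_mod_cast h2
    have hq : Nat.card F = q := by rw [Nat.card_eq_fintype_card, hF]
    simp only [← H12.spB_eq]
    constructor
    · have h := D.card_ti_sp (k := 2) (r := 0) (by simp)
      rw [hq] at h
      generalize Nat.card _ = N at h
      have h5 : q ≤ q ^ 2 := by nlinarith
      simp only [H12.spOrd, Finset.prod_range_succ, Fin.prod_univ_two] at h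
      norm_num at h
      zify [h4, h5] at h ⊢
      have h7 : ((q : ℤ) ^ 2 - 1) * (q - 1) * q ^ 4 ≠ 0 := by
        have : (1 : ℤ) < q ^ 2 := by nlinarith
        have : (0 : ℤ) < (q ^ 2 - 1) * (q - 1) * q ^ 4 := by
          apply mul_pos (mul_pos _ _) <;> [positivity; omega; omega]
        omega
      exact mul_right_cancel₀ h7 (by linear_combination h)
    intro v hv
    have hdiff : ∀ W : Submodule F (Fin 2 ⊕ Fin 2 → F), v ∈ W →
        Nat.card {w // w ∈ W ∧ w ∉ F ∙ v} = q ^ Module.finrank F W - q := fun W hW => by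
      have h1 := Set.ncard_sdiff (s := ((F ∙ v : Submodule F _) : Set (Fin 2 ⊕ Fin 2 → F))) (t := W)
        ((Submodule.span_singleton_le_iff_mem v W).mpr hW)
      have h3 : ∀ X : Submodule F (Fin 2 ⊕ Fin 2 → F),
          (X : Set (Fin 2 ⊕ Fin 2 → F)).ncard = q ^ Module.finrank F X := fun X => by
        rw [← hq, ← Module.natCard_eq_pow_finrank]; rfl
      rw [h3, h3, finrank_span_singleton hv, pow_one] at h1
      exact h1
    have hli : ∀ w, w ∉ F ∙ v → Module.finrank F (Submodule.span F {v, w}) = 2 := fun w hw => by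
      have : LinearIndependent F ![v, w] := by
        rw [LinearIndependent.pair_iff' hv]
        exact fun a ha => hw (Submodule.mem_span_singleton.mpr ⟨a, ha⟩)
      have h1 := finrank_span_eq_card this
      rwa [Matrix.range_cons_cons_empty, Fintype.card_fin] at h1
    let φ : {w // w ∈ H12.sperp (H12.spB (Fin 2) F) (F ∙ v) ∧ w ∉ F ∙ v} →
        {W : Submodule F (Fin 2 ⊕ Fin 2 → F) // Module.finrank F W = 2 ∧ v ∈ W ∧
          ∀ u ∈ W, ∀ w ∈ W, H12.spB (Fin 2) F u w = 0} := fun w =>
      ⟨Submodule.span F {v, w.1}, hli _ w.2.2, Submodule.subset_span (by simp), by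
        have h1 := H12.mem_sperp_singleton.mp w.2.1
        have := H12.ti_span (e := ![v, w.1]) D (fun i j => by
          fin_cases i <;> fin_cases j <;> simp [D.self_eq_zero rfl, h1, D.comm0 h1])
        rwa [Matrix.range_cons_cons_empty] at this⟩
    have h8 := Nat.card_congr (Equiv.sigmaFiberEquiv φ)
    rw [H12.natCard_sigma_const (n := q ^ 2 - q), hdiff _ (H12.mem_sperp_singleton.mpr
      (D.self_eq_zero rfl v))] at h8
    · have h9 := D.finrank_sperp (F ∙ v)
      rw [finrank_span_singleton hv, H12.finrank_sp, Fintype.card_fin] at h9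
      rw [show Module.finrank F (H12.sperp (H12.spB (Fin 2) F) (F ∙ v)) = 3 by omega] at h8
      generalize Nat.card _ = N at h8
      have h5 : q ≤ q ^ 2 := by nlinarith
      have h5' : q ≤ q ^ 3 := by nlinarith
      zify [h5, h5'] at h8 ⊢
      have h7 : (q : ℤ) ^ 2 - q ≠ 0 := by nlinarith
      exact mul_right_cancel₀ h7 (by linear_combination h8)
    · rintro ⟨W, h1, h3, h5⟩
      have h0 := hdiff W h3
      rw [h1] at h0
      rw [← h0]
      refine Nat.card_congr ⟨fun w => ⟨w.1.1, ?_, w.1.2.2⟩, fun w => ⟨⟨w.1,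
        H12.mem_sperp_singleton.mpr (h5 _ h3 _ w.2.1), w.2.2⟩, Subtype.ext ?_⟩, fun _ => rfl,
        fun _ => rfl⟩
      · have := congrArg Subtype.val w.2
        simp only [φ] at this
        exact this.le (Submodule.subset_span (by simp))
      · refine Submodule.eq_of_le_of_finrank_eq ?_ ((hli _ w.2.2).trans h1.symm)
        rw [Submodule.span_le]
        rintro x (rfl | rfl)
        exacts [h3, w.2.1]

end Cfsg.Agent.S0828
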