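import Cfsg.Statements.S0829
import Cfsg.Agent.H12.SMore

set_option autoImplicit false
open Cfsg

namespace Cfsg.Agent.S0829

/-- The unitary quadrangle of PSU_4(q): with |F| = q², the number of 2-dimensional subspaces of F^4 on which the Hermitian form Σ x_i y_i^q vanishes is (q + 1)(q³ + 1). -/
theorem result {F : Type*} [Field F] [Fintype F] {q : ℕ} (hF : Fintype.card F = q ^ 2) : Nat.card {W : Submodule F (Fin 4 → F) // Module.finrank F W = 2 ∧ ∀ u ∈ W, ∀ v ∈ W, Cfsg.hermForm 4 F q u v = 0} = (q + 1) * (q ^ 3 + 1) := by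
    have h := (H12.sd_uB hF 4).card_ti_unitary (H12.frobq_ne_id hF) (k := 2) (r := 0) (by simp)
    have h2 := H12.two_le_of_card_eq_sq hF
    have h3 : Nat.card {W : Submodule F (Fin 4 → F) // Module.finrank F W = 2 ∧
        ∀ u ∈ W, ∀ v ∈ W, Cfsg.hermForm 4 F q u v = 0} = Nat.card {W : Submodule F (Fin 4 → F) //
        Module.finrank F W = 2 ∧ ∀ u ∈ W, ∀ v ∈ W, H12.uB hF 4 u v = 0} :=
      Nat.card_congr (Equiv.subtypeEquivRight fun W => and_congr_right fun _ => by
        simp only [H12.uB_eq_zero]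
        exact ⟨fun h u hu v hv => h v hv u hu, fun h u hu v hv => h v hv u hu⟩)
    rw [h3]
    rw [H12.q0_frobq] at h
    generalize Nat.card _ = N at h
    have h4 : ∀ k, 1 ≤ q ^ k := fun k => Nat.one_le_pow _ _ (by omega)
    have h5 : q ^ 2 ≤ q ^ 4 := Nat.pow_le_pow_right (by omega) (by omega)
    simp only [H12.guOrd, Finset.prod_range_succ, Fin.prod_univ_two, ← pow_mul] at h
    norm_num at h
    zify [h4, h5] at h ⊢
    have h6 : (2 : ℤ) ≤ q := by exact_mod_cast h2
    have h7 : ((q : ℤ) ^ 4 - 1) * (q ^ 2 - 1) * q ^ 6 ≠ 0 := by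
      have : (1 : ℤ) < q ^ 2 := by nlinarith
      have : (1 : ℤ) < q ^ 4 := by nlinarith
      have : (0 : ℤ) < (q ^ 4 - 1) * (q ^ 2 - 1) * q ^ 6 := by
        apply mul_pos (mul_pos _ _) <;> [positivity; omega; omega]
      omega
    exact mul_right_cancel₀ h7 (by linear_combination h)

end Cfsg.Agent.S0829
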