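import Cfsg.Statements.S0831
import Cfsg.Agent.H13.MaxSing

set_option autoImplicit false
open Cfsg

namespace Cfsg.Agent.S0831

/-- The two families of maximal totally singular subspaces of the hyperbolic quadric: for the form Σ x_i y_i on F^(2m), m ≥ 1, and m-dimensional subspaces U, W, X on which it vanishes, the parities of m − dim(U ∩ W), m − dim(W ∩ X) and m − dim(U ∩ X) sum to an even number (so 'even codimension of the intersection' is an equivalence relation), and there exist two such subspaces meeting in codimension 1 (so there are exactly two classes). -/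
theorem result {F : Type*} [Field F] (m : ℕ) (hm : 1 ≤ m) : (∀ U W X : Submodule F (Fin m ⊕ Fin m → F), (Module.finrank F U = m ∧ ∀ w ∈ U, Cfsg.quadFormPlus m F w = 0) → (Module.finrank F W = m ∧ ∀ w ∈ W, Cfsg.quadFormPlus m F w = 0) → (Module.finrank F X = m ∧ ∀ w ∈ X, Cfsg.quadFormPlus m F w = 0) → Even ((m - Module.finrank F ↥(U ⊓ W)) + (m - Module.finrank F ↥(W ⊓ X)) + (m - Module.finrank F ↥(U ⊓ X)))) ∧ ∃ U W : Submodule F (Fin m ⊕ Fin m → F), (Module.finrank F U = m ∧ ∀ w ∈ U, Cfsg.quadFormPlus m F w = 0) ∧ (Module.finrank F W = m ∧ ∀ w ∈ W, Cfsg.quadFormPlus m F w = 0) ∧ Module.finrank F ↥(U ⊓ W) + 1 = m := by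
  have hQ := H13.nd_QPlus (m := m) (F := F)
  have hV : Module.finrank F (Fin m ⊕ Fin m → F) = 2 * m := by simp [two_mul]
  constructor
  · rintro U W X ⟨hU, hU0⟩ ⟨hW, hW0⟩ ⟨hX, hX0⟩
    have h := hQ.even_parity hV hU hU0 hW hW0 hX hX0
    have h1 : Module.finrank F ↥(U ⊓ W) ≤ m := (Submodule.finrank_mono inf_le_left).trans hU.le
    have h2 : Module.finrank F ↥(W ⊓ X) ≤ m := (Submodule.finrank_mono inf_le_left).trans hW.le
    have h3 : Module.finrank F ↥(U ⊓ X) ≤ m := (Submodule.finrank_mono inf_le_left).trans hU.le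
    rw [Nat.even_iff] at h ⊢
    omega
  · obtain ⟨U, hU, hU0⟩ := H13.isPlus_QPlus (F := F) m
    have : Nontrivial (Fin m ⊕ Fin m → F) :=
      Module.nontrivial_of_finrank_pos (R := F) (by omega)
    obtain ⟨v, hv⟩ := hQ.exists_ne_zero
    have hU' : Module.finrank F U = m := by omega
    exact ⟨U, _, ⟨hU', hU0⟩, ⟨by rw [LinearEquiv.finrank_map_eq, hU'],
      H13.singular_map hU0 (H13.refl _ v)⟩, hQ.finrank_inf_map_refl hV hU' hU0 hv⟩

end Cfsg.Agent.S0831
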