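import Cfsg.Statements.S0832
import Cfsg.Agent.H13.MaxSing

set_option autoImplicit false
open Cfsg

namespace Cfsg.Agent.S0832

/-- For the form Σ x_i y_i on F^(2m) over a finite field, m ≥ 1: an (m−1)-dimensional subspace on which the form vanishes is contained in exactly two m-dimensional subspaces on which it vanishes. -/
theorem result {F : Type*} [Field F] [Finite F] (m : ℕ) (hm : 1 ≤ m) (U : Submodule F (Fin m ⊕ Fin m → F)) (hU : Module.finrank F U + 1 = m ∧ ∀ u ∈ U, Cfsg.quadFormPlus m F u = 0) : Nat.card {W : Submodule F (Fin m ⊕ Fin m → F) // Module.finrank F W = m ∧ (∀ w ∈ W, Cfsg.quadFormPlus m F w = 0) ∧ U ≤ W} = 2 := by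
  have hQ := H13.nd_QPlus (m := m) (F := F)
  have hV : Module.finrank F (Fin m ⊕ Fin m → F) = 2 * m := by simp [two_mul]
  obtain ⟨hU, hU0⟩ := hU
  set Q := H13.QPlus m F
  change ∀ u ∈ U, Q u = 0 at hU0
  change Nat.card {W : Submodule F (Fin m ⊕ Fin m → F) // Module.finrank F W = m ∧
    (∀ w ∈ W, Q w = 0) ∧ U ≤ W} = 2
  obtain ⟨u, huU, hu, huP⟩ : ∃ u, u ∉ U ∧ Q u = 0 ∧ u ∈ H13.perp Q U := by
    by_contra! h
    obtain ⟨X, hX, hX0⟩ := H13.isPlus_QPlus (F := F) m
    have := hQ.finrank_le_of_maximal hU0 hX0 fun W hUW hW => le_antisymm (fun w hw => by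
      by_contra hwU
      exact h w hwU (hW w hw) fun x hx =>
        H13.mem_perp.mp (H13.le_perp_of_singular hW hw) x (hUW hx)) hUW
    omega
  obtain ⟨v, hv, huv, hvP⟩ := hQ.exists_partner U hu huU
    (fun h hh => by rw [QuadraticMap.polar_comm]; exact huP h hh)
  have hvP' : v ∈ H13.perp Q U := fun h hh => by
    change QuadraticMap.polar Q h v = 0
    rw [QuadraticMap.polar_comm]; exact hvP h hh
  have hvU : v ∉ U := fun h => by
    have := H13.mem_perp.mp huP v h
    rw [QuadraticMap.polar_comm, huv] at this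
    exact one_ne_zero this
  have key : ∀ x, x ∉ U → Q x = 0 → x ∈ H13.perp Q U → Module.finrank F ↥(U ⊔ F ∙ x) = m ∧
      (∀ w ∈ U ⊔ F ∙ x, Q w = 0) ∧ U ≤ U ⊔ F ∙ x := fun x h1 h2 h3 =>
    ⟨by rw [H13.finrank_sup_span_singleton_of_notMem h1, hU], fun w hw => by
      obtain ⟨a, ha, c, hc, rfl⟩ := Submodule.mem_sup.mp hw
      obtain ⟨c, rfl⟩ := Submodule.mem_span_singleton.mp hc
      simp [H13.Q_add, H13.Q_smul, hU0 a ha, h2, H13.mem_perp.mp h3 a ha], le_sup_left⟩
  rw [Nat.card_eq_two_iff]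
  refine ⟨⟨_, key u huU hu huP⟩, ⟨_, key v hvU hv hvP'⟩, fun h => ?_, ?_⟩
  · have h1 : U ⊔ F ∙ u = U ⊔ F ∙ v := congrArg Subtype.val h
    have h2 := (key v hvU hv hvP').2.1
    have h3 := H13.mem_perp.mp (H13.le_perp_of_singular h2
      (Submodule.mem_sup_right (Submodule.mem_span_singleton_self v))) u
      (h1 ▸ Submodule.mem_sup_right (Submodule.mem_span_singleton_self u))
    rw [huv] at h3
    exact one_ne_zero h3
  · rw [Set.eq_univ_iff_forall]
    rintro ⟨W, hW, hW0, hUW⟩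
    obtain ⟨x, hx, hxU⟩ := H13.exists_notMem_of_finrank_lt (H := U) (W := W) (by omega)
    obtain ⟨y, hy, s, t, rfl⟩ := hQ.exists_decomp_perp hV hU hU0 hu hv (by simp [huv]) huP hvP'
      (x := x) (fun z hz => H13.mem_perp.mp (H13.le_perp_of_singular hW0 hx) z (hUW hz))
    have h0 := hW0 _ hx
    simp only [H13.Q_add, H13.Q_smul, hU0 y hy, hu, hv, QuadraticMap.polar_add_left,
      QuadraticMap.polar_smul_left, QuadraticMap.polar_smul_right, H13.mem_perp.mp huP y hy,
      H13.mem_perp.mp hvP' y hy, smul_eq_mul, huv] at h0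
    have h1 : t = 0 ∨ s = 0 := by simpa using h0
    rcases h1 with rfl | rfl
    · left
      have hs : s ≠ 0 := by rintro rfl; simp [hy] at hxU
      have : u ∈ W := by simpa [hs] using W.smul_mem s⁻¹ (W.sub_mem hx (hUW hy))
      exact Subtype.ext (H13.eq_sup_span_of_finrank hUW this huU (hU.trans hW.symm))
    · right
      have ht : t ≠ 0 := by rintro rfl; simp [hy] at hxU
      have : v ∈ W := by simpa [ht] using W.smul_mem t⁻¹ (W.sub_mem hx (hUW hy))
      exact Subtype.ext (H13.eq_sup_span_of_finrank hUW this hvU (hU.trans hW.symm))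

end Cfsg.Agent.S0832
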