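import Cfsg.Statements.S0833
import Cfsg.Agent.H13.Tensor

set_option autoImplicit false
open Cfsg

namespace Cfsg.Agent.S0833

/-- If B₁, B₂ are non-degenerate alternating forms on U (dim 2k) and W (dim 2l), then B₁ ⊗ B₂ on U ⊗ W is symmetric, non-degenerate, and vanishes identically on some subspace of dimension 2kl (half of dim U ⊗ W). -/
theorem result {F U W : Type*} [Field F] [Fintype F] [AddCommGroup U] [Module F U] [FiniteDimensional F U] [AddCommGroup W] [Module F W] [FiniteDimensional F W] (B₁ : LinearMap.BilinForm F U) (B₂ : LinearMap.BilinForm F W) (h₁ : B₁.Nondegenerate) (h₂ : B₂.Nondegenerate) (hA₁ : B₁.IsAlt) (hA₂ : B₂.IsAlt) (k l : ℕ) (hU : Module.finrank F U = 2 * k) (hW : Module.finrank F W = 2 * l) : (B₁.tmul B₂).IsSymm ∧ (B₁.tmul B₂).Nondegenerate ∧ (∃ X : Submodule F (TensorProduct F U W), Module.finrank F X = 2 * k * l ∧ ∀ x ∈ X, ∀ y ∈ X, (B₁.tmul B₂) x y = 0) := by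
  refine ⟨⟨fun x y => ?_⟩, H13.nondegenerate_tmul h₁ h₂, ?_⟩
  · have : B₁.tmul B₂ = (B₁.tmul B₂).flip := by
      ext a b c d
      simp [← hA₁.neg_eq a c, ← hA₂.neg_eq b d]
    conv_lhs => rw [this]
    rfl
  · obtain ⟨m, b, -, h3, -⟩ := H13.exists_symplectic_basis B₁ hA₁ h₁.1
    have hm : m = k := by
      have := Module.finrank_eq_card_basis b
      simp at this; omega
    subst hm
    let c := Module.finBasis F W
    let v : Fin m × Fin (Module.finrank F W) → TensorProduct F U W :=
      fun p => (b.tensorProduct c) (Sum.inl p.1, p.2)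
    have hv : LinearIndependent F v := (b.tensorProduct c).linearIndependent.comp
      (fun p : Fin m × Fin (Module.finrank F W) => (Sum.inl p.1, p.2))
      (fun p q h => by simpa [Prod.ext_iff] using h)
    refine ⟨Submodule.span F (Set.range v), ?_, fun x hx y hy => ?_⟩
    · rw [finrank_span_eq_card hv]
      simp [hW]; ring
    · refine Submodule.span_induction₂ (p := fun x y _ _ => (B₁.tmul B₂) x y = 0) ?_ (by simp)
        (by simp) (fun _ _ _ _ _ _ h h' => by simp [h, h']) (fun _ _ _ _ _ _ h h' => by simp [h, h'])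
        (fun _ _ _ _ _ h => by simp [h]) (fun _ _ _ _ _ h => by simp [h]) hx hy
      rintro _ _ ⟨p, rfl⟩ ⟨q, rfl⟩
      simp [v, h3]

end Cfsg.Agent.S0833
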