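import Cfsg.Statements.S0839
import Cfsg.Agent.H13.Jor
import Cfsg.Agent.H12.Lin

set_option autoImplicit false
open Cfsg

namespace Cfsg.Agent.S0839

/-- Every transvection t ∈ SL_(n+2)(F) (rank(t − 1) = 1, (t − 1)² = 0) is conjugate in SL_(n+2)(F) to 1 + v·e_0ᵀ for some column vector v with v_0 = 0 (the group A of matrices that are the identity except in the first column below the diagonal); the dimension is written n + 2 ≥ 2. -/
theorem result {F : Type*} [Field F] (n : ℕ) (t : Matrix.SpecialLinearGroup (Fin (n + 2)) F) (ht : Cfsg.IsTransvection (t : Matrix (Fin (n + 2)) (Fin (n + 2)) F)) : ∃ (g : Matrix.SpecialLinearGroup (Fin (n + 2)) F) (v : Fin (n + 2) → F), v 0 = 0 ∧ ((g⁻¹ * t * g : Matrix.SpecialLinearGroup (Fin (n + 2)) F) : Matrix (Fin (n + 2)) (Fin (n + 2)) F) = 1 + Matrix.vecMulVec v (Pi.single 0 1) := by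
  let N : F → Matrix (Fin (n + 2)) (Fin (n + 2)) F := fun c =>
    Matrix.vecMulVec (Pi.single 1 c) (Pi.single 0 1)
  have h1 : (1 + N 1 - 1) ^ 2 = 0 := by
    rw [add_sub_cancel_left, sq, Matrix.vecMulVec_mul_vecMulVec]
    simp
  have h2 : (1 + N 1 - 1).rank = 1 := by
    rw [add_sub_cancel_left]
    refine le_antisymm (Matrix.rank_vecMulVec_le _ _) (Nat.pos_of_ne_zero fun h => ?_)
    have h0 : N 1 = 0 := by
      rw [Matrix.rank, Submodule.finrank_eq_zero, LinearMap.range_eq_bot] at h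
      exact Matrix.toLin'.injective (h.trans (map_zero _).symm)
    have := congrFun (congrFun h0 1) 0
    simp [N, Matrix.vecMulVec_apply] at this
  obtain ⟨g, hg⟩ := H28.isConj_iff_exists_GL.1
    (H13.isConj_of_sq h1 (by rw [sq]; exact ht.2) (h2.trans ht.1.symm))
  set c := Matrix.GeneralLinearGroup.det g
  let d := H12.dilGL (0 : Fin (n + 2)) c⁻¹
  have h3 : (g * d).1.det = 1 := by
    rw [← Matrix.GeneralLinearGroup.val_det_apply, map_mul, H12.det_dilGL, mul_inv_cancel, Units.val_one]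
  let g' : Matrix.SpecialLinearGroup (Fin (n + 2)) F := ⟨_, h3⟩
  refine ⟨g', Pi.single 1 (c⁻¹ : Fˣ).1, by simp, ?_⟩
  have h4 : (1 + N 1) * d.1 = d.1 * (1 + N (c⁻¹ : Fˣ).1) := by
    rw [H12.dilGL_coe]
    ext i j
    rw [Matrix.mul_diagonal, Matrix.diagonal_mul]
    simp only [N, Matrix.add_apply, Matrix.vecMulVec_apply, Matrix.one_apply, Pi.single_apply,
      Function.update_apply]
    split_ifs <;> simp_all
  have h5 : t.1 * g'.1 = g'.1 * (1 + N (c⁻¹ : Fˣ).1) := by
    change t.1 * (g.1 * d.1) = g.1 * d.1 * _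
    rw [← mul_assoc, ← hg, mul_assoc, h4, mul_assoc]
  rw [mul_assoc, Matrix.SpecialLinearGroup.coe_mul, Matrix.SpecialLinearGroup.coe_mul, h5, ← mul_assoc,
    ← Matrix.SpecialLinearGroup.coe_mul, inv_mul_cancel, Matrix.SpecialLinearGroup.coe_one, one_mul]

end Cfsg.Agent.S0839
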