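import Cfsg.Statements.S0841
import Mathlib

set_option autoImplicit false
open Cfsg

namespace Cfsg.Agent.S0841

/-- If the commutator subgroup of G lies in the centre, then for all x, y in G and every natural number n one has (x * y) ^ n = x ^ n * y ^ n * c ^ (n * (n - 1) / 2) with c = y⁻¹ * x⁻¹ * y * x. -/
theorem result {G : Type*} [Group G] (hG : commutator G ≤ Subgroup.center G) (x y : G) (n : ℕ) : (x * y) ^ n = x ^ n * y ^ n * (y⁻¹ * x⁻¹ * y * x) ^ (n * (n - 1) / 2) := by
  set c := y⁻¹ * x⁻¹ * y * x with hc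
  have hcc : c ∈ Subgroup.center G := by
    apply hG
    have := Subgroup.commutator_mem_commutator (Subgroup.mem_top y⁻¹) (Subgroup.mem_top x⁻¹)
    rw [commutatorElement_def, inv_inv, inv_inv] at this
    exact this
  have hcom : ∀ g : G, Commute g c := fun g => Subgroup.mem_center_iff.1 hcc g
  have hyx : y * x = x * y * c := by simp [hc, mul_assoc]
  have hpow : ∀ k : ℕ, y ^ k * x = x * y ^ k * c ^ k := by
    intro k
    induction k with
    | zero => simp
    | succ k ih =>
      calc y ^ (k + 1) * x = y * (y ^ k * x) := by rw [pow_succ', mul_assoc]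
        _ = (y * x) * y ^ k * c ^ k := by rw [ih]; simp only [mul_assoc]
        _ = x * y * (c * y ^ k) * c ^ k := by rw [hyx]; simp only [mul_assoc]
        _ = x * y * (y ^ k * c) * c ^ k := by rw [(hcom (y ^ k)).eq]
        _ = x * y ^ (k + 1) * c ^ (k + 1) := by rw [pow_succ', pow_succ']; simp only [mul_assoc]
  induction n with
  | zero => simp
  | succ n ih =>
    have h2 : (n + 1) * (n + 1 - 1) / 2 = n * (n - 1) / 2 + n := by
      rw [← Nat.choose_two_right, ← Nat.choose_two_right, Nat.choose_succ_succ' n 1]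
      simp [add_comm]
    rw [pow_succ, ih, h2]
    set m := n * (n - 1) / 2
    calc x ^ n * y ^ n * c ^ m * (x * y) = x ^ n * y ^ n * (c ^ m * (x * y)) := by
          simp only [mul_assoc]
      _ = x ^ n * y ^ n * ((x * y) * c ^ m) := by rw [((hcom (x * y)).pow_right m).eq]
      _ = x ^ n * (y ^ n * x) * y * c ^ m := by simp only [mul_assoc]
      _ = x ^ n * x * y ^ n * (c ^ n * y) * c ^ m := by rw [hpow]; simp only [mul_assoc]
      _ = x ^ n * x * y ^ n * (y * c ^ n) * c ^ m := by rw [((hcom y).pow_right n).eq]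
      _ = x ^ (n + 1) * y ^ (n + 1) * c ^ (m + n) := by
          rw [pow_succ, pow_succ, add_comm m n, pow_add]; simp only [mul_assoc]

end Cfsg.Agent.S0841
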