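import Cfsg.Statements.S0842
import Cfsg.Agent.H6.BS16
-- import your own Cfsg.Agent.* helpers here

set_option autoImplicit false
open Cfsg

namespace Cfsg.Agent.S0842

open Cfsg.Agent.H4 Cfsg.Agent.H6


/-- Suppose a Sylow 2-subgroup S of the finite group G is generalized quaternion of order at least 16, and let D be the commutator subgroup of S, C its centralizer and N its normalizer in G. Then there is a subgroup K of odd order, contained in C and normalized by N, with K ⊔ S = N and K ⊔ (S ⊓ C) = C, and C has index 2 in N. -/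
theorem result {G : Type*} [Group G] [Finite G] (S : Sylow 2 G) (n : ℕ) (e : (S : Subgroup G) ≃* QuaternionGroup (2 ^ (n + 2))) (D : Subgroup G) (hD : D = ⁅(S : Subgroup G), (S : Subgroup G)⁆) : ∃ K : Subgroup G, Odd (Nat.card K) ∧ K ≤ Subgroup.centralizer (D : Set G) ∧ Subgroup.normalizer (D : Set G) ≤ Subgroup.normalizer (K : Set G) ∧ K ⊔ (S : Subgroup G) = Subgroup.normalizer (D : Set G) ∧ K ⊔ ((S : Subgroup G) ⊓ Subgroup.centralizer (D : Set G)) = Subgroup.centralizer (D : Set G) ∧ ((Subgroup.centralizer (D : Set G)).subgroupOf (Subgroup.normalizer (D : Set G))).index = 2 := by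
  obtain ⟨X, Y, h⟩ := H11.exists_MC_of_quaternion (k := n + 2) (by omega) e
  have ho : orderOf (X 2) = 2 ^ n * 4 := by rw [h.orderOf_X_two', Nat.add_sub_cancel, pow_add]; rfl
  have h0 : (2 : ZMod (2 ^ (n + 2 + 1))) ≠ 0 := fun h0 => by
    rw [h0, h.X_zero, orderOf_one] at ho; omega
  have h1 : (2 : ZMod (2 ^ (n + 2 + 1))) ≠ H11.hh _ := fun h0 => by
    rw [h0, h.orderOf_z] at ho; omega
  rw [h.commutator_eq] at hD
  subst hD
  rw [centralizer_zpowers]
  set C := Subgroup.centralizer ({X 2} : Set G) with hCdef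
  set N := Subgroup.normalizer ((Subgroup.zpowers (X 2) : Subgroup G) : Set G) with hNdef
  have hC := quat_complement h (by omega) h0 h1
  have hA := quat_sylIn h (by omega) h0 h1
  have hK : ∀ x, x ∈ (pResidual 2 C).map C.subtype ↔ x ∈ C ∧ Odd (orderOf x) := fun x => by
    constructor
    · rintro ⟨y, hy, rfl⟩
      exact ⟨y.2, by simpa using (H3.mem_pResidual_iff hC).1 hy⟩
    · rintro ⟨h2, h3⟩
      exact ⟨⟨x, h2⟩, (H3.mem_pResidual_iff hC).2 (by simpa [← Subgroup.orderOf_coe] using h3), rfl⟩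
  have hCN : C ≤ N := by rw [hCdef, ← centralizer_zpowers]; exact Subgroup.centralizer_le_normalizer _
  have hSN : (S : Subgroup G) ≤ N := fun s hs => H11.mem_normalizer_of_cj_le (by
    rw [H11.cj_zpowers]; exact Subgroup.zpowers_le.2 (h.conj_X_mem 2 hs))
  have hNC : ∀ g ∈ N, ∀ x ∈ C, g * x * g⁻¹ ∈ C := fun g hg x hx => by
    rw [hCdef, ← centralizer_zpowers] at hx ⊢
    rw [← H11.cj_eq_iff.2 hg, ← H11.cj_centralizer]
    exact H11.conj_mem_map_conj g hx
  have hodd : ∀ g ∈ N, Odd (orderOf g) → g ∈ C := fun g hg h2 => H11.mem_cent1.2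
    (H11.commute_of_odd_of_zpowers h2 h.orderOf_X_two'
      (H11.conj_mem_of_mem_normalizer hg (Subgroup.mem_zpowers _)))
  have hNK : N ≤ Subgroup.normalizer ((pResidual 2 C).map C.subtype : Set G) := fun g hg =>
    H11.mem_normalizer_of_forall fun x hx => (hK _).2
      ⟨hNC g hg x ((hK x).1 hx).1, by rw [orderOf_conj']; exact ((hK x).1 hx).2⟩
  have hKS : (pResidual 2 C).map C.subtype ⊔ (S : Subgroup G) = N :=
    le_antisymm (sup_le ((Subgroup.map_subtype_le _).trans hCN) hSN)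
      (H11.le_of_sylIn_of_odd (H11.isSylIn_of_sylow_le S hSN) le_sup_right fun x hx h2 =>
        Subgroup.mem_sup_left ((hK x).2 ⟨hodd x hx h2, h2⟩))
  refine ⟨(pResidual 2 C).map C.subtype, ?_, Subgroup.map_subtype_le _, hNK, hKS,
    le_antisymm (sup_le (Subgroup.map_subtype_le _) inf_le_right)
      (H11.le_of_sylIn_of_odd hA (le_sup_of_le_right (le_inf (h.zpowers_le 1) hA.le)) fun x hx h2 =>
        Subgroup.mem_sup_left ((hK x).2 ⟨hx, h2⟩)), ?_⟩
  · rw [H11.card_map_subtype, ← Nat.not_even_iff_odd, even_iff_two_dvd]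
    exact H3.hasNormalPComplement_iff_not_dvd.1 hC
  · refine H11.relIndex_eq_two_of (hSN (h.Y_mem 0)) (quat_Y_not_mem h h0 h1 0) fun b hb => ?_
    have hb' : b ∈ ((((pResidual 2 C).map C.subtype ⊔ (S : Subgroup G) : Subgroup G)) : Set G) := by
      rw [hKS]; exact hb
    rw [Subgroup.coe_mul_of_right_le_normalizer_left _ _ (hSN.trans hNK)] at hb'
    obtain ⟨k, hk, s, hs, rfl⟩ := hb'
    obtain ⟨a, rfl | rfl⟩ := (h.mem s).1 hs
    · exact Or.inl (C.mul_mem ((hK k).1 hk).1 (H11.mem_cent1.2 (h.X_comm _ _)))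
    · refine Or.inr ?_
      simp only [mul_assoc, h.YY]
      exact C.mul_mem ((hK k).1 hk).1 (H11.mem_cent1.2 (h.X_comm _ _))

end Cfsg.Agent.S0842
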