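import Cfsg.Statements.S0843
import Cfsg.Agent.H6.BS16
-- import your own Cfsg.Agent.* helpers here

set_option autoImplicit false
open Cfsg

namespace Cfsg.Agent.S0843

open Cfsg.Agent.H4 Cfsg.Agent.H6


/-- Suppose a Sylow 2-subgroup S of the finite group G is generalized quaternion of order at least 16; let D be the commutator subgroup of S and X the set of elements of the centralizer of D whose order is divisible by the order of D. Then D is contained in the cyclic subgroup generated by any element of X; an element of G conjugating some element of X into the centralizer of D normalizes D; and the normalizer of D maps X to itself under conjugation. -/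
theorem result {G : Type*} [Group G] [Finite G] (S : Sylow 2 G) (n : ℕ) (e : (S : Subgroup G) ≃* QuaternionGroup (2 ^ (n + 2))) (D : Subgroup G) (hD : D = ⁅(S : Subgroup G), (S : Subgroup G)⁆) : (∀ y : G, y ∈ Subgroup.centralizer (D : Set G) → Nat.card D ∣ orderOf y → D ≤ Subgroup.zpowers y) ∧ (∀ g y : G, y ∈ Subgroup.centralizer (D : Set G) → Nat.card D ∣ orderOf y → g * y * g⁻¹ ∈ Subgroup.centralizer (D : Set G) → g ∈ Subgroup.normalizer (D : Set G)) ∧ (∀ g y : G, g ∈ Subgroup.normalizer (D : Set G) → y ∈ Subgroup.centralizer (D : Set G) → Nat.card D ∣ orderOf y → g * y * g⁻¹ ∈ Subgroup.centralizer (D : Set G) ∧ Nat.card D ∣ orderOf (g * y * g⁻¹)) := by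
  obtain ⟨X, Y, h⟩ := H11.exists_MC_of_quaternion (k := n + 2) (by omega) e
  have ho : orderOf (X 2) = 2 ^ n * 4 := by rw [h.orderOf_X_two', Nat.add_sub_cancel, pow_add]; rfl
  have h0 : (2 : ZMod (2 ^ (n + 2 + 1))) ≠ 0 := fun h0 => by
    rw [h0, h.X_zero, orderOf_one] at ho; omega
  have h1 : (2 : ZMod (2 ^ (n + 2 + 1))) ≠ H11.hh _ := fun h0 => by
    rw [h0, h.orderOf_z] at ho; omega
  rw [h.commutator_eq] at hD
  subst hD
  rw [centralizer_zpowers, Nat.card_zpowers]
  refine ⟨fun y hy h2 => Subgroup.zpowers_le.2 (quat_mem_zpowers' h (by omega) h0 h1 hy h2),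
    fun g y hy h2 hg => H11.mem_normalizer_of_cj_le ?_, fun g y hg hy h2 =>
      ⟨?_, by rwa [orderOf_conj']⟩⟩
  · rw [H11.cj_zpowers]
    exact Subgroup.zpowers_le.2 (quat_conj_mem h (by omega) h0 h1 hy h2 hg)
  · rw [← centralizer_zpowers] at hy ⊢
    rw [← H11.cj_eq_iff.2 hg, ← H11.cj_centralizer]
    exact H11.conj_mem_map_conj g hy

end Cfsg.Agent.S0843
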