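import Cfsg.Statements.S0846
import Cfsg.Agent.H6.ZStar
-- import your own Cfsg.Agent.* helpers here

set_option autoImplicit false
open Cfsg

namespace Cfsg.Agent.S0846

open Cfsg.Agent.H4 Cfsg.Agent.H6


/-- Suppose a Sylow 2-subgroup S of the finite group G is generalized quaternion of order at least 16. Then every Sylow 2-subgroup of the subgroup generated by the involutions of G is cyclic. -/
theorem result {G : Type*} [Group G] [Finite G] (S : Sylow 2 G) (n : ℕ) (e : (S : Subgroup G) ≃* QuaternionGroup (2 ^ (n + 2))) (Q : Sylow 2 ↥(Subgroup.closure {g : G | orderOf g = 2})) : IsCyclic Q := by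
  obtain ⟨X, Y, h⟩ := H11.exists_MC_of_quaternion (k := n + 2) (by omega) e
  have hU := fun s t => quat_unique h (s := s) (t := t)
  have hz := h.orderOf_z
  generalize X _ = z at hz
  have hO := H1.not_dvd_card_pPrimeCore 2 G
  set π := QuotientGroup.mk' (pPrimeCore 2 G)
  have hπ : ∀ t, orderOf t = 2 → π t = π z := fun t ht => by
    obtain ⟨k, hk⟩ := exists_conj_of_odd (sq_eq_one_of_orderOf_two hz)
      (sq_eq_one_of_orderOf_two ht) (not_two_dvd_orderOf_mul hU hz ht)
    have := (QuotientGroup.eq_one_iff _).2 (zstar_of_odd hz (fun g => not_two_dvd_orderOf_mul hU hz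
      (by rw [orderOf_conj', hz])) ((z * t) ^ k))
    rw [H11.inv_eq_of_orderOf_two hz, mul_assoc, mul_assoc, ← mul_assoc ((z * t) ^ k), hk,
      QuotientGroup.mk_mul, mul_eq_one_iff_inv_eq, ← QuotientGroup.mk_inv,
      H11.inv_eq_of_orderOf_two hz] at this
    exact this.symm
  have hle : Subgroup.closure {g : G | orderOf g = 2} ≤ (Subgroup.zpowers (π z)).comap π :=
    (Subgroup.closure_le _).2 fun t ht => by
      rw [SetLike.mem_coe, Subgroup.mem_comap, hπ t ht]; exact Subgroup.mem_zpowers _
  refine isCyclic_of_injective (((π.comp (Subgroup.subtype _)).comp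
    (Q : Subgroup _).subtype).codRestrict (Subgroup.zpowers (π z)) fun x => hle x.1.2)
    ((injective_iff_map_eq_one _).2 fun x hx => Subtype.ext (Subtype.ext ?_))
  obtain ⟨k, hk⟩ := exists_orderOf_eq_of_mem Nat.prime_two Q.2 x.2
  exact (IsPPart.eq_one_iff Nat.prime_two (isPPart_self Nat.prime_two
    ⟨k, by rwa [Subgroup.orderOf_coe]⟩)).2 (not_dvd_orderOf_of_mem hO
      ((QuotientGroup.eq_one_iff _).1 (congrArg Subtype.val hx)))

end Cfsg.Agent.S0846
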