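import Cfsg.Statements.S0848
import Cfsg.Agent.H4.BSW4

set_option autoImplicit false
open Cfsg

namespace Cfsg.Agent.S0848

open Cfsg.Agent.H4


/-- If a finite group equals its own commutator subgroup and contains an involution whose centralizer is isomorphic to the dihedral group of order 8, then the group has order 168 or 360. -/
theorem result {G : Type*} [Group G] [Finite G] (hperf : commutator G = ⊤) (t : G) (ht : orderOf t = 2) (e : Subgroup.centralizer ({t} : Set G) ≃* DihedralGroup 4) : Nat.card G = 168 ∨ Nat.card G = 360 := by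
  have h1 := card_of_dih e
  have h2 : IsPGroup 2 (Subgroup.centralizer ({t} : Set G)) := IsPGroup.of_card (n := 3) h1
  obtain ⟨S, hS⟩ := h2.exists_le_sylow
  have h3 : (S : Subgroup G) = Subgroup.centralizer {t} := by
    refine (hS.eq_or_lt.resolve_right fun h3 => ?_).symm
    obtain ⟨x, -, h4, h5⟩ := H11.exists_mem_normalizer_of_lt S.isPGroup' h3
    have h6 : ∀ z w : DihedralGroup 4, z ≠ 1 → w ≠ 1 → (∀ g, g * z = z * g) →
      (∀ g, g * w = w * g) → z = w := by decide
    have h7 : ∀ z : Subgroup.centralizer ({t} : Set G), (∀ g ∈ Subgroup.centralizer {t}, g * z = z * g) →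
        ∀ g, g * e z = e z * g := fun z hz g => by
      obtain ⟨g, rfl⟩ := e.surjective g
      rw [← map_mul, ← map_mul]; exact congrArg e (Subtype.ext (hz g g.2))
    have h8 := H11.ne_one_of_orderOf_two ht
    refine h4 (H11.mem_cent1.2 (mul_inv_eq_iff_eq_mul.1 (congrArg Subtype.val (e.injective (h6 _ _
      (by simpa using h8) (by simpa using h8) (h7 ⟨_, H11.conj_mem_of_mem_normalizer h5
        (H11.mem_cent1.2 rfl)⟩ fun g hg => ?_) (h7 ⟨t, H11.mem_cent1.2 rfl⟩ fun g => H11.mem_cent1.1))))))
    calc _ = x * (x⁻¹ * g * x * t) * x⁻¹ := by group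
      _ = _ := by rw [H11.mem_cent1.1 (H11.conj_mem_of_mem_normalizer' h5 hg)]; group
  obtain ⟨K, s, h, hK⟩ := exists_bw_of_cent (fun H hH => by
    have := Subgroup.normal_of_index_eq_two hH
    have := Fact.mk Nat.prime_two
    have := isCyclic_of_prime_card (α := G ⧸ H) hH
    have h4 := (Subgroup.Normal.quotient_commutative_iff_commutator_le (N := H)).1
      IsCyclic.isMulCommutative
    rw [hperf, top_le_iff] at h4
    simp [h4] at hH) S (by norm_num) ((MulEquiv.subgroupCongr h3).trans e) ht h3
  rcases h.classify with ⟨-, h4⟩ | ⟨-, F, _, _, h4, -, h5, -⟩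
  · omega
  · rcases h4 with h4 | h4
    · rw [show Fintype.card F = 9 by omega] at h5; omega
    · rw [show Fintype.card F = 7 by omega] at h5; omega

end Cfsg.Agent.S0848
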