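import Cfsg.Statements.S0849
import Cfsg.Agent.H5.Exc

set_option autoImplicit false
open Cfsg Cfsg.Agent.H4 Cfsg.Agent.H5

namespace Cfsg.Agent.S0849

/-- Let H be a subgroup of a finite group G and S a subset of H that is mapped to itself under conjugation by H, is disjoint from its conjugate by any element outside H, and is closed under inverses. Let φ be a class function of H vanishing on H away from S, and let u, v be involutions of G. Then the sum of the induced function of φ over all products a * b with a conjugate to u and b conjugate to v equals the index of H times the sum of φ (a * b) over such pairs with a and b in H. -/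
theorem result {G : Type*} [Group G] [Fintype G] (H : Subgroup G) (S : Set G) (hSH : S ⊆ H) (hHS : ∀ h ∈ H, ∀ s ∈ S, h * s * h⁻¹ ∈ S) (hTI : ∀ g : G, g ∉ H → ∀ s ∈ S, g * s * g⁻¹ ∉ S) (hinv : ∀ s ∈ S, s⁻¹ ∈ S) (φ : H → ℂ) (hφ : Cfsg.IsClassFunction H φ) (hφS : ∀ x : H, (x : G) ∉ S → φ x = 0) (u v : G) (hu : orderOf u = 2) (hv : orderOf v = 2) : ∑ᶠ p ∈ {p : G × G | IsConj u p.1 ∧ IsConj v p.2}, Cfsg.indFun H φ (p.1 * p.2) = (H.index : ℂ) * ∑ᶠ p ∈ {p : H × H | IsConj u (p.1 : G) ∧ IsConj v (p.2 : G)}, φ (p.1 * p.2) := by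
  classical
  have := Fintype.ofFinite H
  have hc : ∀ u g a : G, IsConj u (g * a * g⁻¹) ↔ IsConj u a := fun u g a =>
    ⟨fun h => h.trans (isConj_iff.2 ⟨g, rfl⟩).symm, fun h => h.trans (isConj_iff.2 ⟨g, rfl⟩)⟩
  have h2 : ∀ u : G, orderOf u = 2 → ∀ a, IsConj u a → a * a = 1 := by
    intro u hu a ha
    obtain ⟨c, rfl⟩ := isConj_iff.1 ha
    have : u * u = 1 := by rw [← sq, ← hu, pow_orderOf_eq_one]
    calc c * u * c⁻¹ * (c * u * c⁻¹) = c * (u * u) * c⁻¹ := by group
      _ = 1 := by rw [this]; group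
  have h := sum_indFun_mul_invol H S hTI hinv φ hφS (IsConj u) (IsConj v) (hc u) (hc v)
    (h2 u hu) (h2 v hv)
  rw [finsum_mem_eq_finite_toFinset_sum _ (Set.toFinite _),
    finsum_mem_eq_finite_toFinset_sum _ (Set.toFinite _)]
  simp only [Set.Finite.toFinset_setOf, Finset.sum_filter, Fintype.sum_prod_type]
  convert h

end Cfsg.Agent.S0849
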