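import Cfsg.Statements.S0851
import Cfsg.Agent.H5.Exc

set_option autoImplicit false
open Cfsg Cfsg.Agent.H4 Cfsg.Agent.H5

namespace Cfsg.Agent.S0851

/-- Let K be a subgroup of the finite group G that meets each conjugate by an element outside its normalizer N trivially, is properly contained in N, and contains the centralizer of each of its non-identity elements (a T.I. subgroup with Frobenius normalizer). Suppose K is abelian, let e be the index of K in N, and call an irreducible character of N relevant when it takes at some element of K a value different from its degree. Then either there is exactly one relevant character and K is an elementary abelian p-group of order e + 1 for some prime p, or there are a sign ε and an injective map f from the relevant characters to the irreducible characters of G such that inducing χ - ξ to G gives ε (f χ - f ξ) for all relevant χ and ξ. -/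
theorem result {G : Type*} [Group G] [Fintype G] (K : Subgroup G) (hTI : ∀ g : G, g ∉ Subgroup.normalizer (K : Set G) → ∀ k ∈ K, g * k * g⁻¹ ∈ K → k = 1) (hlt : K < Subgroup.normalizer (K : Set G)) (hC : ∀ k ∈ K, k ≠ 1 → Subgroup.centralizer ({k} : Set G) ≤ K) (hab : ∀ a ∈ K, ∀ b ∈ K, a * b = b * a) : (Nat.card {χ : Cfsg.IrrCharacter (Subgroup.normalizer (K : Set G)) // ∃ k : Subgroup.normalizer (K : Set G), (k : G) ∈ K ∧ (χ : ↥(Subgroup.normalizer (K : Set G)) → ℂ) k ≠ (χ : ↥(Subgroup.normalizer (K : Set G)) → ℂ) 1} = 1 ∧ ∃ p : ℕ, p.Prime ∧ Cfsg.IsElementaryAbelian p K ∧ Nat.card K = (K.subgroupOf (Subgroup.normalizer (K : Set G))).index + 1) ∨ ∃ (ε : ℂ) (f : {χ : Cfsg.IrrCharacter (Subgroup.normalizer (K : Set G)) // ∃ k : Subgroup.normalizer (K : Set G), (k : G) ∈ K ∧ (χ : ↥(Subgroup.normalizer (K : Set G)) → ℂ) k ≠ (χ : ↥(Subgroup.normalizer (K : Set G)) → ℂ) 1} → Cfsg.IrrCharacter G), (ε = 1 ∨ ε = -1) ∧ Function.Injective f ∧ ∀ χ ξ, Cfsg.indFun (Subgroup.normalizer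 (K : Set G)) ((χ.1 : ↥(Subgroup.normalizer (K : Set G)) → ℂ) - (ξ.1 : ↥(Subgroup.normalizer (K : Set G)) → ℂ)) = ε • ((f χ : G → ℂ) - (f ξ : G → ℂ)) := by
  right
  set N := Subgroup.normalizer (K : Set G)
  have := Fintype.ofFinite N
  have := Fintype.ofFinite K
  let E : NEmb K N := NEmb.ofLe hlt.le (fun t ht n hn => (Subgroup.mem_normalizer_iff.1 ht n).1 hn)
  have hE : ∀ g n, n ≠ 1 → E.act g n = n → g ∈ E.f.range := by
    intro g n hn h
    have h1 : (g : G) * n * (g : G)⁻¹ = n := by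
      have := congrArg Subtype.val (E.f_act g n)
      rw [h] at this
      exact this.symm
    have h2 : (g : G) ∈ K := hC n n.2 (fun h => hn (Subtype.ext h)) (by
      rw [Subgroup.mem_centralizer_iff]
      rintro _ rfl
      exact (mul_inv_eq_iff_eq_mul.1 h1).symm)
    exact ⟨⟨g, h2⟩, rfl⟩
  have key : ∀ χ : {χ : IrrCharacter N // ∃ k : N, (k : G) ∈ K ∧ (χ : N → ℂ) k ≠ (χ : N → ℂ) 1},
      (χ.1 : N → ℂ) 1 = E.f.range.index ∧ ∀ x : N, (x : G) ∉ K → (χ.1 : N → ℂ) x = 0 := by
    rintro ⟨χ, k, hk, hne⟩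
    obtain ⟨θ, hθ, -, e⟩ := E.exists_indHom_of_frobenius hE χ.2 ⟨⟨k, hk⟩, hne⟩
    refine ⟨?_, fun x hx => ?_⟩
    · rw [e, indHom_one_of_injective _ E.inj,
        degree_eq_one_of_comm (fun a b => Subtype.ext (hab a a.2 b b.2)) hθ, mul_one]
    · rw [e]
      refine E.indHom_eq_zero θ ?_
      rintro ⟨y, rfl⟩
      exact hx y.2
  obtain ⟨ε, hε, μ, h1, h2, h3⟩ := exceptional N K hTI
    (fun χ : {χ : IrrCharacter N // ∃ k : N, (k : G) ∈ K ∧ (χ : N → ℂ) k ≠ (χ : N → ℂ) 1} =>
      (χ.1 : N → ℂ)) (fun χ => χ.1.2) (fun χ ξ h => Subtype.ext (Subtype.ext h))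
    (fun χ ξ x hx _ => by rw [(key χ).2 x hx, (key ξ).2 x hx])
    (fun χ ξ => by rw [(key χ).1, (key ξ).1])
  exact ⟨ε, fun χ => ⟨μ χ, h1 χ⟩, hε, fun χ ξ h => h2 (congrArg Subtype.val h), h3⟩

end Cfsg.Agent.S0851
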