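import Cfsg.Statements.S0852
import Cfsg.Agent.H4.Coh5

set_option autoImplicit false
open Cfsg

namespace Cfsg.Agent.S0852

open Cfsg.Agent.H4

open Cfsg.Agent.H22


/-- Let K be a subgroup of the finite group G that meets each conjugate by an element outside its normalizer N trivially, is properly contained in N, and contains the centralizer of each of its non-identity elements (a T.I. subgroup with Frobenius normalizer). Let S be the set of irreducible characters of N taking at some element of K a value different from their degree, suppose S has at least two members, and let star be a linear isometry on the integer span of S into the generalized characters of G that agrees with induction on the members vanishing at the identity (so S is coherent, with star as the extending isometry). Then an irreducible character ψ of G is of the form star χ or -star χ for some χ in S if and only if ψ is not constant on the non-identity elements of K. -/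
theorem result {G : Type*} [Group G] [Fintype G] (K : Subgroup G) (hTI : ∀ g : G, g ∉ Subgroup.normalizer (K : Set G) → ∀ k ∈ K, g * k * g⁻¹ ∈ K → k = 1) (hlt : K < Subgroup.normalizer (K : Set G)) (hC : ∀ k ∈ K, k ≠ 1 → Subgroup.centralizer ({k} : Set G) ≤ K) [Fintype ↥(Subgroup.normalizer (K : Set G))] (S : Set (↥(Subgroup.normalizer (K : Set G)) → ℂ)) (hS : S = {χ : ↥(Subgroup.normalizer (K : Set G)) → ℂ | Cfsg.IsIrrCharacter ↥(Subgroup.normalizer (K : Set G)) χ ∧ ∃ k : ↥(Subgroup.normalizer (K : Set G)), (k : G) ∈ K ∧ χ k ≠ χ 1}) (htwo : ∃ χ ∈ S, ∃ ξ ∈ S, χ ≠ ξ) (star : (↥(Subgroup.normalizer (K : Set G)) → ℂ) → (G → ℂ)) (hstar : Cfsg.IsLinearIsometryOn (Cfsg.zspan S) star) (hext : ∀ α ∈ Cfsg.zspanOn S ({1}ᶜ : Set ↥(Subgroup.normalizer (K : Set G))), star α = Cfsg.indFun (Subgroup.normalizer (K : Set G)) α) (ψ : G → ℂ) (hψ : Cfsg.IsIrrCharacter G ψ) : (∃ χ ∈ S, ψ = star χ ∨ ψ = -star χ) ↔ ∃ a ∈ K, ∃ b ∈ K, a ≠ 1 ∧ b ≠ 1 ∧ ψ a ≠ ψ b := by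
  subst hS
  have h := TK.of hTI hC
  have hF := fun θ : ↥(Subgroup.normalizer (K : Set G)) → ℂ =>
    (mem_SA_bot.trans (ex_mem_X (θ := θ) h.le)).symm
  have hν := cohW_of_star SA_irr hF hstar hext
  obtain ⟨χ₁, h1, χ₂, h2, h3⟩ := htwo
  have h4 := Finset.one_lt_card.2 ⟨_, (hF _).1 h1, _, (hF _).1 h2, fun e => h3 (ex_injective _ e)⟩
  constructor
  · rintro ⟨χ, hχ, h5⟩
    obtain ⟨a, ha, b, hb, ha1, hb1, h6⟩ := h.exc_not_const hν h4 ((hF _).1 hχ)
    rw [tr_ex] at h6
    refine ⟨a, ha, b, hb, ha1, hb1, ?_⟩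
    rcases h5 with rfl | rfl
    · exact h6
    · simpa using h6
  · rintro ⟨a, ha, b, hb, ha1, hb1, h5⟩
    by_contra h6
    have h7 := mem_Irr_top.2 hψ
    have h8 := fun k hk hk1 => h.val_nonexc hν (Irr.inv h7) (fun χ hχ => by
      by_contra h8
      exact h6 ⟨_, (hF _).2 (by rwa [ex_tr_of_supp (Irr.supp (SA_irr hχ))]),
        Dirr.eq_or_neg (Irr.Dirr h7) (hν.dirr χ hχ) h8⟩) ((hF _).1 h1) (k := k) hk hk1
    exact h5 (by linear_combination h8 b hb hb1 - h8 a ha ha1)

end Cfsg.Agent.S0852
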