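import Cfsg.Statements.S0853
import Cfsg.Agent.H4.Coh5

set_option autoImplicit false
open Cfsg

namespace Cfsg.Agent.S0853

open Cfsg.Agent.H4

open Cfsg.Agent.H22


/-- Let K be a subgroup of the finite group G that meets each conjugate by an element outside its normalizer N trivially, is properly contained in N, and contains the centralizer of each of its non-identity elements (a T.I. subgroup with Frobenius normalizer). Let S be the set of irreducible characters of N taking at some element of K a value different from their degree, suppose S has at least two members, and let star be a linear isometry on the integer span of S into the generalized characters of G that agrees with induction on the members vanishing at the identity (so S is coherent, with star as the extending isometry). Then there is a single integer m such that star χ k - χ k = m * χ 1 / e for every χ in S and every non-identity element k of K, where e is the index of K in N. -/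
theorem result {G : Type*} [Group G] [Fintype G] (K : Subgroup G) (hTI : ∀ g : G, g ∉ Subgroup.normalizer (K : Set G) → ∀ k ∈ K, g * k * g⁻¹ ∈ K → k = 1) (hlt : K < Subgroup.normalizer (K : Set G)) (hC : ∀ k ∈ K, k ≠ 1 → Subgroup.centralizer ({k} : Set G) ≤ K) [Fintype ↥(Subgroup.normalizer (K : Set G))] (S : Set (↥(Subgroup.normalizer (K : Set G)) → ℂ)) (hS : S = {χ : ↥(Subgroup.normalizer (K : Set G)) → ℂ | Cfsg.IsIrrCharacter ↥(Subgroup.normalizer (K : Set G)) χ ∧ ∃ k : ↥(Subgroup.normalizer (K : Set G)), (k : G) ∈ K ∧ χ k ≠ χ 1}) (htwo : ∃ χ ∈ S, ∃ ξ ∈ S, χ ≠ ξ) (star : (↥(Subgroup.normalizer (K : Set G)) → ℂ) → (G → ℂ)) (hstar : Cfsg.IsLinearIsometryOn (Cfsg.zspan S) star) (hext : ∀ α ∈ Cfsg.zspanOn S ({1}ᶜ : Set ↥(Subgroup.normalizer (K : Set G))), star α = Cfsg.indFun (Subgroup.normalizer (K : Set G)) α) : ∃ m : ℤ, ∀ χ ∈ S, ∀ k : ↥(Subgroup.normalizer (K : Set G)), (k : G) ∈ K → k ≠ 1 → star χ k - χ k = (m : ℂ) * χ 1 / ((K.subgroupOf (Subgroup.normalizer (K : Set G))).index : ℂ) := by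
  subst hS
  have h := TK.of hTI hC
  have hF := fun θ : ↥(Subgroup.normalizer (K : Set G)) → ℂ =>
    (mem_SA_bot.trans (ex_mem_X (θ := θ) h.le)).symm
  have hν := cohW_of_star SA_irr hF hstar hext
  obtain ⟨χ₁, ⟨-, k, hk, h1⟩, -⟩ := htwo
  obtain ⟨ψ, hψ, h2⟩ := h.exists_lin (h.nilpotent hlt.ne) (A := ⊥) (bot_lt_iff_ne_bot.2 fun e =>
    h1 (by rw [show k = 1 from Subtype.ext (by simpa [e] using hk)])) (le_normalizer_bot _)
  obtain ⟨m, hm⟩ := h.exists_m hν (SA_subset_bot hψ) h2
  refine ⟨m, fun χ hχ k hk hk1 => ?_⟩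
  have := hm _ ((hF _).1 hχ) k hk fun e => hk1 (Subtype.ext e)
  rwa [tr_ex, ex_apply_coe, ex_apply_one] at this

end Cfsg.Agent.S0853
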