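import Cfsg.Statements.S0855
import Cfsg.Agent.H8.Deg1
import Cfsg.Agent.S4456
-- import your own Cfsg.Agent.* helpers here

set_option autoImplicit false
open Cfsg

namespace Cfsg.Agent.S0855

open Cfsg.Agent.H4 Cfsg.Agent.H5


/-- For a finite group G and a prime p: every irreducible character of G has degree a power of p if and only if G has an abelian normal subgroup whose order is prime to p and whose index is a power of p. -/
theorem result {G : Type*} [Group G] [Finite G] (p : ℕ) (hp : p.Prime) : (∀ χ : Cfsg.IrrCharacter G, ∃ k : ℕ, (χ : G → ℂ) 1 = (p : ℂ) ^ k) ↔ ∃ A : Subgroup G, A.Normal ∧ (∀ a ∈ A, ∀ b ∈ A, a * b = b * a) ∧ Nat.Coprime (Nat.card A) p ∧ ∃ k : ℕ, A.index = p ^ k := by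
  constructor
  · intro h
    have h' : ∀ d ∈ charDegrees G, ∃ k, d = p ^ k := by
      intro d hd
      obtain ⟨χ, hχ, h1⟩ := H8.mem_cd.1 hd
      obtain ⟨k, hk⟩ := h ⟨χ, hχ⟩
      refine ⟨k, ?_⟩
      have : (d : ℂ) = (p ^ k : ℕ) := by rw [← h1]; push_cast; exact hk
      exact_mod_cast this
    obtain ⟨N, hN, h1, h2⟩ := S4456.result (G := G) p hp (by
      intro χ hχ
      obtain ⟨k, hk⟩ := h' _ (H8.charDegree_mem_cd χ.2)
      rw [hk] at hχ ⊢
      exact dvd_pow_self p (by rintro rfl; simp at hχ))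
    refine ⟨N, hN, ?_, h1, h2⟩
    have h3 : ∀ a b : N, a * b = b * a := by
      refine H8.comm_iff_cd.2 fun d hd => ?_
      obtain ⟨e, -, he⟩ := H8.cd_over_normal N hd
      obtain ⟨k, hk⟩ := h' _ he
      have h4 : d ∣ p ^ k := hk ▸ Dvd.intro_left e rfl
      exact (fun hc : Nat.Coprime d (p ^ k) => hc.eq_one_of_dvd h4)
        ((h1.coprime_dvd_left (H8.dvd_card_of_mem_cd hd)).pow_right k)
    intro a ha b hb
    exact congrArg Subtype.val (h3 ⟨a, ha⟩ ⟨b, hb⟩)
  · rintro ⟨A, hA, h1, -, k, hk⟩ χ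
    have h2 := H8.cd_dvd_index_of_comm h1 (H8.charDegree_mem_cd χ.2)
    rw [hk] at h2
    obtain ⟨j, -, hj⟩ := (Nat.dvd_prime_pow hp).1 h2
    exact ⟨j, by rw [← χ.2.isCharacter.charDegree_cast, hj]; push_cast; rfl⟩

end Cfsg.Agent.S0855
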