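import Cfsg.Statements.S0856
import Cfsg.Agent.H5.Clifford2

set_option autoImplicit false
open Cfsg Cfsg.Agent.H4

namespace Cfsg.Agent.S0856

/-- Let N be a normal subgroup of the finite group G and φ, ϑ irreducible characters of N that are invariant under conjugation by G, such that the pointwise product φ * ϑ is irreducible and ϑ is the restriction of an irreducible character χ of G. Then multiplication by χ is a bijection from the set of irreducible characters of G having nonzero inner product with the function induced from φ onto the set of those having nonzero inner product with the function induced from φ * ϑ. -/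
theorem result {G : Type*} [Group G] [Fintype G] (N : Subgroup G) [hN : N.Normal] (φ ϑ : N → ℂ) (hφ : Cfsg.IsIrrCharacter N φ) (hϑ : Cfsg.IsIrrCharacter N ϑ) (hφinv : ∀ (g : G) (n : N), φ ⟨g * n * g⁻¹, hN.conj_mem (n : G) n.2 g⟩ = φ n) (hϑinv : ∀ (g : G) (n : N), ϑ ⟨g * n * g⁻¹, hN.conj_mem (n : G) n.2 g⟩ = ϑ n) (hprod : Cfsg.IsIrrCharacter N (φ * ϑ)) (χ : G → ℂ) (hχ : Cfsg.IsIrrCharacter G χ) (hext : ∀ n : N, χ n = ϑ n) : Set.BijOn (fun β : G → ℂ => β * χ) {β : G → ℂ | Cfsg.IsIrrCharacter G β ∧ Cfsg.classInner (Cfsg.indFun N φ) β ≠ 0} {ψ : G → ℂ | Cfsg.IsIrrCharacter G ψ ∧ Cfsg.classInner (Cfsg.indFun N (φ * ϑ)) ψ ≠ 0} := by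
  have := Fintype.ofFinite N
  set E := H5.NEmb.ofNormal N
  have key : ∀ (α : N → ℂ) (β : G → ℂ), IsIrrCharacter G β →
      (classInner (indFun N α) β ≠ 0 ↔ classInner (fun n => β (E.f n)) α ≠ 0) := by
    intro α β hβ
    rw [← H5.NEmb.indHom_ofNormal]
    exact E.inner_indHom_ne_zero_iff α hβ.isClassFunction
  refine ⟨?_, ?_, ?_⟩
  · rintro β ⟨hβ, h⟩
    rw [key _ _ hβ] at h
    have h1 := E.gallagher_irr' hφ hφinv hprod hχ.isCharacter hext hβ h
    refine ⟨h1, (key _ _ h1).2 ?_⟩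
    rwa [E.gallagher_over' hφ hφinv hprod hext hβ h]
  · rintro β ⟨hβ, h⟩ γ ⟨hγ, h'⟩ hβγ
    exact E.gallagher_inj' hφ hφinv hprod hχ.isCharacter hext hβ hγ ((key _ _ hβ).1 h)
      ((key _ _ hγ).1 h') hβγ
  · rintro ψ ⟨hψ, h⟩
    obtain ⟨β, hβ, h1, h2⟩ := E.gallagher_surj' hφ hφinv hprod hχ.isCharacter hext hψ
      ((key _ _ hψ).1 h)
    exact ⟨β, ⟨hβ, (key _ _ hβ).2 h1⟩, h2⟩

end Cfsg.Agent.S0856
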