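import Cfsg.Statements.S0858
import Cfsg.Agent.H5.Clifford3

set_option autoImplicit false
open Cfsg Cfsg.Agent.H4 Cfsg.Agent.H5

namespace Cfsg.Agent.S0858

/-- Let N be a normal subgroup of the finite group G with G / N solvable, and suppose that for every subgroup H containing N and all subgroups L < K between N and H that are normal in H with no subgroup normal in H strictly between them, the index of L in K is not a perfect square. Then every irreducible character χ of G is induced from an irreducible character ψ of some subgroup H containing N such that the restriction of ψ to N is irreducible. -/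
theorem result {G : Type*} [Group G] [Fintype G] (N : Subgroup G) [N.Normal] (hsolv : Group.IsSolvable (G ⧸ N)) (hchief : ∀ (H K L : Subgroup G), N ≤ L → L < K → K ≤ H → (∀ h ∈ H, ∀ k ∈ K, h * k * h⁻¹ ∈ K) → (∀ h ∈ H, ∀ l ∈ L, h * l * h⁻¹ ∈ L) → (∀ M : Subgroup G, L ≤ M → M ≤ K → (∀ h ∈ H, ∀ m ∈ M, h * m * h⁻¹ ∈ M) → M = L ∨ M = K) → ¬ IsSquare (L.relIndex K)) (χ : G → ℂ) (hχ : Cfsg.IsIrrCharacter G χ) : ∃ (H : Subgroup G) (hNH : N ≤ H) (ψ : H → ℂ), Cfsg.IsIrrCharacter H ψ ∧ Cfsg.indFun H ψ = χ ∧ Cfsg.IsIrrCharacter N (fun n : N => ψ ⟨(n : G), hNH n.2⟩) := by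
  refine exists_indFun_res_irr N hsolv (fun H hNH K L hK hL h1 h2 h3 => ?_) hχ
  have hinj := H.subtype_injective
  rw [← Subgroup.relIndex_map_map_of_injective L K hinj]
  have hn : ∀ M : Subgroup H, M.Normal → ∀ h ∈ H, ∀ k ∈ M.map H.subtype,
      h * k * h⁻¹ ∈ M.map H.subtype := by
    rintro M hM h hh _ ⟨k, hk, rfl⟩
    exact ⟨_, hM.conj_mem k hk ⟨h, hh⟩, rfl⟩
  refine hchief H _ _ (fun n hn => ⟨⟨n, hNH hn⟩, h1 hn, rfl⟩)
    (lt_of_le_of_ne (Subgroup.map_mono h2.le)
      (fun h => h2.ne (Subgroup.map_injective hinj h)))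
    (Subgroup.map_subtype_le K) (hn K hK) (hn L hL) (fun M hM1 hM2 hM3 => ?_)
  have hMH : M ≤ H := hM2.trans (Subgroup.map_subtype_le K)
  rcases h3 (M.subgroupOf H) ⟨fun m hm g => hM3 g g.2 m hm⟩
    (fun l hl => hM1 ⟨l, hl, rfl⟩) (fun m hm => by
      obtain ⟨k, hk, h⟩ := hM2 hm
      rwa [← Subtype.ext h]) with h | h
  · left; rw [← h, Subgroup.map_subgroupOf_eq_of_le hMH]
  · right; rw [← h, Subgroup.map_subgroupOf_eq_of_le hMH]

end Cfsg.Agent.S0858
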