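import Cfsg.Statements.S0859
import Cfsg.Agent.H6.Prim
-- import your own Cfsg.Agent.* helpers here

set_option autoImplicit false
open Cfsg

namespace Cfsg.Agent.S0859

open Cfsg.Agent.H4 Cfsg.Agent.H5 Cfsg.Agent.H1 Cfsg.Agent.H6


/-- Let G be a finite solvable group and N a normal subgroup such that for every prime p every Sylow p-subgroup of N is abelian. Suppose every irreducible character of G is induced from an irreducible character of some subgroup containing N whose restriction to N is irreducible. Then every irreducible character of G is induced from a character of degree 1 of some subgroup. -/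
theorem result {G : Type*} [Group G] [Fintype G] [Group.IsSolvable G] (N : Subgroup G) [N.Normal] (hab : ∀ (p : ℕ) [Fact p.Prime] (P : Sylow p N), ∀ a ∈ P, ∀ b ∈ P, a * b = b * a) (hrel : ∀ χ : G → ℂ, Cfsg.IsIrrCharacter G χ → ∃ (H : Subgroup G) (hNH : N ≤ H) (ψ : H → ℂ), Cfsg.IsIrrCharacter H ψ ∧ Cfsg.indFun H ψ = χ ∧ Cfsg.IsIrrCharacter N (fun n : N => ψ ⟨(n : G), hNH n.2⟩)) (χ : G → ℂ) (hχ : Cfsg.IsIrrCharacter G χ) : ∃ (U : Subgroup G) (lam : U → ℂ), Cfsg.IsCharacter U lam ∧ lam 1 = 1 ∧ Cfsg.indFun U lam = χ := by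
  classical
  obtain ⟨H, hNH, ψ, hψ, rfl, hψN⟩ := hrel χ hχ
  haveI := Fintype.ofFinite H
  obtain ⟨U, _, θ, hθ, rfl, hp⟩ := exists_prim_inducing hψ
  have h1 := isIrr_res_inf_of_indFun hθ ((isIrr_subgroupOf_iff hNH _).2 hψN)
  have h2 := hp.le_charCenter_of_abelian_sylow hθ ((N.subgroupOf H).subgroupOf U) inferInstance (by
    intro p hp' S hS hSp a ha b hb
    haveI : Fact p.Prime := ⟨hp'⟩
    let f : U →* G := H.subtype.comp U.subtype
    have h3 : S.map f ≤ N := by
      rintro _ ⟨x, hx, rfl⟩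
      exact hS hx
    obtain ⟨P, hP, hle⟩ := exists_isSylowIn_ge h3 (hSp.map f)
    obtain ⟨Q, rfl⟩ := hP.exists_sylow
    obtain ⟨a', ha', ea⟩ := hle ⟨a, ha, rfl⟩
    obtain ⟨b', hb', eb⟩ := hle ⟨b, hb, rfl⟩
    have h4 := congrArg N.subtype (hab p Q a' ha' b' hb')
    rw [map_mul, map_mul, ea, eb, ← map_mul, ← map_mul] at h4
    exact Subtype.ext (Subtype.ext h4))
  have h3 : θ 1 = 1 := by
    have h4 := h1.commutator_le_charKer_iff.1 (by
      rw [commutator_def, Subgroup.commutator_le]
      intro a _ b _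
      rw [h1.isCharacter.mem_charKer]
      exact apply_of_mem_charKer (h2 (Subgroup.commutator_mem_commutator a.2 b.2)))
    exact h4
  refine ⟨U.map H.subtype, _, (isIrr_map_subtype hθ).isCharacter, ?_, (indFun_trans_map H U θ).symm⟩
  simpa using h3

end Cfsg.Agent.S0859
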