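import Cfsg.Statements.S0861
import Cfsg.Agent.H8.Deg2
import Cfsg.Agent.H8.Glaub2
-- import your own Cfsg.Agent.* helpers here

set_option autoImplicit false
open Cfsg

namespace Cfsg.Agent.S0861

open Cfsg.Agent.H4 Cfsg.Agent.H5 Cfsg.Agent.H8

open scoped ComplexConjugate

/-- The Galois action on the irreducible characters. -/
noncomputable def gal {G : Type*} [Group G] [Finite G] (σ : ℂ ≃+* ℂ) :
    IrrCharacter G ≃ IrrCharacter G where
  toFun χ := ⟨fun g => σ ((χ : G → ℂ) g), χ.2.map_ringHom σ.toRingHom⟩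
  invFun χ := ⟨fun g => σ.symm ((χ : G → ℂ) g), χ.2.map_ringHom σ.symm.toRingHom⟩
  left_inv χ := Subtype.ext (funext fun g => by simp)
  right_inv χ := Subtype.ext (funext fun g => by simp)


/-- Let P be a normal abelian Sylow p-subgroup of the finite group G and suppose some element g of P has centralizer exactly P. Then the number of irreducible characters of G is at most the order of P, and if equality holds then G / P is abelian (the commutator subgroup lies in P). -/
theorem result {G : Type*} [Group G] [Finite G] (p : ℕ) [Fact p.Prime] (P : Sylow p G) [(P : Subgroup G).Normal] (hab : ∀ a ∈ P, ∀ b ∈ P, a * b = b * a) (g : G) (hg : g ∈ P) (hC : Subgroup.centralizer ({g} : Set G) = P) : Nat.card (Cfsg.IrrCharacter G) ≤ Nat.card P ∧ (Nat.card (Cfsg.IrrCharacter G) = Nat.card P → commutator G ≤ P) := by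
  classical
  have hp : p.Prime := Fact.out
  have hne : ∀ χ : IrrCharacter G, (χ : G → ℂ) g ≠ 0 := by
    intro χ h0
    obtain ⟨k, hk⟩ := P.isPGroup' ⟨g, hg⟩
    have h1 : g ^ p ^ k = 1 := congrArg Subtype.val hk
    have h2 := dvd_of_apply_eq_zero χ.2.isCharacter h1 h0 χ.2.isCharacter.charDegree_cast.symm
    have h3 := cd_dvd_index_of_comm (A := (P : Subgroup G)) hab (charDegree_mem_cd χ.2)
    exact P.not_dvd_index (h2.trans h3)
  let x : IrrCharacter G → ℝ := fun χ =>
    if (P : Subgroup G) ≤ charKer (χ : G → ℂ) then 1 else ‖(χ : G → ℂ) g‖ ^ 2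
  have hx : ∀ χ, (x χ : ℂ) = if (P : Subgroup G) ≤ charKer (χ : G → ℂ) then 1 else
      (χ : G → ℂ) g * conj ((χ : G → ℂ) g) := by
    intro χ
    simp only [x]
    split_ifs
    · simp
    · rw [Complex.mul_conj, Complex.normSq_eq_norm_sq]
  have hpos : ∀ χ, 0 < x χ := by
    intro χ
    simp only [x]
    split_ifs
    · exact one_pos
    · have := hne χ; positivity
  have hint : IsIntegral ℤ (∏ χ, (x χ : ℂ)) := by
    refine IsIntegral.prod _ fun χ _ => ?_
    rw [hx]
    split_ifs
    · exact isIntegral_one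
    · exact (χ.2.isCharacter.isIntegral g).mul (isIntegral_conj (χ.2.isCharacter.isIntegral g))
  have hker : ∀ (σ : ℂ ≃+* ℂ) (χ : IrrCharacter G), charKer (gal σ χ : G → ℂ) = charKer (χ : G → ℂ) := by
    intro σ χ
    ext y
    rw [(gal σ χ).2.isCharacter.mem_charKer, χ.2.isCharacter.mem_charKer]
    exact σ.injective.eq_iff
  obtain ⟨n, hn⟩ := exists_int_of_forall_ringEquiv hint (fun σ => by
    rw [map_prod, ← Equiv.prod_comp (gal σ) (fun χ => (x χ : ℂ))]
    refine Finset.prod_congr rfl fun χ _ => ?_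
    rw [hx, hx, hker]
    split_ifs
    · simp
    · rw [map_mul]
      congr 1
      exact χ.2.isGen.map_conj σ.toRingHom g)
  have h1 : 1 ≤ ∏ χ, x χ := by
    have h2 : (∏ χ, x χ) = n := by exact_mod_cast hn
    have h3 : 0 < ∏ χ, x χ := Finset.prod_pos fun χ _ => hpos χ
    rw [h2] at h3 ⊢
    exact_mod_cast h3
  have h2 := card_le_sum_of_one_le_prod x (fun χ => (hpos χ).le) h1
  have h3 := sum_irr_norm_sq g
  rw [hC] at h3
  have hdeg : ∀ χ : IrrCharacter G, (P : Subgroup G) ≤ charKer (χ : G → ℂ) →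
      ‖(χ : G → ℂ) g‖ = charDegree (χ : G → ℂ) := by
    intro χ h
    rw [apply_of_mem_charKer (h hg), ← χ.2.isCharacter.charDegree_cast, Complex.norm_natCast]
  have h4 : ∀ χ ∈ (Finset.univ : Finset (IrrCharacter G)), x χ ≤ ‖(χ : G → ℂ) g‖ ^ 2 := by
    intro χ _
    simp only [x]
    split_ifs with h
    · rw [hdeg χ h]
      have : (1 : ℝ) ≤ charDegree (χ : G → ℂ) := by exact_mod_cast χ.2.charDegree_pos
      nlinarith
    · exact le_rfl
  have h5 := Finset.sum_le_sum h4
  rw [← Nat.card_eq_fintype_card] at h2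
  refine ⟨by exact_mod_cast h2.trans (h5.trans h3.le), fun he => ?_⟩
  have h6 : ∑ χ, x χ = ∑ χ : IrrCharacter G, ‖(χ : G → ℂ) g‖ ^ 2 :=
    le_antisymm h5 (by rw [h3]; rw [he] at h2; exact h2)
  have h7 := (Finset.sum_eq_sum_iff_of_le h4).1 h6
  refine le_of_forall_le_charKer fun χ hχ hP => ?_
  rw [hχ.commutator_le_charKer_iff]
  have h8 := h7 ⟨χ, hχ⟩ (Finset.mem_univ _)
  rw [hdeg ⟨χ, hχ⟩ hP] at h8
  simp only [x, if_pos hP] at h8
  have h9 : charDegree χ ^ 2 = 1 := by exact_mod_cast h8.symm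
  rw [← hχ.isCharacter.charDegree_cast, (Nat.pow_eq_one.1 h9).resolve_right two_ne_zero, Nat.cast_one]

end Cfsg.Agent.S0861
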