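import Cfsg.Statements.S0862
import Cfsg.Agent.H5.Cover

set_option autoImplicit false
open Cfsg Cfsg.Agent.H4 Cfsg.Agent.H5

namespace Cfsg.Agent.S0862

/-- Let N be a normal subgroup of the finite group G and ϑ an irreducible character of N of degree d coprime to the index of N, which is the restriction of some irreducible character of G. Let μ be a character of G of degree 1 whose restriction to N is the determinantal character of ϑ. Then there is exactly one irreducible character χ of G restricting to ϑ whose determinantal character is μ. -/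
theorem result {G : Type*} [Group G] [Finite G] (N : Subgroup G) [N.Normal] (ϑ : N → ℂ) (hϑ : Cfsg.IsIrrCharacter N ϑ) (d : ℕ) (hd : ϑ 1 = d) (hcop : Nat.Coprime N.index d) (hext : ∃ η : G → ℂ, Cfsg.IsIrrCharacter G η ∧ (∀ n : N, η n = ϑ n)) (μ : G → ℂ) (hμ : Cfsg.IsCharacter G μ ∧ μ 1 = 1) (hμN : ∀ n : N, μ n = Cfsg.detChar ϑ n) : ∃! χ : G → ℂ, Cfsg.IsIrrCharacter G χ ∧ (∀ n : N, χ n = ϑ n) ∧ Cfsg.detChar χ = μ := by
  obtain ⟨η, hη, h⟩ := hext
  obtain ⟨ν, rfl⟩ := hμ.1.exists_linear hμ.2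
  have hc : (NEmb.ofNormal N).f.range.index.Coprime d := by rwa [NEmb.ofNormal_range]
  obtain ⟨χ, h1, h2, h3⟩ := (NEmb.ofNormal N).exists_ext_det_eq hϑ
    ((NEmb.ofNormal N).invariant_of_res_eq_mul hη.isClassFunction one_ne_zero
      (fun n => by rw [one_mul]; exact h n)) hd hc ν
    (fun n => Units.ext ((hμN n).trans (coe_detHom _ _).symm))
  refine ⟨χ, ⟨h1, h2, by rw [detChar_eq, h3]⟩, fun χ' h' => ?_⟩
  refine (NEmb.ofNormal N).ext_unique_of_det hϑ hd hc h'.1.isCharacter h1.isCharacter h'.2.1 h2 ?_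
  rw [h3]
  exact linear_ext (by rw [← detChar_eq, h'.2.2])

end Cfsg.Agent.S0862
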