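import Cfsg.Statements.S0868
import Cfsg.Agent.H8.Glaub1
-- import your own Cfsg.Agent.* helpers here

set_option autoImplicit false
open scoped ComplexConjugate
open Cfsg

namespace Cfsg.Agent.S0868

open Cfsg.Agent.H4 Cfsg.Agent.H5


/-- Let N be a normal subgroup of the finite group G, χ an irreducible character of G whose restriction ϑ to N is irreducible, and ψ an irreducible character of G. Define η on G by η g = (1 / order of N) * Σ over n in N of ψ (n * g) * conj (χ (n * g)). Then: if the restriction of ψ to N has nonzero inner product with ϑ, η is an irreducible character of G; if that inner product is zero, η vanishes identically; and if ψ = χ then η is identically 1. -/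
theorem result {G : Type*} [Group G] [Fintype G] (N : Subgroup G) [N.Normal] [Fintype N] (χ : G → ℂ) (hχ : Cfsg.IsIrrCharacter G χ) (hχN : Cfsg.IsIrrCharacter N (fun n : N => χ n)) (ψ : G → ℂ) (hψ : Cfsg.IsIrrCharacter G ψ) (η : G → ℂ) (hη : η = fun g => (Nat.card N : ℂ)⁻¹ * ∑ n : N, ψ ((n : G) * g) * conj (χ ((n : G) * g))) : (Cfsg.classInner (fun n : N => ψ n) (fun n : N => χ n) ≠ 0 → Cfsg.IsIrrCharacter G η) ∧ (Cfsg.classInner (fun n : N => ψ n) (fun n : N => χ n) = 0 → η = 0) ∧ (ψ = χ → η = fun _ => 1) := by
  set E := NEmb.ofNormal N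
  have h0 : η = H8.cosIn E ψ χ := by
    rw [hη]; funext g; simp only [H8.cosIn, classInner_def]; rfl
  refine ⟨fun h => ?_, fun h => ?_, fun h => ?_⟩
  · obtain ⟨β, hβ, h1, h2⟩ := E.gallagher_surj hχN hχ.isCharacter (fun n => rfl) hψ h
    have : η = β := by
      rw [h0]; funext g
      have h3 : ∀ b, ψ (E.f b * g) = β g * χ (E.f b * g) := by
        intro b
        rw [← h2, Pi.mul_apply, apply_mul_of_mem_charKer (hβ.isCharacter.mem_charKer.2 (h1 b))]
      rw [H8.cosIn_of_eq_mul E h3, H8.cosIn_self E hχ.isCharacter hχN, mul_one]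
    rw [this]; exact hβ
  · rw [h0]; funext g
    exact H8.cosIn_eq_zero E hψ.isCharacter hχ.isCharacter h g
  · rw [h0, h]; funext g
    exact H8.cosIn_self E hχ.isCharacter hχN g

end Cfsg.Agent.S0868
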