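import Cfsg.Statements.S0870
import Cfsg.Agent.H5.Ind2

set_option autoImplicit false
open Cfsg

namespace Cfsg.Agent.S0870

/-- For subgroups H and K of a finite group G, the pointwise product of the functions induced from the constant function 1 on H and on K is a sum, over subgroups U of H with natural-number coefficients, of the functions induced from the constant function 1 on U. -/
theorem result {G : Type*} [Group G] [Fintype G] (H K : Subgroup G) : ∃ a : Subgroup G → ℕ, (∀ U, a U ≠ 0 → U ≤ H) ∧ Cfsg.indFun H (fun _ => 1) * Cfsg.indFun K (fun _ => 1) = ∑ U : Subgroup G, (a U : ℂ) • Cfsg.indFun U (fun _ => 1) := by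
  classical
  obtain ⟨T, -, hT⟩ := H5.exists_doubleCoset_reps K H
  refine ⟨fun U => (T.filter (fun t => (H5.mackeySub K H t).map H.subtype = U)).card, ?_, ?_⟩
  · intro U hU
    obtain ⟨t, ht⟩ := Finset.card_pos.1 (Nat.pos_of_ne_zero hU)
    rw [← (Finset.mem_filter.1 ht).2]
    exact Subgroup.map_subtype_le _
  · rw [← H5.indFun_res H (H5.indFun_isClassFunction K _)]
    have h1 : (fun h : H => indFun K (fun _ => (1 : ℂ)) h) =
        ∑ t ∈ T, indFun (H5.mackeySub K H t) (fun _ => (1 : ℂ)) := by
      ext h
      rw [H5.mackey K H T hT (fun _ _ => rfl) h, Finset.sum_apply]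
    rw [h1, H5.indFun_sum]
    simp only [H5.indFun_trans_map]
    rw [Finset.sum_comp (fun U : Subgroup G => indFun U (fun _ => (1 : ℂ)))
      (fun t => (H5.mackeySub K H t).map H.subtype)]
    rw [Finset.sum_subset (Finset.subset_univ _)]
    · refine Finset.sum_congr rfl fun U _ => ?_
      rw [Nat.cast_smul_eq_nsmul]
    · intro U _ hU
      rw [Finset.filter_false_of_mem, Finset.card_empty, zero_smul]
      intro t ht h
      exact hU (Finset.mem_image.2 ⟨t, ht, h⟩)

end Cfsg.Agent.S0870
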