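import Cfsg.Statements.S0872
import Cfsg.Agent.H5.Brauer1

set_option autoImplicit false
open Cfsg Cfsg.Agent.H4 Cfsg.Agent.H5

namespace Cfsg.Agent.S0872

/-- For a finite group G and a prime p there are an integer m not divisible by p and a ℤ-linear combination of functions induced from the constant function 1 on subgroups H, each having a cyclic normal subgroup of order prime to p and p-power index in H, that equals the constant function m. -/
theorem result {G : Type*} [Group G] [Fintype G] (p : ℕ) (hp : p.Prime) : ∃ (m : ℤ) (a : Subgroup G → ℤ), ¬ (p : ℤ) ∣ m ∧ (∀ H, a H ≠ 0 → (∃ C : Subgroup G, C ≤ H ∧ H ≤ Subgroup.normalizer (C : Set G) ∧ IsCyclic C ∧ Nat.Coprime (Nat.card C) p ∧ ∃ k : ℕ, C.relIndex H = p ^ k)) ∧ (fun _ : G => (m : ℂ)) = ∑ H : Subgroup G, (a H : ℂ) • Cfsg.indFun H (fun _ => 1) := by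
  classical
  obtain ⟨m, hm, h⟩ := solomon (G := G) hp
  have key : ∀ f ∈ permSpan (fun H : Subgroup G => IsQE p H), ∃ a : Subgroup G → ℤ,
      (∀ H, a H ≠ 0 → IsQE p H) ∧
        f = ∑ H : Subgroup G, (a H : ℂ) • indFun H (fun _ => 1) := by
    intro f hf
    induction hf using Submodule.span_induction with
    | mem f hf =>
      obtain ⟨H, hH, rfl⟩ := hf
      refine ⟨Pi.single H 1, fun K hK => ?_, ?_⟩
      · by_cases h : K = H
        · rwa [h]
        · simp [h] at hK
      · rw [Finset.sum_eq_single H] <;> simp +contextual [Pi.single_apply]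
    | zero => exact ⟨0, by simp, by simp⟩
    | add x y _ _ hx hy =>
      obtain ⟨a, ha, rfl⟩ := hx
      obtain ⟨b, hb, rfl⟩ := hy
      refine ⟨a + b, fun H hH => ?_, by simp [add_smul, Finset.sum_add_distrib]⟩
      by_cases h : a H = 0
      · exact hb H (by simpa [h] using hH)
      · exact ha H h
    | smul c x _ hx =>
      obtain ⟨a, ha, rfl⟩ := hx
      refine ⟨c • a, fun H hH => ha H fun h => hH (by simp [h]), ?_⟩
      rw [Finset.smul_sum]
      refine Finset.sum_congr rfl fun H _ => ?_
      rw [← Int.cast_smul_eq_zsmul ℂ, smul_smul]; simp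
  obtain ⟨a, ha, h2⟩ := key _ h
  exact ⟨m, a, hm, fun H hH => (isQE_iff_ambient H).1 (ha H hH), h2⟩

end Cfsg.Agent.S0872
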