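import Cfsg.Statements.S0875
import Cfsg.Agent.H5.Brauer2

set_option autoImplicit false
open Cfsg Cfsg.Agent.H4 Cfsg.Agent.H5

namespace Cfsg.Agent.S0875

/-- Let G be a finite group of order m * n with m and n coprime, and g an element whose order is coprime to m. Every x in G factors uniquely as x = u * v with u, v commuting, the order of u coprime to n and the order of v coprime to m; let ϑ be the function on G equal to n at those x whose factor v is conjugate to g and equal to 0 elsewhere. Then ϑ is a linear combination of the irreducible characters of G with algebraic-integer coefficients. -/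
theorem result {G : Type*} [Group G] [Fintype G] (m n : ℕ) (hmn : Nat.card G = m * n) (hcop : Nat.Coprime m n) (g : G) (hg : Nat.Coprime (orderOf g) m) (ϑ : G → ℂ) (hϑ1 : ∀ x : G, (∃ v : G, IsConj v g ∧ (∃ u : G, x = u * v ∧ Commute u v ∧ Nat.Coprime (orderOf u) n ∧ Nat.Coprime (orderOf v) m)) → ϑ x = n) (hϑ0 : ∀ x : G, (¬ ∃ v : G, IsConj v g ∧ (∃ u : G, x = u * v ∧ Commute u v ∧ Nat.Coprime (orderOf u) n ∧ Nat.Coprime (orderOf v) m)) → ϑ x = 0) : ∃ c : Cfsg.IrrCharacter G → ℂ, (∀ χ, c χ ∈ Cfsg.AlgInt) ∧ ϑ = ∑ᶠ χ : Cfsg.IrrCharacter G, c χ • (χ : G → ℂ) := by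
  classical
  obtain ⟨k, hm, hk⟩ := exists_crt hcop
  have hG : ∀ x : G, x ^ (m * n) = 1 := fun x => by rw [← hmn, pow_card_eq_one']
  have hG' : ∀ x : G, orderOf x ∣ m * n := fun x => orderOf_dvd_of_pow_eq_one (hG x)
  have key : ∀ x : G, (∃ v : G, IsConj v g ∧ (∃ u : G, x = u * v ∧ Commute u v ∧
      Nat.Coprime (orderOf u) n ∧ Nat.Coprime (orderOf v) m)) ↔ IsConj g (x ^ k) := by
    intro x
    constructor
    · rintro ⟨v, h1, u, rfl, h2, h3, h4⟩
      rw [mul_pow_eq_of_crt hm hk h2
        (orderOf_dvd_iff_pow_eq_one.1 (h3.dvd_of_dvd_mul_right (hG' u)))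
        (orderOf_dvd_iff_pow_eq_one.1 (h4.dvd_of_dvd_mul_left (hG' v)))]
      exact h1.symm
    · intro h
      refine ⟨x ^ k, h.symm, x * (x ^ k)⁻¹, by simp, ?_, ?_, ?_⟩
      · exact ((Commute.refl x).pow_right k).mul_left (Commute.refl _).inv_left
      · exact hcop.coprime_dvd_left (orderOf_dvd_of_pow_eq_one (mul_inv_pow_crt_pow hk (hG x)))
      · exact hcop.symm.coprime_dvd_left (orderOf_dvd_of_pow_eq_one (pow_crt_pow hm (hG x)))
  have h1 : ϑ = fun x => n * (if IsConj g (x ^ k) then (1 : ℂ) else 0) := by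
    funext x
    split_ifs with h
    · rw [mul_one, hϑ1 x ((key x).2 h)]
    · rw [mul_zero, hϑ0 x (fun h' => h ((key x).1 h'))]
  have hF := isClassFunction_indicator_isConj g
  refine ⟨fun χ => classInner ϑ χ, fun χ => ?_, ?_⟩
  · change IsIntegral ℤ (classInner ϑ χ)
    rw [h1]
    convert isIntegral_inner_crt hmn.dvd hcop hm hk hF (fun x => by
      split_ifs
      · exact isIntegral_one
      · exact isIntegral_zero) χ.2.isGen
  · rw [finsum_eq_sum_of_fintype]
    have h2 : IsClassFunction G ϑ := by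
      rw [h1]
      convert (hF.comp_pow k).map (fun z => n * z)
    exact h2.eq_sum

end Cfsg.Agent.S0875
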