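import Cfsg.Statements.S0876
import Cfsg.Agent.H5.Brauer2
import Cfsg.Agent.H8.Val

set_option autoImplicit false
open Cfsg Cfsg.Agent.H4 Cfsg.Agent.H5

namespace Cfsg.Agent.S0876

/-- Let G be a finite group, p a prime and M a maximal ideal of the ring of algebraic integers containing p. Let x, y be elements with p-parts a and b (so a⁻¹ * x and b⁻¹ * y are their p-regular parts). Then a⁻¹ * x and b⁻¹ * y are conjugate in G if and only if, for every irreducible character χ, the difference χ x - χ y lies in the local ideal at M. -/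
theorem result {G : Type*} [Group G] [Finite G] (p : ℕ) (M : Ideal Cfsg.AlgInt) (hM : Cfsg.IsPModular p M) (x y a b : G) (ha : Cfsg.IsPPart p x a) (hb : Cfsg.IsPPart p y b) : IsConj (a⁻¹ * x) (b⁻¹ * y) ↔ ∀ χ : Cfsg.IrrCharacter G, Cfsg.MemLocalIdeal M ((χ : G → ℂ) x - (χ : G → ℂ) y) := by
  classical
  have := Fintype.ofFinite G
  have hp := hM.1
  have := hM.2.1
  obtain ⟨x', rfl, h1, ⟨i, h2⟩, h3⟩ := ha
  obtain ⟨y', rfl, h4, ⟨j, h5⟩, h6⟩ := hb
  rw [inv_mul_cancel_left, inv_mul_cancel_left]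
  have key : ∀ χ : IrrCharacter G, MemLocalIdeal M ((χ : G → ℂ) (a * x') - (χ : G → ℂ) (b * y')) ↔
      H6.redC M ((χ : G → ℂ) x') = H6.redC M ((χ : G → ℂ) y') := fun χ => by
    rw [H6.memLocalIdeal_sub_iff (H8.char_mem χ.2.isGen _) (H8.char_mem χ.2.isGen _),
      H8.redC_char_mul hM χ.2.isCharacter h1 (k := i) (by rw [← h2, pow_orderOf_eq_one]),
      H8.redC_char_mul hM χ.2.isCharacter h4 (k := j) (by rw [← h5, pow_orderOf_eq_one])]
  simp only [key]
  refine ⟨fun h χ => by rw [χ.2.isClassFunction.of_isConj h], fun h => ?_⟩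
  by_contra hne
  obtain ⟨e, n, hn, hG⟩ := Nat.exists_eq_pow_mul_and_not_dvd (Nat.card_pos (α := G)).ne' p
    hp.one_lt.ne'
  have hcop : (p ^ e).Coprime n := (hp.coprime_iff_not_dvd.2 hn).pow_left e
  obtain ⟨k, hm, hk⟩ := exists_crt hcop
  have hF := isClassFunction_indicator_isConj x'
  have hcl := (hF.comp_pow k).map (fun z => n * z)
  have hint := fun χ : IrrCharacter G => isIntegral_inner_crt hG.dvd hcop hm hk hF (fun x => by
      split_ifs
      · exact isIntegral_one
      · exact isIntegral_zero) χ.2.isGen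
  have hpow : ∀ z : G, ¬ p ∣ orderOf z → z ^ k = z := fun z hz =>
    pow_eq_self_of_modEq hk (orderOf_dvd_iff_pow_eq_one.1 (Nat.Coprime.dvd_of_dvd_mul_left
      ((hp.coprime_iff_not_dvd.2 hz).symm.pow_right e) (hG ▸ orderOf_dvd_natCard z)))
  have e1 := congrArg (H6.redC M) (hcl.apply_eq_sum x')
  have e2 := congrArg (H6.redC M) (hcl.apply_eq_sum y')
  rw [H6.redC_sum _ (fun χ _ => (H6.locRing M).mul_mem (H6.mem_locRing_of_isIntegral (hint χ))
    (H8.char_mem χ.2.isGen _))] at e1 e2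
  simp only [H6.redC_mul (H6.mem_locRing_of_isIntegral (hint _)) (H8.char_mem (Subtype.prop _ :
    IsIrrCharacter G _).isGen _), h] at e1 e2
  rw [← e2, hpow _ h3, hpow _ h6, if_pos (IsConj.refl _), if_neg hne, mul_one, mul_zero,
    H6.redC_natCast, H6.redC_zero, H6.natCast_res_eq_zero_iff hM] at e1
  exact hn e1

end Cfsg.Agent.S0876
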