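import Cfsg.Statements.S0879
import Cfsg.Agent.H4.Zass3

set_option autoImplicit false
open Cfsg

namespace Cfsg.Agent.S0879

open Cfsg.Agent.H4


/-- Let G be a Zassenhaus group on the finite set Ω and E the stabilizer of two distinct points a, b. Then an element outside the normalizer of E conjugates no non-identity element of E into E, and E has index 2 in its normalizer. -/
theorem result {G Ω : Type*} [Group G] [Finite G] [MulAction G Ω] [Fintype Ω] (hZ : Cfsg.IsZassenhausGroup G Ω) {a b : Ω} (hab : a ≠ b) : (∀ g : G, g ∉ Subgroup.normalizer ((MulAction.stabilizer G a ⊓ MulAction.stabilizer G b : Subgroup G) : Set G) → ∀ x ∈ (MulAction.stabilizer G a ⊓ MulAction.stabilizer G b : Subgroup G), g * x * g⁻¹ ∈ (MulAction.stabilizer G a ⊓ MulAction.stabilizer G b : Subgroup G) → x = 1) ∧ ((MulAction.stabilizer G a ⊓ MulAction.stabilizer G b : Subgroup G).subgroupOf (Subgroup.normalizer ((MulAction.stabilizer G a ⊓ MulAction.stabilizer G b : Subgroup G) : Set G))).index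 = 2 := by
  have h := hZ.zt
  have h1 : ∀ g : G, g ∈ St2 G a b ∨ (g • a = b ∧ g • b = a) →
      g ∈ Subgroup.normalizer (St2 G a b : Set G) := fun g hg =>
    hg.elim (fun h => Subgroup.le_normalizer h) fun h => swap_mem_normalizer h.1 h.2
  refine ⟨fun g hg x hx h2 => by_contra fun h3 => hg (h1 g (h.fix_or_swap hab hx h3 h2)), ?_⟩
  obtain ⟨s, hs1, hs2⟩ := h.two a b b a hab hab.symm
  obtain ⟨⟨x, hx⟩, hx1⟩ := Subgroup.ne_bot_iff_exists_ne_one.1 (hZ.St2_ne_bot hab)
  refine Subgroup.index_eq_two_iff.2 ⟨⟨s, swap_mem_normalizer hs1 hs2⟩, fun g => ?_⟩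
  simp only [Subgroup.mem_subgroupOf, Subgroup.coe_mul]
  rcases h.fix_or_swap hab hx (fun h1 => hx1 (Subtype.ext h1))
    ((Subgroup.mem_normalizer_iff.1 g.2 x).1 hx) with h2 | h2
  · exact Or.inr ⟨h2, fun h3 => hab (h3.1.symm.trans (mul_swap hs1 hs2 h2).1)⟩
  · exact Or.inl ⟨swap_mul_swap h2.1 h2.2 hs1 hs2, fun h3 => hab (h3.1.symm.trans h2.1)⟩

end Cfsg.Agent.S0879
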