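import Cfsg.Statements.S0880
import Cfsg.Agent.H4.Zass5

set_option autoImplicit false
open Cfsg

namespace Cfsg.Agent.S0880

open Cfsg.Agent.H4


/-- Let G be a finite simple Zassenhaus group on Ω with n points whose two-point stabilizer E has odd order less than n - 2. Then there are two elements of G, each fixing no point of Ω, that are not conjugate. -/
theorem result {G Ω : Type*} [Group G] [Finite G] [MulAction G Ω] [Fintype Ω] (hZ : Cfsg.IsZassenhausGroup G Ω) {a b : Ω} (hab : a ≠ b) [IsSimpleGroup G] (hodd : Odd (Nat.card ↥(MulAction.stabilizer G a ⊓ MulAction.stabilizer G b : Subgroup G))) (hlt : Nat.card ↥(MulAction.stabilizer G a ⊓ MulAction.stabilizer G b : Subgroup G) < Fintype.card Ω - 2) : ∃ x y : G, (∀ c : Ω, x • c ≠ c) ∧ (∀ c : Ω, y • c ≠ c) ∧ ¬ IsConj x y := by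
  have := Fintype.ofFinite G
  have h := hZ.zo hab hodd
  have h1 := h.le_two_mul_wF hab
  have h2 := h.three_le hab
  have h3 : 1 < wF G Ω := by omega
  obtain ⟨⟨C, hC⟩, ⟨D, hD⟩, h4⟩ := (Finite.one_lt_card_iff_nontrivial.1 h3).exists_pair_ne
  obtain ⟨x, rfl⟩ := ConjClasses.exists_rep C
  obtain ⟨y, rfl⟩ := ConjClasses.exists_rep D
  exact ⟨x, y, hC x rfl, hD y rfl, fun h5 =>
    h4 (Subtype.ext (ConjClasses.mk_eq_mk_iff_isConj.2 h5))⟩

end Cfsg.Agent.S0880
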