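import Cfsg.Statements.S0884
import Cfsg.Agent.H4.Zass5

set_option autoImplicit false
open Cfsg

namespace Cfsg.Agent.S0884

open Cfsg.Agent.H4

open Cfsg.Agent.H22 Finset


/-- Let G be a finite simple Zassenhaus group on Ω with h + 1 points whose two-point stabilizer E has odd order e with 2e < h - 1, and let H be the subgroup of the stabilizer of a consisting of the identity and the elements fixing no point other than a (given here as a subgroup of the stabilizer of order one less than the number of points whose non-identity elements fix only a; it is the Frobenius kernel of the stabilizer). Then at least e conjugacy classes of G contain no element of H. -/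
theorem result {G Ω : Type*} [Group G] [Finite G] [MulAction G Ω] [Fintype Ω] (hZ : Cfsg.IsZassenhausGroup G Ω) {a b : Ω} (hab : a ≠ b) [IsSimpleGroup G] (h e : ℕ) (hh : Fintype.card Ω = h + 1) (he : Nat.card ↥(MulAction.stabilizer G a ⊓ MulAction.stabilizer G b : Subgroup G) = e) (hodd : Odd e) (hlt : 2 * e < h - 1) (H : Subgroup G) (hHa : H ≤ MulAction.stabilizer G a) (hHcard : Nat.card H + 1 = Fintype.card Ω) (hHfix : ∀ u ∈ H, u ≠ 1 → ∀ c : Ω, u • c = c → c = a) : e ≤ Nat.card {C : ConjClasses G // ∀ g : G, ConjClasses.mk g = C → g ∉ H} := by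
  classical
  have := Fintype.ofFinite G
  subst he
  have hz := hZ.zo hab hodd
  obtain rfl := hz.toZT.eq_K_of_card hab hHa (by rwa [Nat.card_eq_fintype_card (α := Ω)]) hHfix
  have h1 := hz.le_two_mul_wF hab
  have h2 := hz.card_filter_ne_one (St2 G a b)
  have h3 := card_le_mul_card_image (f := ConjClasses.mk) (fs {x | x ∈ St2 G a b ∧ x ≠ 1}) 2
    fun C hC => by
      obtain ⟨x, hx, rfl⟩ := mem_image.1 hC
      refine (card_le_card (t := {x, x⁻¹}) fun y hy => ?_).trans card_le_two
      obtain ⟨h4, h5⟩ := mem_filter.1 hy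
      obtain ⟨g, rfl⟩ := isConj_iff.1 (ConjClasses.mk_eq_mk_iff_isConj.1 h5).symm
      have h6 := mem_fs.1 hx
      rcases hz.fix_or_swap hab h6.1 h6.2 (mem_fs.1 h4).1 with h7 | h7
      · have := hz.comm hab
        have h8 : g * x = x * g := congrArg Subtype.val (mul_comm' (⟨g, h7⟩ : St2 G a b) ⟨x, h6.1⟩)
        simp [h8]
      · simp [hz.inv a b hab g h7.1 h7.2 x h6.1]
  have h4 : #(univ.filter fun C : ConjClasses G => ∀ g : G, ConjClasses.mk g = C → ∀ c : Ω, g • c ≠ c)
      + #((fs {x | x ∈ St2 G a b ∧ x ≠ 1}).image ConjClasses.mk) ≤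
      #(univ.filter fun C : ConjClasses G => ∀ g : G, ConjClasses.mk g = C → g ∉ hz.K a) := by
    rw [← card_union_of_disjoint (disjoint_left.2 fun C h4 h5 => by
      obtain ⟨x, hx, rfl⟩ := mem_image.1 h5
      exact (mem_filter.1 h4).2 x rfl a (mem_fs.1 hx).1.1)]
    refine card_le_card (union_subset (fun C hC => mem_filter.2 ⟨mem_univ _, fun g hg h5 =>
      (mem_filter.1 hC).2 g hg a (hz.K_smul h5)⟩) fun C hC => ?_)
    obtain ⟨x, hx, rfl⟩ := mem_image.1 hC
    refine mem_filter.2 ⟨mem_univ _, fun g hg h5 => ?_⟩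
    obtain ⟨y, rfl⟩ := isConj_iff.1 (ConjClasses.mk_eq_mk_iff_isConj.1 hg)
    have h6 := mem_fs.1 hx
    have h7 := hz.conj_mem_K h5 y
    exact hab ((hz.K_fix h7 h6.2 h6.1.1).trans (hz.K_fix h7 h6.2 h6.1.2).symm)
  rw [wF, Nat.card_eq_fintype_card (α := {C : ConjClasses G // _}), Fintype.card_subtype] at h1
  rw [Nat.card_eq_fintype_card (α := {C : ConjClasses G // _}), Fintype.card_subtype]
  change Nat.card (St2 G a b) ≤ _
  omega

end Cfsg.Agent.S0884
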