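import Cfsg.Statements.S0887
import Cfsg.Agent.H5.Cover

set_option autoImplicit false
open Cfsg Cfsg.Agent.H4 Cfsg.Agent.H5

namespace Cfsg.Agent.S0887

/-- Let N be a normal subgroup of the finite group G, χ an irreducible character of G and ϑ an irreducible character of N having nonzero inner product with the restriction of χ. If χ 1 = c and ϑ 1 = d as natural numbers, then d divides c and c / d divides the index of N. -/
theorem result {G : Type*} [Group G] [Fintype G] (N : Subgroup G) [N.Normal] [Fintype N] (χ : G → ℂ) (hχ : Cfsg.IsIrrCharacter G χ) (ϑ : N → ℂ) (hϑ : Cfsg.IsIrrCharacter N ϑ) (hcon : Cfsg.classInner (fun n : N => χ n) ϑ ≠ 0) (c d : ℕ) (hc : χ 1 = c) (hd : ϑ 1 = d) : d ∣ c ∧ c / d ∣ N.index := by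
  obtain ⟨e, h1, h2⟩ := (NEmb.ofNormal N).degree_dvd_index hϑ hχ hcon
  obtain ⟨d', hd', h3⟩ := hϑ.exists_degree
  rw [hd, Nat.cast_inj] at h3
  rw [hc, hd, ← Nat.cast_mul, Nat.cast_inj] at h2
  rw [NEmb.ofNormal_range] at h1
  subst h2 h3
  exact ⟨Dvd.intro_left _ rfl, by rwa [Nat.mul_div_cancel _ hd']⟩

end Cfsg.Agent.S0887
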