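import Cfsg.Statements.S0890
import Cfsg.Agent.H5.Cover
import Cfsg.Agent.H5.Clifford3
import Cfsg.Agent.H1.Cores
import Cfsg.Agent.H1.SylowIn
-- import your own Cfsg.Agent.* helpers here

set_option autoImplicit false
open Cfsg

namespace Cfsg.Agent.S0890

open Cfsg.Agent.H4 Cfsg.Agent.H5 Cfsg.Agent.H1

section
variable {G : Type*} [Group G] [Fintype G] {H : Subgroup G} {ϑ : H → ℂ}

theorem inner_ne (hϑ : IsIrrCharacter H ϑ) {X : Type*} [Group X] [Fintype X] (j : X →* H) :
    classInner (fun x => indFun H ϑ (j x)) (fun x => ϑ (j x)) ≠ 0 := by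
  haveI := Fintype.ofFinite H
  refine inner_comp_ne_zero j (χ := fun h : H => indFun H ϑ h) (ψ := ϑ)
    (hϑ.isCharacter.ind.restrict H) hϑ.isCharacter ?_
  rw [← inner_indFun_right H ϑ (indFun_isClassFunction H ϑ), Ne, classInner_self_eq_zero]
  exact indFun_ne_zero H hϑ.apply_one_ne_zero

theorem eq_of_homog (hϑ : IsIrrCharacter H ϑ) {X : Type*} [Group X] [Fintype X] (j : X →* H)
    (hj : IsIrrCharacter X (fun x => ϑ (j x))) {φ : X → ℂ} (hφ : IsIrrCharacter X φ) {e : ℂ}
    (h : (fun x => indFun H ϑ (j x)) = e • φ) (x : X) :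
    indFun H ϑ (j x) = H.index * ϑ (j x) := by
  have h1 := inner_ne hϑ j
  rw [h, classInner_smul_left] at h1
  have h2 := hφ.eq_of_classInner_ne_zero hj (right_ne_zero_of_mul h1)
  subst h2
  have h3 := congrFun h 1
  simp only [map_one, OneMemClass.coe_one, indFun_one, Pi.smul_apply, smul_eq_mul] at h3
  rw [mul_right_cancel₀ hϑ.apply_one_ne_zero h3]
  exact congrFun h x

theorem eq_of_inner (hϑ : IsIrrCharacter H ϑ) {X : Type*} [Group X] [Fintype X] (j : X →* H)
    (hj : IsIrrCharacter X (fun x => ϑ (j x)))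
    (h : classInner (fun x => indFun H ϑ (j x)) (fun x => ϑ (j x)) = H.index) (x : X) :
    indFun H ϑ (j x) = H.index * ϑ (j x) := by
  have h1 := ((hϑ.isCharacter.ind.restrict H).comp j).sub_smul_irr hj
  have h2 := h1.eq_zero_of_apply_one (by
    simp only [Pi.sub_apply, Pi.smul_apply, smul_eq_mul, h, map_one, OneMemClass.coe_one,
      indFun_one, sub_self])
  have h3 := congrFun h2 x
  simp only [Pi.sub_apply, Pi.smul_apply, smul_eq_mul, h, Pi.zero_apply] at h3
  exact sub_eq_zero.1 h3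

/-- The inclusion of `H ∩ M` into `H`. -/
def incl (H M : Subgroup G) : H.subgroupOf M →* H :=
  { toFun := fun x => ⟨x.1.1, x.2⟩, map_one' := rfl, map_mul' := fun _ _ => rfl }

theorem inner_res (hϑ : IsIrrCharacter H ϑ) (M : Subgroup G) [M.Normal] [Fintype M]
    [Fintype (H.subgroupOf M)] (hMH : M ⊔ H = ⊤) :
    classInner (fun m : M => indFun H ϑ m) (fun m : M => indFun H ϑ m) =
      classInner (fun x => indFun H ϑ (incl H M x)) (fun x => ϑ (incl H M x)) := by
  have h1 : (fun m : M => indFun H ϑ m) = indFun (H.subgroupOf M) (fun x => ϑ (incl H M x)) := by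
    funext m
    refine mackey_of_mul_eq H M (fun x => ?_) hϑ.isClassFunction m
    obtain ⟨a, ha, b, hb, h⟩ := (mem_sup_of_le_normalizer_left (N := M) (H := H)
      Subgroup.le_normalizer_of_normal).1 (hMH ▸ Subgroup.mem_top x)
    exact ⟨a, ha, b, hb, h.symm⟩
  conv_lhs => arg 2; rw [h1]
  exact inner_indFun_right _ _ ((indFun_isClassFunction H ϑ).restrict M)

theorem inner_smul_smul {X : Type*} [Group X] [Fintype X] {φ : X → ℂ} (hφ : IsIrrCharacter X φ)
    (e : ℕ) : classInner ((e : ℂ) • φ) ((e : ℂ) • φ) = (e ^ 2 : ℕ) := by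
  rw [classInner_smul_left, classInner_smul_right, hφ.classInner_self]
  simp [sq]

end


/-- Let L ≤ H < G with L normal in G, H a maximal subgroup and G / L solvable. Let ϑ be an irreducible character of H whose restriction to L is irreducible and whose induction χ to G is irreducible. Then there is a normal subgroup M of G containing L such that the restriction of χ to M is not a natural-number multiple of a single irreducible character of M. -/
theorem result {G : Type*} [Group G] [Fintype G] (L H : Subgroup G) [L.Normal] (hLH : L ≤ H) (hmax : IsCoatom H) (hsolv : Group.IsSolvable (G ⧸ L)) (ϑ : H → ℂ) (hϑ : Cfsg.IsIrrCharacter H ϑ) (hϑL : Cfsg.IsIrrCharacter L (fun x : L => ϑ ⟨(x : G), hLH x.2⟩)) (hind : Cfsg.IsIrrCharacter G (Cfsg.indFun H ϑ)) : ∃ M : Subgroup G, M.Normal ∧ L ≤ M ∧ ¬ ∃ (φ : M → ℂ) (e : ℕ), Cfsg.IsIrrCharacter M φ ∧ (fun m : M => Cfsg.indFun H ϑ m) = (e : ℂ) • φ := by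
  classical
  by_contra hcon
  push Not at hcon
  set L₀ := H.normalCore with hL₀
  have hLL : L ≤ L₀ := Subgroup.normal_le_normalCore.2 hLH
  have hLH₀ : L₀ ≤ H := H.normalCore_le
  -- irreducibility of restrictions
  have hres : ∀ {X : Type _} [Group X] [Finite X] (j : X →* H), (∀ l : L, ∃ x, (j x : G) = l) →
      Function.Injective j → IsIrrCharacter X (fun x => ϑ (j x)) := by
    intro X _ _ j hj hinj
    choose g hg using hj
    let i : L →* X := MonoidHom.mk' g (fun a b => hinj (Subtype.ext (by simp [hg])))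
    refine (hϑ.isCharacter.comp j).isIrr_of_comp i ?_
    convert hϑL using 3 with l
    exact Subtype.ext (hg l)
  have hinc : ∀ M : Subgroup G, L ≤ M → IsIrrCharacter (H.subgroupOf M) (fun x => ϑ (incl H M x)) :=
    fun M hM => hres _ (fun l => ⟨⟨⟨l, hM l.2⟩, hLH l.2⟩, rfl⟩)
      (fun x y e => Subtype.ext (Subtype.ext (congrArg (fun z : H => (z : G)) e)))
  have hsup : ∀ M : Subgroup G, ¬ M ≤ H → M ⊔ H = ⊤ := fun M hM =>
    hmax.2 _ (lt_of_le_of_ne le_sup_right (fun e => hM (e ▸ le_sup_left)))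
  have hidx : ∀ M : Subgroup G, M.Normal → ¬ M ≤ H → H.relIndex M = H.index := by
    intro M _ hM
    have h1 := card_sup_mul_card_inf (N := M) (H := H) Subgroup.le_normalizer_of_normal
    rw [hsup M hM, Subgroup.card_top, ← H.card_mul_index, inf_comm, ← card_inf_mul_relIndex H M] at h1
    apply Nat.eq_of_mul_eq_mul_left (Nat.mul_pos (Nat.card_pos (α := H)) (Nat.card_pos (α := ↥(H ⊓ M))))
    linarith
  -- the groups `K` and `M`
  have hsolv₀ : Group.IsSolvable (G ⧸ L₀) :=
    solvable_of_surjective (f := QuotientGroup.map L L₀ (MonoidHom.id G) hLL)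
      (QuotientGroup.map_surjective_of_surjective _ _ (MonoidHom.id G) (QuotientGroup.mk'_surjective L₀) _)
  haveI : Nontrivial (G ⧸ L₀) := QuotientGroup.nontrivial_iff.2 (fun h => hmax.1 (eq_top_iff.2 (h ▸ hLH₀)))
  obtain ⟨p, hp, hpc⟩ := exists_pCore_ne_bot hsolv₀
  haveI : Fact p.Prime := ⟨hp⟩
  set K := (pCore p (G ⧸ L₀)).comap (QuotientGroup.mk' L₀) with hK
  have hLK : L₀ ≤ K := fun x hx => by
    rw [hK, Subgroup.mem_comap, QuotientGroup.mk'_apply, (QuotientGroup.eq_one_iff x).2 hx]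
    exact one_mem _
  have hKH : ¬ K ≤ H := by
    intro h
    apply hpc
    rw [eq_bot_iff]
    intro y hy
    obtain ⟨x, rfl⟩ := QuotientGroup.mk'_surjective L₀ y
    exact (QuotientGroup.eq_one_iff x).2 (Subgroup.normal_le_normalCore.2 h hy)
  have hKmap : K.map (QuotientGroup.mk' L₀) = pCore p (G ⧸ L₀) :=
    Subgroup.map_comap_eq_self_of_surjective (QuotientGroup.mk'_surjective L₀) _
  have hKL : K ⊓ H = L₀ := by
    refine le_antisymm ?_ (le_inf hLK hLH₀)
    have h1 : (K ⊓ H).map (QuotientGroup.mk' L₀) < pCore p (G ⧸ L₀) := by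
      refine lt_of_le_of_ne (hKmap ▸ Subgroup.map_mono inf_le_left) fun e => hKH fun x hx => ?_
      obtain ⟨y, hy, hxy⟩ : QuotientGroup.mk' L₀ x ∈ (K ⊓ H).map (QuotientGroup.mk' L₀) := e ▸ hx
      have := hLH₀ (QuotientGroup.eq.1 hxy)
      simpa using H.mul_mem hy.2 this
    have h2 := lt_normalizer_inf_of_isNilpotent (isPGroup_pCore p _).isNilpotent h1
    obtain ⟨y, hy, hy'⟩ := SetLike.exists_of_lt h2
    obtain ⟨x, rfl⟩ := QuotientGroup.mk'_surjective L₀ y
    have hx : x ∈ Subgroup.normalizer ((K ⊓ H : Subgroup G) : Set G) := by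
      have h3 := Subgroup.comap_normalizer_eq_of_surjective ((K ⊓ H).map (QuotientGroup.mk' L₀))
        (QuotientGroup.mk'_surjective L₀)
      rw [Subgroup.comap_map_eq_self (by rw [QuotientGroup.ker_mk']; exact le_inf hLK hLH₀)] at h3
      rw [← h3]; exact hy.1
    have h4 : Subgroup.normalizer ((K ⊓ H : Subgroup G) : Set G) = ⊤ := by
      refine hmax.2 _ (lt_of_le_of_ne (le_normalizer_inf Subgroup.le_normalizer_of_normal
        Subgroup.le_normalizer) fun e => hy' ⟨x, ⟨hy.2, e ▸ hx⟩, rfl⟩)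
    haveI := Subgroup.normalizer_eq_top_iff.1 h4
    exact Subgroup.normal_le_normalCore.2 inf_le_right
  obtain ⟨b, hb⟩ : ∃ b, H.index = p ^ b := by
    obtain ⟨b, hb⟩ := IsPGroup.iff_card.1 (isPGroup_pCore p (G ⧸ L₀))
    refine ⟨b, ?_⟩
    have h1 := card_comap_mk' L₀ (pCore p (G ⧸ L₀))
    rw [← hK, ← card_inf_mul_relIndex H K, inf_comm, hKL, hidx K inferInstance hKH, hb] at h1
    exact Nat.eq_of_mul_eq_mul_left Nat.card_pos h1
  -- on `L₀`
  obtain ⟨φ₀, e₀, hφ₀, he₀⟩ := hcon L₀ inferInstance hLL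
  have hirr₀ : IsIrrCharacter L₀ (fun x => ϑ (Subgroup.inclusion hLH₀ x)) :=
    hres _ (fun l => ⟨⟨l, hLL l.2⟩, rfl⟩) (Subgroup.inclusion_injective _)
  have h0 := eq_of_homog hϑ (Subgroup.inclusion hLH₀) hirr₀ hφ₀ he₀
  -- on `K`
  obtain ⟨ψ, e, hψ, he⟩ := hcon K inferInstance (hLL.trans hLK)
  have he2 : e ^ 2 = H.index := by
    have h1 := inner_res hϑ K (hsup K hKH)
    have h2 : (fun x => indFun H ϑ (incl H K x)) = (H.index : ℂ) • fun x => ϑ (incl H K x) := by
      funext x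
      exact h0 ⟨x.1.1, hKL ▸ ⟨x.1.2, x.2⟩⟩
    rw [he, inner_smul_smul hψ, h2, classInner_smul_left, (hinc K (hLL.trans hLK)).classInner_self,
      mul_one] at h1
    exact_mod_cast h1
  have hn1 : H.index ≠ 1 := fun h => hmax.1 (Subgroup.index_eq_one.1 h)
  have hn0 : H.index ≠ 0 := Subgroup.index_ne_zero_of_finite
  by_cases hKt : K = ⊤
  · have h1 : IsIrrCharacter K (fun x : K => indFun H ϑ x) :=
      hind.comp_of_surjective K.subtype (fun x => ⟨⟨x, hKt ▸ Subgroup.mem_top x⟩, rfl⟩)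
    have h2 := h1.classInner_self
    rw [he, inner_smul_smul hψ, he2] at h2
    exact hn1 (by exact_mod_cast h2)
  have hsolvK : Group.IsSolvable (G ⧸ K) :=
    solvable_of_surjective (f := QuotientGroup.map L₀ K (MonoidHom.id G) hLK)
      (QuotientGroup.map_surjective_of_surjective _ _ (MonoidHom.id G) (QuotientGroup.mk'_surjective K) _)
  haveI : Nontrivial (G ⧸ K) := QuotientGroup.nontrivial_iff.2 hKt
  obtain ⟨q, hq, hqc⟩ := exists_pCore_ne_bot hsolvK
  haveI : Fact q.Prime := ⟨hq⟩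
  set M := (pCore q (G ⧸ K)).comap (QuotientGroup.mk' K) with hM
  have hKM : K ≤ M := fun x hx => by
    rw [hM, Subgroup.mem_comap, QuotientGroup.mk'_apply, (QuotientGroup.eq_one_iff x).2 hx]
    exact one_mem _
  have hMK : ¬ M ≤ K := by
    intro h
    apply hqc
    rw [eq_bot_iff]
    intro y hy
    obtain ⟨x, rfl⟩ := QuotientGroup.mk'_surjective K y
    exact (QuotientGroup.eq_one_iff x).2 (h hy)
  obtain ⟨a, ha⟩ : ∃ a, K.relIndex M = q ^ a := by
    obtain ⟨a, ha⟩ := IsPGroup.iff_card.1 (isPGroup_pCore q (G ⧸ K))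
    refine ⟨a, ?_⟩
    have h1 := card_comap_mk' K (pCore q (G ⧸ K))
    rw [← hM, ← card_mul_relIndex hKM, ha] at h1
    exact Nat.eq_of_mul_eq_mul_left Nat.card_pos h1
  have hpq : p ≠ q := by
    rintro rfl
    apply hMK
    have h1 : M.map (QuotientGroup.mk' L₀) ≤ pCore p (G ⧸ L₀) := by
      haveI : (M.map (QuotientGroup.mk' L₀)).Normal :=
        Subgroup.Normal.map inferInstance _ (QuotientGroup.mk'_surjective L₀)
      refine le_pCore (IsPGroup.of_card (n := b + a) ?_)
      have h2 := card_map_mul_card_ker_inf (QuotientGroup.mk' L₀) M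
      rw [QuotientGroup.ker_mk', inf_eq_left.2 (hLK.trans hKM), ← card_mul_relIndex hKM, ha,
        ← card_inf_mul_relIndex H K, inf_comm, hKL, hidx K inferInstance hKH, hb] at h2
      apply Nat.eq_of_mul_eq_mul_right (Nat.card_pos (α := L₀))
      rw [h2]; ring
    exact Subgroup.map_le_iff_le_comap.1 h1
  have hMH : ¬ M ≤ H := fun h => hKH (hKM.trans h)
  obtain ⟨ξ, f, hξ, hf⟩ := hcon M inferInstance (hLL.trans (hLK.trans hKM))
  have he0 : (e : ℂ) ≠ 0 := by
    intro h
    rw [Nat.cast_eq_zero.1 h] at he2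
    exact hn0 he2.symm
  have hrel : ∀ k : K, (f : ℂ) * ξ ((NEmb.ofLeNormal hKM).f k) = e * ψ k := fun k =>
    (congrFun hf ⟨k, hKM k.2⟩).symm.trans (congrFun he k)
  have hfe : f = e := by
    have h1 : classInner (fun k => ξ ((NEmb.ofLeNormal hKM).f k)) ψ ≠ 0 := by
      intro h
      have h2 : ((f : ℂ) • fun k => ξ ((NEmb.ofLeNormal hKM).f k)) = (e : ℂ) • ψ := funext hrel
      have h3 := congrArg (fun η => classInner η ψ) h2
      simp only [classInner_smul_left, h, hψ.classInner_self, mul_zero, mul_one] at h3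
      exact he0 h3.symm
    obtain ⟨t, ht, ht'⟩ := (NEmb.ofLeNormal hKM).degree_dvd_index hψ hξ h1
    rw [NEmb.ofLeNormal_index, ha] at ht
    have h2 := hrel 1
    rw [map_one, ht', ← mul_assoc] at h2
    have h3 : f * t = e := by exact_mod_cast mul_right_cancel₀ hψ.apply_one_ne_zero h2
    have h4 : t ∣ p ^ b := by
      rw [← hb, ← he2, ← h3]
      exact (Dvd.intro_left f rfl).trans (dvd_pow_self _ two_ne_zero)
    have h5 : t = 1 := Nat.eq_one_of_dvd_coprimes
      (Nat.coprime_pow_primes b a hp hq hpq) h4 ht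
    rw [← h3, h5, mul_one]
  subst hfe
  have hLM : L ≤ M := hLL.trans (hLK.trans hKM)
  have h1 := inner_res hϑ M (hsup M hMH)
  have h2 : classInner (fun m : M => indFun H ϑ m) (fun m : M => indFun H ϑ m) = H.index := by
    rw [hf, inner_smul_smul hξ, he2]
  rw [h2] at h1
  have h3 := eq_of_inner hϑ (incl H M) (hinc M hLM) h1.symm
  have h4 : ∀ m : M, m ∉ H.subgroupOf M → indFun H ϑ m = 0 := by
    refine (classInner_restrict_self_eq_iff (fun m : M => indFun H ϑ m) (H.subgroupOf M)).1 ?_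
    have h5 : (fun x : H.subgroupOf M => indFun H ϑ x.1) =
        (H.index : ℂ) • fun x => ϑ (incl H M x) := funext h3
    rw [h5, inner_smul_smul (hinc M hLM), h2]
    change _ = (H.relIndex M : ℂ) * _
    rw [hidx M inferInstance hMH]
    push_cast; ring
  -- `ϑ` vanishes on `(H ∩ M) \ L₀`
  let V : Subgroup (H.subgroupOf M) := (L₀.subgroupOf M).subgroupOf _
  have h5 : ∀ x : H.subgroupOf M, x ∉ V → ϑ (incl H M x) = 0 := by
    intro x hx
    obtain ⟨g, hg⟩ : ∃ g : G, g * x.1.1 * g⁻¹ ∉ H := by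
      by_contra! h
      exact hx h
    have h6 := h4 ⟨_, (inferInstance : M.Normal).conj_mem _ x.1.2 g⟩ hg
    rw [indFun_isClassFunction H ϑ] at h6
    have h7 := h3 x
    change indFun H ϑ x.1.1 = _ at h7
    rw [h6] at h7
    exact (mul_eq_zero.1 h7.symm).resolve_left (index_ne_zero_C H)
  have h6 := (classInner_restrict_self_eq_iff (fun x => ϑ (incl H M x)) V).2 h5
  have h7 : IsIrrCharacter V (fun x => ϑ (((incl H M).comp V.subtype) x)) :=
    hres _ (fun l => ⟨⟨⟨⟨l, hLM l.2⟩, hLH l.2⟩, hLL l.2⟩, rfl⟩)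
      (fun x y e => Subtype.ext (Subtype.ext (Subtype.ext (congrArg (fun z : H => (z : G)) e))))
  rw [(hinc M hLM).classInner_self, mul_one] at h6
  have h8 : V = ⊤ := by
    rw [← Subgroup.index_eq_one]
    have h9 := h7.classInner_self
    exact_mod_cast h6.symm.trans h9
  apply hMK
  intro m hm
  obtain ⟨k, hk, h, hh, rfl⟩ := (mem_sup_of_le_normalizer_left (N := K) (H := H)
      Subgroup.le_normalizer_of_normal).1 (hsup K hKH ▸ Subgroup.mem_top m)
  have h9 : h ∈ M := by simpa using M.mul_mem (M.inv_mem (hKM hk)) hm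
  have h10 : (⟨⟨h, h9⟩, hh⟩ : H.subgroupOf M) ∈ V := h8 ▸ Subgroup.mem_top _
  exact K.mul_mem hk (hLK h10)

end Cfsg.Agent.S0890
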