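import Cfsg.Statements.S0891
import Cfsg.Agent.H17.AltCover

set_option autoImplicit false
open Cfsg

namespace Cfsg.Agent.S0891

open H17 Equiv in

/-- For every n ≥ 4 there are a finite group Γ and a central element z of Γ of order 2 lying in the commutator subgroup of Γ such that the quotient of Γ by the (normal) subgroup generated by z is isomorphic to the alternating group on n letters. -/
theorem result (n : ℕ) (hn : 4 ≤ n) : ∃ (Γ : Type) (_ : Group Γ) (_ : Finite Γ) (z : Γ) (hz : z ∈ Subgroup.center Γ), orderOf z = 2 ∧ z ∈ commutator Γ ∧ ∃ _ : (Subgroup.zpowers z).Normal, Nonempty (Γ ⧸ Subgroup.zpowers z ≃* alternatingGroup (Fin n)) := by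
  obtain ⟨m, rfl⟩ : ∃ m, n = m + 4 := ⟨n - 4, by omega⟩
  have hk : ∀ x, πA (m + 4) x = 1 ↔ x ∈ Subgroup.zpowers (zA (m + 4)) := fun x => by
    obtain ⟨u, -, hu⟩ := (Nat.card_eq_two_iff' (1 : (πA (m + 4)).ker)).1 card_ker_πA
    refine ⟨fun h => ?_, fun h => Subgroup.zpowers_le_of_mem (H := (πA (m + 4)).ker) rfl h⟩
    by_cases h1 : x = 1
    · exact h1 ▸ one_mem _
    · rw [show x = zA (m + 4) from congrArg Subtype.val ((hu ⟨x, h⟩ fun e => h1 (congrArg Subtype.val e)).trans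
        (hu ⟨zA _, rfl⟩ fun e => zA_ne (congrArg Subtype.val e)).symm)]
      exact Subgroup.mem_zpowers _
  have hk' : Subgroup.zpowers (zA (m + 4)) = (πA (m + 4)).ker := Subgroup.ext fun x => (hk x).symm
  have hc : zA (m + 4) ∈ Subgroup.center (PinA (m + 4)) := le_center_of_card_two card_ker_πA rfl
  have hN : (Subgroup.zpowers (zA (m + 4))).Normal := hk' ▸ inferInstance
  refine ⟨PinA (m + 4), inferInstance, inferInstance, zA _, hc, orderOf_eq_prime zA_sq zA_ne, ?_,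
    hN, ⟨(QuotientGroup.quotientMulEquivOfEq hk').trans
      (QuotientGroup.quotientKerEquivOfSurjective _ πA_surj)⟩⟩
  obtain ⟨a, b, c, d, h1, h2, h3, h4, h5, h6⟩ : ∃ a b c d : Fin (m + 4),
      a ≠ b ∧ a ≠ c ∧ a ≠ d ∧ b ≠ c ∧ b ≠ d ∧ c ≠ d :=
    ⟨⟨0, by omega⟩, ⟨1, by omega⟩, ⟨2, by omega⟩, ⟨3, by omega⟩, by simp⟩
  have e1 : tt7 h1 h6 ^ 2 = zA _ := tt7_sq _ _ (by simp [v7, *]) (by
    ext z; simp only [sq, Perm.mul_apply, swap_apply_def, Perm.one_apply]; grind)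
  have e2 : πA _ ((tt7 h1 h2 * tt7 h2 h5 * (tt7 h1 h2)⁻¹ * (tt7 h2 h5)⁻¹)⁻¹ * tt7 h1 h6) = 1 := by
    rw [map_mul, map_inv, inv_mul_eq_one, Subtype.ext_iff]
    simp only [map_mul, map_inv, Subgroup.coe_mul, Subgroup.coe_inv, πA_tt7, mul_inv_rev, swap_inv]
    ext z; simp only [Perm.mul_apply, swap_apply_def]; grind
  have e3 : tt7 h1 h2 * tt7 h2 h5 * (tt7 h1 h2)⁻¹ * (tt7 h2 h5)⁻¹ ∈ commutator (PinA (m + 4)) :=
    Subgroup.commutator_mem_commutator (Subgroup.mem_top _) (Subgroup.mem_top _)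
  generalize tt7 h1 h2 * tt7 h2 h5 * (tt7 h1 h2)⁻¹ * (tt7 h2 h5)⁻¹ = g at e2 e3
  have e4 : Commute g (g⁻¹ * tt7 h1 h6) :=
    Subgroup.mem_center_iff.1 (le_center_of_card_two card_ker_πA e2) g
  obtain ⟨k, e5⟩ := (hk _).1 e2
  rw [← e1, ← mul_inv_cancel_left g (tt7 h1 h6), e4.mul_pow, ← e5, ← zpow_natCast (_ ^ k), ← zpow_mul,
    mul_comm k, zpow_mul, zpow_natCast, zA_sq, one_zpow, mul_one]
  exact pow_mem e3 2

end Cfsg.Agent.S0891
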