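import Cfsg.Statements.S0893
import Cfsg.Agent.H6.Xsp
-- import your own Cfsg.Agent.* helpers here

set_option autoImplicit false
open Cfsg

namespace Cfsg.Agent.S0893

open Cfsg.Agent.H4 Cfsg.Agent.H5 Cfsg.Agent.H6


/-- Let P be an extraspecial p-group of order p ^ (2 * n + 1), A an abelian subgroup of order p ^ (n + 1), and λ a character of A of degree 1 that is not identically 1 on the elements of A lying in the centre of P. Then the function induced from λ to P is an irreducible character of P and vanishes at every element outside the centre. -/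
theorem result {P : Type*} [Group P] [Fintype P] (p n : ℕ) [Fact p.Prime] (hP : Cfsg.IsExtraspecial p P) (hcard : Nat.card P = p ^ (2 * n + 1)) (A : Subgroup P) (hab : ∀ a ∈ A, ∀ b ∈ A, a * b = b * a) (hA : Nat.card A = p ^ (n + 1)) (lam : A → ℂ) (hlam : Cfsg.IsCharacter A lam ∧ lam 1 = 1) (hZ : ∃ a : A, (a : P) ∈ Subgroup.center P ∧ lam a ≠ 1) : Cfsg.IsIrrCharacter P (Cfsg.indFun A lam) ∧ ∀ x : P, x ∉ Subgroup.center P → Cfsg.indFun A lam x = 0 := by
  classical
  have hp : p.Prime := Fact.out
  have hirr := hlam.1.isIrr_of_apply_one hlam.2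
  obtain ⟨χ, hχ, hin⟩ := exists_irr_over A hirr
  obtain ⟨a, ha, hla⟩ := hZ
  have hk : ¬ Subgroup.center P ≤ charKer χ := by
    intro h
    have h1 := (hχ.isCharacter.restrict A).charKer_le_of_constituent hirr hin
    have h2 : a ∈ charKer (fun x : A => χ x) :=
      (hχ.isCharacter.restrict A).mem_charKer.2 (apply_of_mem_charKer (h ha))
    exact hla ((apply_of_mem_charKer (h1 h2)).trans hlam.2)
  obtain ⟨h1, h2⟩ := xsp_degree hP hcard hχ hk
  have hidx : A.index = p ^ n := by
    have h := A.card_mul_index
    rw [hA, hcard, show 2 * n + 1 = (n + 1) + n by ring, pow_add p (n + 1)] at h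
    exact Nat.eq_of_mul_eq_mul_left (pow_pos hp.pos _) h
  have h3 : indFun A lam = χ := by
    refine eq_of_constituent_of_degree_le hlam.1.ind hχ ?_ ?_
    · rw [inner_indFun_left A lam hχ.isClassFunction, Ne, classInner_eq_zero_symm]
      exact hin
    · rw [indFun_one, hidx, hlam.2, h1]; push_cast; simp
  rw [h3]
  exact ⟨hχ, h2⟩

end Cfsg.Agent.S0893
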