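import Cfsg.Statements.S0894
import Cfsg.Agent.H6.Xsp
-- import your own Cfsg.Agent.* helpers here

set_option autoImplicit false
open Cfsg

namespace Cfsg.Agent.S0894

open Cfsg.Agent.H4 Cfsg.Agent.H5 Cfsg.Agent.H6


/-- Let P be an extraspecial p-group of order p ^ (2 * n + 1). Then every irreducible character of P has degree 1 or p ^ n, and exactly p - 1 of them have degree p ^ n. -/
theorem result {P : Type*} [Group P] [Finite P] (p n : ℕ) [Fact p.Prime] (hP : Cfsg.IsExtraspecial p P) (hcard : Nat.card P = p ^ (2 * n + 1)) : (∀ χ : Cfsg.IrrCharacter P, (χ : P → ℂ) 1 = 1 ∨ (χ : P → ℂ) 1 = (p : ℂ) ^ n) ∧ Nat.card {χ : Cfsg.IrrCharacter P // (χ : P → ℂ) 1 = (p : ℂ) ^ n} = p - 1 := by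
  classical
  have hp : p.Prime := Fact.out
  have hn := xsp_pos hP hcard
  have h1 : ∀ χ : IrrCharacter P, (χ : P → ℂ) 1 = 1 ∨ (χ : P → ℂ) 1 = (p : ℂ) ^ n := by
    intro χ
    by_cases h : Subgroup.center P ≤ charKer χ.1
    · left
      rw [← hP.1.2.2] at h
      exact χ.2.commutator_le_charKer_iff.1 h
    · right; exact (xsp_degree hP hcard χ.2 h).1
  refine ⟨h1, ?_⟩
  have hne : (1 : ℂ) ≠ (p : ℂ) ^ n := by
    have : 1 < p ^ n := Nat.one_lt_pow hn.ne' hp.one_lt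
    exact_mod_cast this.ne
  have h2 := sum_irr_degree_sq (G := P)
  have h3 := card_irr_degree_one (G := P)
  rw [hP.1.2.2, xsp_index hP hcard] at h3
  have h4 : ∀ χ : IrrCharacter P, (χ : P → ℂ) 1 ^ 2 =
      (if (χ : P → ℂ) 1 = 1 then 1 else 0) +
        (p : ℂ) ^ (2 * n) * (if (χ : P → ℂ) 1 = (p : ℂ) ^ n then 1 else 0) := by
    intro χ
    rcases h1 χ with h | h
    · rw [h, if_pos rfl, if_neg hne]; simp
    · rw [h, if_neg hne.symm, if_pos rfl]; ring
  rw [Finset.sum_congr rfl fun χ _ => h4 χ, Finset.sum_add_distrib, ← Finset.mul_sum,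
    ← natCard_subtype_eq_sum, ← natCard_subtype_eq_sum, h3, hcard] at h2
  set k := Nat.card {χ : IrrCharacter P // (χ : P → ℂ) 1 = (p : ℂ) ^ n}
  have h5 : p ^ (2 * n) * (1 + k) = p ^ (2 * n) * p := by
    have : ((p ^ (2 * n) * (1 + k) : ℕ) : ℂ) = (p ^ (2 * n) * p : ℕ) := by
      push_cast at h2 ⊢; linear_combination h2
    exact_mod_cast this
  have := Nat.eq_of_mul_eq_mul_left (pow_pos hp.pos _) h5
  omega

end Cfsg.Agent.S0894
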