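import Cfsg.Statements.S0897
import Cfsg.Agent.H5.Brauer2

set_option autoImplicit false
open Cfsg Cfsg.Agent.H4 Cfsg.Agent.H5

namespace Cfsg.Agent.S0897

/-- Let N be a normal subgroup of the finite group G with the index of N a power of the prime p, and P a Sylow p-subgroup of G such that P ⊓ N lies in the centre of P and every character of degree 1 of P ⊓ N is the restriction of a character of degree 1 of P. Then every irreducible character of N invariant under conjugation by G is the restriction of an irreducible character of G. -/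
theorem result {G : Type*} [Group G] [Fintype G] (p : ℕ) [Fact p.Prime] (N : Subgroup G) [hN : N.Normal] (hind : ∃ k : ℕ, N.index = p ^ k) (P : Sylow p G) (hcent : ∀ x ∈ (P : Subgroup G) ⊓ N, ∀ y ∈ (P : Subgroup G), x * y = y * x) (hlin : ∀ lam : ↥((P : Subgroup G) ⊓ N) → ℂ, Cfsg.IsCharacter ↥((P : Subgroup G) ⊓ N) lam → lam 1 = 1 → ∃ μ : ↥(P : Subgroup G) → ℂ, Cfsg.IsCharacter ↥(P : Subgroup G) μ ∧ μ 1 = 1 ∧ ∀ x : ↥((P : Subgroup G) ⊓ N), μ ⟨(x : G), x.2.1⟩ = lam x) (ϑ : N → ℂ) (hϑ : Cfsg.IsIrrCharacter N ϑ) (hinv : ∀ (g : G) (n : N), ϑ ⟨g * n * g⁻¹, hN.conj_mem (n : G) n.2 g⟩ = ϑ n) : ∃ χ : G → ℂ, Cfsg.IsIrrCharacter G χ ∧ ∀ n : N, χ n = ϑ n := by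
  have hp : p.Prime := Fact.out
  obtain ⟨k, hk⟩ := hind
  obtain ⟨E, _, φ, ⟨c, hc, hcop, l, hl⟩, h2, h3, h4, m, h5, h6⟩ :=
    exists_elementary_dade hp N hk hϑ hinv
  set C := Subgroup.zpowers c
  have hCc : C ≤ Subgroup.center E := Subgroup.zpowers_le.2 hc
  have hCn : C.Normal := ⟨fun a ha g => by
    rw [Subgroup.mem_center_iff.1 (hCc ha) g]; simpa using ha⟩
  have hCN : ∀ a ∈ C, (a : G) ∈ N := fun a ha => mem_of_pow_mem_of_coprime (N.pow_index_mem a) (by
    rw [hk, Subgroup.orderOf_coe]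
    exact (hcop.coprime_dvd_left (orderOf_dvd_of_mem_zpowers ha)).pow_right k)
  obtain ⟨Q⟩ : Nonempty (Sylow p E) := inferInstance
  have hCp : (Nat.card C).Coprime p := by rwa [Nat.card_zpowers]
  have hCQ : C.IsComplement' Q :=
    H3.isComplement'_of_not_dvd (hp.coprime_iff_not_dvd.1 hCp.symm) (IsPGroup.of_card hl) Q
  obtain ⟨r, hr⟩ := exists_proj_of_isComplement' hCQ
  obtain ⟨g, -, hg⟩ := (H3.sylowIn_top P).exists_conj_le (Q.isPGroup'.map E.subtype) le_top
  rw [H3.conj_smul_le_iff] at hg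
  let cq : (Q : Subgroup E) →* (P : Subgroup G) := ((MulAut.conj g).toMonoidHom.comp
    (E.subtype.comp (Q : Subgroup E).subtype)).codRestrict _ fun x => hg _ ⟨x, x.2, rfl⟩
  have hcq : Function.Injective cq := fun a b h => Subtype.ext (Subtype.ext
    ((MulAut.conj g).injective (congrArg Subtype.val h)))
  let QN := N.comap (E.subtype.comp (Q : Subgroup E).subtype)
  let u : QN →* (E ⊓ N : Subgroup G) := (E.subtype.comp ((Q : Subgroup E).subtype.comp
    QN.subtype)).codRestrict _ fun x => ⟨x.1.1.2, x.2⟩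
  let w : QN →* ((P : Subgroup G) ⊓ N : Subgroup G) :=
    ((P : Subgroup G).subtype.comp (cq.comp QN.subtype)).codRestrict _ fun x =>
      ⟨(cq x).2, hN.conj_mem _ x.2 g⟩
  have hw : Function.Injective w := fun a b h => Subtype.ext (hcq (Subtype.ext
    (congrArg (fun x : ((P : Subgroup G) ⊓ N : Subgroup G) => (x : G)) h)))
  have hdec : ∀ d : (E ⊓ N : Subgroup G), ∃ (a : C) (q : QN),
      d = ⟨a, a.1.2, hCN a a.2⟩ * u q ∧ (NEmb.inf E N).f d = a * q.1 := by
    intro d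
    obtain ⟨⟨a, q⟩, h⟩ := hCQ.2 ((NEmb.inf E N).f d)
    have h' : ((a : E) : G) * (q : E) = d := congrArg Subtype.val h
    exact ⟨a, ⟨q, (N.mul_mem_cancel_left (hCN a a.2)).1 (h' ▸ d.2.2)⟩, Subtype.ext h'.symm, h.symm⟩
  have hPN : ∀ a b : ((P : Subgroup G) ⊓ N : Subgroup G), a * b = b * a :=
    fun a b => Subtype.ext (hcent a a.2 b b.2.1)
  have hD : ∀ a b : (E ⊓ N : Subgroup G), a * b = b * a := by
    intro x y
    obtain ⟨a, q, -, e1⟩ := hdec x
    obtain ⟨b, s, -, e2⟩ := hdec y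
    apply (NEmb.inf E N).inj
    have h7 : q * s = s * q := hw (by rw [map_mul, map_mul, hPN])
    have h8 : (q.1 : E) * s.1 = s.1 * q.1 := congrArg (fun x : QN => (x.1 : E)) h7
    rw [map_mul, map_mul, e1, e2]
    have ha := Subgroup.mem_center_iff.1 (hCc a.2)
    have hb := Subgroup.mem_center_iff.1 (hCc b.2)
    calc (a : E) * q.1 * (b * s.1) = a * (q.1 * b) * s.1 := by group
      _ = (a * b) * (q.1 * s.1) := by rw [hb]; group
      _ = b * (a * s.1) * q.1 := by rw [h8, hb]; group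
      _ = _ := by rw [← ha]; group
  obtain ⟨lam, rfl⟩ := h3.exists_linear_of_comm hD
  have := Fintype.ofFinite QN
  have := Fintype.ofFinite ((P : Subgroup G) ⊓ N : Subgroup G)
  obtain ⟨χ, hχ, h7⟩ := exists_irr_over_hom w hw (isIrrCharacter_linear (lam.comp u))
  obtain ⟨μ, h8, h9, h10⟩ := hlin χ hχ.isCharacter (degree_eq_one_of_comm hPN hχ)
  obtain ⟨μ, rfl⟩ := h8.exists_linear h9
  obtain ⟨χ, rfl⟩ := hχ.exists_linear_of_comm hPN
  have h11 := (isIrrCharacter_linear (χ.comp w)).eq_of_classInner_ne_zero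
    (isIrrCharacter_linear (lam.comp u)) h7
  obtain ⟨i, -, hi⟩ := (Nat.dvd_prime_pow hp).1 (hk ▸ Subgroup.relIndex_dvd_index_of_normal N E)
  obtain ⟨ψ, hψ⟩ := (NEmb.mem_resL_range _).1 (NEmb.mem_of_coprime (NEmb.inf E N).resL.range
    (a := lam) (l := Nat.card C) (by rw [NEmb.inf_index, hi]; exact hCp.symm.pow_left i)
    ((NEmb.inf E N).pow_index_range_mem fun g x => Units.ext (h4 g x))
    ((NEmb.mem_resL_range _).2 ⟨(μ.comp (cq.comp r)) ^ Nat.card C, fun d => by
      obtain ⟨a, q, e1, e2⟩ := hdec d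
      rw [MonoidHom.pow_apply, MonoidHom.pow_apply, e2, MonoidHom.comp_apply, MonoidHom.comp_apply,
        hr, e1, map_mul, mul_pow, ← map_pow lam]
      have e3 : (⟨a, a.1.2, hCN a a.2⟩ : (E ⊓ N : Subgroup G)) ^ Nat.card C = 1 :=
        Subtype.ext (congrArg (fun x : C => ((x : E) : G)) (pow_card_eq_one' (x := a)))
      rw [e3, map_one, one_mul]
      congr 1
      exact Units.ext ((h10 (w q)).trans (congrFun h11 q))⟩))
  have h12 : (fun d : (E ⊓ N : Subgroup G) => (ψ ⟨d, d.2.1⟩ : ℂ)) = fun d => (lam d : ℂ) :=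
    funext fun d => congrArg Units.val (hψ d)
  exact (NEmb.ofNormal N).exists_ext_of_supplement hϑ hinv hp
    (by rw [NEmb.ofNormal_range, hk]) E (by rw [NEmb.ofNormal_range, h2])
    (Subgroup.inclusion inf_le_right) (fun d => d.2.1) (Subgroup.inclusion_injective _)
    (fun n hn => ⟨⟨n, hn, n.2⟩, rfl⟩) (isCharacter_linear ψ) (h12 ▸ h3) (h12 ▸ h6) h5

end Cfsg.Agent.S0897
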