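import Cfsg.Statements.S0899
import Cfsg.Agent.H6.LinP
import Cfsg.Agent.H6.FTAb
import Cfsg.Agent.H8.Blich
import Cfsg.Agent.H3.Fusion
-- import your own Cfsg.Agent.* helpers here

set_option autoImplicit false
open Cfsg

namespace Cfsg.Agent.S0899

open Cfsg.Agent.H4 Cfsg.Agent.H5 Cfsg.Agent.H6 Cfsg.Agent.H1

open scoped Pointwise

universe u

/-- The `p`-elements of `K` commute. -/
def CS (p : ℕ) {G : Type*} [Group G] (K : Subgroup G) : Prop :=
  ∀ a ∈ K, ∀ b ∈ K, (∃ k, a ^ p ^ k = 1) → (∃ k, b ^ p ^ k = 1) → a * b = b * a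

theorem sylow_comm {G : Type*} [Group G] [Finite G] {n p : ℕ} [hp : Fact p.Prime]
    (h : H8.LinDeg n G) (hn : n < p) {P : Subgroup G} (hP : IsPGroup p P) :
    ∀ a ∈ P, ∀ b ∈ P, a * b = b * a :=
  h.comm_of_le fun q hq hd => by
    obtain ⟨k, hk⟩ := IsPGroup.iff_card.1 hP
    rw [hk] at hd
    rwa [(Nat.prime_dvd_prime_iff_eq hq hp.out).1 (hq.dvd_of_dvd_pow hd)]

theorem cs_of_normal {G : Type*} [Group G] [Finite G] {n p : ℕ} [hp : Fact p.Prime]
    (h : H8.LinDeg n G) (hn : n < p) (P : Sylow p G) (hP : (P : Subgroup G).Normal) :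
    CS p (⊤ : Subgroup G) := fun a _ b _ ha hb =>
  sylow_comm h hn P.isPGroup' a (mem_of_pElem_of_normal P le_rfl ha) b
    (mem_of_pElem_of_normal P le_rfl hb)

theorem cs_of_top {G : Type*} [Group G] {p : ℕ} {K : Subgroup G} (h : CS p (⊤ : Subgroup K)) :
    CS p K := fun a ha b hb ⟨i, hi⟩ ⟨j, hj⟩ =>
  congrArg Subtype.val (h ⟨a, ha⟩ trivial ⟨b, hb⟩ trivial ⟨i, Subtype.ext hi⟩ ⟨j, Subtype.ext hj⟩)

theorem pElem_of_mem {G : Type*} [Group G] {p : ℕ} {P : Subgroup G} (hP : IsPGroup p P) {a : G}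
    (ha : a ∈ P) : ∃ k, a ^ p ^ k = 1 := by
  obtain ⟨k, hk⟩ := hP ⟨a, ha⟩
  exact ⟨k, congrArg Subtype.val hk⟩

theorem aux (n p : ℕ) [hp : Fact p.Prime] (hn : n + 1 < p) (m : ℕ) :
    ∀ (G : Type u) [Group G] [Finite G], Nat.card G = m → H8.LinDeg n G →
    ((n + 1) ^ 2 ≤ p ∨ ∀ K : Subgroup G, ¬ p ^ 2 ∣ Nat.card K → CS p K) → CS p (⊤ : Subgroup G) := by
  induction m using Nat.strong_induction_on with
  | _ m ih =>
  intro G _ _ hm hG h
  classical
  haveI := Fintype.ofFinite G
  have h1 : ∀ L : Subgroup G, L ≠ ⊤ → CS p L := fun L hL => by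
    refine cs_of_top (ih _ (hm ▸ card_lt_of_ne_top hL) L rfl (hG.subgroup L) (h.imp_right ?_))
    intro h K hK a ha b hb ⟨i, hi⟩ ⟨j, hj⟩
    exact Subtype.ext (h (K.map L.subtype) (by
      rwa [Subgroup.card_map_of_injective L.subtype_injective]) a ⟨a, ha, rfl⟩ b ⟨b, hb, rfl⟩
      ⟨i, congrArg Subtype.val hi⟩ ⟨j, congrArg Subtype.val hj⟩)
  by_contra hcon
  obtain ⟨P⟩ := (inferInstance : Nonempty (Sylow p G))
  have hab := sylow_comm hG (by omega) P.isPGroup'
  have h2 : ∀ M : Subgroup G, M.Normal → (P : Subgroup G) ≤ M → M = ⊤ := by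
    intro M _ hM
    by_contra hne
    exact hcon fun a _ b _ ha hb => h1 M hne a (mem_of_pElem_of_normal P hM ha) b
      (mem_of_pElem_of_normal P hM hb) ha hb
  have h3 := H3.inf_commutator_inf_center_eq_bot (P : Subgroup G)
    ⟨⟨fun a b => Subtype.ext (hab a a.2 b b.2)⟩⟩
    (coprime_card_of_isPGroup P.isPGroup' P.not_dvd_index)
  have hconj : ∀ a g : G, (∃ k, a ^ p ^ k = 1) → ∃ k, (g * a * g⁻¹) ^ p ^ k = 1 :=
    fun a g ⟨k, hk⟩ => ⟨k, by rw [conj_pow, hk]; simp⟩
  obtain ⟨χ, hχ, hk, hd⟩ := id hG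
  have h4 : commutator G = ⊤ := by
    by_contra h4
    have h5 : (P : Subgroup G) ⊓ commutator G = ⊥ := by
      haveI : ((P : Subgroup G) ⊓ commutator G).Normal := by
        refine ⟨fun a ha g => ?_⟩
        have h6 := (isSylowIn_top P).inf (N := commutator G) le_top Subgroup.le_normalizer_of_normal
        have h7 := (inferInstance : (commutator G).Normal).conj_mem a ha.2 g
        refine h6.le_of_le_normalizer' (U := Subgroup.zpowers (g * a * g⁻¹))
          (Subgroup.zpowers_le.2 h7) ?_ ?_ (Subgroup.mem_zpowers _)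
        · exact ((P.isPGroup'.to_le (Subgroup.zpowers_le.2 ha.1)).map
            (MulAut.conj g).toMonoidHom).to_le (by rw [MonoidHom.map_zpowers]; exact le_rfl)
        · refine (Subgroup.zpowers_le.2 fun b hb => ?_).trans (Subgroup.centralizer_le_normalizer _)
          exact h1 _ h4 b hb.2 _ h7 (pElem_of_mem P.isPGroup' hb.1)
            (hconj a g (pElem_of_mem P.isPGroup' ha.1))
      have h6 := h2 (Subgroup.centralizer (((P : Subgroup G) ⊓ commutator G : Subgroup G) : Set G))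
        inferInstance fun a ha b hb => hab b hb.1 a ha
      rw [← h3]
      refine (inf_eq_left.2 fun a ha => Subgroup.mem_center_iff.2 fun g => ?_).symm
      exact ((h6 ▸ Subgroup.mem_top g : g ∈ Subgroup.centralizer _) a ha).symm
    have h6 : ¬ p ∣ Nat.card (commutator G) := fun hd =>
      ((isSylowIn_top P).inf (N := commutator G) le_top Subgroup.le_normalizer_of_normal).ne_bot hd h5
    have h7 : commutator G ≤ Subgroup.centralizer ((P : Subgroup G) : Set G) := by
      by_contra hc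
      obtain ⟨H, _, ψ, hψ, hne, hg⟩ := exists_goodDeg_of_coprime hχ hk P.isPGroup'
        Subgroup.le_normalizer_of_normal h6 hc
      have h1 : charDegree ψ ≤ charDegree χ := (hχ.restrict H).degree_le_of_constituent hψ hne
        hχ.charDegree_cast.symm hψ.isCharacter.charDegree_cast.symm
      have := (hg.eq_of_le hψ.charDegree_pos (by omega)).1
      omega
    haveI : (commutator G ⊔ (P : Subgroup G)).Normal :=
      Subgroup.Normal.of_commutator_le G le_sup_left
    have h8 := h2 (commutator G ⊔ (P : Subgroup G)) inferInstance le_sup_right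
    refine hcon (cs_of_normal hG (by omega) P (Subgroup.normalizer_eq_top_iff.1 (eq_top_iff.2 ?_)))
    rw [← h8]
    exact sup_le (h7.trans (Subgroup.centralizer_le_normalizer _)) Subgroup.le_normalizer
  rw [h4, inf_top_eq] at h3
  have hP0 : (P : Subgroup G) ≠ ⊥ := fun h0 =>
    hcon (cs_of_normal hG (by omega) P (h0 ▸ inferInstance))
  obtain ⟨ψ, hψ, hne, hψ1⟩ : ∃ ψ, IsIrrCharacter G ψ ∧ classInner χ ψ ≠ 0 ∧ ψ 1 ≠ 1 := by
    by_contra! hc
    refine hP0 (eq_bot_iff.2 fun x _ => hk ▸ hχ.mem_charKer_of_forall_constituent fun ψ hψ hne => ?_)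
    exact apply_of_mem_charKer (hψ.commutator_le_charKer_iff.2 (hc ψ hψ hne) (h4 ▸ trivial))
  have hcent : ∀ g : G, g ∉ Subgroup.center G → CS p (Subgroup.centralizer ({g} : Set G)) :=
    fun g hg => h1 _ fun h => hg (Subgroup.mem_center_iff.2 fun x =>
      Subgroup.mem_centralizer_singleton_iff.1 (h ▸ Subgroup.mem_top x))
  have hnc : ∀ a ∈ (P : Subgroup G), a ≠ 1 → a ∉ Subgroup.center G := fun a ha h1 hz =>
    h1 (Subgroup.mem_bot.1 (h3 ▸ ⟨ha, hz⟩))
  have h5 := feit_thompson_bound' (P : Subgroup G) hab h3 (by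
    intro g hg a ha ha1 e y b hb hb1 e'
    have hbp := pElem_of_mem P.isPGroup' hb
    have hk : ∃ k, (y⁻¹ * b * y) ^ p ^ k = 1 := by simpa using hconj b y⁻¹ hbp
    have e1 : a * (y⁻¹ * b * y) = (y⁻¹ * b * y) * a := hcent g hg a
      (Subgroup.mem_centralizer_singleton_iff.2 e) _ (Subgroup.mem_centralizer_singleton_iff.2 (by
        calc y⁻¹ * b * y * g = y⁻¹ * (b * (y * g * y⁻¹)) * y := by group
          _ = g * (y⁻¹ * b * y) := by rw [e']; group)) (pElem_of_mem P.isPGroup' ha) hk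
    have e2 : ∀ c ∈ (P : Subgroup G), c * (y⁻¹ * b * y) = (y⁻¹ * b * y) * c := fun c hc =>
      hcent a (hnc a ha ha1) c (Subgroup.mem_centralizer_singleton_iff.2 (hab c hc a ha)) _
        (Subgroup.mem_centralizer_singleton_iff.2 e1.symm) (pElem_of_mem P.isPGroup' hc) hk
    have e3 : y⁻¹ * b * y ∉ Subgroup.center G := fun hz => hnc b hb hb1 (by
      simpa [mul_assoc] using (inferInstance : (Subgroup.center G).Normal).conj_mem _ hz y)
    have e4 : MulAut.conj y⁻¹ • (P : Subgroup G) ≤ P := by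
      refine (isSylowIn_top P).le_of_le_normalizer' le_top (P.isPGroup'.map _)
        (le_trans ?_ (Subgroup.centralizer_le_normalizer _))
      intro x hx c hc
      have hx' := mem_conj_smul.1 hx
      refine hcent _ e3 c (Subgroup.mem_centralizer_singleton_iff.2 (e2 c hc)) x
        (Subgroup.mem_centralizer_singleton_iff.2 ?_) (pElem_of_mem P.isPGroup' hc)
        (pElem_of_mem (P.isPGroup'.map _) hx)
      calc x * (y⁻¹ * b * y) = y⁻¹ * (y⁻¹⁻¹ * x * y⁻¹ * b) * y := by group
        _ = y⁻¹ * b * y * x := by rw [hab _ hx' b hb]; group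
    rw [← inv_mem_iff, ← conj_smul_eq_iff_mem_normalizer]
    exact Subgroup.eq_of_le_of_card_ge e4 (card_conj_smul _ _).ge) hψ hψ1 h2
  have h6 : charDegree ψ ≤ n := (hχ.degree_le_of_constituent hψ hne hχ.charDegree_cast.symm
    hψ.isCharacter.charDegree_cast.symm).trans hd
  rw [← hψ.isCharacter.charDegree_cast, Complex.natCast_re] at h5
  have h7 : Nat.card (P : Subgroup G) < (1 + charDegree ψ) ^ 2 := by exact_mod_cast h5
  have h8 : (1 + charDegree ψ) ^ 2 ≤ (n + 1) ^ 2 := Nat.pow_le_pow_left (by omega) 2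
  obtain ⟨k, hk⟩ := IsPGroup.iff_card.1 P.isPGroup'
  rcases h with h | h
  · have h9 : p ≤ Nat.card (P : Subgroup G) := by
      rw [hk]
      refine Nat.le_self_pow ?_ p
      rintro rfl
      exact hP0 (Subgroup.card_eq_one.1 (by simpa using hk))
    omega
  · have h9 : p ^ 2 ∣ Nat.card G := by
      by_contra h9
      exact hcon (h ⊤ (by rwa [Subgroup.card_top]))
    rw [← (P : Subgroup G).card_mul_index] at h9
    have h10 := Nat.le_of_dvd Nat.card_pos ((Nat.Coprime.pow_left 2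
      ((Nat.Prime.coprime_iff_not_dvd hp.out).2 P.not_dvd_index)).dvd_of_dvd_mul_right h9)
    have h11 : (n + 1) ^ 2 < p ^ 2 := Nat.pow_lt_pow_left hn two_ne_zero
    omega


/-- Let G be a finite group with a faithful complex representation of degree n (on Fin n → ℂ) and p a prime. Suppose either that (n + 1) ^ 2 ≤ p, or that n + 1 < p and every subgroup of G whose order is not divisible by p ^ 2 has a normal Sylow p-subgroup. Then every Sylow p-subgroup of G is normal. -/
theorem result {G : Type*} [Group G] [Finite G] (n : ℕ) (ρ : Representation ℂ G (Fin n → ℂ)) (hρ : Function.Injective ρ) (p : ℕ) [Fact p.Prime] (h : (n + 1) ^ 2 ≤ p ∨ (n + 1 < p ∧ ∀ K : Subgroup G, ¬ p ^ 2 ∣ Nat.card K → ∀ Q : Sylow p K, (Q : Subgroup K).Normal)) (P : Sylow p G) : (P : Subgroup G).Normal := by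
  have hp : p.Prime := Fact.out
  have hG : H8.LinDeg n G := ⟨ρ.character, ⟨n, ρ, rfl⟩, by
    rw [charKer_character]; exact (MonoidHom.ker_eq_bot_iff _).2 hρ,
    (charDegree_eq_of (by simp [Representation.char_one])).le⟩
  have hn : n + 1 < p := by
    rcases h with h | h
    · rcases Nat.eq_zero_or_pos n with rfl | h0
      · exact hp.one_lt
      · nlinarith
    · exact h.1
  have h1 := aux n p hn _ G rfl hG (h.imp_right fun h K hK => by
    obtain ⟨Q⟩ := (inferInstance : Nonempty (Sylow p K))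
    exact cs_of_top (cs_of_normal (hG.subgroup K) (by omega) Q (h.2 K hK Q)))
  refine normal_of_pClosed P fun a b ⟨i, hi⟩ ⟨j, hj⟩ => ⟨i + j, ?_⟩
  have h2 : Commute a b := h1 a trivial b trivial ⟨i, hi⟩ ⟨j, hj⟩
  rw [h2.mul_pow, pow_add, pow_mul, hi, one_pow, mul_comm (p ^ i), pow_mul, hj, one_pow, one_mul]

end Cfsg.Agent.S0899
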