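import Cfsg.Statements.S0900
import Cfsg.Agent.H5.Clifford2

set_option autoImplicit false
open Cfsg Cfsg.Agent.H4

namespace Cfsg.Agent.S0900

/-- Let N be a normal subgroup of the finite group G, χ an irreducible character of G and ϑ an irreducible character of N having nonzero inner product with the restriction of χ. Consider: (a) the restriction of χ to N is e • ϑ for a natural number e with e ^ 2 equal to the index of N; (b) χ vanishes outside N and ϑ is invariant under conjugation by G; (c) ϑ is invariant and every irreducible character of G having nonzero inner product with the function induced from ϑ equals χ. Then (a) ↔ (b) and (a) ↔ (c). -/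
theorem result {G : Type*} [Group G] [Fintype G] (N : Subgroup G) [hN : N.Normal] [Fintype N] (χ : G → ℂ) (hχ : Cfsg.IsIrrCharacter G χ) (ϑ : N → ℂ) (hϑ : Cfsg.IsIrrCharacter N ϑ) (hcon : Cfsg.classInner (fun n : N => χ n) ϑ ≠ 0) : ((∃ e : ℕ, (fun n : N => χ n) = (e : ℂ) • ϑ ∧ e ^ 2 = N.index) ↔ ((∀ g : G, g ∉ N → χ g = 0) ∧ ∀ (g : G) (n : N), ϑ ⟨g * n * g⁻¹, hN.conj_mem (n : G) n.2 g⟩ = ϑ n)) ∧ ((∃ e : ℕ, (fun n : N => χ n) = (e : ℂ) • ϑ ∧ e ^ 2 = N.index) ↔ (∀ (g : G) (n : N), ϑ ⟨g * n * g⁻¹, hN.conj_mem (n : G) n.2 g⟩ = ϑ n ∧ ∀ ψ : G → ℂ, Cfsg.IsIrrCharacter G ψ → Cfsg.classInner (Cfsg.indFun N ϑ) ψ ≠ 0 → ψ = χ)) := by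
  set E := H5.NEmb.ofNormal N
  have hr : E.f.range = N := H5.NEmb.ofNormal_range N
  have hinv : ∀ e : ℕ, (fun n : N => χ n) = (e : ℂ) • ϑ → ∀ (g : G) (n : N),
      ϑ ⟨g * n * g⁻¹, hN.conj_mem (n : G) n.2 g⟩ = ϑ n := by
    intro e he
    refine E.invariant_of_res_eq_mul hχ.isClassFunction (e := e) ?_ (congrFun he)
    intro h0
    apply hχ.apply_one_ne_zero
    have := congrFun he 1
    simpa [h0] using this
  constructor
  · constructor
    · rintro ⟨e, he, h⟩
      refine ⟨?_, hinv e he⟩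
      have := (E.sq_eq_index_iff hχ hϑ (congrFun he)).1 (by rw [hr, h])
      rwa [hr] at this
    · rintro ⟨h1, h2⟩
      obtain ⟨e, -, -, he⟩ := E.clifford_of_invariant_nat hχ hϑ h2 hcon
      refine ⟨e, funext he, ?_⟩
      rw [← hr, E.sq_eq_index_iff hχ hϑ he, hr]
      exact h1
  · constructor
    · rintro ⟨e, he, h⟩ g n
      refine ⟨hinv e he g n, fun ψ hψ h1 => ?_⟩
      rw [← H5.NEmb.indHom_ofNormal, E.indHom_eq_smul_of_sq_eq_index hχ hϑ (congrFun he)
        (by rw [hr, h]), classInner_smul_left] at h1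
      exact (hχ.eq_of_classInner_ne_zero hψ (right_ne_zero_of_mul h1)).symm
    · intro h
      obtain ⟨e, -, -, he⟩ := E.clifford_of_invariant_nat hχ hϑ (fun g n => (h g n).1) hcon
      refine ⟨e, funext he, ?_⟩
      rw [← hr]
      refine E.sq_eq_index_of_unique hχ hϑ he fun ψ hψ h1 => (h 1 1).2 ψ hψ ?_
      rw [← H5.NEmb.indHom_ofNormal]
      exact (E.inner_indHom_ne_zero_iff _ hψ.isClassFunction).2 h1

end Cfsg.Agent.S0900
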