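import Cfsg.Statements.S0901
import Cfsg.Agent.H6.Loc
import Mathlib.RingTheory.Polynomial.Cyclotomic.Basic
-- import your own Cfsg.Agent.* helpers here

set_option autoImplicit false
open Cfsg

namespace Cfsg.Agent.S0901

open Cfsg.Agent.H6


/-- Let M be a maximal ideal of the ring of algebraic integers containing the prime p, and let U be the set of complex roots of unity of order prime to p. Then reduction modulo M is injective on U, and every algebraic integer not in M is congruent modulo M to an element of U (so U maps bijectively onto the nonzero residues). -/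
theorem result (p : ℕ) [Fact p.Prime] (M : Ideal Cfsg.AlgInt) (hM : Cfsg.IsPModular p M) : (∀ ε₁ ε₂ : Cfsg.AlgInt, (∃ m : ℕ, ¬ p ∣ m ∧ (ε₁ : ℂ) ^ m = 1) → (∃ m : ℕ, ¬ p ∣ m ∧ (ε₂ : ℂ) ^ m = 1) → ε₁ - ε₂ ∈ M → ε₁ = ε₂) ∧ (∀ a : Cfsg.AlgInt, a ∉ M → ∃ ε : Cfsg.AlgInt, (∃ m : ℕ, ¬ p ∣ m ∧ (ε : ℂ) ^ m = 1) ∧ a - ε ∈ M) := by
  haveI := hM.2.1
  haveI := charP_res hM
  refine ⟨fun ε₁ ε₂ ⟨m, hm, h1⟩ ⟨n, hn, h2⟩ h => ?_, fun a ha => ?_⟩
  · have hmn : ¬ p ∣ m * n := fun h => (hM.1.dvd_mul.1 h).elim hm hn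
    have h1' : ε₁ ^ (m * n) = 1 := Subtype.ext (by push_cast; rw [pow_mul, h1, one_pow])
    have h2' : ε₂ ^ (m * n) = 1 := Subtype.ext (by push_cast; rw [mul_comm, pow_mul, h2, one_pow])
    have h3 := Commute.mul_geom_sum₂ (Commute.all ε₁ ε₂) (m * n)
    rw [h1', h2', sub_self, mul_eq_zero, sub_eq_zero] at h3
    refine h3.resolve_right fun h4 => hmn ?_
    have h5 : toRes M ε₁ = toRes M ε₂ := by rw [← sub_eq_zero, ← map_sub, toRes_eq_zero_iff]; exact h
    have h6 := congrArg (toRes M) h4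
    simp only [map_sum, map_mul, map_pow, h5, map_zero] at h6
    rw [geom_sum₂_self, mul_eq_zero, natCast_res_eq_zero_iff hM] at h6
    refine h6.resolve_right (pow_ne_zero _ fun h7 => ?_)
    have h8 := congrArg (toRes M) h2'
    rw [map_pow, h7, zero_pow (by rintro h0; exact hmn (h0 ▸ dvd_zero p)), map_one] at h8
    exact zero_ne_one h8
  · letI := ZMod.algebra (Res M) p
    have h0 : toRes M a ≠ 0 := by rwa [Ne, toRes_eq_zero_iff]
    have h1 : IsIntegral ℤ (toRes M a) := (Algebra.IsIntegral.isIntegral a).map (toRes M).toIntAlgHom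
    have h2 : IsIntegral (ZMod p) (toRes M a) := h1.tower_top
    have h3 : IsOfFinOrder (toRes M a) := by
      haveI := IntermediateField.adjoin.finiteDimensional h2
      haveI : Finite (IntermediateField.adjoin (ZMod p) {toRes M a}) := Module.finite_of_finite (ZMod p)
      let x : IntermediateField.adjoin (ZMod p) {toRes M a} :=
        ⟨toRes M a, IntermediateField.mem_adjoin_simple_self _ _⟩
      have hx : x ≠ 0 := fun h => h0 (congrArg Subtype.val h)
      obtain ⟨n, hn, h⟩ := isOfFinOrder_iff_pow_eq_one.1 (isOfFinOrder_of_finite (Units.mk0 x hx))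
      refine isOfFinOrder_iff_pow_eq_one.2 ⟨n, hn, ?_⟩
      have := congrArg (fun u : (IntermediateField.adjoin (ZMod p) {toRes M a})ˣ =>
        ((u : IntermediateField.adjoin (ZMod p) {toRes M a}) : Res M)) h
      simpa using this
    set m := orderOf (toRes M a) with hm
    have hm0 : 0 < m := h3.orderOf_pos
    have hpm : ¬ p ∣ m := by
      rintro ⟨k, hk⟩
      have h4 : (toRes M a ^ k - 1) ^ p = 0 := by
        rw [sub_pow_char, ← pow_mul, mul_comm, ← hk, hm, pow_orderOf_eq_one, one_pow, sub_self]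
      have h5 := orderOf_dvd_of_pow_eq_one (sub_eq_zero.1 (pow_eq_zero_iff hM.1.ne_zero |>.1 h4))
      rw [← hm] at h5
      have hk0 : 0 < k := Nat.pos_of_ne_zero (by rintro rfl; omega)
      have := Nat.le_of_dvd hk0 h5
      have := hM.1.two_le
      nlinarith
    have hζ := Complex.isPrimitiveRoot_exp m hm0.ne'
    set ζ := Complex.exp (2 * Real.pi * Complex.I / m)
    let ζ' : AlgInt := ⟨ζ, hζ.isIntegral hm0⟩
    have hζ' : IsPrimitiveRoot ζ' m := IsPrimitiveRoot.of_map_of_injective (f := AlgInt.val) hζ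
      Subtype.val_injective
    have h6 := Polynomial.X_pow_sub_one_eq_prod hm0 hζ'
    have h7 := congrArg (fun f => toRes M (Polynomial.eval a f)) h6
    simp only [Polynomial.eval_sub, Polynomial.eval_pow, Polynomial.eval_X, Polynomial.eval_one,
      Polynomial.eval_prod, Polynomial.eval_C, map_sub, map_pow, map_one, map_prod] at h7
    rw [hm, pow_orderOf_eq_one, sub_self, eq_comm, Finset.prod_eq_zero_iff] at h7
    obtain ⟨ε, hε, h8⟩ := h7
    refine ⟨ε, ⟨m, hpm, ?_⟩, by rwa [← toRes_eq_zero_iff, map_sub]⟩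
    rw [Polynomial.mem_nthRootsFinset hm0] at hε
    exact_mod_cast congrArg Subtype.val hε

end Cfsg.Agent.S0901
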