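import Cfsg.Statements.S0903
import Cfsg.Agent.H7.GAlg
import Cfsg.Agent.H4.Char2
-- import your own Cfsg.Agent.* helpers here

set_option autoImplicit false
open Cfsg

namespace Cfsg.Agent.S0903


/-- Let P be a p-subgroup of the finite group G, let c centralize P and let g, h ∈ G. The number of pairs (x, y) with x conjugate to g, y conjugate to h and x * y = c is congruent modulo p to the number of such pairs in which x and y both centralize P. (This is why the Brauer map on class sums is multiplicative.) -/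
theorem result {G : Type*} [Group G] [Finite G] (p : ℕ) [Fact p.Prime] (P : Subgroup G) (hP : IsPGroup p P) (c : G) (hc : c ∈ Subgroup.centralizer (P : Set G)) (g h : G) : Nat.card {xy : G × G // IsConj g xy.1 ∧ IsConj h xy.2 ∧ xy.1 * xy.2 = c} ≡ Nat.card {xy : G × G // IsConj g xy.1 ∧ IsConj h xy.2 ∧ xy.1 * xy.2 = c ∧ xy.1 ∈ Subgroup.centralizer (P : Set G) ∧ xy.2 ∈ Subgroup.centralizer (P : Set G)} [MOD p] := by
  classical
  haveI := Fintype.ofFinite G
  rw [← ZMod.natCast_eq_natCast_iff]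
  have e1 : {xy : G × G // IsConj g xy.1 ∧ IsConj h xy.2 ∧ xy.1 * xy.2 = c} ≃
      {x : G // IsConj g x ∧ IsConj h (x⁻¹ * c)} :=
    ⟨fun x => ⟨x.1.1, x.2.1, by rw [inv_mul_eq_of_eq_mul x.2.2.2.symm]; exact x.2.2.1⟩,
      fun x => ⟨(x, x.1⁻¹ * c), x.2.1, x.2.2, by simp⟩,
      fun x => Subtype.ext (Prod.ext rfl (inv_mul_eq_of_eq_mul x.2.2.2.symm)), fun x => rfl⟩
  have e2 : {xy : G × G // IsConj g xy.1 ∧ IsConj h xy.2 ∧ xy.1 * xy.2 = c ∧
      xy.1 ∈ Subgroup.centralizer (P : Set G) ∧ xy.2 ∈ Subgroup.centralizer (P : Set G)} ≃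
      {x : G // x ∈ Subgroup.centralizer (P : Set G) ∧ IsConj g x ∧ IsConj h (x⁻¹ * c)} :=
    ⟨fun x => ⟨x.1.1, x.2.2.2.2.1, x.2.1, by
        rw [inv_mul_eq_of_eq_mul x.2.2.2.1.symm]; exact x.2.2.1⟩,
      fun x => ⟨(x, x.1⁻¹ * c), x.2.2.1, x.2.2.2, by simp, x.2.1, mul_mem (inv_mem x.2.1) hc⟩,
      fun x => Subtype.ext (Prod.ext rfl (inv_mul_eq_of_eq_mul x.2.2.2.1.symm)), fun x => rfl⟩
  rw [Nat.card_congr e1, Nat.card_congr e2, H4.natCard_subtype_eq_sum, H4.natCard_subtype_eq_sum,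
    H7.sum_eq_sum_centralizer p hP _ fun u hu x => ?_, Finset.sum_filter]
  · exact Finset.sum_congr rfl fun x _ => by simp [ite_and]
  · have h1 : (u * x * u⁻¹)⁻¹ * c = u * (x⁻¹ * c) * u⁻¹ := by
      rw [mul_assoc u (x⁻¹ * c), mul_assoc x⁻¹, ← hc u⁻¹ (inv_mem hu)]; group
    have h2 : ∀ a y : G, IsConj a (u * y * u⁻¹) ↔ IsConj a y := fun a y =>
      ⟨fun h => h.trans (isConj_iff.2 ⟨u, rfl⟩).symm, fun h => h.trans (isConj_iff.2 ⟨u, rfl⟩)⟩
    simp only [h1, h2]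

end Cfsg.Agent.S0903
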