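import Cfsg.Statements.S0905
import Cfsg.Agent.H7.Quot
import Cfsg.Agent.H1.Cores
-- import your own Cfsg.Agent.* helpers here

set_option autoImplicit false
open Cfsg

namespace Cfsg.Agent.S0905

open MonoidAlgebra Cfsg.Agent.H3 Cfsg.Agent.H4 Cfsg.Agent.H7
open Cfsg.Agent.H6 (Res locRing redC redA eB fB intAlg classSum omega chiL)
open scoped Pointwise
set_option linter.style.haveILetI false


/-- Let F be a field of characteristic p and let g be an element of the finite group G no conjugate of which centralizes O_p(G). Then the class sum of g is a nilpotent element of the group algebra F[G]. -/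
theorem result {G : Type*} [Group G] [Finite G] (p : ℕ) [Fact p.Prime] (F : Type*) [Field F] [CharP F p] (g : G) (hg : ∀ x : G, IsConj g x → x ∉ Subgroup.centralizer (Cfsg.pCore p G : Set G)) : IsNilpotent (∑ᶠ x ∈ ConjClasses.carrier (ConjClasses.mk g), MonoidAlgebra.single x (1 : F) : MonoidAlgebra F G) := by
  have h1 : (∑ᶠ x ∈ ConjClasses.carrier (ConjClasses.mk g), MonoidAlgebra.single x (1 : F) :
      MonoidAlgebra F G) = ind F (orb ⊤ g) := by
    classical
    haveI := Fintype.ofFinite G
    rw [finsum_mem_eq_finite_toFinset_sum _ (Set.toFinite _)]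
    ext y
    rw [coeff_finset_sum, coeff_ind]
    simp only [coeff_single, Finsupp.single_apply, Finset.sum_ite_eq', Set.Finite.mem_toFinset,
      ConjClasses.mem_carrier_iff_mk_eq, mem_orb_top, ConjClasses.mk_eq_mk_iff_isConj]
    simp only [isConj_comm (g := y)]
  rw [h1]
  refine isNilpotent_of_br_eq_zero (L := ⊤) (H1.isPGroup_pCore p G) Subgroup.le_normalizer_of_normal
    ⟨supp_top _, (invt_ind_orb ⊤ g).mono le_top⟩ ?_
  rw [br_def, trunc_eq_zero_iff]
  intro x hx
  exact coeff_ind_of_not_mem fun h => hg x (mem_orb_top.1 h) hx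

end Cfsg.Agent.S0905
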