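import Cfsg.Statements.S0911
import Cfsg.Agent.H7.Bridge2
-- import your own Cfsg.Agent.* helpers here

set_option autoImplicit false
open Cfsg

namespace Cfsg.Agent.S0911

open MonoidAlgebra Cfsg.Agent.H3 Cfsg.Agent.H4 Cfsg.Agent.H7
open Cfsg.Agent.H6 (Res locRing redC redA eB fB intAlg classSum omega chiL)
open scoped Pointwise


/-- The min–max Theorem for defect classes. Let B be a block of the finite group G relative to a maximal ideal M of the algebraic integers containing the prime p, let g represent a defect class of B and let D be a Sylow p-subgroup of the centralizer of g (viewed in G). For any h: (a) if the idempotent coefficient of B at h is a local integer outside the local ideal, then some conjugate of D contains a Sylow p-subgroup of the centralizer of h; (b) if the central character of some member of B at h is outside the local ideal, then some conjugate of D is contained in a Sylow p-subgroup of the centralizer of h. -/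
theorem result {G : Type*} [Group G] [Finite G] (p : ℕ) [Fact p.Prime] (M : Ideal Cfsg.AlgInt) (hM : Cfsg.IsPModular p M) (B : Set (Cfsg.IrrCharacter G)) (hB : Cfsg.IsPBlock M B) (g : G) (hg : Cfsg.IsDefectClass M B g) (D : Sylow p (Subgroup.centralizer ({g} : Set G))) (h : G) : (Cfsg.MemLocalRing M (Cfsg.blockCoeff B h) → ¬ Cfsg.MemLocalIdeal M (Cfsg.blockCoeff B h) → ∃ (x : G) (Q : Sylow p (Subgroup.centralizer ({h} : Set G))), (Q : Subgroup (Subgroup.centralizer ({h} : Set G))).map (Subgroup.centralizer ({h} : Set G)).subtype ≤ ((D : Subgroup (Subgroup.centralizer ({g} : Set G))).map (Subgroup.centralizer ({g} : Set G)).subtype).map (MulAut.conj x).toMonoidHom) ∧ ((∃ χ ∈ B, ¬ Cfsg.MemLocalIdeal M (Cfsg.centralChar (χ : G → ℂ) h)) → ∃ (x : G) (Q : Sylow p (Subgroup.centralizer ({h} : Set G))), ((D : Subgroup (Subgroup.centralizer ({g} : Set G))).map (Subgroup.centralizer ({g} : Set G)).subtype).map (MulAut.conj x).toMonoidHom ≤ (Q : Subgroup (Subgroup.centralizer ({h} : Set G))).map (Subgroup.centralizer ({h} : Set G)).subtype)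 := by
  haveI := hM.2.1
  haveI := H6.charP_res hM
  have hD := (isDefectGroup_iff hM hB).1 ⟨g, hg, D, rfl⟩
  constructor
  · intro h1 h2
    obtain ⟨Q⟩ : Nonempty (Sylow p (Subgroup.centralizer ({h} : Set G))) := inferInstance
    have hQ := sylowIn_map_subtype Q
    obtain ⟨x, -, hx⟩ := hD.conj_le _ le_top hQ.isPGroup (br_ne_zero_iff.2 ⟨h, fun y hy =>
      Subgroup.mem_centralizer_singleton_iff.1 (hQ.le hy), by
        rw [H6.coeff_eB, Ne, H6.redC_eq_zero_iff h1]; exact h2⟩)
    refine ⟨x⁻¹, Q, ?_⟩
    have := conj_smul_mono x⁻¹ hx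
    rwa [conj_inv_smul_conj_smul] at this
  · rintro ⟨χ, hχ, h1⟩
    obtain ⟨Q⟩ : Nonempty (Sylow p (Subgroup.centralizer ({h} : Set G))) := inferInstance
    have hQ := sylowIn_map_subtype Q
    have h3 := (isCommSub_Z ⊤).mem_ideal_of_lam_ne_zero (blk_eB hB) (isIdealIn_DefI (p := p) ⊤ ⊤ _)
      (ind_orb_mem_DefI Subgroup.le_normalizer (Subgroup.mem_top h) (by rw [inf_top_eq]; exact hQ))
      (by rw [lam_eB_ind hB hχ, Ne, H6.redC_eq_zero_iff (H6.centralChar_mem χ.2 h)]; exact h1)
    obtain ⟨x, -, hx⟩ := h3.2 _ le_top hD.isPGroup hD.br_ne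
    exact ⟨x, Q, hx⟩

end Cfsg.Agent.S0911
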