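import Cfsg.Statements.S0912
import Cfsg.Agent.H7.Induce
import Cfsg.Agent.H1.Cores
-- import your own Cfsg.Agent.* helpers here

set_option autoImplicit false
open Cfsg

namespace Cfsg.Agent.S0912

open MonoidAlgebra Cfsg.Agent.H3 Cfsg.Agent.H4 Cfsg.Agent.H7
open Cfsg.Agent.H6 (Res locRing redC redA eB fB intAlg classSum omega chiL)
open scoped Pointwise
set_option linter.style.haveILetI false


/-- Let B be a block of the finite group G relative to a maximal ideal M of the algebraic integers containing the prime p. Every defect group of B contains the largest normal p-subgroup O_p(G). -/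
theorem result {G : Type*} [Group G] [Finite G] (p : ℕ) [Fact p.Prime] (M : Ideal Cfsg.AlgInt) (hM : Cfsg.IsPModular p M) (B : Set (Cfsg.IrrCharacter G)) (hB : Cfsg.IsPBlock M B) (D : Subgroup G) (hD : Cfsg.IsDefectGroup p M B D) : Cfsg.pCore p G ≤ D := by
  haveI := hM.2.1
  haveI := H6.charP_res hM
  exact ((isDefectGroup_iff hM hB).1 hD).le_of_normal le_rfl (H1.isPGroup_pCore p G) le_top
    Subgroup.le_normalizer_of_normal (eB_mem_Fix B) (blk_eB hB).idem

end Cfsg.Agent.S0912
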