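import Cfsg.Statements.S0917
import Cfsg.Agent.H7.Induce
-- import your own Cfsg.Agent.* helpers here

set_option autoImplicit false
open Cfsg

namespace Cfsg.Agent.S0917

open MonoidAlgebra Cfsg.Agent.H3 Cfsg.Agent.H4 Cfsg.Agent.H7
open Cfsg.Agent.H6 (Res locRing redC redA eB fB intAlg classSum omega chiL)
open scoped Pointwise
set_option linter.style.haveILetI false


/-- Let H be a subgroup of the finite group G, p a prime and M a maximal ideal of the algebraic integers containing p. If the block b of H induces the block B of G relative to M, then every defect group of b (a subgroup of H, viewed in G) is contained in some defect group of B. -/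
theorem result {G : Type*} [Group G] [Finite G] (p : ℕ) [Fact p.Prime] (M : Ideal Cfsg.AlgInt) (hM : Cfsg.IsPModular p M) (H : Subgroup G) (b : Set (Cfsg.IrrCharacter H)) (hb : Cfsg.IsPBlock M b) (B : Set (Cfsg.IrrCharacter G)) (hB : Cfsg.IsPBlock M B) (hind : Cfsg.IsInducedBlock M H b B) (D : Subgroup H) (hD : Cfsg.IsDefectGroup p M b D) : ∃ E : Subgroup G, Cfsg.IsDefectGroup p M B E ∧ D.map H.subtype ≤ E := by
  haveI := hM.2.1
  haveI := H6.charP_res hM
  obtain ⟨E, hE, hle⟩ := (IsInducedBlock.ind hind).exists_isDef_ge
    ((isDefectGroup_iff_eb hM hb).1 hD)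
  exact ⟨E, (isDefectGroup_iff hM hB).2 hE, hle⟩

end Cfsg.Agent.S0917
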