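import Cfsg.Statements.S0918
import Cfsg.Agent.H7.Induce
-- import your own Cfsg.Agent.* helpers here

set_option autoImplicit false
open Cfsg

namespace Cfsg.Agent.S0918

open MonoidAlgebra Cfsg.Agent.H3 Cfsg.Agent.H4 Cfsg.Agent.H7
open Cfsg.Agent.H6 (Res locRing redC redA eB fB intAlg classSum omega chiL)
open scoped Pointwise
set_option linter.style.haveILetI false


/-- Let P be a p-subgroup of the finite group G and H a subgroup with P·C_G(P) ≤ H ≤ N_G(P); let b be a block of H and B a block of G relative to a maximal ideal M of the algebraic integers containing p. Then b induces B if and only if, for every g ∈ G, every ξ ∈ b and every χ ∈ B, the central character of χ at g is congruent modulo the local ideal at M to the sum of ξ h / ξ 1 over the elements h of H conjugate in G to g and centralizing P. -/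
theorem result {G : Type*} [Group G] [Finite G] (p : ℕ) [Fact p.Prime] (M : Ideal Cfsg.AlgInt) (hM : Cfsg.IsPModular p M) (P H : Subgroup G) (hP : IsPGroup p P) (hPH : P ≤ H) (hCH : Subgroup.centralizer (P : Set G) ≤ H) (hHN : H ≤ Subgroup.normalizer (P : Set G)) (b : Set (Cfsg.IrrCharacter H)) (hb : Cfsg.IsPBlock M b) (B : Set (Cfsg.IrrCharacter G)) (hB : Cfsg.IsPBlock M B) : Cfsg.IsInducedBlock M H b B ↔ ∀ ξ ∈ b, ∀ χ ∈ B, ∀ g : G, Cfsg.MemLocalIdeal M (Cfsg.brauerCentralChar P H (ξ : H → ℂ) g - Cfsg.centralChar (χ : G → ℂ) g) := by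
  haveI := hM.2.1
  haveI := H6.charP_res hM
  have key : ∀ ξ ∈ b, ∀ g : G, brauerCentralChar P H (ξ : H → ℂ) g ∈ locRing M ∧
      redC M (brauerCentralChar P H (ξ : H → ℂ) g) =
        redC M (inducedCentralChar H (ξ : H → ℂ) g) := fun ξ hξ g => by
    have hz : Invt H (ind ℂ (orb ⊤ g)) := (invt_ind_orb ⊤ g).mono le_top
    have h1 : brauerCentralChar P H (ξ : H → ℂ) g =
        omega (ξ : H → ℂ) (pull ℂ H.subtype (br P (ind ℂ (orb ⊤ g)))) := by
      rw [br_def, trunc_ind, omega_pull_ind, brauerCentralChar]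
      congr 1
      ext x
      simp only [Set.mem_ofPred_eq, Set.mem_inter_iff, mem_orb_top, SetLike.mem_coe, and_comm]
    have h2 : inducedCentralChar H (ξ : H → ℂ) g =
        omega (ξ : H → ℂ) (pull ℂ H.subtype (ind ℂ (orb ⊤ g))) := by
      rw [omega_pull_ind, inducedCentralChar]
      simp only [mem_orb_top]
    have hi : ind ℂ (orb ⊤ g) ∈ intAlg M G := ind_mem_intAlg _
    refine ⟨h1 ▸ omega_pull_mem (hz.br hHN) (br_mem_intAlg P hi), ?_⟩
    rw [h1, h2, ← lam_eb_redA hb hξ (hz.br hHN) (br_mem_intAlg P hi), ← lam_eb_redA hb hξ hz hi,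
      redA_br, redA_ind, ((supp_br P _).mono hCH).trunc_eq,
      lam_trunc_eq_lam_br (L := ⊤) hP le_top (hPH.trans Subgroup.le_normalizer)
        (inf_le_left.trans hCH) hHN le_top (blk_eb hb)
        (ind_orb_mem_Fix Subgroup.le_normalizer trivial)]
  constructor
  · intro h ξ hξ χ hχ g
    rw [H6.memLocalIdeal_sub_iff (key ξ hξ g).1 (H6.centralChar_mem χ.2 g), (key ξ hξ g).2,
      ← H6.memLocalIdeal_sub_iff (H6.inducedCentralChar_mem H ξ.2 g) (H6.centralChar_mem χ.2 g)]
    exact h.2.2 ξ hξ χ hχ g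
  · intro h
    refine ⟨hb, hB, fun ξ hξ χ hχ g => ?_⟩
    rw [H6.memLocalIdeal_sub_iff (H6.inducedCentralChar_mem H ξ.2 g) (H6.centralChar_mem χ.2 g),
      ← (key ξ hξ g).2, ← H6.memLocalIdeal_sub_iff (key ξ hξ g).1 (H6.centralChar_mem χ.2 g)]
    exact h ξ hξ χ hχ g

end Cfsg.Agent.S0918
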