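import Cfsg.Statements.S0926
import Mathlib
import Cfsg.Agent.H8.Subsec3

set_option autoImplicit false
open Cfsg

namespace Cfsg.Agent.S0926

-- OPENS
open Cfsg.Agent.H8
open Cfsg.Agent.H6 hiding blockCoeff_eq_zero blockCoeff_mem blockDefect_eq blockHeight_eq
  blockPart_add blockPart_eq_zero_of_regular blockPart_eq_zero_of_singular blockPart_irr_of_mem
  blockPart_irr_of_not_mem blockPart_isClassFunction blockPart_smul blockPart_sub blockPart_sum
  blockPart_zero block_eq_blockOf block_eq_of_mem block_nonempty card_defectGroup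
  centralChar_mem char_mem conj_char_mem deg_factorization_le exists_height_zero
  irrOne_mem_principal isPBlock_blockOf isPBlock_principal isPGroup_zpowers mem_blockOf_self
  orderOf_conj' sameBlock_refl sameBlock_symm sameBlock_trans weak_orth weak_orth'
open Cfsg.Agent.H4 hiding exists_int_of_isIntegral_rat
open Cfsg.Agent.H5
open Cfsg.Agent.H3


/-- Let B be a block of the finite group G with defect group D (relative to a maximal ideal M of the algebraic integers containing p), let χ ∈ B have height zero, and let x be a p-element. Then some conjugate of x lies in D if and only if χ does not vanish on the whole p-section of x (the elements whose p-part is conjugate to x). -/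
theorem result {G : Type*} [Group G] [Finite G] (p : ℕ) [Fact p.Prime] (M : Ideal Cfsg.AlgInt) (hM : Cfsg.IsPModular p M) (B : Set (Cfsg.IrrCharacter G)) (hB : Cfsg.IsPBlock M B) (D : Subgroup G) (hD : Cfsg.IsDefectGroup p M B D) (χ : Cfsg.IrrCharacter G) (hχ : χ ∈ B) (h0 : Cfsg.blockHeight p B (χ : G → ℂ) = 0) (x : G) (hx : ∃ k : ℕ, orderOf x = p ^ k) : (∃ g : G, g * x * g⁻¹ ∈ D) ↔ ∃ u : G, (∃ z : G, Cfsg.IsPPart p u z ∧ IsConj x z) ∧ (χ : G → ℂ) u ≠ 0 := by
  have := hM.2.1
  have := Fintype.ofFinite G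
  constructor
  · rintro ⟨g, hg⟩
    have hx' : ∃ k, orderOf (g * x * g⁻¹) = p ^ k := by rwa [orderOf_conj']
    have h := secData_centralizer hx'
    obtain ⟨b, hb⟩ := h.exists_induced hM hB hD hg
    obtain ⟨y, hy, h1⟩ := h.exists_apply_ne_zero hM hb hχ h0
    exact ⟨_, ⟨_, h.isPPart hy, isConj_iff.mpr ⟨g, rfl⟩⟩, h1⟩
  · rintro ⟨u, ⟨z, hz, hc⟩, h1⟩
    obtain ⟨D', hD', hz'⟩ := exists_defectGroup_mem hM hB hχ hz h1
    obtain ⟨t, ht⟩ := defectGroup_conj hM hB hD' hD
    obtain ⟨c, rfl⟩ := isConj_iff.mp hc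
    refine ⟨t * c, ?_⟩
    have := (ht _).mp hz'
    convert this using 1
    group

end Cfsg.Agent.S0926
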