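import Cfsg.Statements.S0927
import Mathlib
import Cfsg.Agent.H8.Induced

set_option autoImplicit false
open Cfsg

namespace Cfsg.Agent.S0927

-- OPENS
open Cfsg.Agent.H8
open Cfsg.Agent.H6 hiding blockCoeff_eq_zero blockCoeff_mem blockPart_add
  blockPart_eq_zero_of_regular blockPart_eq_zero_of_singular blockPart_irr_of_mem
  blockPart_irr_of_not_mem blockPart_isClassFunction blockPart_smul blockPart_sub blockPart_sum
  blockPart_zero block_eq_blockOf block_eq_of_mem block_nonempty centralChar_mem char_mem
  conj_char_mem irrOne_mem_principal isPBlock_blockOf isPBlock_principal mem_blockOf_self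
  orderOf_conj' sameBlock_refl sameBlock_symm sameBlock_trans weak_orth weak_orth'
open Cfsg.Agent.H4 hiding exists_int_of_isIntegral_rat
open Cfsg.Agent.H5
open Cfsg.Agent.H3


/-- Let B be a block of the finite group G relative to a maximal ideal M of the algebraic integers containing p, let y represent a defect class of B and let P be a Sylow p-subgroup of the centralizer of y. (a) If x ∈ P and χ ∈ B has height zero, then χ (x * y) is not in the local ideal at M. (b) If x lies in the centre of P, then for every χ ∈ B the central character of χ at x * y is not in the local ideal at M. -/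
theorem result {G : Type*} [Group G] [Finite G] (p : ℕ) [Fact p.Prime] (M : Ideal Cfsg.AlgInt) (hM : Cfsg.IsPModular p M) (B : Set (Cfsg.IrrCharacter G)) (hB : Cfsg.IsPBlock M B) (y : G) (hy : Cfsg.IsDefectClass M B y) (P : Sylow p (Subgroup.centralizer ({y} : Set G))) (x : Subgroup.centralizer ({y} : Set G)) (hx : x ∈ (P : Subgroup (Subgroup.centralizer ({y} : Set G)))) : (∀ χ ∈ B, Cfsg.blockHeight p B (χ : G → ℂ) = 0 → ¬ Cfsg.MemLocalIdeal M ((χ : G → ℂ) ((x : G) * y))) ∧ ((∀ w ∈ (P : Subgroup (Subgroup.centralizer ({y} : Set G))), x * w = w * x) → ∀ χ ∈ B, ¬ Cfsg.MemLocalIdeal M (Cfsg.centralChar (χ : G → ℂ) ((x : G) * y))) := by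
  have := hM.2.1
  have hp : p.Prime := Fact.out
  obtain ⟨k, hk⟩ := P.2 ⟨x, hx⟩
  have hk' : (x : G) ^ p ^ k = 1 := by
    have := congrArg (fun t : (P : Subgroup (Subgroup.centralizer ({y} : Set G))) => ((t : Subgroup.centralizer ({y} : Set G)) : G)) hk
    simpa using this
  have hc : Commute (x : G) y := Subgroup.mem_centralizer_singleton_iff.mp x.2
  have h1 : ∀ χ ∈ B, Cfsg.blockHeight p B (χ : G → ℂ) = 0 → redC M ((χ : G → ℂ) ((x : G) * y)) ≠ 0 := by
    intro χ hχ h0
    rw [redC_char_mul hM χ.2.isCharacter hc hk']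
    exact redC_ne_zero_of_defectClass hM hB hy hχ h0
  refine ⟨fun χ hχ h0 h => h1 χ hχ h0 (redC_eq_zero_of_memLocalIdeal h), fun hw χ hχ h => ?_⟩
  obtain ⟨χ₀, hχ₀, h0⟩ := exists_height_zero (p := p) ⟨χ, hχ⟩
  have h2 := redC_eq_zero_of_memLocalIdeal h
  rw [redC_centralChar_eq χ.2 χ₀.2 (block_sameBlock hB hχ hχ₀),
    redC_centralChar_eq_zero_iff hM hχ₀ h0] at h2
  · exact h1 χ₀ hχ₀ h0 h2
  · rw [← centralizer_factorization_of_defectClass hM hB hy]
    apply le_antisymm
    · exact Nat.factorization_le_factorization_of_dvd_right (Subgroup.card_dvd_of_le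
        (centralizer_mul_le hc hk' (not_dvd_orderOf_of_defectClass hM hB hy) (orderOf_pos y).ne'))
        Nat.card_pos.ne' Nat.card_pos.ne'
    · rw [← hp.pow_dvd_iff_le_factorization Nat.card_pos.ne', ← card_sylow_eq P,
        ← Subgroup.card_map_of_injective (Subgroup.subtype_injective _)]
      apply Subgroup.card_dvd_of_le
      rintro _ ⟨w, hw', rfl⟩
      rw [Subgroup.mem_centralizer_singleton_iff]
      have e1 : Commute (w : G) x := (congrArg Subtype.val (hw w hw')).symm
      have e2 : Commute (w : G) y := Subgroup.mem_centralizer_singleton_iff.mp w.2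
      exact e1.mul_right e2

end Cfsg.Agent.S0927
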