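import Cfsg.Statements.S0929
import Cfsg.Agent.H7.Local5
-- import your own Cfsg.Agent.* helpers here

set_option autoImplicit false
open Cfsg

namespace Cfsg.Agent.S0929

open MonoidAlgebra Cfsg.Agent.H3 Cfsg.Agent.H4 Cfsg.Agent.H7
open Cfsg.Agent.H6 (Res locRing redC redA eB fB intAlg classSum omega chiL)
open scoped Pointwise
set_option linter.style.haveILetI false


/-- Let B be a block of the finite group G with defect group P (relative to a maximal ideal M of the algebraic integers containing p), and let g be an element at which the central character of some member of B is not in the local ideal at M. Then some conjugate x of g centralizes P and has its p-part in the centre of P. -/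
theorem result {G : Type*} [Group G] [Finite G] (p : ℕ) [Fact p.Prime] (M : Ideal Cfsg.AlgInt) (hM : Cfsg.IsPModular p M) (B : Set (Cfsg.IrrCharacter G)) (hB : Cfsg.IsPBlock M B) (P : Subgroup G) (hP : Cfsg.IsDefectGroup p M B P) (g : G) (hg : ∃ χ ∈ B, ¬ Cfsg.MemLocalIdeal M (Cfsg.centralChar (χ : G → ℂ) g)) : ∃ x : G, IsConj g x ∧ x ∈ Subgroup.centralizer (P : Set G) ∧ ∀ z : G, Cfsg.IsPPart p x z → z ∈ P ∧ ∀ w ∈ P, z * w = w * z := by
  haveI := hM.2.1; haveI := H6.charP_res hM
  obtain ⟨χ, hχ, h⟩ := hg
  obtain ⟨y, h1, h2, h3⟩ := exists_central_ppart hM (blk_eB hB) ((isDefectGroup_iff hM hB).1 hP)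
    (x := g) trivial (by
      rw [lam_eB_ind hB hχ]
      exact fun h0 => h ((H6.redC_eq_zero_iff (H6.centralChar_mem χ.2 g)).1 h0))
  exact ⟨y, mem_orb_top.1 h1, h2, fun z hz => ⟨(h3 z hz).1, fun w hw => ((h3 z hz).2 w hw).symm⟩⟩

end Cfsg.Agent.S0929
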