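import Cfsg.Statements.S0931
import Cfsg.Agent.H7.Local5
import Cfsg.Agent.H1.SylowIn
-- import your own Cfsg.Agent.* helpers here

set_option autoImplicit false
open Cfsg

namespace Cfsg.Agent.S0931

open MonoidAlgebra Cfsg.Agent.H3 Cfsg.Agent.H4 Cfsg.Agent.H7
open Cfsg.Agent.H6 (Res locRing redC redA eB fB intAlg classSum omega chiL)
open scoped Pointwise
set_option linter.style.haveILetI false


/-- Let H be a subgroup of the finite group G and fix a maximal ideal M of the algebraic integers containing the prime p. If the block b of H induces the block B of G, then b has defect 0 if and only if B has defect 0. -/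
theorem result {G : Type*} [Group G] [Finite G] (p : ℕ) [Fact p.Prime] (M : Ideal Cfsg.AlgInt) (hM : Cfsg.IsPModular p M) (H : Subgroup G) (b : Set (Cfsg.IrrCharacter H)) (B : Set (Cfsg.IrrCharacter G)) (hind : Cfsg.IsInducedBlock M H b B) : Cfsg.blockDefect p b = 0 ↔ Cfsg.blockDefect p B = 0 := by
  haveI := hM.2.1; haveI := H6.charP_res hM
  have hp : p.Prime := Fact.out
  have hI := IsInducedBlock.ind hind
  obtain ⟨D, hD⟩ := exists_isDef p hI.left
  obtain ⟨E, hE, hDE⟩ := hI.exists_isDef_ge hD
  have h1 := card_eq_pow_blockDefect_eb hM hind.1 hD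
  have h2 := card_eq_pow_blockDefect hM hind.2.1 hE
  have k : ∀ n, n = 0 ↔ p ^ n = 1 := fun n => by simp [hp.ne_one]
  rw [k, k (blockDefect p B), ← h1, ← h2, Subgroup.card_eq_one, Subgroup.card_eq_one]
  refine ⟨fun h => ?_, fun h => le_bot_iff.1 (h ▸ hDE)⟩
  by_contra h0
  obtain ⟨x, hx, hx1⟩ := (Subgroup.bot_or_exists_ne_one _).resolve_left
    (H1.inf_centralizer_ne_bot_of_isPGroup hE.isPGroup hE.isPGroup Subgroup.le_normalizer h0)
  obtain ⟨z, ⟨g, -, rfl⟩, h3⟩ := hI.exists_conj_central hM hD hE hx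
  have h4 := (Subgroup.mem_inf.1 h3).1
  rw [h, Subgroup.mem_bot] at h4
  exact hx1 (by simpa using h4)

end Cfsg.Agent.S0931
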