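import Cfsg.Statements.S0938
import Cfsg.Agent.H6.Kernel
-- import your own Cfsg.Agent.* helpers here

set_option autoImplicit false
open Cfsg

namespace Cfsg.Agent.S0938

open Cfsg.Agent.H4 Cfsg.Agent.H6


/-- Let B be a block of the finite group G relative to a maximal ideal M of the algebraic integers containing the prime p, and let χ ∈ B. Then the kernel of B (the set of g with ψ g = ψ 1 for all ψ ∈ B) is a normal subgroup of order prime to p contained in the kernel of χ, and it contains every normal subgroup of order prime to p on which χ takes the value χ(1); that is, it is O_p' of the kernel of χ. -/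
theorem result {G : Type*} [Group G] [Finite G] (p : ℕ) [Fact p.Prime] (M : Ideal Cfsg.AlgInt) (hM : Cfsg.IsPModular p M) (B : Set (Cfsg.IrrCharacter G)) (hB : Cfsg.IsPBlock M B) (χ : Cfsg.IrrCharacter G) (hχ : χ ∈ B) : ∃ K : Subgroup G, K.Normal ∧ (K : Set G) = Cfsg.blockKer B ∧ ¬ p ∣ Nat.card K ∧ (∀ g ∈ K, (χ : G → ℂ) g = (χ : G → ℂ) 1) ∧ ∀ N : Subgroup G, N.Normal → ¬ p ∣ Nat.card N → (∀ g ∈ N, (χ : G → ℂ) g = (χ : G → ℂ) 1) → N ≤ K := by
  haveI := hM.2.1
  refine ⟨blockKerSub B, inferInstance, Set.ext fun g => mem_blockKerSub,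
    not_dvd_card_blockKerSub hM hB, fun g hg => mem_blockKerSub.1 hg χ hχ, fun N _ hN h => ?_⟩
  exact le_iInf₂ fun ψ hψ => le_charKer_of_sameBlock hM hN χ.2 ψ.2 (sameBlock_of_mem hB hχ hψ)
    fun g hg => χ.2.isCharacter.mem_charKer.2 (h g hg)

end Cfsg.Agent.S0938
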