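import Cfsg.Statements.S0944
import Cfsg.Agent.H6.Kernel
import Cfsg.Agent.H4.Galois
-- import your own Cfsg.Agent.* helpers here

set_option autoImplicit false
open Cfsg

namespace Cfsg.Agent.S0944

open Cfsg.Agent.H4 Cfsg.Agent.H6


/-- Let χ be an irreducible character of the finite group G and u an involution. Then χ u is a rational integer n with n ≡ χ 1 (mod 2). -/
theorem result {G : Type*} [Group G] [Finite G] (χ : Cfsg.IrrCharacter G) (u : G) (hu : orderOf u = 2) : ∃ n : ℤ, (χ : G → ℂ) u = (n : ℂ) ∧ (2 : ℤ) ∣ (Cfsg.charDegree (χ : G → ℂ) : ℤ) - n := by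
  obtain ⟨k, -, hk⟩ := χ.2.isCharacter.exists_int_of_sq_eq_one (g := u)
    (by rw [← hu, pow_orderOf_eq_one]) (irr_deg_cast χ).symm
  exact ⟨charDegree (χ : G → ℂ) - 2 * k, by rw [hk]; push_cast; ring, k, by ring⟩

end Cfsg.Agent.S0944
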