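import Cfsg.Statements.S0947
import Mathlib
import Cfsg.Agent.H8.Subsec3

set_option autoImplicit false
open Cfsg

namespace Cfsg.Agent.S0947

-- OPENS
open Cfsg.Agent.H8
open Cfsg.Agent.H6 hiding blockCoeff_eq_zero blockCoeff_mem blockDefect_eq blockHeight_eq
  blockPart_add blockPart_eq_zero_of_regular blockPart_eq_zero_of_singular blockPart_irr_of_mem
  blockPart_irr_of_not_mem blockPart_isClassFunction blockPart_smul blockPart_sub blockPart_sum
  blockPart_zero block_eq_blockOf block_eq_of_mem block_nonempty card_defectGroup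
  centralChar_mem char_mem conj_char_mem deg_factorization_le exists_height_zero
  irrOne_mem_principal isPBlock_blockOf isPBlock_principal isPGroup_zpowers mem_blockOf_self
  orderOf_conj' sameBlock_refl sameBlock_symm sameBlock_trans weak_orth weak_orth'
open Cfsg.Agent.H4 hiding exists_int_of_isIntegral_rat
open Cfsg.Agent.H5
open Cfsg.Agent.H3


/-- Let z ≠ 1 be a p-element of the finite group G with centralizer H, and fix a maximal ideal M of the algebraic integers containing p. (i) For every y ∈ H of order prime to p, the sum over ζ in the principal block of G of |ζ (z * y)|² equals the sum over χ in the principal block of H of |χ y|². (ii) If moreover H has a normal p-complement (its largest normal subgroup of order prime to p has p-power index), that common value is the largest power of p dividing the order of H. -/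
theorem result {G : Type*} [Group G] [Finite G] (p : ℕ) [Fact p.Prime] (M : Ideal Cfsg.AlgInt) (hM : Cfsg.IsPModular p M) (z : G) (hz : ∃ k : ℕ, orderOf z = p ^ k) (hz1 : z ≠ 1) (y : Subgroup.centralizer ({z} : Set G)) (hy : ¬ p ∣ orderOf y) : (∑ᶠ ζ ∈ Cfsg.principalBlock M G, ‖(ζ : G → ℂ) (z * (y : G))‖ ^ 2 = ∑ᶠ χ ∈ Cfsg.principalBlock M (Subgroup.centralizer ({z} : Set G)), ‖(χ : Subgroup.centralizer ({z} : Set G) → ℂ) y‖ ^ 2) ∧ ((∃ k : ℕ, (Cfsg.pPrimeCore p (Subgroup.centralizer ({z} : Set G))).index = p ^ k) → ∑ᶠ ζ ∈ Cfsg.principalBlock M G, ‖(ζ : G → ℂ) (z * (y : G))‖ ^ 2 = ((p ^ (Nat.card (Subgroup.centralizer ({z} : Set G))).factorization p : ℕ) : ℝ)) := by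
  classical
  have := hM.2.1
  have := Fintype.ofFinite G
  have := Fintype.ofFinite (Subgroup.centralizer ({z} : Set G))
  have h := secData_centralizer hz
  have h1 := h.sum_principal_mul_conj hM hy hy
  simp only [Complex.mul_conj, Complex.normSq_eq_norm_sq] at h1
  have h2 : ∑ᶠ ζ ∈ principalBlock M G, ‖(ζ : G → ℂ) (z * (y : G))‖ ^ 2 =
      ∑ᶠ χ ∈ principalBlock M (Subgroup.centralizer ({z} : Set G)),
        ‖(χ : Subgroup.centralizer ({z} : Set G) → ℂ) y‖ ^ 2 := by
    rw [finsum_mem_bfin, finsum_mem_bfin]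
    exact_mod_cast h1
  refine ⟨h2, fun hk => ?_⟩
  rw [h2, finsum_mem_bfin]
  generalize Subgroup.centralizer ({z} : Set G) = C at *
  have hN : ¬ p ∣ Nat.card (pPrimeCore p C) := H1.not_dvd_card_pPrimeCore p C
  have hyN : y ∈ pPrimeCore p C := mem_of_not_dvd_orderOf hM.1 hk hy
  have e : bfin (principalBlock M C) =
      Finset.univ.filter fun χ : IrrCharacter C => pPrimeCore p C ≤ charKer (χ : C → ℂ) := by
    ext χ
    simp [mem_principal_iff_of_complement hM hN hk]
  have h3 : ∑ χ ∈ bfin (principalBlock M C), ((‖(χ : C → ℂ) y‖ ^ 2 : ℝ) : ℂ) =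
      (pPrimeCore p C).index := by
    rw [e, Finset.sum_congr rfl (g := fun χ : IrrCharacter C => (χ : C → ℂ) 1 ^ 2) fun χ hχ => by
      rw [apply_of_mem_charKer ((Finset.mem_filter.mp hχ).2 hyN), irr_norm_apply_one,
        ← irr_coe_charDegree]
      push_cast; rfl]
    rw [sum_irr_filter_le_charKer (pPrimeCore p C) (fun χ => χ 1 ^ 2)]
    exact sum_irr_degree_sq
  obtain ⟨k, hk⟩ := hk
  have h4 : (Nat.card C).factorization p = k := by
    rw [← (pPrimeCore p C).card_mul_index, Nat.factorization_mul Nat.card_pos.ne'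
      Subgroup.index_ne_zero_of_finite, hk, Finsupp.add_apply, hM.1.factorization_pow,
      Finsupp.single_eq_same, Nat.factorization_eq_zero_of_not_dvd hN, zero_add]
  rw [h4, ← hk]
  exact_mod_cast h3

end Cfsg.Agent.S0947
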