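import Cfsg.Statements.S0950
import Cfsg.Agent.H26.Q8C3

set_option autoImplicit false
open Cfsg

namespace Cfsg.Agent.S0950


/-- Let S be a Sylow 2-subgroup of the finite group G that is isomorphic to the quaternion group of order 8, and suppose S has no normal complement in G. Then any two subgroups of order 4 of S are conjugate by an element of the normalizer of S. -/
theorem result {G : Type*} [Group G] [Finite G] (S : Sylow 2 G) (e : (S : Subgroup G) ≃* QuaternionGroup 2) (hnc : ∀ N : Subgroup G, N.Normal → ¬ Subgroup.IsComplement' N (S : Subgroup G)) (A B : Subgroup G) (hA : A ≤ S) (hB : B ≤ S) (hA4 : Nat.card A = 4) (hB4 : Nat.card B = 4) : ∃ n ∈ Subgroup.normalizer ((S : Subgroup G) : Set G), B = A.map (MulAut.conj n).toMonoidHom := by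
  obtain ⟨X, Y, h⟩ := H11.exists_MC_of_q8 e
  obtain ⟨k, a, g, hg, h1, h2⟩ := H26.exists_odd_of_quaternion h (fun hc => by
    obtain ⟨N, hN, hN'⟩ := (H3.hasNormalPComplement_iff_sylow S).1 hc
    exact hnc N hN hN')
  obtain ⟨-, -, h3⟩ := H26.MC_odd_cycle h (by simp) hg h1 h2
  have hq : H11.qq 2 = 1 := by decide
  rw [hq] at h1 h2 h3
  rw [← h.eq_closure rfl k] at h1
  have hSN : (S : Subgroup G) ≤ Subgroup.normalizer ((S : Subgroup G) : Set G) := Subgroup.le_normalizer
  -- every element of order four is conjugate to `X 1`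
  have key : ∀ y ∈ (S : Subgroup G), orderOf y = 4 →
      ∃ n ∈ Subgroup.normalizer ((S : Subgroup G) : Set G), n * X 1 * n⁻¹ = y := by
    have hY : ∀ b c, (∃ n ∈ Subgroup.normalizer ((S : Subgroup G) : Set G), n * X 1 * n⁻¹ = Y b) →
        ∃ n ∈ Subgroup.normalizer ((S : Subgroup G) : Set G), n * X 1 * n⁻¹ = Y (b + 2 * c) := by
      rintro b c ⟨n, hn, hb⟩
      obtain ⟨d, hd⟩ := h.exists_conj_Y b c
      exact ⟨X d * n, Subgroup.mul_mem _ (hSN (h.X_mem d)) hn, by rw [← hd, ← hb]; group⟩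
    have hY1 : ∃ n ∈ Subgroup.normalizer ((S : Subgroup G) : Set G), n * X 1 * n⁻¹ = Y (a + 1) := by
      rcases h3 with h3 | h3
      · have := hY (a - 1) 1 ⟨g * g, Subgroup.mul_mem _ h1 h1, by rw [← h3, ← h2]; group⟩
        rwa [show a - 1 + 2 * 1 = a + 1 by ring] at this
      · exact ⟨g * g, Subgroup.mul_mem _ h1 h1, by rw [← h3, ← h2]; group⟩
    intro y hy ho
    obtain ⟨b, rfl | rfl⟩ := (h.mem y).1 hy
    · rcases h.orderOf_X_four.1 ho with rfl | rfl
      · exact ⟨1, Subgroup.one_mem _, by rw [hq]; simp⟩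
      · exact ⟨Y 0, hSN (h.Y_mem 0), by rw [h.YXY, hq]; simp⟩
    · obtain ⟨c, hc | hc⟩ := H11.zparity (b - a)
      · have := hY a c ⟨g, h1, h2⟩
        rwa [← hc, add_sub_cancel] at this
      · have := hY (a + 1) c hY1
        rwa [show a + 1 + 2 * c = b by linear_combination -hc] at this
  have key2 : ∀ C : Subgroup G, C ≤ S → Nat.card C = 4 →
      ∃ n ∈ Subgroup.normalizer ((S : Subgroup G) : Set G), C = Subgroup.zpowers (n * X 1 * n⁻¹) := by
    intro C hC h4
    obtain ⟨y, hy, ho⟩ : ∃ y ∈ C, orderOf y = 4 := by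
      classical
      obtain ⟨y, hy, hn⟩ := H11.exists_mem_ne_of_card (V := C) {1, X (H11.hh 2)} (by
        rw [h4]; exact Finset.card_le_two.trans_lt (by norm_num))
      refine ⟨y, hy, ?_⟩
      simp only [Finset.mem_insert, Finset.mem_singleton, not_or] at hn
      obtain ⟨b, rfl | rfl⟩ := (h.mem y).1 (hC hy)
      · rw [h.orderOf_X_four]
        rw [h.X_eq_one, h.X_inj] at hn
        clear hy; revert hn; revert b; decide
      · exact h.orderOf_Y_four.2 (by simp)
    obtain ⟨n, hn, hy'⟩ := key y (hC hy) ho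
    refine ⟨n, hn, ?_⟩
    rw [hy']
    exact (Subgroup.eq_of_le_of_card_ge (Subgroup.zpowers_le.2 hy) (by rw [h4, Nat.card_zpowers, ho])).symm
  obtain ⟨m, hm, rfl⟩ := key2 A hA hA4
  obtain ⟨n, hn, rfl⟩ := key2 B hB hB4
  refine ⟨n * m⁻¹, Subgroup.mul_mem _ hn (Subgroup.inv_mem _ hm), ?_⟩
  rw [MonoidHom.map_zpowers]
  congr 1
  simp only [MulEquiv.coe_toMonoidHom, MulAut.conj_apply]; group

end Cfsg.Agent.S0950
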