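import Cfsg.Statements.S0951
import Cfsg.Agent.H6.BS
-- import your own Cfsg.Agent.* helpers here

set_option autoImplicit false
open Cfsg

namespace Cfsg.Agent.S0951

open Cfsg.Agent.H4 Cfsg.Agent.H6


/-- Let S be a Sylow 2-subgroup of the finite group G isomorphic to the quaternion group of order 8. Suppose G has no nontrivial normal subgroup of odd order and G ≠ S. Then, relative to any maximal ideal M of the algebraic integers containing 2, the principal block of G consists of exactly 7 irreducible characters. -/
theorem result {G : Type*} [Group G] [Finite G] (M : Ideal Cfsg.AlgInt) (hM : Cfsg.IsPModular 2 M) (S : Sylow 2 G) (e : (S : Subgroup G) ≃* QuaternionGroup 2) (hO : ∀ N : Subgroup G, N.Normal → Odd (Nat.card N) → N = ⊥) (hG : (S : Subgroup G) ≠ ⊤) : Nat.card (Cfsg.principalBlock M G) = 7 := by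
  haveI := hM.2.1
  have := Fintype.ofFinite G
  obtain ⟨X, Y, h⟩ := H11.exists_MC_of_q8 e
  obtain ⟨φ, ψ, hg, ho, hB, -⟩ := q8_central h hM
    (mem_center_of_unique (fun _ _ => quat_unique h) (pPrimeCore_two_eq_bot hO) h.orderOf_z)
    fun hc => hG (by
      have h1 := H3.isComplement'_pResidual hc S
      rw [hO (pResidual 2 G) inferInstance (Nat.odd_iff.2 (Nat.two_dvd_ne_zero.1
        (H3.hasNormalPComplement_iff_not_dvd.1 hc)))] at h1
      exact Subgroup.isComplement'_bot_left.1 h1)
  simpa using (signed_family hg ho hB).1

end Cfsg.Agent.S0951
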