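import Cfsg.Statements.S0957
import Cfsg.Agent.H6.PPart
-- import your own Cfsg.Agent.* helpers here

set_option autoImplicit false
open Cfsg

namespace Cfsg.Agent.S0957

open Cfsg.Agent.H6


/-- Let P be a Sylow p-subgroup of the finite group G, let g, h ∈ G and let p ^ d be the order of a Sylow p-subgroup of the centralizer of g. Then the number of pairs (y, z) with y conjugate to g, z conjugate to h and z * y⁻¹ ∈ P is divisible by the order of P divided by p ^ d. -/
theorem result {G : Type*} [Group G] [Finite G] (p : ℕ) [Fact p.Prime] (P : Sylow p G) (g h : G) (S : Sylow p (Subgroup.centralizer ({g} : Set G))) : Nat.card P / Nat.card S ∣ Nat.card {yz : G × G // IsConj g yz.1 ∧ IsConj h yz.2 ∧ yz.2 * yz.1⁻¹ ∈ (P : Subgroup G)} := by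
  classical
  let X := {yz : G × G // IsConj g yz.1 ∧ IsConj h yz.2 ∧ yz.2 * yz.1⁻¹ ∈ (P : Subgroup G)}
  letI : MulAction P X :=
    { smul := fun u x => ⟨(u * x.1.1 * (u : G)⁻¹, u * x.1.2 * (u : G)⁻¹),
        x.2.1.trans (isConj_iff.2 ⟨u, rfl⟩), x.2.2.1.trans (isConj_iff.2 ⟨u, rfl⟩), by
          have := mul_mem (mul_mem u.2 x.2.2.2) (inv_mem u.2)
          convert this using 1
          group⟩
      one_smul := fun x => Subtype.ext (by
        change (((1 : P) : G) * x.1.1 * ((1 : P) : G)⁻¹, ((1 : P) : G) * x.1.2 * ((1 : P) : G)⁻¹) = x.1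
        simp)
      mul_smul := fun u v x => Subtype.ext (by
        change (((u * v : P) : G) * x.1.1 * ((u * v : P) : G)⁻¹,
          ((u * v : P) : G) * x.1.2 * ((u * v : P) : G)⁻¹) =
          ((u : G) * (v * x.1.1 * (v : G)⁻¹) * (u : G)⁻¹, (u : G) * (v * x.1.2 * (v : G)⁻¹) * (u : G)⁻¹)
        simp [mul_assoc]) }
  haveI := Fintype.ofFinite (MulAction.orbitRel.Quotient P X)
  change _ ∣ Nat.card X
  rw [Nat.card_congr (MulAction.selfEquivSigmaOrbits P X), Nat.card_sigma]
  refine Finset.dvd_sum fun ω _ => ?_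
  set x := ω.out
  have h1 := (MulAction.stabilizer P x).index_mul_card
  rw [MulAction.index_stabilizer, ← Nat.card_coe_set_eq] at h1
  have h2 : Nat.card (MulAction.stabilizer P x) ∣ Nat.card S := by
    obtain ⟨t, ht⟩ := isConj_iff.1 x.2.1
    let f : MulAction.stabilizer P x →* Subgroup.centralizer ({g} : Set G) :=
      ((MulAut.conj t⁻¹).toMonoidHom.comp ((P : Subgroup G).subtype.comp
        (MulAction.stabilizer P x).subtype)).codRestrict _ fun u => by
          have h3 : (u : P) * x.1.1 * ((u : P) : G)⁻¹ = x.1.1 :=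
            congrArg (fun y : X => y.1.1) u.2
          rw [← ht] at h3
          refine mem_centralizer_singleton.2 ?_
          change g * (t⁻¹ * (u : P) * t⁻¹⁻¹) = t⁻¹ * (u : P) * t⁻¹⁻¹ * g
          have h4 : g = t⁻¹ * ((u : P) * (t * g * t⁻¹) * ((u : P) : G)⁻¹) * t := by rw [h3]; group
          conv_lhs => rw [h4]
          group
    have hf : Function.Injective f := fun a b hab => by
      have := congrArg Subtype.val hab
      exact Subtype.ext (Subtype.ext ((MulAut.conj t⁻¹).injective this))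
    obtain ⟨k, hk⟩ := IsPGroup.iff_card.1 (P.2.to_subgroup (MulAction.stabilizer P x))
    have h5 := Subgroup.card_dvd_of_injective f hf
    rw [hk] at h5 ⊢
    rw [S.card_eq_multiplicity]
    exact pow_dvd_pow _ (((Fact.out : p.Prime).pow_dvd_iff_le_factorization Nat.card_pos.ne').1 h5)
  obtain ⟨c, hc⟩ := h2
  have h6 : Nat.card S ∣ Nat.card P := by
    rw [S.card_eq_multiplicity, P.card_eq_multiplicity]
    exact pow_dvd_pow _ ((Nat.factorization_le_iff_dvd Nat.card_pos.ne' Nat.card_pos.ne').2
      (Subgroup.card_subgroup_dvd_card _) p)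
  refine Nat.div_dvd_iff_dvd_mul h6 Nat.card_pos |>.2 ?_
  rw [← h1, hc]
  exact ⟨c, by ring⟩

end Cfsg.Agent.S0957
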