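import Cfsg.Statements.S0958
import Cfsg.Agent.H7.Induce
-- import your own Cfsg.Agent.* helpers here

set_option autoImplicit false
open Cfsg

namespace Cfsg.Agent.S0958

open MonoidAlgebra Cfsg.Agent.H3 Cfsg.Agent.H4 Cfsg.Agent.H7
open Cfsg.Agent.H6 (Res locRing redC redA eB fB intAlg classSum omega chiL)
open scoped Pointwise
set_option linter.style.haveILetI false


/-- Let P be a p-subgroup of the finite group G and H a subgroup with P ⊔ C_G(P) ≤ H ≤ N_G(P); fix a maximal ideal M of the algebraic integers containing p. Then a block B of G is induced by some block of H if and only if some conjugate of P is contained in a defect group of B. -/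
theorem result {G : Type*} [Group G] [Finite G] (p : ℕ) [Fact p.Prime] (M : Ideal Cfsg.AlgInt) (hM : Cfsg.IsPModular p M) (P H : Subgroup G) (hP : IsPGroup p P) (hPH : P ⊔ Subgroup.centralizer (P : Set G) ≤ H) (hHN : H ≤ Subgroup.normalizer (P : Set G)) (B : Set (Cfsg.IrrCharacter G)) (hB : Cfsg.IsPBlock M B) : (∃ b : Set (Cfsg.IrrCharacter H), Cfsg.IsInducedBlock M H b B) ↔ ∃ D : Subgroup G, Cfsg.IsDefectGroup p M B D ∧ ∃ x : G, P.map (MulAut.conj x).toMonoidHom ≤ D := by
  haveI := hM.2.1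
  haveI := H6.charP_res hM
  have key := exists_ind_iff_br_ne (L := ⊤) hP le_top
    ((le_sup_left.trans hPH).trans Subgroup.le_normalizer)
    (inf_le_left.trans (le_sup_right.trans hPH)) hHN le_top (blk_eB hB)
  constructor
  · rintro ⟨b, hb⟩
    obtain ⟨D, hD⟩ := exists_isDef p (blk_eB hB)
    obtain ⟨x, -, hx⟩ := hD.conj_le P le_top hP (key.1 ⟨_, IsInducedBlock.ind hb⟩)
    exact ⟨D, (isDefectGroup_iff hM hB).2 hD, x, hx⟩
  · rintro ⟨D, hD, x, hx⟩
    obtain ⟨b, hb⟩ := key.2 ((((isDefectGroup_iff hM hB).1 hD).br_ne_iff (eB_mem_Fix B).2 le_top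
      hP).2 ⟨x, trivial, hx⟩)
    obtain ⟨b', hb', -⟩ := hb.exists_isInducedBlock' hB
    exact ⟨b', hb'⟩

end Cfsg.Agent.S0958
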