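import Cfsg.Statements.S0963
import Cfsg.Agent.H7.Cover2
-- import your own Cfsg.Agent.* helpers here

set_option autoImplicit false
open Cfsg

namespace Cfsg.Agent.S0963

open MonoidAlgebra Cfsg.Agent.H3 Cfsg.Agent.H4 Cfsg.Agent.H7
open Cfsg.Agent.H6 (Res locRing redC redA eB fB intAlg classSum omega chiL)
open scoped Pointwise
set_option linter.style.haveILetI false


/-- Let N be a normal subgroup of the finite group G, χ an irreducible character of G and θ an irreducible character of N. Then θ occurs in the restriction of χ to N if and only if, for every n ∈ N, the central character of χ at n (class size in G times χ n over χ 1) equals the sum of θ m / θ 1 over the elements m of N conjugate in G to n. -/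
theorem result {G : Type*} [Group G] [Fintype G] (N : Subgroup G) [N.Normal] [Fintype N] (χ : Cfsg.IrrCharacter G) (θ : Cfsg.IrrCharacter N) : Cfsg.classInner (fun n : N => (χ : G → ℂ) n) (θ : N → ℂ) ≠ 0 ↔ ∀ n : N, Cfsg.centralChar (χ : G → ℂ) (n : G) = Cfsg.inducedCentralChar N (θ : N → ℂ) (n : G) := by
  classical
  have h2 : ∀ g : G, inducedCentralChar N (θ : N → ℂ) g =
      omega (θ : N → ℂ) (pull ℂ N.subtype (ind ℂ (orb ⊤ g))) := fun g => by
    rw [omega_pull_ind, inducedCentralChar]
    simp only [mem_orb_top]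
  constructor
  · intro h n
    rw [← H6.omega_classSum χ.2.isClassFunction, ← H6.omega_trunc_classSum]
    exact H6.omega_eq_omega_trunc χ.2 θ.2 h (H6.classSum_mem_center _)
      fun g hg => H6.coeff_classSum_eq_zero_of_normal N n.2 hg
  · intro h h0
    have hz : ∑ x : G, cj x (fb N {θ}) ∈ Fix ℂ N ⊤ := by
      have := sum_cj_eq_card_smul_orbSum (⊤ : Subgroup G) (fb N {θ})
      simp only [Subgroup.mem_top, Finset.filter_true] at this
      rw [this]
      exact nsmul_mem (orbSum_mem_Fix Subgroup.le_normalizer_of_normal (fb_mem_Fix _).1) _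
    have h3 := lam_eq_of_forall_ind (φ := omega (χ : G → ℂ))
      (ψ := fun z => omega (θ : N → ℂ) (pull ℂ N.subtype z)) Subgroup.le_normalizer_of_normal
      (fun a _ b _ c => by simp) (fun a _ b _ c => by simp) (fun x hx => by
        rw [← h2, ← h ⟨x, hx⟩, ← classSum_eq_ind, H6.omega_classSum χ.2.isClassFunction]) hz
    have h4 : chiL (χ : G → ℂ) (fb N {θ}) = 0 := by
      by_contra h5
      obtain ⟨θ', hθ', h6⟩ := (chiL_fb_ne_zero_iff χ.2.isCharacter _).1 h5
      exact h6 (hθ' ▸ h0)
    have h5 : ∀ x : G, ∃ n : ℕ, omega (θ : N → ℂ) (pull ℂ N.subtype (cj x (fb N {θ}))) = n ∧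
        (x = 1 → n = 1) := fun x => by
      rw [← fb_cjSet (conj_smul_eq_of_normal N x), fb, pull_push_subtype, H6.omega_fB]
      split_ifs with h6
      · exact ⟨1, by simp, fun _ => rfl⟩
      · refine ⟨0, by simp, fun hx => absurd ⟨θ, rfl, fun c c' hc => ?_⟩ h6⟩
        rw [show c' = c from Subtype.ext (by simpa [hx] using hc)]
    choose n hn hn1 using h5
    simp only [H6.omega_apply (χ : G → ℂ), map_sum, chiL_cj χ.2.isClassFunction, h4, hn, zero_div,
      Finset.sum_const_zero] at h3
    rw [← Nat.cast_sum, eq_comm, Nat.cast_eq_zero, Finset.sum_eq_zero_iff] at h3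
    exact one_ne_zero ((hn1 1 rfl).symm.trans (h3 1 (Finset.mem_univ _)))

end Cfsg.Agent.S0963
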