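import Cfsg.Statements.S0964
import Cfsg.Agent.H7.Cover2
-- import your own Cfsg.Agent.* helpers here

set_option autoImplicit false
open Cfsg

namespace Cfsg.Agent.S0964

open MonoidAlgebra Cfsg.Agent.H3 Cfsg.Agent.H4 Cfsg.Agent.H7
open Cfsg.Agent.H6 (Res locRing redC redA eB fB intAlg classSum omega chiL)
open scoped Pointwise
set_option linter.style.haveILetI false


/-- Let N be a normal subgroup of the finite group G, B a block of G and b a block of N relative to a maximal ideal M of the algebraic integers containing the prime p. Suppose some χ ∈ B has a constituent θ ∈ b on restriction to N. Then for every χ' ∈ B and every constituent ψ of the restriction of χ' to N there are g ∈ G and θ' ∈ b with ψ n = θ' (g n g⁻¹) for all n ∈ N. -/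
theorem result {G : Type*} [Group G] [Fintype G] (p : ℕ) [Fact p.Prime] (M : Ideal Cfsg.AlgInt) (hM : Cfsg.IsPModular p M) (N : Subgroup G) [hN : N.Normal] [Fintype N] (B : Set (Cfsg.IrrCharacter G)) (hB : Cfsg.IsPBlock M B) (b : Set (Cfsg.IrrCharacter N)) (hb : Cfsg.IsPBlock M b) (χ : Cfsg.IrrCharacter G) (hχ : χ ∈ B) (θ : Cfsg.IrrCharacter N) (hθ : θ ∈ b) (hcon : Cfsg.classInner (fun n : N => (χ : G → ℂ) n) (θ : N → ℂ) ≠ 0) (χ' : Cfsg.IrrCharacter G) (hχ' : χ' ∈ B) (ψ : Cfsg.IrrCharacter N) (hψ : Cfsg.classInner (fun n : N => (χ' : G → ℂ) n) (ψ : N → ℂ) ≠ 0) : ∃ g : G, ∃ θ' ∈ b, ∀ n : N, (ψ : N → ℂ) n = (θ' : N → ℂ) ⟨g * n * g⁻¹, hN.conj_mem n n.2 g⟩ := by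
  haveI := hM.2.1
  have hb' := H6.isPBlock_blockOf (M := M) ψ
  obtain ⟨t, -, ht⟩ := (blk_eB hB).exists_cj_eq_of_cover le_top Subgroup.le_normalizer_of_normal
    (blk_eb hb) (blk_eb hb') ((covers_iff_eb hB hb).1 ⟨χ, hχ, θ, hθ, hcon⟩)
    (eB_mul_eb_blockOf_ne_zero hB hχ' hψ)
  rw [← eq_cjSet_iff (conj_smul_eq_of_normal N t) hb hb'] at ht
  obtain ⟨θ', hθ', h⟩ := ht ▸ H6.mem_blockOf_self (M := M) ψ
  exact ⟨t⁻¹, θ', hθ', fun n => h _ n (by simp [mul_assoc])⟩

end Cfsg.Agent.S0964
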