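import Cfsg.Statements.S0965
import Cfsg.Agent.H7.Cover2
-- import your own Cfsg.Agent.* helpers here

set_option autoImplicit false
open Cfsg

namespace Cfsg.Agent.S0965

open MonoidAlgebra Cfsg.Agent.H3 Cfsg.Agent.H4 Cfsg.Agent.H7
open Cfsg.Agent.H6 (Res locRing redC redA eB fB intAlg classSum omega chiL)
open scoped Pointwise
set_option linter.style.haveILetI false


/-- Let N be a normal subgroup of the finite group G and let B, b be blocks of G and of N relative to a maximal ideal M of the algebraic integers containing the prime p. Then some χ ∈ B has a constituent in b on restriction to N if and only if, for all χ ∈ B, θ ∈ b and n ∈ N, the central character of χ at n is congruent modulo the local ideal at M to the sum of θ m / θ 1 over the elements m ∈ N conjugate in G to n. -/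
theorem result {G : Type*} [Group G] [Fintype G] (p : ℕ) [Fact p.Prime] (M : Ideal Cfsg.AlgInt) (hM : Cfsg.IsPModular p M) (N : Subgroup G) [N.Normal] [Fintype N] (B : Set (Cfsg.IrrCharacter G)) (hB : Cfsg.IsPBlock M B) (b : Set (Cfsg.IrrCharacter N)) (hb : Cfsg.IsPBlock M b) : (∃ χ ∈ B, ∃ θ ∈ b, Cfsg.classInner (fun n : N => (χ : G → ℂ) n) (θ : N → ℂ) ≠ 0) ↔ ∀ χ ∈ B, ∀ θ ∈ b, ∀ n : N, Cfsg.MemLocalIdeal M (Cfsg.centralChar (χ : G → ℂ) (n : G) - Cfsg.inducedCentralChar N (θ : N → ℂ) (n : G)) := by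
  haveI := hM.2.1
  have key : ∀ χ ∈ B, ∀ θ ∈ b, ∀ n : N, MemLocalIdeal M (centralChar (χ : G → ℂ) (n : G) -
      inducedCentralChar N (θ : N → ℂ) (n : G)) ↔
      lam (Res M) (eB M B) (ind (Res M) (orb ⊤ (n : G))) =
        lam (Res M) (eb M N b) (ind (Res M) (orb ⊤ (n : G))) := fun χ hχ θ hθ n => by
    rw [H6.memLocalIdeal_sub_iff (H6.centralChar_mem χ.2 _) (H6.inducedCentralChar_mem N θ.2 _),
      redC_inducedCentralChar hb hθ, lam_eB_ind hB hχ,
      (ind_orb_mem_Fix (K := N) (H := ⊤) Subgroup.le_normalizer_of_normal n.2).1.trunc_eq]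
  rw [covers_iff_eb hB hb, cover_iff_lam le_top Subgroup.le_normalizer_of_normal (blk_eB hB)
    (blk_eb hb)]
  obtain ⟨χ, hχ⟩ := H6.block_nonempty hB
  obtain ⟨θ, hθ⟩ := H6.block_nonempty hb
  exact ⟨fun h χ hχ θ hθ n => (key χ hχ θ hθ n).2 (h n n.2),
    fun h x hx => (key χ hχ θ hθ ⟨x, hx⟩).1 (h χ hχ θ hθ ⟨x, hx⟩)⟩

end Cfsg.Agent.S0965
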