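import Cfsg.Statements.S0966
import Cfsg.Agent.H7.Cover2
-- import your own Cfsg.Agent.* helpers here

set_option autoImplicit false
open Cfsg

namespace Cfsg.Agent.S0966

open MonoidAlgebra Cfsg.Agent.H3 Cfsg.Agent.H4 Cfsg.Agent.H7
open Cfsg.Agent.H6 (Res locRing redC redA eB fB intAlg classSum omega chiL)
open scoped Pointwise
set_option linter.style.haveILetI false


/-- Let N be a normal subgroup of p-power index in the finite group G and b a block of N relative to a maximal ideal M of the algebraic integers containing p. Then there is exactly one block B of G containing a character whose restriction to N has a constituent in b. -/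
theorem result {G : Type*} [Group G] [Fintype G] (p : ℕ) [Fact p.Prime] (M : Ideal Cfsg.AlgInt) (hM : Cfsg.IsPModular p M) (N : Subgroup G) [N.Normal] [Fintype N] (hidx : ∃ k : ℕ, N.index = p ^ k) (b : Set (Cfsg.IrrCharacter N)) (hb : Cfsg.IsPBlock M b) : ∃! B : Set (Cfsg.IrrCharacter G), Cfsg.IsPBlock M B ∧ ∃ χ ∈ B, ∃ θ ∈ b, Cfsg.classInner (fun n : N => (χ : G → ℂ) n) (θ : N → ℂ) ≠ 0 := by
  haveI := hM.2.1
  obtain ⟨n, hn⟩ := hidx
  have hN : (⊤ : Subgroup G) ≤ Subgroup.normalizer (N : Set G) := Subgroup.le_normalizer_of_normal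
  have h1 := (blk_iff_of_relIndex hM le_top hN (by rwa [Subgroup.relIndex_top_right])).2
    ((blk_eb hb).orbSum_prim le_top hN)
  obtain ⟨B, hB, h2⟩ := exists_eB_eq h1
  refine ⟨B, ⟨hB, (covers_iff_eb hB hb).2 ?_⟩, fun C ⟨hC, h3⟩ => H6.eB_injective hC hB ?_⟩
  · rw [h2, (blk_eb hb).orbSum_mul hN]
    exact (blk_eb hb).ne_zero
  · rw [h2]
    refine (h1.eq_of_mul_ne_zero (blk_eB hC) ?_).symm
    rw [(blk_eB hC).mul_orbSum_of_cover le_top hN (blk_eb hb) ((covers_iff_eb hC hb).1 h3)]
    exact (blk_eB hC).ne_zero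

end Cfsg.Agent.S0966
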