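import Cfsg.Statements.S0967
import Cfsg.Agent.H7.Cover2
-- import your own Cfsg.Agent.* helpers here

set_option autoImplicit false
open Cfsg

namespace Cfsg.Agent.S0967

open MonoidAlgebra Cfsg.Agent.H3 Cfsg.Agent.H4 Cfsg.Agent.H7
open Cfsg.Agent.H6 (Res locRing redC redA eB fB intAlg classSum omega chiL)
open scoped Pointwise
set_option linter.style.haveILetI false


/-- Let N be a normal subgroup of the finite group G of order prime to p and fix a maximal ideal M of the algebraic integers containing p. If χ is an irreducible character of G ⧸ N and ψ lies in the block of its inflation χ ∘ (quotient map), then ψ is itself inflated from an irreducible character ψ' of G ⧸ N lying in the block of χ. (Over a normal p'-subgroup, blocks of the quotient are whole blocks of G.) -/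
theorem result {G : Type*} [Group G] [Finite G] (p : ℕ) [Fact p.Prime] (M : Ideal Cfsg.AlgInt) (hM : Cfsg.IsPModular p M) (N : Subgroup G) [N.Normal] (hN : ¬ p ∣ Nat.card N) (χ : Cfsg.IrrCharacter (G ⧸ N)) (ψ : Cfsg.IrrCharacter G) (hψ : ψ ∈ Cfsg.blockOf M ((χ : G ⧸ N → ℂ) ∘ QuotientGroup.mk)) : ∃ ψ' : Cfsg.IrrCharacter (G ⧸ N), (ψ : G → ℂ) = (ψ' : G ⧸ N → ℂ) ∘ QuotientGroup.mk ∧ Cfsg.SameBlock M (χ : G ⧸ N → ℂ) (ψ' : G ⧸ N → ℂ) := by
  haveI := hM.2.1
  have h1 : N ≤ charKer (ψ : G → ℂ) := H6.le_charKer_of_sameBlock hM hN (χ.2.inflate) ψ.2 hψ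
    (le_charKer_inflate _)
  refine ⟨⟨deflate N ψ, ψ.2.deflate h1⟩, funext fun g => (deflate_mk h1 g).symm, ?_⟩
  refine H6.sameBlock_of_comp_pPrime hM (QuotientGroup.mk' N) (QuotientGroup.mk'_surjective N)
    (by rwa [QuotientGroup.ker_mk']) χ.2 (ψ.2.deflate h1) ?_
  have h2 : (fun x => deflate N (ψ : G → ℂ) (QuotientGroup.mk' N x)) = ψ :=
    funext fun g => deflate_mk h1 g
  rw [h2]
  exact hψ

end Cfsg.Agent.S0967
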