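import Cfsg.Statements.S0970
import Cfsg.Agent.H7.Cover2
-- import your own Cfsg.Agent.* helpers here

set_option autoImplicit false
open Cfsg

namespace Cfsg.Agent.S0970

open MonoidAlgebra Cfsg.Agent.H3 Cfsg.Agent.H4 Cfsg.Agent.H7
open Cfsg.Agent.H6 (Res locRing redC redA eB fB intAlg classSum omega chiL)
open scoped Pointwise
set_option linter.style.haveILetI false


/-- Let N be a normal subgroup of the finite group G and fix a maximal ideal M of the algebraic integers containing the prime p. Let b be a block of N that is invariant under conjugation by G, and B a block of G covering b (some χ ∈ B has a constituent in b) whose defect is at least that of every block covering b. If P is a defect group of B, then p does not divide the index of P ⊔ N, the subgroup P ∩ N of N is a defect group of b, and the defect of B equals the defect of b plus the exponent of p in the index of N. -/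
theorem result {G : Type*} [Group G] [Fintype G] (p : ℕ) [Fact p.Prime] (M : Ideal Cfsg.AlgInt) (hM : Cfsg.IsPModular p M) (N : Subgroup G) [hN : N.Normal] [Fintype N] (b : Set (Cfsg.IrrCharacter N)) (hb : Cfsg.IsPBlock M b) (hinv : ∀ g : G, ∀ θ ∈ b, ∀ θ' : Cfsg.IrrCharacter N, (∀ n : N, (θ' : N → ℂ) n = (θ : N → ℂ) ⟨g * n * g⁻¹, hN.conj_mem n n.2 g⟩) → θ' ∈ b) (B : Set (Cfsg.IrrCharacter G)) (hB : Cfsg.IsPBlock M B) (hcov : ∃ χ ∈ B, ∃ θ ∈ b, Cfsg.classInner (fun n : N => (χ : G → ℂ) n) (θ : N → ℂ) ≠ 0) (hmax : ∀ B' : Set (Cfsg.IrrCharacter G), Cfsg.IsPBlock M B' → (∃ χ ∈ B', ∃ θ ∈ b, Cfsg.classInner (fun n : N => (χ : G → ℂ) n) (θ : N → ℂ) ≠ 0) → Cfsg.blockDefect p B' ≤ Cfsg.blockDefect p B) (P : Subgroup G) (hP : Cfsg.IsDefectGroup p M B P) : ¬ p ∣ (P ⊔ N).index ∧ Cfsg.IsDefectGroup p M b ((P ⊓ N).subgroupOf N) ∧ Cfsg.blockDefect p B = Cfsg.blockDefect p b + N.index.factorization p := by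
  haveI := hM.2.1
  haveI := H6.charP_res hM
  have hN' : (⊤ : Subgroup G) ≤ Subgroup.normalizer (N : Set G) := Subgroup.le_normalizer_of_normal
  have hi : Invt ⊤ (eb M N b) := fun g _ => (forall_conj_mem_iff' g hb).1 (hinv g)
  have hf : eb M N b ∈ Fix (Res M) ⊤ ⊤ := ⟨supp_top _, hi⟩
  obtain ⟨D, hD⟩ := exists_isDef p ((blk_eb hb).isPrimIn_of_invt le_top hi)
  obtain ⟨B₀, hB₀, h1, h2⟩ := exists_blk_le_isDef hf (blk_eb hb).idem hD
  obtain ⟨B₀, hB₀', rfl⟩ := exists_eB_eq hB₀
  have h3 := hmax B₀ hB₀' ((covers_iff_eb hB₀' hb).2 (by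
    rw [(hB₀.commute (supp_top _)).eq, h1]; exact hB₀.ne_zero))
  have hP' := (isDefectGroup_iff hM hB).1 hP
  have h4 : eb M N b * eB M B = eB M B := ((blk_eB hB).mul_eq_or hf (blk_eb hb).idem).resolve_left
    (by rw [← ((blk_eB hB).commute (supp_top _)).eq]; exact (covers_iff_eb hB hb).1 hcov)
  have h5 : IsDef p ⊤ (eb M N b) P := hD.of_card_ge hi le_top hP'.isPGroup
    (br_ne_of_mul hP'.isPGroup (hi.mono le_top) ((eB_mem_Fix B).2.mono le_top) h4 hP'.br_ne) (by
      rw [card_eq_pow_blockDefect hM hB₀' h2, card_eq_pow_blockDefect hM hB hP']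
      exact Nat.pow_le_pow_right (Fact.out : p.Prime).pos h3)
  obtain ⟨h6, h7⟩ := fong le_top hN' (blk_eb hb) hi h5
  rw [Subgroup.relIndex_top_right, sup_comm] at h6
  refine ⟨h6, (isDefectGroup_subgroupOf_iff' hM hb inf_le_right).2 h7, ?_⟩
  have h8 := card_sup_mul_card_inf (H := P) (N := N) Subgroup.le_normalizer_of_normal
  rw [card_eq_card_mul_relIndex (le_sup_right : N ≤ P ⊔ N), card_eq_pow_blockDefect hM hB hP',
    card_eq_pow_blockDefect_eb hM hb h7, mul_assoc, mul_comm _ (Nat.card N)] at h8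
  have h9 := Nat.eq_of_mul_eq_mul_left Nat.card_pos h8
  have h10 := Subgroup.relIndex_mul_index (le_sup_right : N ≤ P ⊔ N)
  have hr : N.relIndex (P ⊔ N) ≠ 0 := Subgroup.index_ne_zero_of_finite
  have h11 := congrArg (fun n => n.factorization p) h9
  simp only [Nat.factorization_mul hr (pow_ne_zero _ (Fact.out : p.Prime).ne_zero),
    Nat.Prime.factorization_pow (Fact.out : p.Prime), Finsupp.add_apply, Finsupp.single_eq_same] at h11
  rw [← h10, Nat.factorization_mul hr Subgroup.index_ne_zero_of_finite, Finsupp.add_apply,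
    Nat.factorization_eq_zero_of_not_dvd h6]
  omega

end Cfsg.Agent.S0970
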