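import Cfsg.Statements.S0971
import Cfsg.Agent.H7.Induce
-- import your own Cfsg.Agent.* helpers here

set_option autoImplicit false
open Cfsg

namespace Cfsg.Agent.S0971

open MonoidAlgebra Cfsg.Agent.H3 Cfsg.Agent.H4 Cfsg.Agent.H7
open Cfsg.Agent.H6 (Res locRing redC redA eB fB intAlg classSum omega chiL)
open scoped Pointwise
set_option linter.style.haveILetI false


/-- Let Q be a normal p-subgroup of the finite group G, let N = Q ⊔ C_G(Q) (a normal subgroup) and let b be a block of N relative to a maximal ideal M of the algebraic integers containing p. Then b induces some block of G, and every block B of G containing a character whose restriction to N has a constituent in b is induced by b. -/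
theorem result {G : Type*} [Group G] [Fintype G] (p : ℕ) [Fact p.Prime] (M : Ideal Cfsg.AlgInt) (hM : Cfsg.IsPModular p M) (Q : Subgroup G) [Q.Normal] (hQ : IsPGroup p Q) [Fintype ↥(Q ⊔ Subgroup.centralizer (Q : Set G))] (b : Set (Cfsg.IrrCharacter ↥(Q ⊔ Subgroup.centralizer (Q : Set G)))) (hb : Cfsg.IsPBlock M b) : Cfsg.InducedBlockDefined M (Q ⊔ Subgroup.centralizer (Q : Set G)) b ∧ ∀ B : Set (Cfsg.IrrCharacter G), Cfsg.IsPBlock M B → (∃ χ ∈ B, ∃ θ ∈ b, Cfsg.classInner (fun n : ↥(Q ⊔ Subgroup.centralizer (Q : Set G)) => (χ : G → ℂ) n) (θ : ↥(Q ⊔ Subgroup.centralizer (Q : Set G)) → ℂ) ≠ 0) → Cfsg.IsInducedBlock M (Q ⊔ Subgroup.centralizer (Q : Set G)) b B := by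
  haveI := hM.2.1
  haveI := H6.charP_res hM
  refine ⟨inducedBlockDefined_of_local hM hQ (le_sup_left.trans Subgroup.le_normalizer)
    le_sup_right Subgroup.le_normalizer_of_normal hb, fun B hB hcov => ?_⟩
  rw [covers_iff_eb hB hb] at hcov
  have h1 := br_eq_self_of_idem (L := ⊤) hQ le_top Subgroup.le_normalizer_of_normal
    (eB_mem_Fix (M := M) B) (blk_eB hB).idem
  have h2 : eB M B ∈ Fix (Res M) (Q ⊔ Subgroup.centralizer (Q : Set G))
      (Q ⊔ Subgroup.centralizer (Q : Set G)) :=
    ⟨h1 ▸ (supp_br Q _).mono (SetLike.coe_subset_coe.2 le_sup_right), (eB_mem_Fix B).2.mono le_top⟩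
  refine isInducedBlock_iff_ind.2 ⟨hb, hB, ind_of_br_mul (L := ⊤) hQ le_top
    (le_sup_left.trans Subgroup.le_normalizer) (inf_le_left.trans le_sup_right)
    Subgroup.le_normalizer_of_normal le_top (blk_eb hb) (blk_eB hB) ?_⟩
  rw [h1]
  exact ((blk_eb hb).mul_eq_or h2 (blk_eB hB).idem).resolve_left hcov

end Cfsg.Agent.S0971
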