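import Cfsg.Statements.S0972
import Cfsg.Agent.H7.Central
-- import your own Cfsg.Agent.* helpers here

set_option autoImplicit false
open Cfsg

namespace Cfsg.Agent.S0972

open MonoidAlgebra Cfsg.Agent.H3 Cfsg.Agent.H4 Cfsg.Agent.H7
open Cfsg.Agent.H6 (Res locRing redC redA eB fB intAlg classSum omega chiL)
open scoped Pointwise
set_option linter.style.haveILetI false


/-- Let B be a block of the finite group G (relative to a maximal ideal M of the algebraic integers containing the prime p) with a defect group P that is normal in G. Then P is commutative if and only if every member of B has height zero. -/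
theorem result {G : Type*} [Group G] [Finite G] (p : ℕ) [Fact p.Prime] (M : Ideal Cfsg.AlgInt) (hM : Cfsg.IsPModular p M) (B : Set (Cfsg.IrrCharacter G)) (hB : Cfsg.IsPBlock M B) (P : Subgroup G) [P.Normal] (hP : Cfsg.IsDefectGroup p M B P) : (∀ a ∈ P, ∀ c ∈ P, a * c = c * a) ↔ ∀ χ ∈ B, Cfsg.blockHeight p B (χ : G → ℂ) = 0 := by
  haveI := hM.2.1; haveI := H6.charP_res hM
  haveI := Fintype.ofFinite G
  have hp : p.Prime := Fact.out
  have hD := (isDefectGroup_iff hM hB).1 hP
  have h0 : H8.bmin p B = P.index.factorization p := by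
    have h1 := H8.defect_add_bmin (p := p) (H6.block_nonempty hB)
    rw [H6.factorization_card_eq P, card_eq_pow_blockDefect hM hB hD, hp.factorization_pow,
      Finsupp.single_eq_same] at h1
    omega
  refine ⟨fun h χ hχ => ?_, fun h => ?_⟩
  · have h1 := (H5.NEmb.ofNormal P).degree_dvd_index_of_comm
      (fun a b => Subtype.ext (h a a.2 b b.2)) χ.2 (H8.irr_coe_charDegree χ).symm
    rw [H5.NEmb.ofNormal_range] at h1
    have h2 := (Nat.factorization_le_iff_dvd (H8.irr_charDegree_ne_zero χ)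
      Subgroup.index_ne_zero_of_finite).2 h1 p
    have h3 := H8.height_add_bmin (p := p) hχ
    omega
  obtain ⟨e, S⟩ := exists_maxP le_rfl Subgroup.le_normalizer_of_normal (blk_eB hB) hD
  obtain ⟨N, hN⟩ : ∃ N, N = P ⊔ Subgroup.centralizer (P : Set G) := ⟨_, rfl⟩
  haveI := Fintype.ofFinite N
  haveI : N.Normal := hN ▸ inferInstance
  have hPN : P ≤ N := hN ▸ le_sup_left
  have hCN : Subgroup.centralizer (P : Set G) ≤ N := hN ▸ le_sup_right
  have hle : N ≤ NS ⊤ P e := hN ▸ sup_le (S.pair.le_NS le_top) S.pair.centralizer_le_NS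
  have h1 := S.isDef_of_le (PLe.refl P e) ((CK_top P).le.trans hCN) hle hPN
  obtain ⟨b, hb, rfl⟩ := exists_eb_eq (L := N) (hN ▸ (blk_sup_centralizer_iff hD.isPGroup).2
    (isPair_top_iff.1 S.pair).2)
  have h2 := (isDefectGroup_subgroupOf_iff' hM hb hPN).2 h1
  have hG : P.subgroupOf N ⊔ Subgroup.centralizer (P.subgroupOf N : Set N) = ⊤ := by
    refine top_le_iff.1 fun x _ => ?_
    obtain ⟨t, ht, c, hc, h3⟩ := exists_mul_of_mem_sup' (C := Subgroup.centralizer (P : Set G))
      (D := P) Subgroup.le_normalizer_of_normal (x := x) (by rw [sup_comm, ← hN]; exact x.2)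
    rw [show x = ⟨t, hPN ht⟩ * ⟨c, hCN hc⟩ from
      Subtype.ext h3.symm]
    exact Subgroup.mul_mem_sup ht fun y hy => Subtype.ext (hc y hy)
  obtain ⟨χ₀, hχ₀, h3, h4, -⟩ := exists_canonical hM hb
    (mem_centralizer_of_sup (H6.IsDefectGroup.isPGroup h2) hG) h2
  have h5 := S.not_dvd_relIndex S.pair S.isDef_NS
  rw [CK_top, sup_comm, ← hN] at h5
  have hbr := S.br_mul
  rw [br_eq_self_of_idem hD.isPGroup le_top Subgroup.le_normalizer_of_normal (blk_eB hB).mem
    (blk_eB hB).idem] at hbr
  have key : ∀ ζ : IrrCharacter (P.subgroupOf N), ζ.1 1 = 1 := fun ζ => by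
    obtain ⟨θ, hθ, h6⟩ := exists_mem_param hM hb hG h2 hχ₀ h3 ζ
    obtain ⟨χ, hχ, h7⟩ := exists_mem_over_of_cover hB hb
      (by rw [hbr]; exact S.blk.ne_zero) hθ
    have h8 := (H5.NEmb.ofNormal N).clifford_degree χ.2 θ.2 h7
    obtain ⟨m, hm⟩ := (χ.2.isCharacter.restrict N).classInner_nat θ.2.isCharacter
    have h9 := h6 1 1 (by simpa using hp.ne_one)
    simp only [H5.NEmb.ofNormal_f, OneMemClass.coe_one, mul_one] at h8 h9
    have hm0 : m ≠ 0 := fun h0 => h7 (by rw [hm, h0, Nat.cast_zero])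
    rw [hm, h9, ← H8.irr_coe_charDegree χ, ← H8.irr_coe_charDegree ζ,
      ← H8.irr_coe_charDegree χ₀] at h8
    have h10 : charDegree χ.1 = m * ((H5.NEmb.ofNormal N).inertia θ.1).index *
      (charDegree ζ.1 * charDegree χ₀.1) := by exact_mod_cast h8
    have h11 : (H5.NEmb.ofNormal N).inertia θ.1 ≤ NS ⊤ P (eb M N b) := fun g hg => by
      refine mem_NS.2 ⟨Subgroup.le_normalizer_of_normal (K := ⊤) trivial, trivial, ?_⟩
      refine (eq_cjSet_iff (conj_smul_eq_of_normal N g) hb hb).1 (H6.block_eq_of_mem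
        (isPBlock_cjSet (conj_smul_eq_of_normal N g) hb) hb ⟨θ, hθ, fun c c' hc => ?_⟩ hθ)
      rw [← (H5.NEmb.ofNormal N).mem_inertia.1 hg c]
      exact congrArg _ (Subtype.ext hc)
    have h12 := (Nat.factorization_le_iff_dvd Subgroup.index_ne_zero_of_finite
      Subgroup.index_ne_zero_of_finite).2 (Subgroup.index_dvd_of_le h11) p
    have h13 := congrArg (Nat.factorization · p) (Subgroup.relIndex_mul_index hle)
    have h14 := congrArg (Nat.factorization · p)
      (Subgroup.relIndex_mul_index hPN)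
    have h15 := congrArg (Nat.factorization · p) h10
    have i0 : ∀ A B : Subgroup G, A.relIndex B ≠ 0 := fun A B => Subgroup.index_ne_zero_of_finite
    have i1 : ∀ A : Subgroup G, A.index ≠ 0 := fun A => Subgroup.index_ne_zero_of_finite
    simp only [Nat.factorization_mul (i0 _ _) (i1 _), Finsupp.add_apply] at h13 h14
    simp only [Nat.factorization_mul (mul_ne_zero hm0 (i1 _)) (mul_ne_zero
      (H8.irr_charDegree_ne_zero ζ) (H8.irr_charDegree_ne_zero χ₀)), Nat.factorization_mul hm0
      (i1 _), Nat.factorization_mul (H8.irr_charDegree_ne_zero ζ) (H8.irr_charDegree_ne_zero χ₀),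
      Finsupp.add_apply] at h15
    rw [Nat.factorization_eq_zero_of_not_dvd h5] at h13
    have h16 := (H8.height_eq_zero_iff hχ).1 (h χ hχ)
    refine H8.charDegree_eq_one_of_isPGroup (H6.IsDefectGroup.isPGroup h2) ζ fun h17 => ?_
    have h18 := hp.factorization_pos_of_dvd (H8.irr_charDegree_ne_zero ζ) h17
    rw [Subgroup.relIndex] at h14
    omega
  intro a ha c hc
  exact congrArg (fun x : P.subgroupOf N => (x : G)) (comm_of_forall_degree key
    ⟨⟨a, hPN ha⟩, ha⟩ ⟨⟨c, hPN hc⟩, hc⟩)

end Cfsg.Agent.S0972
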