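import Cfsg.Statements.S0973
import Cfsg.Agent.H7.Induce
-- import your own Cfsg.Agent.* helpers here

set_option autoImplicit false
open Cfsg

namespace Cfsg.Agent.S0973

open MonoidAlgebra Cfsg.Agent.H3 Cfsg.Agent.H4 Cfsg.Agent.H7
open Cfsg.Agent.H6 (Res locRing redC redA eB fB intAlg classSum omega chiL)
open scoped Pointwise
set_option linter.style.haveILetI false


/-- Let B be a block of the finite group G with defect group P (relative to a maximal ideal M of the algebraic integers containing p), and let L = P ⊔ C_G(P). Then (i) some block b of L with defect group P (viewed in L) induces B, and (ii) if b and b' are blocks of L both inducing B, there is n ∈ N_G(P) carrying b to b': for every θ ∈ b there is θ' ∈ b' with θ' x = θ (n x n⁻¹) for all x ∈ L. -/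
theorem result {G : Type*} [Group G] [Finite G] (p : ℕ) [Fact p.Prime] (M : Ideal Cfsg.AlgInt) (hM : Cfsg.IsPModular p M) (B : Set (Cfsg.IrrCharacter G)) (hB : Cfsg.IsPBlock M B) (P : Subgroup G) (hP : Cfsg.IsDefectGroup p M B P) : (∃ b : Set (Cfsg.IrrCharacter ↥(P ⊔ Subgroup.centralizer (P : Set G))), Cfsg.IsDefectGroup p M b (P.subgroupOf (P ⊔ Subgroup.centralizer (P : Set G))) ∧ Cfsg.IsInducedBlock M (P ⊔ Subgroup.centralizer (P : Set G)) b B) ∧ ∀ b b' : Set (Cfsg.IrrCharacter ↥(P ⊔ Subgroup.centralizer (P : Set G))), Cfsg.IsInducedBlock M (P ⊔ Subgroup.centralizer (P : Set G)) b B → Cfsg.IsInducedBlock M (P ⊔ Subgroup.centralizer (P : Set G)) b' B → ∃ n ∈ Subgroup.normalizer (P : Set G), ∀ θ ∈ b, ∃ θ' ∈ b', ∀ x : ↥(P ⊔ Subgroup.centralizer (P : Set G)), ∀ hx : n * (x : G) * n⁻¹ ∈ P ⊔ Subgroup.centralizer (P : Set G), (θ' : ↥(P ⊔ Subgroup.centralizer (P : Set G)) → ℂ) x = (θ : ↥(P ⊔ Subgroup.centralizer (P : Set G)) → ℂ) ⟨n * (x : G) * n⁻¹, hx⟩ := by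
  haveI := hM.2.1
  haveI := H6.charP_res hM
  have h := (isDefectGroup_iff hM hB).1 hP
  have a1 : P ≤ Subgroup.normalizer ((P ⊔ Subgroup.centralizer (P : Set G) : Subgroup G) : Set G) :=
    le_sup_left.trans Subgroup.le_normalizer
  have a2 : CK ⊤ P ≤ P ⊔ Subgroup.centralizer (P : Set G) := inf_le_left.trans le_sup_right
  have a3 : P ⊔ Subgroup.centralizer (P : Set G) ≤ Subgroup.normalizer (P : Set G) :=
    sup_le Subgroup.le_normalizer (Subgroup.centralizer_le_normalizer _)
  constructor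
  · obtain ⟨e, he, hbe⟩ := exists_pair_of_br_ne le_rfl (blk_eB hB) h.isPGroup le_top h.br_ne
    have he' := he
    rw [CK_top, ← blk_sup_centralizer_iff h.isPGroup] at he'
    have hi := ind_of_br_mul h.isPGroup le_top a1 a2 a3 le_top he' (blk_eB hB) hbe
    have hd := hi.isDef_of_br_ne h le_sup_left (by
      rw [(he.mem.1.mono (SetLike.coe_subset_coe.2 inf_le_left)).br_eq]; exact he.ne_zero)
    obtain ⟨b, hb, rfl⟩ := hi.exists_isInducedBlock' hB
    exact ⟨b, (isDefectGroup_subgroupOf_iff' hM hb.1 le_sup_left).2 hd, hb⟩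
  · intro b b' hb hb'
    have h1 := (IsInducedBlock.ind hb).br_mul h.isPGroup le_top a1 a2 a3 le_top
    have h2 := (IsInducedBlock.ind hb').br_mul h.isPGroup le_top a1 a2 a3 le_top
    have e1 := blk_eb hb.1
    have e2 := blk_eb hb'.1
    rw [blk_sup_centralizer_iff h.isPGroup] at e1 e2
    obtain ⟨n, hn, hc⟩ := IsDef.exists_cj_eq le_rfl Subgroup.le_normalizer (blk_eB hB) h
      (by rw [CK_top]; exact e2) (by rw [CK_top]; exact e1) h2 h1
    have hn' : MulAut.conj n • (P ⊔ Subgroup.centralizer (P : Set G)) =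
        P ⊔ Subgroup.centralizer (P : Set G) := by
      rw [Subgroup.smul_sup, ← centralizer_conj_smul, mem_normalizer_iff_conj_smul.1 hn.1]
    rw [← eq_cjSet_iff hn' hb'.1 hb.1] at hc
    refine ⟨n, hn.1, fun θ hθ => ?_⟩
    rw [← hc] at hθ
    obtain ⟨θ', hθ', hh⟩ := hθ
    exact ⟨θ', hθ', fun x hx => (hh x ⟨_, hx⟩ rfl).symm⟩

end Cfsg.Agent.S0973
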