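import Cfsg.Statements.S0985
import Cfsg.Agent.H19.Count

set_option autoImplicit false
open Cfsg

namespace Cfsg.Agent.S0985

/-- If the number of Sylow p-subgroups of a finite group is not congruent to 1 modulo p^k, then there are two distinct Sylow p-subgroups P and R such that the index of P ∩ R in P is at most p^(k-1). -/
theorem result {G : Type*} [Group G] [Finite G] (p k : ℕ) [Fact p.Prime] (h : ¬ Nat.card (Sylow p G) ≡ 1 [MOD p ^ k]) : ∃ P R : Sylow p G, P ≠ R ∧ ((R : Subgroup G).subgroupOf (P : Subgroup G)).index ≤ p ^ (k - 1) := by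
  by_contra hc
  push Not at hc
  apply h
  obtain ⟨P⟩ : Nonempty (Sylow p G) := inferInstance
  have hk : k ≠ 0 := by
    rintro rfl
    apply h; simp [Nat.modEq_one]
  have key : p ^ k ∣ ({P}ᶜ : Set (Sylow p G)).ncard := by
    refine H19.dvd_ncard_of_invariant' (H := (P : Subgroup G)) _ _ ?_ ?_
    · intro g R hR hh
      apply hR
      rw [Set.mem_singleton_iff] at hh ⊢
      have h2 : (g⁻¹ : (P : Subgroup G)) • P = P :=
        Sylow.smul_eq_iff_mem_normalizer.2 (Subgroup.le_normalizer (g⁻¹).2)
      exact (eq_inv_smul_iff.2 hh).trans h2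
    · intro R hR
      have h1 : MulAction.stabilizer (P : Subgroup G) R = (R : Subgroup G).subgroupOf P := by
        ext g
        rw [MulAction.mem_stabilizer_iff, Subgroup.mem_subgroupOf]
        have h3 := P.isPGroup'.inf_normalizer_sylow R
        constructor
        · intro hg
          have h4 : (g : G) ∈ (P : Subgroup G) ⊓ Subgroup.normalizer (R : Set G) :=
            ⟨g.2, Sylow.smul_eq_iff_mem_normalizer.1 hg⟩
          rw [h3] at h4
          exact h4.2
        · intro hg
          exact Sylow.smul_eq_iff_mem_normalizer.2 (Subgroup.le_normalizer hg)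
      rw [h1]
      have h2 := hc P R (fun e => hR (by simp [e]))
      obtain ⟨j, hj⟩ := P.isPGroup'.index ((R : Subgroup G).subgroupOf P)
      rw [hj] at h2 ⊢
      have := (Nat.pow_lt_pow_iff_right (Fact.out : p.Prime).one_lt).1 h2
      exact Nat.pow_dvd_pow p (by omega)
  have h2 := Set.ncard_add_ncard_compl ({P} : Set (Sylow p G))
  rw [Set.ncard_singleton] at h2
  rw [← h2]
  exact (Nat.modEq_iff_dvd' (by omega)).2 (by simpa using key) |>.symm

end Cfsg.Agent.S0985
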