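import Cfsg.Statements.S0987
import Cfsg.Agent.H2.SS2
-- import your own Cfsg.Agent.* helpers here

set_option autoImplicit false
open Cfsg

namespace Cfsg.Agent.S0987

open Cfsg.Agent.H2


/-- If a finite group has order pqr for primes p < q < r, then its Sylow r-subgroups are normal. -/
theorem result {G : Type*} [Group G] [Finite G] (p q r : ℕ) (hp : p.Prime) (hq : q.Prime) [Fact r.Prime] (hpq : p < q) (hqr : q < r) (hG : Nat.card G = p * q * r) (R : Sylow r G) : (R : Subgroup G).Normal := by
  have hr : r.Prime := Fact.out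
  have hsq : Squarefree (Nat.card G) := by
    rw [hG]
    refine (Nat.squarefree_mul ?_).2 ⟨(Nat.squarefree_mul ?_).2 ⟨hp.prime.squarefree, hq.prime.squarefree⟩, hr.prime.squarefree⟩
    · exact Nat.Coprime.mul_left ((Nat.coprime_primes hp hr).2 (by omega)) ((Nat.coprime_primes hq hr).2 (by omega))
    · exact (Nat.coprime_primes hp hq).2 (by omega)
  haveI : IsZGroup G := IsZGroup.of_squarefree hsq
  haveI := IsZGroup.isCyclic_commutator G
  haveI : IsCyclic (G ⧸ commutator G) := inferInstanceAs (IsCyclic (Abelianization G))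
  refine sylow_normal_of_isSupersolvable
    (isSupersolvable_of_isCyclic_normal (commutator G) isSupersolvable_of_isCyclic) r ?_ R
  intro s hs hd
  rw [hG] at hd
  rcases (Nat.Prime.dvd_mul hs).1 hd with h | h
  · rcases (Nat.Prime.dvd_mul hs).1 h with h | h
    · have := (Nat.prime_dvd_prime_iff_eq hs hp).1 h; omega
    · have := (Nat.prime_dvd_prime_iff_eq hs hq).1 h; omega
  · have := (Nat.prime_dvd_prime_iff_eq hs hr).1 h; omega

end Cfsg.Agent.S0987
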