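import Cfsg.Statements.S0988
import Cfsg.Agent.H19.BTc
import Cfsg.Agent.H4.Burnside

set_option autoImplicit false
open Cfsg

namespace Cfsg.Agent.S0988

open Cfsg.Agent.H19

/-- If a finite simple group has order p^2 * q * r with p, q and r prime, then its order is 60. -/
theorem result {G : Type*} [Group G] [Finite G] [IsSimpleGroup G] (p q r : ℕ) (hp : p.Prime) (hq : q.Prime) (hr : r.Prime) (hG : Nat.card G = p ^ 2 * q * r) : Nat.card G = 60 := by
  have h1 := hp.two_le
  have h2 := hq.two_le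
  have h3 := hr.two_le
  have hc : ¬ IsMulCommutative G := not_comm_of_card_not_prime (by
    rw [hG]
    exact Nat.not_prime_mul (by nlinarith) hr.ne_one)
  have hs : ¬ Group.IsSolvable G := fun hs => hc ⟨⟨IsSimpleGroup.comm_iff_isSolvable.mpr hs⟩⟩
  have hpq : p ≠ q := by
    rintro rfl
    exact hs (H4.burnside_pq (a := 3) (b := 1) hp hr (by rw [hG]; ring))
  have hpr : p ≠ r := by
    rintro rfl
    exact hs (H4.burnside_pq (a := 3) (b := 1) hp hq (by rw [hG]; ring))
  have hqr : q ≠ r := by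
    rintro rfl
    exact hs (H4.burnside_pq (a := 2) (b := 2) hp hq (by rw [hG]; ring))
  refine (prq_card hc q p r 2 hq hp hr hpq.symm hqr hpr (by rw [hG]; ring)).resolve_right ?_
  intro h
  have h4 : 2 ^ 3 ∣ p ^ 2 * q * r := hG ▸ h ▸ by norm_num
  have h5 : ∀ s : ℕ, s.Prime → s ≠ 2 → Nat.Coprime (2 ^ 3) s := fun s hs h2 =>
    Nat.Coprime.pow_left _ ((Nat.coprime_primes Nat.prime_two hs).mpr h2.symm)
  by_cases e : p = 2
  · subst e
    have := (h5 q hq hpq.symm).dvd_of_dvd_mul_right ((h5 r hr hpr.symm).dvd_of_dvd_mul_right h4)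
    norm_num at this
  rw [mul_assoc] at h4
  have h6 := ((h5 p hp e).pow_right 2).dvd_of_dvd_mul_left h4
  by_cases e' : q = 2
  · subst e'
    have := (h5 r hr hqr.symm).dvd_of_dvd_mul_right h6
    norm_num at this
  · have h7 := (h5 q hq e').dvd_of_dvd_mul_left h6
    rcases (Nat.dvd_prime hr).mp h7 with e | e
    · norm_num at e
    · rw [← e] at hr; norm_num at hr

end Cfsg.Agent.S0988
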