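import Cfsg.Statements.S0996
import Cfsg.Agent.H19.BD7

set_option autoImplicit false
open Cfsg

namespace Cfsg.Agent.S0996

open Cfsg.Agent.H19

/-- Let G be a finite perfect group containing an element z of prime order p whose centralizer is the cyclic group it generates, and suppose the number 1 + n * p of Sylow p-subgroups satisfies n < (p + 3) / 2. Then p > 3 and G is isomorphic to the projective special linear group of dimension 2 over the field with p elements, or p - 1 is a power of 2 and G is isomorphic to that group over the field with p - 1 elements. -/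
theorem result {G : Type*} [Group G] [Finite G] (hperf : commutator G = ⊤) (p : ℕ) [Fact p.Prime] (z : G) (hz : orderOf z = p) (hC : Subgroup.centralizer ({z} : Set G) = Subgroup.zpowers z) (hn : 2 * Nat.card (Sylow p G) < (p + 1) * (p + 2)) : (∃ (F : Type) (_ : Field F) (_ : Fintype F), Fintype.card F = p ∧ 3 < p ∧ Nonempty (G ≃* Matrix.ProjectiveSpecialLinearGroup (Fin 2) F)) ∨ (∃ (m : ℕ) (F : Type) (_ : Field F) (_ : Fintype F), Fintype.card F = 2 ^ m ∧ p = 2 ^ m + 1 ∧ 3 < p ∧ Nonempty (G ≃* Matrix.ProjectiveSpecialLinearGroup (Fin 2) F)) := by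
  haveI := Fintype.ofFinite G
  have hp : p.Prime := Fact.out
  have h := po_bot hz hC
  obtain ⟨n, hs⟩ := exists_sN_eq hz h.nsq
  have h0 := sN_ne_one h hperf
  rw [← sN_eq_card hz h.nsq, hs] at hn
  have F : Few h n := ⟨hperf, hs, Nat.lt_of_mul_lt_mul_left (a := p) (by nlinarith),
    Nat.pos_of_ne_zero (by rintro rfl; simp [hs] at h0)⟩
  rcases F.iso with ⟨h1, -, h2⟩ | h1
  · exact Or.inl ⟨ZMod p, inferInstance, inferInstance, ZMod.card p, h1, h2⟩
  · exact Or.inr h1

end Cfsg.Agent.S0996
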