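import Cfsg.Statements.S1009
import Cfsg.Agent.H19.Syl

set_option autoImplicit false
open Cfsg

namespace Cfsg.Agent.S1009

/-- Brodkey's Theorem: if a finite group has abelian Sylow p-subgroups, then there are two Sylow p-subgroups whose intersection equals the intersection of all Sylow p-subgroups. -/
theorem result {G : Type*} [Group G] [Finite G] (p : ℕ) [Fact p.Prime] (hab : ∀ P : Sylow p G, IsMulCommutative ↥(P : Subgroup G)) : ∃ P Q : Sylow p G, (P : Subgroup G) ⊓ (Q : Subgroup G) = ⨅ R : Sylow p G, (R : Subgroup G) := by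
  classical
  have hne : Nonempty (Sylow p G × Sylow p G) := inferInstance
  obtain ⟨⟨P, Q⟩, hmin⟩ := exists_minimalFor_of_wellFoundedLT (fun _ : Sylow p G × Sylow p G => True)
    (fun x => (x.1 : Subgroup G) ⊓ x.2) ⟨Classical.arbitrary _, trivial⟩
  refine ⟨P, Q, le_antisymm (le_iInf fun R => ?_) (le_inf (iInf_le _ P) (iInf_le _ Q))⟩
  set D := (P : Subgroup G) ⊓ Q with hD
  set C := Subgroup.centralizer (D : Set G) with hC
  have hPC : (P : Subgroup G) ≤ C := fun g hg d hd =>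
    congrArg Subtype.val ((hab P).1.1 ⟨d, hd.1⟩ ⟨g, hg⟩)
  have hQC : (Q : Subgroup G) ≤ C := fun g hg d hd =>
    congrArg Subtype.val ((hab Q).1.1 ⟨d, hd.2⟩ ⟨g, hg⟩)
  have hRC : IsPGroup p ((R : Subgroup G).subgroupOf C) := R.isPGroup'.comap_of_injective _ C.subtype_injective
  obtain ⟨T, hT⟩ := hRC.exists_le_sylow
  obtain ⟨c, hc⟩ := MulAction.exists_smul_eq C T (P.subtype hPC)
  -- R^c ∩ C ≤ P
  set R' : Sylow p G := (c : G) • R with hR'
  have hcomm : ∀ d ∈ D, (c : G) * d * (c : G)⁻¹ = d := by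
    intro d hd
    have := c.2 d hd
    rw [← this]; group
  have h1 : (R' : Subgroup G) ⊓ Q ≤ D := by
    intro x hx
    refine ⟨?_, hx.2⟩
    have hx1 : (c : G)⁻¹ * x * c ∈ (R : Subgroup G) := (H19.mem_smul_sylow R c x).1 hx.1
    have hxC : x ∈ C := hQC hx.2
    have hx2 : (c⁻¹ * ⟨x, hxC⟩ * c : C) ∈ (T : Subgroup C) := hT hx1
    have hx3 : (⟨x, hxC⟩ : C) ∈ ((c • T : Sylow p C) : Subgroup C) := by
      rw [Sylow.coe_subgroup_smul, Subgroup.mem_pointwise_smul_iff_inv_smul_mem]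
      simpa using hx2
    rw [hc] at hx3
    exact hx3
  have h2 : D ≤ (R' : Subgroup G) ⊓ Q := hmin.2 (j := (R', Q)) trivial h1
  intro d hd
  have h3 := (H19.mem_smul_sylow R c d).1 (h2 hd).1
  have h4 : (c : G)⁻¹ * d * c = d := by
    conv_lhs => rw [← hcomm d hd]
    group
  simpa [h4] using h3

end Cfsg.Agent.S1009
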