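import Cfsg.Statements.S1010
import Cfsg.Agent.H19.BD8
import Cfsg.Agent.H26.SylNum2
import Cfsg.Agent.H26.SylCount

set_option autoImplicit false
open Cfsg

namespace Cfsg.Agent.S1010

open Cfsg.Agent.H19

/-- No finite group has exactly twenty-one Sylow 5-subgroups. -/
theorem result {G : Type*} [Group G] [Finite G] : Nat.card (Sylow 5 G) ≠ 21 := by
  haveI : Fact (Nat.Prime 5) := ⟨by norm_num⟩
  haveI : Fact (Nat.Prime 7) := ⟨by norm_num⟩
  intro hn
  obtain ⟨G, _, _, hG, h⟩ := H26.exists_sylMin 5 G
  rw [← h] at hn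
  clear h
  haveI := Fintype.ofFinite G
  have hd : 5 ∣ Nat.card G := H26.dvd_card_of_one_lt_card_sylow (by omega)
  obtain ⟨P⟩ : Nonempty (Sylow 5 G) := inferInstance
  have hcard : Nat.card P = 5 :=
    H26.card_eq_of_forall_relIndex P hG.pCore_eq_bot hd fun Q hQ =>
      H26.relIndex_eq_of_card_sylow_le_sq hQ (by rw [hn]; norm_num)
  obtain ⟨x, hx, hxP, hnsq⟩ := exists_gen_of_sylow P hcard
  haveI : Nontrivial G := Finite.one_lt_card_iff_nontrivial.mp
    (lt_of_lt_of_le (by norm_num) (Nat.le_of_dvd Nat.card_pos hd))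
  haveI : IsSimpleGroup G := ⟨fun M hM => by
    by_cases h1 : 5 ∣ M.index
    · left
      have h2 : ¬ 5 ∣ Nat.card M := fun h2 => hnsq (by
        rw [← M.card_mul_index, sq]; exact Nat.mul_dvd_mul h2 h1)
      have h3 := H26.card_sylow_eq_mul_of_not_dvd M P h2
      have h4 := fun (l : ℕ) (hl : l.Prime) => H26.pow_factorization_relIndex_modEq_one P.isPGroup'
        (K := M) (by rw [Subgroup.normalizer_eq_top]; exact le_top) h2 hl
      rw [hn] at h3
      have h5 := h4 3 (by norm_num)
      have h6 := h4 7 (by norm_num)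
      have h7 : (Subgroup.centralizer ((P : Subgroup G) : Set G)).relIndex M ∈ Nat.divisors 21 :=
        Nat.mem_divisors.mpr ⟨Dvd.intro_left _ h3.symm, by norm_num⟩
      rw [show Nat.divisors 21 = {1, 3, 7, 21} by decide] at h7
      simp only [Finset.mem_insert, Finset.mem_singleton] at h7
      rcases h7 with h7 | h7 | h7 | h7
      · exact hG.faithful M P ((Subgroup.relIndex_eq_one.mp h7).trans
          (Subgroup.centralizer_le_normalizer _))
      · rw [h7, Nat.Prime.factorization_self (by norm_num)] at h5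
        exact absurd h5 (by decide)
      · rw [h7, Nat.Prime.factorization_self (by norm_num)] at h6
        exact absurd h6 (by decide)
      · rw [h7, show 21 = 3 * 7 from rfl, Nat.factorization_mul (by norm_num) (by norm_num),
          Finsupp.add_apply, Nat.Prime.factorization_self (by norm_num),
          Nat.factorization_eq_zero_of_not_dvd (by norm_num)] at h5
        exact absurd h5 (by decide)
    · exact Or.inr (hG.gen M h1)⟩
  have hc : ¬ IsMulCommutative G := fun hc => by
    haveI := Sylow.unique_of_normal P inferInstance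
    rw [Nat.card_unique] at hn
    omega
  have hperf := commutator_eq_top_of_simple hc
  obtain ⟨K, h⟩ := exists_PO hx hnsq
  obtain ⟨B⟩ := h.nonempty_BD
  have he := B.one_lt_e' hperf
  have he' := eN_mul hx
  rw [← sN_eq_card hx hnsq] at hn
  obtain ⟨χ, h1, h2, h3⟩ := B.exists_not_dvd (r := 7) (by norm_num)
  have h4 := h2.dvd
  have h5 := h2.mod
  have h6 : eN hx = 2 ∨ eN hx = 4 := by
    have : eN hx ≤ 4 := Nat.le_of_dvd (by norm_num) (Dvd.intro _ he')
    interval_cases eN hx <;> omega
  have h7 : charDegree (χ : G → ℂ) < 2 * 5 := by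
    rw [hn] at h4
    have h8 : charDegree (χ : G → ℂ) ∣ eN hx * 3 := Nat.Coprime.dvd_of_dvd_mul_right
      ((Nat.Prime.coprime_iff_not_dvd (by norm_num)).mpr h3).symm (by rw [mul_assoc]; exact h4)
    have h9 := Nat.le_of_dvd (by omega) h8
    rcases h6 with e | e <;> rw [e] at h8 h9 h5
    · omega
    · by_contra h10
      interval_cases charDegree (χ : G → ℂ) <;> omega
  obtain rfl := eq_bot_of_small h hperf h1 h7 h2.val
  have h8 := h.card_G
  rw [Subgroup.card_bot, hn] at h8
  have h9 := one_lt_card_sylow hc 7 (by rw [h8]; exact ⟨5 * 3 * eN hx, by ring⟩)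
  have h10 := card_sylow_modEq_one 7 G
  have h11 := H26.card_sylow_ne_two_mul_add_one (G := G) (p := 7) (by norm_num) (by norm_num)
    (by norm_num)
  obtain ⟨Q⟩ : Nonempty (Sylow 7 G) := inferInstance
  have h12 : Nat.card (Sylow 7 G) ∣ 420 :=
    (Q.card_dvd_index.trans (Subgroup.index_dvd_card _)).trans (by
      rw [h8]; rcases h6 with e | e <;> rw [show Nat.card (EE h.ord) = _ from e] <;> norm_num)
  have h13 : Nat.card (Sylow 7 G) ∈ Nat.divisors 420 := Nat.mem_divisors.mpr ⟨h12, by norm_num⟩
  exact (by decide +kernel : ∀ m ∈ Nat.divisors 420, 1 < m → m % 7 = 1 % 7 → m = 2 * 7 + 1)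
    _ h13 h9 h10 |> h11

end Cfsg.Agent.S1010
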