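import Cfsg.Statements.S1013
import Cfsg.Agent.H2.Perm4
import Cfsg.Agent.H2.Prim
import Cfsg.Agent.H2.SS2
import Cfsg.Agent.H3.PNil
import Cfsg.Agent.H26.SylCount
-- import your own Cfsg.Agent.* helpers here

set_option autoImplicit false
open Cfsg

namespace Cfsg.Agent.S1013

open Cfsg.Agent.H2 Cfsg.Agent.H2.Pm Cfsg.Agent.H3 MulAction Subgroup

theorem dvd_of_normal {G Ω : Type*} [Group G] [Finite G] [MulAction G Ω] [FaithfulSMul G Ω]
    [IsPretransitive G Ω] [Finite Ω] {p : ℕ} (hp : p.Prime) (hΩ : Nat.card Ω = p)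
    (K : Subgroup G) [K.Normal] (hK : K ≠ ⊥) : p ∣ Nat.card K := by
  haveI : Nonempty Ω := (Nat.card_pos_iff.1 (hΩ ▸ hp.pos)).1
  obtain ⟨a⟩ := ‹Nonempty Ω›
  have hi : (stabilizer G a).index = p := by rw [index_stabilizer_of_transitive, hΩ]
  have h1 := sup_eq_top_of_core (isCoatom_of_index_prime (hi ▸ hp)) (normalCore_stabilizer_eq_bot a) hK
  have h2 := H26.relIndex_sup_eq (K := K) (N := stabilizer G a) (by rw [normalizer_eq_top]; exact le_top)
  rw [h1, relIndex_top_right, hi] at h2
  exact h2 ▸ relIndex_dvd_card _ _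

theorem main {G Ω : Type*} [Group G] [Finite G] [MulAction G Ω] [FaithfulSMul G Ω]
    [IsPretransitive G Ω] [Finite Ω] {p : ℕ} [Fact p.Prime] (hΩ : Nat.card Ω = p)
    (P : Sylow p G) (hn : 1 < Nat.card (Sylow p G))
    (ht : ((P : Subgroup G).relIndex (normalizer ((P : Subgroup G) : Set G))).Prime) :
    IsSimpleGroup G := by
  have hp : p.Prime := Fact.out
  have hP := card_sylow_prime hΩ P
  have hP0 : (P : Subgroup G) ≠ ⊥ := fun h => by
    rw [h, card_bot] at hP; exact hp.one_lt.ne hP
  haveI : Nontrivial G := by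
    obtain ⟨x, hx⟩ := ne_bot_iff_exists_ne_one.1 hP0
    exact ⟨⟨x, 1, fun h => hx (Subtype.ext h)⟩⟩
  have hnn : ¬ (P : Subgroup G).Normal := fun h => by
    haveI := Sylow.unique_of_normal P h
    simp at hn
  refine ⟨fun K hK => ?_⟩
  by_contra hc
  push Not at hc
  have hd := dvd_of_normal hp hΩ K hc.1
  have hPK : (P : Subgroup G) ≤ K := by
    obtain ⟨x, hx⟩ := exists_prime_orderOf_dvd_card' p hd
    have hx' : orderOf (x : G) = p := by rw [orderOf_coe, hx]
    have hz : IsPGroup p (zpowers (x : G)) := IsPGroup.of_card (n := 1) (by simp [hx'])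
    obtain ⟨Q, hQ⟩ := hz.exists_le_sylow
    have hQe : zpowers (x : G) = Q :=
      eq_of_le_of_card_ge hQ (by rw [card_sylow_prime hΩ Q, Nat.card_zpowers, hx'])
    obtain ⟨g, rfl⟩ := exists_smul_eq G Q P
    rw [Sylow.coe_subgroup_smul, ← hQe]
    intro y hy
    obtain ⟨z, hz, rfl⟩ := hy
    exact hK.conj_mem _ (zpowers_le.2 x.2 hz) g
  have hF : normalizer ((P : Subgroup G) : Set G) ⊔ K = ⊤ := P.normalizer_sup_eq_top' hPK
  rcases eq_or_eq_of_relIndex_prime ht (K := normalizer ((P : Subgroup G) : Set G) ⊓ K)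
    (le_inf le_normalizer hPK) inf_le_left with h | h
  · have h1 : HasNormalPComplement p K := by
      refine hasNormalPComplement_of_normalizer_le_centralizer (P.subtype hPK) ?_
      haveI : IsCyclic (P : Subgroup G) := isCyclic_of_prime_card hP
      intro x hx
      have hx' : x ∈ normalizer (((P : Subgroup G).subgroupOf K : Subgroup K) : Set K) := hx
      rw [← subgroupOf_normalizer_eq hPK] at hx'
      have hxP : (x : G) ∈ (P : Subgroup G) := h ▸ ⟨hx', x.2⟩
      intro y hy
      have := congrArg Subtype.val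
        (IsCyclic.commutative.is_comm.comm (⟨y, hy⟩ : (P : Subgroup G)) ⟨x, hxP⟩)
      exact Subtype.ext this
    have h2 := hasNormalPComplement_iff_not_dvd.1 h1
    have h3 : (pResidual p K).map K.subtype = ⊥ := by
      by_contra h4
      have := dvd_of_normal hp hΩ _ h4
      rw [card_subtype] at this
      exact h2 this
    rw [map_eq_bot_iff_of_injective _ K.subtype_injective, pResidual_eq_bot_iff] at h3
    have := P.is_maximal' h3 hPK
    exact hnn (this ▸ hK)
  · refine hc.2 ?_
    rw [← hF, eq_comm, sup_eq_right]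
    exact h ▸ inf_le_right


/-- Let G be a transitive permutation group of prime degree p having more than one Sylow p-subgroup, and suppose a Sylow p-subgroup P has prime index in its normalizer. Then G is simple. -/
theorem result {α : Type*} [Fintype α] [DecidableEq α] {p : ℕ} [Fact p.Prime] (hα : Fintype.card α = p) (G : Subgroup (Equiv.Perm α)) [MulAction.IsPretransitive ↥G α] (P : Sylow p ↥G) (hn : 1 < Nat.card (Sylow p ↥G)) (ht : (((P : Subgroup ↥G).subgroupOf (Subgroup.normalizer ((P : Subgroup ↥G) : Set ↥G))).index).Prime) : IsSimpleGroup ↥G := by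
  exact main (Ω := α) (by rw [Nat.card_eq_fintype_card, hα]) P hn ht

end Cfsg.Agent.S1013
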