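import Cfsg.Statements.S1018
import Cfsg.Agent.H19.Syl
-- import your own Cfsg.Agent.* helpers here

set_option autoImplicit false
open Cfsg

namespace Cfsg.Agent.S1018

open Cfsg.Agent.H19 MulAction Subgroup

theorem eq_zpowers {G : Type*} [Group G] [Finite G] {p : ℕ} (hp : p.Prime) {P : Subgroup G}
    (hP : Nat.card P = p) {v : G} (hv : v ∈ P) (h1 : v ≠ 1) : zpowers v = P := by
  refine eq_of_le_of_card_ge (zpowers_le.2 hv) ?_
  have hd : orderOf v ∣ p := hP ▸ orderOf_dvd_natCard _ hv
  rw [Nat.card_zpowers, ((Nat.dvd_prime hp).1 hd).resolve_left (by simpa using h1), hP]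

theorem smul_mk_iff {G : Type*} [Group G] (N : Subgroup G) (y g : G) :
    y • (g : G ⧸ N) = g ↔ g⁻¹ * y * g ∈ N := by
  rw [MulAction.Quotient.smul_coe, eq_comm, QuotientGroup.eq, smul_eq_mul, mul_assoc]


/-- Let P be a Sylow p-subgroup of order p of a finite group G, and consider the action of G on the left cosets of the normalizer N of P. Then every element of order p fixes exactly one coset, and an element of N that does not centralize P fixes at most as many cosets as there are orbits of P. -/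
theorem result {G : Type*} [Group G] [Finite G] (p : ℕ) [Fact p.Prime] (P : Sylow p G) (hP : Nat.card ↥(P : Subgroup G) = p) : (∀ y : G, orderOf y = p → Nat.card (MulAction.fixedBy (G ⧸ Subgroup.normalizer ((P : Subgroup G) : Set G)) y) = 1) ∧ ∀ x : G, x ∈ Subgroup.normalizer ((P : Subgroup G) : Set G) → x ∉ Subgroup.centralizer ((P : Subgroup G) : Set G) → Nat.card (MulAction.fixedBy (G ⧸ Subgroup.normalizer ((P : Subgroup G) : Set G)) x) ≤ Nat.card (MulAction.orbitRel.Quotient ↥(P : Subgroup G) (G ⧸ Subgroup.normalizer ((P : Subgroup G) : Set G))) := by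
  have hp : p.Prime := Fact.out
  refine ⟨fun y hy => ?_, fun x hx hxc => ?_⟩
  · have hy1 : y ≠ 1 := fun h => by rw [h, orderOf_one] at hy; exact hp.one_lt.ne hy
    have key : ∀ g : G, y • (g : G ⧸ normalizer ((P : Subgroup G) : Set G)) = g ↔
        g⁻¹ * y * g ∈ (P : Subgroup G) := fun g => by
      rw [smul_mk_iff]
      refine Sylow.smul_eq_iff_mem_normalizer.symm.trans (smul_sylow_eq_iff_mem (k := 1) ?_ P)
      have := conj_pow (i := p) (a := g⁻¹) (b := y)
      rw [inv_inv] at this
      rw [pow_one, this, ← hy, pow_orderOf_eq_one]; simp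
    have hz : IsPGroup p (zpowers y) := IsPGroup.of_card (n := 1) (by simp [hy])
    obtain ⟨Q, hQ⟩ := hz.exists_le_sylow
    obtain ⟨g, rfl⟩ := exists_smul_eq G P Q
    have hg : g⁻¹ * y * g ∈ (P : Subgroup G) := (mem_smul_sylow P g y).1 (hQ (mem_zpowers y))
    rw [Nat.card_eq_one_iff_exists]
    refine ⟨⟨g, (key g).2 hg⟩, ?_⟩
    rintro ⟨q, hq⟩
    obtain ⟨h, rfl⟩ := QuotientGroup.mk_surjective q
    have hh := (key h).1 hq
    refine Subtype.ext (QuotientGroup.eq.2 ?_)
    refine mem_normalizer_fintype ?_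
    intro n hn
    rw [SetLike.mem_coe, ← eq_zpowers hp hP hg (fun e => hy1 (by
      have : y = g * (g⁻¹ * y * g) * g⁻¹ := by group
      rw [this, e]; simp))] at hn
    obtain ⟨k, rfl⟩ := hn
    have := conj_zpow (i := k) (a := h⁻¹ * g) (b := g⁻¹ * y * g)
    rw [SetLike.mem_coe, ← this]
    refine zpow_mem ?_ k
    convert hh using 1
    group
  · refine Nat.card_le_card_of_injective (fun ω => Quotient.mk _ ω.1) ?_
    rintro ⟨a, ha⟩ ⟨b, hb⟩ hab
    obtain ⟨⟨u, hu⟩, rfl⟩ : a ∈ orbit (P : Subgroup G) b := Quotient.exact hab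
    refine Subtype.ext ?_
    change u • b = b
    change x • u • b = u • b at ha
    change x • b = b at hb
    by_cases h1 : u = 1
    · rw [h1, one_smul]
    have hv : x⁻¹ * u⁻¹ * x * u ∈ (P : Subgroup G) :=
      mul_mem ((mem_normalizer_iff''.1 hx u⁻¹).1 (inv_mem hu)) hu
    have hv1 : x⁻¹ * u⁻¹ * x * u ≠ 1 := fun e => hxc (by
      intro z hz
      rw [SetLike.mem_coe, ← eq_zpowers hp hP hu h1] at hz
      obtain ⟨k, rfl⟩ := hz
      have : Commute u x := by
        have h2 : x * u = u * x * (x⁻¹ * u⁻¹ * x * u) := by group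
        rw [e, mul_one] at h2
        exact h2.symm
      exact this.zpow_left k)
    have hs : x⁻¹ * u⁻¹ * x * u ∈ stabilizer G b := by
      rw [mem_stabilizer_iff, mul_smul, mul_smul, mul_smul, ha, inv_smul_smul, inv_smul_eq_iff, hb]
    have := zpowers_le.2 hs
    rw [eq_zpowers hp hP hv hv1] at this
    exact this hu

end Cfsg.Agent.S1018
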