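import Cfsg.Statements.S1022
import Cfsg.Agent.H19.Sieve

set_option autoImplicit false
open Cfsg

namespace Cfsg.Agent.S1022

open Cfsg.Agent.H19 Cfsg.Agent.H4 Cfsg.Agent.H6

/-- No finite simple group has order 459648 = 2^7 * 3^3 * 7 * 19. -/
theorem result {G : Type*} [Group G] [Finite G] [IsSimpleGroup G] : Nat.card G ≠ 459648 := by
  classical
  intro hn
  have hc : ¬ IsMulCommutative G := not_comm_of_card_not_prime (by rw [hn]; norm_num)
  haveI := Fintype.ofFinite G
  haveI : Fact (Nat.Prime 19) := ⟨by norm_num⟩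
  haveI h7 : Fact (Nat.Prime 7) := ⟨by norm_num⟩
  obtain ⟨x, K, h, B, L, h1, h2, h3⟩ := d1_mem (p := 19) hc (by rw [hn]; norm_num)
    (by rw [hn]; norm_num)
  rw [hn, show d1list 459648 19 = [(4, 6, 1008, [-56, -56, 96, 96, -189])] by decide +kernel,
    List.mem_singleton, Prod.mk.injEq, Prod.mk.injEq, Prod.mk.injEq] at h1
  obtain ⟨hK, -, -, rfl⟩ := h1
  have hno : ∀ g : G, orderOf g ≠ 19 * 7 := fun g e => by
    obtain ⟨t, i, -, y, hy, rfl⟩ := h.exists_conj_of_dvd (g := g) (by rw [e]; norm_num)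
    have h4 : y ^ 4 = 1 := by
      have := pow_card_eq_one' (x := (⟨y, hy⟩ : K))
      rw [hK] at this; exact congrArg Subtype.val this
    have h5 : xp x i ^ 19 = 1 := by
      rw [xp, ← pow_mul, mul_comm, pow_mul, orderOf_dvd_iff_pow_eq_one.mp h.ord.dvd, one_pow]
    have h6 := orderOf_dvd_of_pow_eq_one (n := 76) (x := t * (xp x i * y) * t⁻¹) (by
      rw [conj_pow, (h.commute_xp i hy).mul_pow, show 76 = 19 * 4 from rfl, pow_mul, h5,
        pow_mul' y, h4]; simp)
    rw [e] at h6; norm_num at h6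
  obtain ⟨M, hM⟩ := exists_isPModular h7.out
  haveI := hM.2.1
  have h4 := B.dvd_inter (k := 1) (by norm_num) hno hM isPBlock_principal (by rw [hn]; norm_num)
  obtain ⟨x', hx'⟩ := exists_prime_orderOf_dvd_card' (G := G) 7 (by rw [hn]; norm_num)
  obtain ⟨K', h'⟩ := exists_PO hx' (by rw [hn]; norm_num)
  obtain ⟨B'⟩ := h'.nonempty_BD
  have h5 : ∀ χ ∈ principalBlock M G, charDegree (χ : G → ℂ) = 96 ∨ charDegree (χ : G → ℂ) = 108 →
      charDegree (χ : G → ℂ) = B'.z := fun χ hχ e => by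
    rcases (B'.block M hM χ).mp hχ with e' | ⟨q, rfl⟩
    · have := B'.degX χ e'
      rcases e with e | e <;> rcases B'.ha χ e' with e'' | e'' <;> rw [e, e''] at this <;>
        exact absurd this (by decide)
    · exact B'.deg_μ q
  rw [← Finset.add_sum_erase _ _ (Finset.mem_filter.mpr ⟨B.one_mem, irrOne_mem_principal⟩),
    B.a_one, charDegree_irrOne, h2, ← Finset.filter_erase, Finset.sum_eq_multiset_sum] at h4
  have h6 := Multiset.mem_powerset.mpr (h3 ▸ Multiset.map_le_map (f := fun χ : IrrCharacter G =>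
    B.a χ * charDegree (χ : G → ℂ)) (Finset.val_le_iff.mpr
      (Finset.filter_subset (· ∈ principalBlock M G) (B.X.erase (irrOne G)))))
  split_ifs at h4 with e
  · have h8 : B.z = 108 := by
      rcases B.hε with e | e <;> rw [e] at h2 <;> simp at h2 <;> omega
    obtain ⟨χ, h9, h10⟩ := Multiset.mem_map.mp ((by decide +kernel : ∀ N ∈ Multiset.powerset
      (([-56, -56, 96, 96, -189] : List ℤ) : Multiset ℤ), (7 : ℤ) ∣ 1 + N.sum + 108 → 96 ∈ N) _ h6
      (by simpa using h4))
    obtain ⟨h11, h12⟩ := Finset.mem_filter.mp h9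
    have h13 : charDegree (χ : G → ℂ) = 96 := by
      rcases B.ha χ (Finset.mem_of_mem_erase h11) with e | e <;> rw [e] at h10 <;> omega
    have h14 := h5 _ h12 (Or.inl h13)
    have h15 := h5 _ e (Or.inr (by rw [B.deg_μ, h8]))
    rw [B.deg_μ] at h15
    omega
  · exact (by decide +kernel : ∀ N ∈ Multiset.powerset
      (([-56, -56, 96, 96, -189] : List ℤ) : Multiset ℤ), ¬ (7 : ℤ) ∣ 1 + N.sum) _ h6
      (by simpa using h4)

end Cfsg.Agent.S1022
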