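import Cfsg.Statements.S1026
import Cfsg.Agent.H14.Types

set_option autoImplicit false
open Cfsg

namespace Cfsg.Agent.S1026

/-- Every element of `U` has a unique expression `∏_{r ∈ Φ⁺} x_r(t_r)`, the product over the positive roots in increasing index order (the coefficient family `t`, supported on the positive roots, exists and is unique); and conversely every such ordered product is the matrix of an element of `U`. -/
theorem result {F : Type*} [Field F] (D : Cfsg.Lie.ChevalleyDatum) (hD : D ∈ [Cfsg.Lie.chevG2, Cfsg.Lie.chevB2, Cfsg.Lie.chevD4, Cfsg.Lie.chevF4, Cfsg.Lie.chevE6, Cfsg.Lie.chevE7, Cfsg.Lie.chevE8]) :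
    (∀ g : GL D.Idx F, g ∈ D.posUnipotent F →
      ∃! t : ℕ → F, (∀ r, ¬ D.IsPosRoot r → t r = 0) ∧
        (g : Matrix D.Idx D.Idx F) = D.wordMat F (D.posRoots.map fun r => (r, t r))) ∧
    (∀ t : ℕ → F, ∃ g : GL D.Idx F, g ∈ D.posUnipotent F ∧
      (g : Matrix D.Idx D.Idx F) = D.wordMat F (D.posRoots.map fun r => (r, t r))) := by
  obtain ⟨G⟩ := Cfsg.Agent.H14.exists_good hD
  classical
  set L : List (Fin D.nroots) := (List.finRange D.nroots).filter fun r => decide (D.IsPosRoot r) with hL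
  have hL1 : ∀ r, r ∈ L ↔ r ∈ {r | G.R.pos r} := fun r => by simp [hL, G.isPosRoot_iff]
  have hL2 : L.Nodup := (List.nodup_finRange _).filter _
  have hL3 : D.posRoots = L.map Fin.val := by
    rw [Lie.ChevalleyDatum.posRoots, hL, ← List.map_coe_finRange_eq_range, List.filter_map]; rfl
  have key : ∀ t : ℕ → F, D.wordMat F (D.posRoots.map fun r => (r, t r)) =
      ((G.rg F).prodL L fun r => t r : GL D.Idx F) := by
    intro t
    rw [hL3, H14.RG0.prodL, ← Units.coeHom_apply, map_list_prod, Lie.ChevalleyDatum.wordMat]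
    simp only [List.map_map]
    congr 1
    exact List.map_congr_left fun r _ => (G.rg_x' F r (t r)).symm
  rw [G.U_eq]
  refine ⟨fun g hg => ?_, fun t => ⟨_, (G.rg F).prodL_mem (fun r hr => (hL1 r).1 hr) _, (key t).symm⟩⟩
  obtain ⟨t, rfl⟩ := (G.rg F).exists_prodL H14.RS.htv (S := {r | G.R.pos r}) (fun _ hr => H14.RS.pos.ht_pos hr)
    (fun r hr s hs k hk => H14.RS.comb_pos hk hr hs) hL1 hL2 hg
  refine ⟨fun r => if h : D.IsPosRoot r then t ⟨r, h.1⟩ else 0, ⟨fun r hr => dif_neg hr, ?_⟩, fun u hu => ?_⟩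
  · rw [key]
    exact congrArg _ ((G.rg F).prodL_congr fun r hr => by rw [dif_pos ((G.isPosRoot_iff r).2 ((hL1 r).1 hr))])
  · funext r
    split_ifs with h
    · simp only [key] at hu
      exact ((G.rg F).prodL_injective H14.RS.htv (fun r hr => H14.RS.pos.ht_pos ((hL1 r).1 hr)) hL2
        (Units.ext hu.2) ⟨r, h.1⟩ ((hL1 _).2 ((G.isPosRoot_iff ⟨r, h.1⟩).1 h))).symm
    · exact hu.1 r h

end Cfsg.Agent.S1026
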