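import Cfsg.Statements.S1028
import Cfsg.Agent.H14.Types

set_option autoImplicit false
open Cfsg

namespace Cfsg.Agent.S1028

/-- Elements of `U` (the subgroup generated by the root elements of the positive roots) are unipotent linear maps: `(u - 1)^n = 0` with `n = rank + nroots` the dimension of the module. -/
theorem result {F : Type*} [Field F] (D : Cfsg.Lie.ChevalleyDatum) (hD : D ∈ [Cfsg.Lie.chevG2, Cfsg.Lie.chevB2, Cfsg.Lie.chevD4, Cfsg.Lie.chevF4, Cfsg.Lie.chevE6, Cfsg.Lie.chevE7, Cfsg.Lie.chevE8]) (g : GL D.Idx F) (hg : g ∈ D.posUnipotent F) :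
    ((g : Matrix D.Idx D.Idx F) - 1) ^ (D.rank + D.nroots) = 0 := by
  obtain ⟨G⟩ := Cfsg.Agent.H14.exists_good hD
  rw [G.U_eq] at hg
  have h1 := G.deg_gen (f := H14.RS.htv) (m := 1) zero_le_one (S := {r | G.R.pos r})
    (fun r hr => H14.RS.pos.ht_pos hr) hg
  obtain ⟨m, hm⟩ := (Set.toFinite (Set.range fun p : D.Idx × D.Idx =>
    H14.RS.htv (G.wt p.1) - H14.RS.htv (G.wt p.2))).bddAbove
  have h2 : IsNilpotent ((g : Matrix D.Idx D.Idx F) - 1) := ⟨m.toNat + 1, by
    ext a b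
    by_contra h0
    have a1 := h1.pow m.toNat a b h0
    have a2 : H14.RS.htv (G.wt a) - H14.RS.htv (G.wt b) ≤ m := hm ⟨(a, b), rfl⟩
    omega⟩
  have h3 := Matrix.aeval_self_charpoly ((g : Matrix D.Idx D.Idx F) - 1)
  have h4 := Matrix.isNilpotent_charpoly_sub_pow_of_isNilpotent h2
  rw [isNilpotent_iff_eq_zero, sub_eq_zero] at h4
  simpa [h4] using h3

end Cfsg.Agent.S1028
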