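import Cfsg.Statements.S1037
import Cfsg.Agent.H14.All
import Cfsg.Agent.H14.Inst

set_option autoImplicit false
open Cfsg

namespace Cfsg.Agent.S1037

/-- `UH ∩ V = 1` and `UH ∩ VH = H`. -/
theorem result {F : Type*} [Field F] (D : Cfsg.Lie.ChevalleyDatum) (hD : D ∈ [Cfsg.Lie.chevG2, Cfsg.Lie.chevB2, Cfsg.Lie.chevD4, Cfsg.Lie.chevF4, Cfsg.Lie.chevE6, Cfsg.Lie.chevE7, Cfsg.Lie.chevE8]) :
    D.borelSubgroup F ⊓ D.negUnipotent F = ⊥ ∧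
      D.borelSubgroup F ⊓ (D.negUnipotent F ⊔ D.diagonalSubgroup F) = D.diagonalSubgroup F := by
  obtain ⟨G⟩ := Cfsg.Agent.H14.exists_good hD
  rw [G.H_eq, G.V_eq, G.B_eq]
  refine ⟨eq_bot_iff.2 fun g hg => (G.rg F).eq_one_of_mem_V_B hg.2 hg.1,
    le_antisymm (fun g hg => ?_) (le_inf (G.rg F).H_le_B le_sup_right)⟩
  obtain ⟨u, hu, y, hy, rfl⟩ := (G.rg F).mem_B_iff.1 hg.1
  rw [(G.rg F).eq_one_of_mem_U_VH hu (by simpa using mul_mem hg.2 (Subgroup.mem_sup_right (inv_mem hy))), one_mul]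
  exact hy

end Cfsg.Agent.S1037
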