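import Cfsg.Statements.S1039
import Cfsg.Agent.H14.Types
import Cfsg.Agent.H14.Cox

set_option autoImplicit false
open Cfsg

namespace Cfsg.Agent.S1039

/-- `N/H ≅ W`: there is a surjective homomorphism from `N` onto the Coxeter group of the type (Mathlib's Coxeter matrix G₂, B₂, F₄, E₆, E₇, E₈, nodes numbered as the fundamental roots) with kernel `H`, mapping each `n_{p_i}` to the `i`-th simple reflection. -/
theorem result {F : Type*} [Field F]
    (p : Cfsg.Lie.ChevalleyDatum × (Σ n : ℕ, CoxeterMatrix (Fin n)))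
    (hp : p ∈ [(Cfsg.Lie.chevG2, ⟨2, CoxeterMatrix.G₂⟩), (Cfsg.Lie.chevB2, ⟨2, CoxeterMatrix.B 2⟩), (Cfsg.Lie.chevD4, ⟨4, Cfsg.Lie.coxeterD4⟩), (Cfsg.Lie.chevF4, ⟨4, CoxeterMatrix.F₄⟩),
      (Cfsg.Lie.chevE6, ⟨6, CoxeterMatrix.E₆⟩), (Cfsg.Lie.chevE7, ⟨7, CoxeterMatrix.E₇⟩), (Cfsg.Lie.chevE8, ⟨8, CoxeterMatrix.E₈⟩)]) :
    ∃ φ : ↥(p.1.monomialSubgroup F) →* p.2.2.Group, Function.Surjective φ ∧
      φ.ker = (p.1.diagonalSubgroup F).subgroupOf (p.1.monomialSubgroup F) ∧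
      ∀ (i : Fin p.2.1) (g : ↥(p.1.monomialSubgroup F)),
        ((g : GL p.1.Idx F) : Matrix p.1.Idx p.1.Idx F) = p.1.nMat F (p.1.simple i) 1 → φ g = p.2.2.simple i := by
  simp only [List.mem_cons, List.not_mem_nil, or_false] at hp
  have key : ∀ {D : Lie.ChevalleyDatum} (G : H14.Good D) (M : CoxeterMatrix (Fin D.rank)),
      (∀ i j, i ≠ j → H14.CoxChk (G.R.car i j) (G.R.car j i) (M i j)) →
      ∃ φ : ↥(D.monomialSubgroup F) →* M.Group, Function.Surjective φ ∧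
        φ.ker = (D.diagonalSubgroup F).subgroupOf (D.monomialSubgroup F) ∧
        ∀ (i : Fin D.rank) (g : ↥(D.monomialSubgroup F)),
          ((g : GL D.Idx F) : Matrix D.Idx D.Idx F) = D.nMat F (D.simple i) 1 → φ g = M.simple i := by
    intro D G M hM
    rw [G.N_eq, G.H_eq]
    obtain ⟨φ, h1, h2, h3⟩ := (G.rg F).exists_hom_coxeter (Equiv.refl _) M hM
    exact ⟨φ, h1, h2, fun i g hg => h3 i g (Units.ext (hg.trans (G.nMat_simple F i 1)))⟩
  rcases hp with rfl | rfl | rfl | rfl | rfl | rfl | rfl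
  · exact key H14.goodG2 _ (H14.coxG2 _)
  · exact key H14.goodB2 _ (H14.coxB2 _)
  · exact key H14.goodD4 _ (H14.coxD4 _)
  · exact key H14.goodF4 _ (H14.coxF4 _)
  · exact key H14.goodE6 _ (H14.coxE6 _)
  · exact key H14.goodE7 _ (H14.coxE7 _)
  · exact key H14.goodE8 _ (H14.coxE8 _)

end Cfsg.Agent.S1039
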