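import Cfsg.Statements.S1044
import Cfsg.Agent.H14.Types

set_option autoImplicit false
open Cfsg

namespace Cfsg.Agent.S1044

/-- For a fundamental root `p` the set `B ∪ B n_p B` is (the carrier of) a subgroup of the general linear group. -/
theorem result {F : Type*} [Field F] (D : Cfsg.Lie.ChevalleyDatum) (hD : D ∈ [Cfsg.Lie.chevG2, Cfsg.Lie.chevB2, Cfsg.Lie.chevD4, Cfsg.Lie.chevF4, Cfsg.Lie.chevE6, Cfsg.Lie.chevE7, Cfsg.Lie.chevE8]) (i : ℕ) (hi : i < D.rank) (n : GL D.Idx F)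
    (hn : (n : Matrix D.Idx D.Idx F) = D.nMat F (D.simple i) 1) :
    ∃ P : Subgroup (GL D.Idx F), (P : Set (GL D.Idx F)) =
      (D.borelSubgroup F : Set (GL D.Idx F)) ∪ DoubleCoset.doubleCoset n (D.borelSubgroup F : Set (GL D.Idx F)) (D.borelSubgroup F) := by
  obtain ⟨G⟩ := Cfsg.Agent.H14.exists_good hD
  obtain rfl : n = (G.rg F).n (G.R.simple ⟨i, hi⟩) 1 := Units.ext (hn.trans (G.nMat_simple F ⟨i, hi⟩ 1))
  rw [G.B_eq]
  set X := G.rg F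
  refine ⟨(H15.BN.parG X.bnG {X.subG.sEquiv X.subG_top ⟨i, hi⟩}).map X.grp.subtype, ?_⟩
  have m : ∀ {y : GL D.Idx F} (hy : y ∈ X.B), (⟨y, X.B_le_grp hy⟩ : X.grp) ∈ X.bnG.B := fun hy => by
    rw [H14.RG.bn_B, H14.RG.sub_B]; exact hy
  ext g
  constructor
  · rintro ⟨g, hg, rfl⟩
    rcases H15.BN.mem_parG_singleton.1 hg with h | h
    · exact Or.inl ((X.sub_hom _ _).mem_B h)
    · obtain ⟨b, hb, b', hb', rfl⟩ := H15.BN.mem_C_mk.1 h
      exact Or.inr (DoubleCoset.mem_doubleCoset.2 ⟨b, (X.sub_hom _ _).mem_B hb, b', (X.sub_hom _ _).mem_B hb', rfl⟩)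
  · rintro (h | h)
    · exact ⟨_, H15.BN.mem_parG_singleton.2 (Or.inl (m h)), rfl⟩
    · obtain ⟨b, hb, b', hb', rfl⟩ := DoubleCoset.mem_doubleCoset.1 h
      exact ⟨_, H15.BN.mem_parG_singleton.2 (Or.inr (H15.BN.mem_C_mk.2 ⟨_, m hb, _, m hb', rfl⟩)), rfl⟩

end Cfsg.Agent.S1044
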