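import Cfsg.Statements.S1045
import Cfsg.Agent.H14.All
import Cfsg.Agent.H14.Inst

set_option autoImplicit false
open Cfsg

namespace Cfsg.Agent.S1045

/-- For a fundamental root `p`, the subgroup `U_p` generated by the `X_s`, `s` positive and `s ≠ p`, is normalised by `X_p` and `X_{-p}`, and `U = U_p ⊔ X_p`. -/
theorem result {F : Type*} [Field F] (D : Cfsg.Lie.ChevalleyDatum) (hD : D ∈ [Cfsg.Lie.chevG2, Cfsg.Lie.chevB2, Cfsg.Lie.chevD4, Cfsg.Lie.chevF4, Cfsg.Lie.chevE6, Cfsg.Lie.chevE7, Cfsg.Lie.chevE8]) (i : ℕ) (hi : i < D.rank) :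
    D.rootSubgroup F (D.simple i) ⊔ D.rootSubgroup F (D.neg (D.simple i)) ≤
        Subgroup.normalizer (Subgroup.closure {g : GL D.Idx F | ∃ (s : ℕ) (t : F), D.IsPosRoot s ∧ s ≠ D.simple i ∧
          (g : Matrix D.Idx D.Idx F) = D.x F s t} : Set (GL D.Idx F)) ∧
      Subgroup.closure {g : GL D.Idx F | ∃ (s : ℕ) (t : F), D.IsPosRoot s ∧ s ≠ D.simple i ∧
          (g : Matrix D.Idx D.Idx F) = D.x F s t} ⊔ D.rootSubgroup F (D.simple i) = D.posUnipotent F := by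
  obtain ⟨G⟩ := Cfsg.Agent.H14.exists_good hD
  have e := G.closure_eq_gen F (P := fun s => D.IsPosRoot s ∧ s ≠ D.simple i) (fun _ h => h.1.1)
  simp only [and_assoc] at e
  have e1 : D.simple i = G.R.simple ⟨i, hi⟩ := (G.simple_eq ⟨i, hi⟩).symm
  rw [e, e1, ← G.neg_eq, G.rootSubgroup_eq, G.rootSubgroup_eq, G.U_eq]
  simp only [G.isPosRoot_iff, ne_eq, ← Fin.ext_iff]
  refine ⟨le_trans ?_ ((G.rg F).gen_le_normalizer_Ui ⟨i, hi⟩), ?_⟩
  · rw [← (G.rg F).gen_union]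
    refine (G.rg F).gen_mono ?_
    rintro _ (rfl | rfl)
    · exact Or.inl (G.R.pos_simple _)
    · exact Or.inr rfl
  · rw [← (G.rg F).gen_union, Cfsg.Agent.H14.RG0.U]; congr 1; ext r
    by_cases h : r = G.R.simple ⟨i, hi⟩ <;> simp [h, G.R.pos_simple]

end Cfsg.Agent.S1045
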