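import Cfsg.Statements.S1048
import Cfsg.Agent.H14.Types
import Cfsg.Agent.H14.Par

set_option autoImplicit false
open Cfsg

namespace Cfsg.Agent.S1048

/-- `U_J ⊴ P_J`, `P_J = U_J L_J` and `U_J ∩ L_J = 1` (Levi decomposition of the standard parabolic subgroup). -/
theorem result {F : Type*} [Field F] (D : Cfsg.Lie.ChevalleyDatum) (hD : D ∈ [Cfsg.Lie.chevG2, Cfsg.Lie.chevB2, Cfsg.Lie.chevD4, Cfsg.Lie.chevF4, Cfsg.Lie.chevE6, Cfsg.Lie.chevE7, Cfsg.Lie.chevE8]) (J : Set ℕ) :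
    D.parabolicSubgroup F J ≤ Subgroup.normalizer (D.unipotentRadical F J : Set (GL D.Idx F)) ∧
      D.unipotentRadical F J ⊔ D.leviSubgroup F J = D.parabolicSubgroup F J ∧
      D.unipotentRadical F J ⊓ D.leviSubgroup F J = ⊥ := by
  obtain ⟨G⟩ := Cfsg.Agent.H14.exists_good hD
  rw [G.P_eq, G.UJ_eq, G.LJ_eq]
  exact ⟨H14.RG.P_le_normalizer _ _, H14.RG.UJ_sup_LJ _ _,
    eq_bot_iff.2 fun g hg => (G.rg F).eq_one_of_mem_UJ_LJ hg.1 hg.2⟩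

end Cfsg.Agent.S1048
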