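import Cfsg.Statements.S1051
import Cfsg.Agent.H14.Types
import Cfsg.Agent.H14.Par

set_option autoImplicit false
open Cfsg

namespace Cfsg.Agent.S1051

/-- `⋂_g g B g⁻¹ = 1`: the normal core of `B` in the Chevalley group is trivial. -/
theorem result {F : Type*} [Field F] (D : Cfsg.Lie.ChevalleyDatum) (hD : D ∈ [Cfsg.Lie.chevG2, Cfsg.Lie.chevB2, Cfsg.Lie.chevD4, Cfsg.Lie.chevF4, Cfsg.Lie.chevE6, Cfsg.Lie.chevE7, Cfsg.Lie.chevE8]) : ((D.borelSubgroup F).subgroupOf (D.group F)).normalCore = ⊥ := by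
  obtain ⟨G⟩ := Cfsg.Agent.H14.exists_good hD
  rw [G.B_eq, G.grp_eq, eq_bot_iff]
  intro g hg
  obtain ⟨h1, h2⟩ := (G.rg F).central_of_mem_core (g := g) fun y hy => hg ⟨y, hy⟩
  exact Subtype.ext (G.eq_one_of_central F h1 fun r => h2 r 1)

end Cfsg.Agent.S1051
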