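import Cfsg.Statements.S1053
import Cfsg.Agent.H14.All
import Cfsg.Agent.H14.Inst

set_option autoImplicit false
open Cfsg

namespace Cfsg.Agent.S1053

/-- There is `n₀ ∈ N` with `n₀ U n₀⁻¹ = V` (a representative of the longest element of the Weyl group). -/
theorem result {F : Type*} [Field F] (D : Cfsg.Lie.ChevalleyDatum) (hD : D ∈ [Cfsg.Lie.chevG2, Cfsg.Lie.chevB2, Cfsg.Lie.chevD4, Cfsg.Lie.chevF4, Cfsg.Lie.chevE6, Cfsg.Lie.chevE7, Cfsg.Lie.chevE8]) :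
    ∃ n ∈ D.monomialSubgroup F, (D.posUnipotent F).map (MulAut.conj n).toMonoidHom = D.negUnipotent F := by
  obtain ⟨G⟩ := Cfsg.Agent.H14.exists_good hD
  rw [G.U_eq, G.V_eq, G.N_eq]
  obtain ⟨w, hw, h⟩ := G.R.exists_w0
  obtain ⟨n, hn, h1⟩ := (G.rg F).exists_rep_of_W hw
  refine ⟨n, hn, le_antisymm ?_ fun v hv => ⟨n⁻¹ * v * n⁻¹⁻¹, h1.inv.conj_mem_gen (fun r hr => ?_) hv, by
    simp [mul_assoc]⟩⟩
  · rintro _ ⟨u, hu, rfl⟩
    exact h1.conj_mem_gen h hu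
  · by_contra hc
    have := h _ ((G.R.pos_neg_iff_not _).2 hc)
    rw [Cfsg.Agent.H14.RS.Aut.map_neg h1.mem_Aut, G.R.pos_neg_iff_not] at this
    exact this (by simpa using hr)

end Cfsg.Agent.S1053
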