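import Cfsg.Statements.S1064
import Cfsg.Agent.H14.Types

set_option autoImplicit false
open Cfsg

namespace Cfsg.Agent.S1064

/-- `gcd(2, q-1) · |E₇(q)| = q⁶³ ∏_{d ∈ {2,6,8,10,12,14,18}} (q^d - 1)`. -/
theorem result {F : Type*} [Field F] [Fintype F] {q : ℕ} (hq : Fintype.card F = q) : Nat.gcd 2 (q - 1) * Nat.card ↥(Cfsg.Lie.chevE7.group F) = q ^ 63 * (q ^ 2 - 1) * (q ^ 6 - 1) * (q ^ 8 - 1) * (q ^ 10 - 1) * (q ^ 12 - 1) * (q ^ 14 - 1) * (q ^ 18 - 1) := by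
  subst hq
  rw [← Nat.card_eq_fintype_card]
  have hq : 2 ≤ Nat.card F := Finite.one_lt_card
  set G := H14.goodE7
  rw [G.grp_eq]
  have : Finite (G.rg F).grp := inferInstance
  have h1 := H15.BN.card_E7 ((Equiv.refl (Fin 7)).trans ((G.rg F).subG.sEquiv (G.rg F).subG_top))
    ((G.rg F).subG.orderOf_sW_eq _ (Equiv.refl (Fin 7)) _ (H14.coxE7 G)) (q := Nat.card F) (by omega)
    (fun i => (G.rg F).subG.card_cell _ i)
  have h2 : Nat.gcd 2 (Nat.card F - 1) ^ 1 * _ = Nat.card F ^ 63 * (Nat.card F - 1) ^ 7 :=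
    G.card_bnG_B F (H14.centerE7 G)
  refine Nat.eq_of_mul_eq_mul_left (pow_pos (by omega : 0 < Nat.card F - 1) 7) ?_
  generalize Nat.card F - 1 = a at h1 h2 ⊢
  have h3 := congrArg (Nat.gcd 2 a ^ 1 * ·) h1
  simp only [← mul_assoc, h2] at h3
  linarith

end Cfsg.Agent.S1064
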