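import Cfsg.Statements.S1082
import Cfsg.Agent.H14.Cl3

set_option autoImplicit false
open Cfsg

namespace Cfsg.Agent.S1082

/-- D₄(F) ≅ PΩ₈⁺(F), the commutator subgroup of the orthogonal group of `Σ xᵢ yᵢ` modulo its centre. -/
theorem result {F : Type*} [Field F] : Nonempty (↥(Cfsg.Lie.chevD4.group F) ≃* Cfsg.POmega F (Cfsg.quadFormPlus 4 F)) := by
  obtain ⟨Y, hY⟩ := H14.exists_rgD 2 F (.inr (.inl (by simp)))
  have := (H14.simple_of_mem (K := F) (D := Lie.chevD4) (by simp) (by rintro (h | h) <;> cases congrArg (·.rank) h)).1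
  obtain ⟨G⟩ := H14.exists_good (D := Lie.chevD4) (by simp)
  obtain ⟨ψ⟩ := (G.rgD F).equiv_of_car (ι := Fin 4) (H14.slD4 G) (G.rgD_top F)
    (by rw [H14.car_eqD4]; change ∀ i : Fin 4, ∃ j : Fin 4, H14.carD4 j i = -1; decide) (fun _ _ => rfl) Y
    (by rw [H14.car_eqD4]; funext i j; rw [H14.car_rsD]; revert i j; change ∀ i j : Fin 4, H14.carD4 i j = _; decide)
  exact ⟨(ψ.trans (H13.centerQuotEquiv (MulEquiv.subgroupCongr hY))).trans (H13.pomegaEquiv (H13.QPlus 4 F)).symm⟩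

end Cfsg.Agent.S1082
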