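import Cfsg.Agent.H17.Cub3
import Cfsg.Agent.H12.Transport
import Cfsg.Statements.S1084
-- import your own Cfsg.Agent.* helpers here

set_option autoImplicit false
open Cfsg

namespace Cfsg.Agent.S1084

open Matrix
/-- E₆ via the 27-dimensional cubic form: for a finite field with at least three elements, (isometries of the cubic form) / centre ≅ the Chevalley group E₆(F). -/
theorem result {F : Type*} [Field F] [Fintype F] (hF : 3 ≤ Fintype.card F) : Nonempty (Cfsg.Lie.E6 F ≃* ↥(Cfsg.Lie.chevE6.group F)) := by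
  obtain ⟨a, h0, h1⟩ := Cardinal.exists_ne_ne_of_three_le (α := F) (by rw [Cardinal.mk_fintype]; exact_mod_cast hF) 0 1
  obtain ⟨i⟩ := H17.Cub.iso (F := F) ⟨h0, h1⟩
  refine ⟨(H12.centerQuotCongr (H12.subgroupCongrOfMem (H12.glReindex F H17.Cub.e) (H17.Cub.G F) _ fun g => ?_)).symm.trans i⟩
  have h : ∀ v : Lie.I27 → F, ((H12.glReindex F H17.Cub.e g).1 *ᵥ v) ∘ H17.Cub.e = g.1 *ᵥ (v ∘ H17.Cub.e) := fun v => by
    funext k
    simp only [Function.comp, Matrix.mulVec, dotProduct, H12.glReindex_apply, Equiv.symm_apply_apply]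
    exact (H17.Cub.e.sum_comp _).symm.trans (by simp)
  refine ⟨fun hg v => ?_, fun hg v => ?_⟩
  · rw [H17.Cub.T_eq, H17.Cub.T_eq]; exact (congrArg _ (h v)).trans (hg _)
  · have := hg (v ∘ H17.Cub.e.symm)
    rw [H17.Cub.T_eq, H17.Cub.T_eq] at this
    have e : (v ∘ H17.Cub.e.symm) ∘ H17.Cub.e = v := funext fun k => by simp
    exact e ▸ (congrArg _ (h _)).symm.trans this

end Cfsg.Agent.S1084
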