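import Cfsg.Statements.S1092
import Cfsg.Agent.H15.Weyl

set_option autoImplicit false
open Cfsg

namespace Cfsg.Agent.S1092

/-- `|W(B₂)| = 8`, `|W(G₂)| = 12`, `|W(D₄)| = 192`, `|W(F₄)| = 1152` for the groups presented by the Coxeter matrices (the product of the degrees of the basic invariants). -/
theorem result (p : (Σ n : ℕ, CoxeterMatrix (Fin n)) × ℕ)
    (hp : p ∈ [(⟨2, CoxeterMatrix.B 2⟩, 8), (⟨2, CoxeterMatrix.G₂⟩, 12), (⟨4, Cfsg.Lie.coxeterD4⟩, 192), (⟨4, CoxeterMatrix.F₄⟩, 1152)]) :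
    Nat.card p.1.2.Group = p.2 := by
  simp only [List.mem_cons, List.not_mem_nil, or_false] at hp
  rcases hp with rfl | rfl | rfl | rfl
  · obtain ⟨E, -, h⟩ := H15.Weyl.exSysB2 (CoxeterMatrix.toCoxeterSystem _)
    exact H15.Weyl.cardB2 E h
  · obtain ⟨E, -, h⟩ := H15.Weyl.exSysG2 (CoxeterMatrix.toCoxeterSystem _)
    exact H15.Weyl.cardG2 E h
  · obtain ⟨E, -, h⟩ := H15.Weyl.exSysD4 (CoxeterMatrix.toCoxeterSystem _)
    exact H15.Weyl.cardD4 E h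
  · obtain ⟨E, -, h⟩ := H15.Weyl.exSysF4 (CoxeterMatrix.toCoxeterSystem _)
    exact H15.Weyl.cardF4 E h

end Cfsg.Agent.S1092
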