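import Cfsg.Statements.S1094
import Cfsg.Agent.H15.Weyl

set_option autoImplicit false
open Cfsg

namespace Cfsg.Agent.S1094

/-- The Coxeter element `s₁ s₂ ⋯ s_l` of the Coxeter group of type B₂, G₂, D₄, F₄, E₆, E₇, E₈ has order `h = 2N/l` = 4, 6, 6, 12, 12, 18, 30. -/
theorem result (p : (Σ n : ℕ, CoxeterMatrix (Fin n)) × ℕ)
    (hp : p ∈ [(⟨2, CoxeterMatrix.B 2⟩, 4), (⟨2, CoxeterMatrix.G₂⟩, 6), (⟨4, Cfsg.Lie.coxeterD4⟩, 6), (⟨4, CoxeterMatrix.F₄⟩, 12),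
      (⟨6, CoxeterMatrix.E₆⟩, 12), (⟨7, CoxeterMatrix.E₇⟩, 18), (⟨8, CoxeterMatrix.E₈⟩, 30)]) :
    orderOf ((List.finRange p.1.1).map p.1.2.simple).prod = p.2 := by
  simp only [List.mem_cons, List.not_mem_nil, or_false] at hp
  rcases hp with rfl | rfl | rfl | rfl | rfl | rfl | rfl
  · obtain ⟨E, h1, h⟩ := H15.Weyl.exSysB2 (CoxeterMatrix.toCoxeterSystem _)
    have := H15.Weyl.coxOrderB2 E h
    rw [h1] at this
    exact this
  · obtain ⟨E, h1, h⟩ := H15.Weyl.exSysG2 (CoxeterMatrix.toCoxeterSystem _)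
    have := H15.Weyl.coxOrderG2 E h
    rw [h1] at this
    exact this
  · obtain ⟨E, h1, h⟩ := H15.Weyl.exSysD4 (CoxeterMatrix.toCoxeterSystem _)
    have := H15.Weyl.coxOrderD4 E h
    rw [h1] at this
    exact this
  · obtain ⟨E, h1, h⟩ := H15.Weyl.exSysF4 (CoxeterMatrix.toCoxeterSystem _)
    have := H15.Weyl.coxOrderF4 E h
    rw [h1] at this
    exact this
  · obtain ⟨E, h1, h⟩ := H15.Weyl.exSysE6 (CoxeterMatrix.toCoxeterSystem _)
    have := H15.Weyl.coxOrderE6 E h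
    rw [h1] at this
    exact this
  · obtain ⟨E, h1, h⟩ := H15.Weyl.exSysE7 (CoxeterMatrix.toCoxeterSystem _)
    have := H15.Weyl.coxOrderE7 E h
    rw [h1] at this
    exact this
  · obtain ⟨E, h1, h⟩ := H15.Weyl.exSysE8 (CoxeterMatrix.toCoxeterSystem _)
    have := H15.Weyl.coxOrderE8 E h
    rw [h1] at this
    exact this

end Cfsg.Agent.S1094
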