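import Cfsg.Statements.S1095
import Cfsg.Agent.H14.All
import Cfsg.Agent.H14.Inst

set_option autoImplicit false
open Cfsg

namespace Cfsg.Agent.S1095

/-- `n_p` (p = p_{i+1} fundamental) is the signed monomial matrix `h_{p_j} ↦ h_{p_j} - A_{p_j,p} h_p`, `e_s ↦ η_s e_{w_p(s)}`, with `η_s = ±1`, `η_p = η_{-p} = -1`, `η_s η_{w_p(s)} = (-1)^{A_{p,s}}`, `η_s η_{-s} = 1`. -/
theorem result {F : Type*} [Field F] (D : Cfsg.Lie.ChevalleyDatum) (hD : D ∈ [Cfsg.Lie.chevG2, Cfsg.Lie.chevB2, Cfsg.Lie.chevD4, Cfsg.Lie.chevF4, Cfsg.Lie.chevE6, Cfsg.Lie.chevE7, Cfsg.Lie.chevE8]) (i : ℕ) (hi : i < D.rank) :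
    ∃ η : ℕ → ℤ, (∀ s < D.nroots, η s = 1 ∨ η s = -1) ∧ η (D.simple i) = -1 ∧ η (D.neg (D.simple i)) = -1 ∧
      (∀ s < D.nroots, η s * η (D.reflectRoot i s) = (-1) ^ (D.cartan i s).natAbs ∧ η s * η (D.neg s) = 1) ∧
      D.nMat F (D.simple i) 1 = Matrix.of (fun (row col : D.Idx) =>
        Sum.elim
          (fun j' : Fin D.rank => Sum.elim
            (fun j : Fin D.rank => (if j' = j then (1 : F) else 0) - (if (j' : ℕ) = i then ((D.cartan j (D.simple i) : ℤ) : F) else 0))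
            (fun _ => (0 : F)) col)
          (fun s' : Fin D.nroots => Sum.elim
            (fun _ => (0 : F))
            (fun s : Fin D.nroots => if (s' : ℕ) = D.reflectRoot i s then ((η s : ℤ) : F) else 0) col)
          row) := by
  obtain ⟨G⟩ := Cfsg.Agent.H14.exists_good hD
  set p := G.R.simple ⟨i, hi⟩ with hp
  have e : ∀ s : Fin D.nroots, (if h : (s : ℕ) < D.nroots then G.η p ⟨s, h⟩ else 0) = G.η p s := fun s => dif_pos s.2
  have e1 : D.simple i = p := (G.simple_eq ⟨i, hi⟩).symm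
  refine ⟨fun s => if h : s < D.nroots then G.η p ⟨s, h⟩ else 0, fun s hs => ?_, ?_, ?_, fun s hs => ?_, ?_⟩
  · simpa [hs] using G.η_sq p ⟨s, hs⟩
  · simp only [e1]; rw [e, G.η_self]
  · simp only [e1, ← G.neg_eq]; rw [e, G.η_neg, G.η_self]
  · have a1 := G.srefl_eq ⟨i, hi⟩ ⟨s, hs⟩
    have a2 := G.neg_eq ⟨s, hs⟩
    have a3 := G.cartan_eq ⟨i, hi⟩ ⟨s, hs⟩
    dsimp only at a1 a2 a3
    simp only [← a1, ← a2, a3, e, dif_pos hs]
    refine ⟨?_, G.η_mul_neg _ _⟩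
    rw [← G.R.refl_simple, ← G.R.pair_simple, mul_comm]
    exact G.η_refl _ _
  · rw [G.nMat_simple F ⟨i, hi⟩, G.rg_toRG0, G.rg0_n _ one_ne_zero]
    ext a b
    rcases b with j | s
    · have := congrFun (G.nR_hvec p (G.R.simple j) (Units.mk0 (1 : F) one_ne_zero)) a
      rw [G.hvec_refl, G.hvec_simple, G.hvec_simple, Cfsg.Agent.H14.vc_single, Matrix.mulVec_single_one] at this
      refine this.trans ?_
      rcases a with j' | s'
      · simp [Cfsg.Agent.H14.vc, Pi.single_apply, e1, G.cartan_eq, G.R.pair_simple, Fin.ext_iff]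
      · simp [Cfsg.Agent.H14.vc]
    · have := congrFun (G.nR_evec p s (Units.mk0 (1 : F) one_ne_zero)) a
      rw [Cfsg.Agent.H14.evec_eq s, Cfsg.Agent.H14.vc_single, Matrix.mulVec_single_one, hp, G.R.refl_simple,
        G.srefl_eq] at this
      refine this.trans ?_
      rcases a with j' | s'
      · simp [Cfsg.Agent.H14.vc, Cfsg.Agent.H14.evec]
      · simp [Cfsg.Agent.H14.vc, Cfsg.Agent.H14.evec, hp]

end Cfsg.Agent.S1095
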