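import Cfsg.Statements.S1096
import Cfsg.Agent.H14.All
import Cfsg.Agent.H14.Inst

set_option autoImplicit false
open Cfsg

namespace Cfsg.Agent.S1096

/-- `n_p h_{p_j}(t) n_p⁻¹ = h_{w_p(p_j)}(t)` for fundamental `p`, `p_j` and `t ≠ 0`, stated as `n_p h_{p_j}(t) = h_{w_p(p_j)}(t) n_p`. -/
theorem result {F : Type*} [Field F] (D : Cfsg.Lie.ChevalleyDatum) (hD : D ∈ [Cfsg.Lie.chevG2, Cfsg.Lie.chevB2, Cfsg.Lie.chevD4, Cfsg.Lie.chevF4, Cfsg.Lie.chevE6, Cfsg.Lie.chevE7, Cfsg.Lie.chevE8]) (i j : ℕ) (hi : i < D.rank) (hj : j < D.rank) (t : F) (ht : t ≠ 0) :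
    D.nMat F (D.simple i) 1 * D.hMat F (D.simple j) t = D.hMat F (D.reflectRoot i (D.simple j)) t * D.nMat F (D.simple i) 1 := by
  obtain ⟨G⟩ := Cfsg.Agent.H14.exists_good hD
  have e := G.srefl_eq ⟨i, hi⟩ (G.R.simple ⟨j, hj⟩)
  rw [G.simple_eq] at e
  rw [G.hMat_simple F ⟨j, hj⟩, G.nMat_simple F ⟨i, hi⟩, ← e, G.hMat_eq, G.rg_toRG0, G.rg0_h _ ht, G.rg0_h _ ht,
    G.rg0_n _ one_ne_zero]
  refine G.mat_ext (fun k => ?_) (fun s => ?_)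
  · simp only [← Matrix.mulVec_mulVec, G.nR_hvec, G.dg_vc_hvec]
  · simp only [← Matrix.mulVec_mulVec, G.nR_evec, G.dg_vc_evec, Matrix.mulVec_smul, smul_smul,
      Cfsg.Agent.H14.Good.powChar_apply, ← G.R.pair_def, G.R.refl_simple, G.R.pair_srefl]
    rw [mul_comm]

end Cfsg.Agent.S1096
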