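import Cfsg.Statements.S1099
import Cfsg.Agent.H14.Aut

set_option autoImplicit false
open Cfsg

namespace Cfsg.Agent.S1099

/-- Graph automorphism of G₂ in characteristic 3 (K perfect): `x_a(t) ↦ x_b(t³)`, `x_b(t) ↦ x_a(t)`, `x_{-a}(t) ↦ x_{-b}(t³)`, `x_{-b}(t) ↦ x_{-a}(t)` extend to an automorphism of the group. -/
theorem result {K : Type*} [Field K] [CharP K 3] (hperf : ∀ x : K, ∃ y : K, y ^ 3 = x) :
    ∃ α : ↥(Cfsg.Lie.chevG2.group K) ≃* ↥(Cfsg.Lie.chevG2.group K), ∀ (g : ↥(Cfsg.Lie.chevG2.group K)) (t : K),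
      (((g : GL Cfsg.Lie.chevG2.Idx K) : Matrix _ _ K) = Cfsg.Lie.chevG2.x K Cfsg.Lie.g2a t →
        ((α g : GL Cfsg.Lie.chevG2.Idx K) : Matrix _ _ K) = Cfsg.Lie.chevG2.x K Cfsg.Lie.g2b (t ^ 3)) ∧
      (((g : GL Cfsg.Lie.chevG2.Idx K) : Matrix _ _ K) = Cfsg.Lie.chevG2.x K Cfsg.Lie.g2b t →
        ((α g : GL Cfsg.Lie.chevG2.Idx K) : Matrix _ _ K) = Cfsg.Lie.chevG2.x K Cfsg.Lie.g2a t) ∧
      (((g : GL Cfsg.Lie.chevG2.Idx K) : Matrix _ _ K) = Cfsg.Lie.chevG2.x K Cfsg.Lie.g2ma t →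
        ((α g : GL Cfsg.Lie.chevG2.Idx K) : Matrix _ _ K) = Cfsg.Lie.chevG2.x K Cfsg.Lie.g2mb (t ^ 3)) ∧
      (((g : GL Cfsg.Lie.chevG2.Idx K) : Matrix _ _ K) = Cfsg.Lie.chevG2.x K Cfsg.Lie.g2mb t →
        ((α g : GL Cfsg.Lie.chevG2.Idx K) : Matrix _ _ K) = Cfsg.Lie.chevG2.x K Cfsg.Lie.g2ma t) := by
  obtain ⟨β, h⟩ := H14.morG2.exists_aut_simple (K := K) (by simp) (Or.inr (CharP.cast_eq_zero K 3)) hperf
      (fun i => ([(1, 3), (0, 1)].getD i (0, 1)).1) (fun i => ([(1, 3), (0, 1)].getD i (0, 1)).2)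
      fun i hi => ⟨(H14.morG2_simple i hi).1, rfl, (H14.morG2_simple i hi).2⟩
  have e : Lie.g2a = Lie.chevG2.simple 0 ∧ Lie.g2b = Lie.chevG2.simple 1 ∧
    Lie.g2ma = Lie.chevG2.neg (Lie.chevG2.simple 0) ∧ Lie.g2mb = Lie.chevG2.neg (Lie.chevG2.simple 1) := by decide +kernel
  obtain ⟨e1, e2, e3, e4⟩ := e
  rw [e1, e2, e3, e4]
  refine ⟨β, fun g t => ⟨(h g 0 t (by decide)).1, ?_, (h g 0 t (by decide)).2, ?_⟩⟩
  · simpa using (h g 1 t (by decide)).1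
  · simpa using (h g 1 t (by decide)).2

end Cfsg.Agent.S1099
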