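import Cfsg.Statements.S1100
import Cfsg.Agent.H14.Types
import Cfsg.Agent.H14.Par

set_option autoImplicit false
open Cfsg

namespace Cfsg.Agent.S1100

/-- Canonical form `g = b n_w u` (`b ∈ B`, `u ∈ U_w⁻ = ⟨X_r : r > 0, n_w X_r n_w⁻¹ ≤ V⟩`): such a decomposition exists for every element of the group; the coset `n_w H` is determined by `g`; and for a fixed representative `n_w` the factors `b`, `u` are unique. -/
theorem result {F : Type*} [Field F] (D : Cfsg.Lie.ChevalleyDatum) (hD : D ∈ [Cfsg.Lie.chevG2, Cfsg.Lie.chevB2, Cfsg.Lie.chevD4, Cfsg.Lie.chevF4, Cfsg.Lie.chevE6, Cfsg.Lie.chevE7, Cfsg.Lie.chevE8]) :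
    (∀ g ∈ D.group F, ∃ b ∈ D.borelSubgroup F, ∃ n ∈ D.monomialSubgroup F,
      ∃ u ∈ Subgroup.closure {x : GL D.Idx F | ∃ (r : ℕ) (t : F), D.IsPosRoot r ∧
            (D.rootSubgroup F r).map (MulAut.conj n).toMonoidHom ≤ D.negUnipotent F ∧ (x : Matrix D.Idx D.Idx F) = D.x F r t},
        g = b * n * u) ∧
    (∀ (b b' n n' u u' : GL D.Idx F), b ∈ D.borelSubgroup F → b' ∈ D.borelSubgroup F →
      n ∈ D.monomialSubgroup F → n' ∈ D.monomialSubgroup F →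
      u ∈ Subgroup.closure {x : GL D.Idx F | ∃ (r : ℕ) (t : F), D.IsPosRoot r ∧
            (D.rootSubgroup F r).map (MulAut.conj n).toMonoidHom ≤ D.negUnipotent F ∧ (x : Matrix D.Idx D.Idx F) = D.x F r t} →
      u' ∈ Subgroup.closure {x : GL D.Idx F | ∃ (r : ℕ) (t : F), D.IsPosRoot r ∧
            (D.rootSubgroup F r).map (MulAut.conj n').toMonoidHom ≤ D.negUnipotent F ∧ (x : Matrix D.Idx D.Idx F) = D.x F r t} →
      b * n * u = b' * n' * u' → n⁻¹ * n' ∈ D.diagonalSubgroup F ∧ (n = n' → b = b' ∧ u = u')) := by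
  obtain ⟨G⟩ := Cfsg.Agent.H14.exists_good hD
  rw [G.B_eq, G.grp_eq, G.N_eq, G.H_eq]
  refine ⟨fun g hg => ?_, fun b b' n n' u u' hb hb' hn hn' hu hu' h => ?_⟩
  · obtain ⟨u, hu, n, hn, w, hw, v, hv, rfl⟩ := (G.rg F).exists_normal_form hg
    exact ⟨u, (G.rg F).U_le_B hu, n, hn, v, G.Uw_eq F hw ▸ hv, rfl⟩
  · obtain ⟨w, hw⟩ := (G.rg F).exists_rep hn
    obtain ⟨w', hw'⟩ := (G.rg F).exists_rep hn'
    rw [G.Uw_eq F hw] at hu
    rw [G.Uw_eq F hw'] at hu'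
    refine ⟨(G.rg F).inv_mul_mem_H_of_BNB hb hb' hn hn' ((G.rg F).U_le_B ((G.rg F).Uw_le_U _ hu))
      ((G.rg F).U_le_B ((G.rg F).Uw_le_U _ hu')) h, ?_⟩
    rintro rfl
    rw [(G.rg F).rep_unique hw' hw] at hu'
    exact (G.rg F).normal_form_unique hb hb' hw hu hu' h

end Cfsg.Agent.S1100
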