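import Cfsg.Statements.S1115
import Cfsg.Agent.H15.TwG2c

set_option autoImplicit false
open Cfsg

namespace Cfsg.Agent.S1115

/-- `N¹/H¹ ≅ W¹`: a surjective homomorphism from `N¹ = G¹ ∩ N` onto the group of order 2 with kernel `H¹`. -/
theorem result {K : Type*} [Field K] [Fintype K] {m : ℕ} (hK : Fintype.card K = 3 ^ (2 * m + 1)) :
    ∃ φ : ↥(Cfsg.Lie.chevG2.monomialSubgroup K ⊓ Cfsg.Lie.twistedG2 K (3 ^ m)) →* Multiplicative (ZMod 2), Function.Surjective φ ∧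
      φ.ker = (Cfsg.Lie.chevG2.diagonalSubgroup K ⊓ Cfsg.Lie.twistedG2 K (3 ^ m)).subgroupOf (Cfsg.Lie.chevG2.monomialSubgroup K ⊓ Cfsg.Lie.twistedG2 K (3 ^ m)) := by
  obtain ⟨_, S, θ, h, -, h1, h2⟩ := H15.exists_G2 hK
  rw [← h1, H14.goodG2.H_eq, H14.goodG2.N_eq]
  let E := (H15.BN.ex S.bn).reindex S.sEquiv
  have h2 : orderOf (E.s ()) = 2 := H11.orderOf_two_of (fun e => E.not_pos () 1 (E.pos_one ()) (by
    rw [e, one_mul]; exact E.pos_one ())) (E.sq ())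
  have h3 : Subgroup.zpowers (E.s ()) = ⊤ := by
    rw [← E.gen, Subgroup.zpowers_eq_closure, Set.range_unique]
  have : IsCyclic (H15.BN.W S.bn) := ⟨E.s (), fun g => h3.ge (Subgroup.mem_top g)⟩
  exact S.exists_weyl_hom (mulEquivOfCyclicCardEq (by rw [← Subgroup.card_top, ← h3, Nat.card_zpowers, h2]; simp))

end Cfsg.Agent.S1115
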