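import Cfsg.Statements.S1119
import Cfsg.Agent.H15.RankOne

set_option autoImplicit false
open Cfsg

namespace Cfsg.Agent.S1119

/-- In the rank-one set-up (`G` finite and doubly transitive on `Ω`, `t` an involution moving `a`, `Q` normal in `G_a` with `G_a = Q D`, `Q ⊓ D = 1` for the two-point stabiliser `D = G_a ⊓ G_{t • a}`, `|Q|` even, `|D|` odd): `Q` acts regularly on `Ω` minus `a`; hence `|Ω| = |Q| + 1`, `|G| = |Q| |D| (|Q| + 1)`, some Sylow 2-subgroup of `G` lies in `Q`, and each `g ∉ G_a` is uniquely `x t y` with `x ∈ G_a`, `y ∈ Q` (canonical form). -/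
theorem result {G Ω : Type*} [Group G] [Finite G] [MulAction G Ω] {a : Ω} {t : G} {Q : Subgroup G}
    (hS : Cfsg.IsRankOneSetup G Ω a t Q) :
    (∀ b c : Ω, b ≠ a → c ≠ a → ∃! x : Q, (x : G) • b = c) ∧
      Nat.card Ω = Nat.card Q + 1 ∧
      Nat.card G = Nat.card Q * Nat.card ↥(MulAction.stabilizer G a ⊓ MulAction.stabilizer G (t • a)) * (Nat.card Q + 1) ∧
      (∃ P : Sylow 2 G, (P : Subgroup G) ≤ Q) ∧
      ∀ g : G, g ∉ MulAction.stabilizer G a → ∃! p : G × G, p.1 ∈ MulAction.stabilizer G a ∧ p.2 ∈ Q ∧ g = p.1 * t * p.2 := by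
  have hG : Nat.card G = Nat.card Q * Nat.card ↥(MulAction.stabilizer G a ⊓
      MulAction.stabilizer G (t • a)) * (Nat.card Q + 1) := by
    haveI : MulAction.IsPretransitive G Ω := ⟨H15.RO.trans hS⟩
    rw [← H15.RO.card_H hS, ← H15.RO.card_Ω hS, ← MulAction.index_stabilizer_of_transitive G a,
      Subgroup.card_mul_index]
  refine ⟨?_, H15.RO.card_Ω hS, hG, ?_, ?_⟩
  · intro b c hb hc
    obtain ⟨x, hx, e⟩ := H15.RO.exists_Q_smul' hS hb hc
    exact ⟨⟨x, hx⟩, e, fun y hy => Subtype.ext (H15.RO.Q_smul_inj hS y.2 hx hb (hy.trans e.symm))⟩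
  · haveI : Fact (Nat.Prime 2) := ⟨Nat.prime_two⟩
    obtain ⟨P⟩ : Nonempty (Sylow 2 Q) := inferInstance
    have hQ : Odd Q.index := by
      have h1 := Q.card_mul_index
      rw [hG, mul_assoc] at h1
      rw [Nat.eq_of_mul_eq_mul_left Nat.card_pos h1]
      exact hS.odd_card.mul hS.even_card.add_one
    have hP : IsPGroup 2 ((P : Subgroup Q).map Q.subtype) := P.2.map _
    refine ⟨hP.toSylow ?_, Subgroup.map_subtype_le _⟩
    rw [Subgroup.index_map_subtype]
    intro h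
    rcases (Nat.Prime.dvd_mul Nat.prime_two).1 h with h | h
    · exact P.not_dvd_index h
    · exact (Nat.not_even_iff_odd.2 hQ) (even_iff_two_dvd.2 h)
  · intro g hg
    obtain ⟨h, hh, y, hy, e⟩ := H15.RO.exists_HtQ hS hg
    refine ⟨(h, y), ⟨hh, hy, e⟩, ?_⟩
    rintro ⟨h', y'⟩ ⟨hh', hy', e'⟩
    obtain ⟨h1, h2⟩ := H15.RO.HtQ_unique hS hh' hh hy' hy (e'.symm.trans e)
    exact Prod.ext h1 h2

end Cfsg.Agent.S1119
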