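import Cfsg.Statements.S1127
import Cfsg.Agent.H15.RankOne

set_option autoImplicit false
open Cfsg

namespace Cfsg.Agent.S1127

/-- In the rank-one set-up (`G` finite and doubly transitive on `Ω`, `t` an involution moving `a`, `Q` normal in `G_a` with `G_a = Q D`, `Q ⊓ D = 1` for the two-point stabiliser `D = G_a ⊓ G_{t • a}`, `|Q|` even, `|D|` odd): if `s` is an involution of `G_a` and `r ∈ Q` satisfy `t s t = r⁻¹ t r`, then `C_D(t) = C_D(s)`; moreover `C_D(t) ⊓ C_D(K) = C_D(I ∩ G_a)`, where `K` is the set of elements of `D` inverted by `t` and `I ∩ G_a` the set of involutions of `G_a`. -/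
theorem result {G Ω : Type*} [Group G] [Finite G] [MulAction G Ω] {a : Ω} {t : G} {Q : Subgroup G}
    (hS : Cfsg.IsRankOneSetup G Ω a t Q) :
    (∀ s r : G, s ∈ Cfsg.involutionsIn (MulAction.stabilizer G a : Set G) → r ∈ Q → t * s * t = r⁻¹ * t * r →
        (MulAction.stabilizer G a ⊓ MulAction.stabilizer G (t • a)) ⊓ Subgroup.centralizer {t} = (MulAction.stabilizer G a ⊓ MulAction.stabilizer G (t • a)) ⊓ Subgroup.centralizer {s}) ∧
      (MulAction.stabilizer G a ⊓ MulAction.stabilizer G (t • a)) ⊓ Subgroup.centralizer {t} ⊓ Subgroup.centralizer (Cfsg.invertedBy (MulAction.stabilizer G a ⊓ MulAction.stabilizer G (t • a)) t) =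
        (MulAction.stabilizer G a ⊓ MulAction.stabilizer G (t • a)) ⊓ Subgroup.centralizer (Cfsg.involutionsIn (MulAction.stabilizer G a : Set G)) := by
  refine ⟨fun s r hs hr e => ?_, ?_⟩
  · ext d
    simp only [Subgroup.mem_inf, H11.mem_cent1]
    exact and_congr_right fun hd => H15.RO.cent_t_iff_cent_s hS hs hr e hd
  · obtain ⟨s, hs, r, hr, e⟩ := H15.RO.exists_structure hS
    apply le_antisymm
    · rintro v ⟨⟨hv, hvt⟩, hvK⟩
      refine ⟨hv, fun s' hs' => ?_⟩
      have h1 := (H15.RO.cent_t_iff_cent_s hS hs hr e hv).1 (H11.mem_cent1.1 hvt)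
      obtain ⟨k, hk, rfl⟩ := H15.RO.exists_K_conj hS hs hs'
      have h2 : k * v = v * k := hvK k hk
      calc k⁻¹ * s * k * v = k⁻¹ * (s * v) * k := by rw [mul_assoc, h2]; group
        _ = k⁻¹ * (v * k) * k⁻¹ * s * k := by rw [← h1]; group
        _ = _ := by rw [← h2]; group
    · rintro d ⟨hd, hdI⟩
      have h1 := (H15.RO.cent_t_iff_cent_s hS hs hr e hd).2 (hdI s hs).symm
      refine ⟨⟨hd, H11.mem_cent1.2 h1⟩, fun k hk => ?_⟩
      have h2 := H15.RO.K_conj_inj hS hs (H15.RO.conj_mem_invertedBy hk hd h1) hk (by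
        have h3 : k⁻¹ * s * k * d = d * (k⁻¹ * s * k) := hdI _ (H15.RO.conj_mem_I hS hs hk.1.1)
        have h4 : s * d = d * s := hdI s hs
        calc (d * k * d⁻¹)⁻¹ * s * (d * k * d⁻¹) = d * k⁻¹ * d⁻¹ * (s * d) * k * d⁻¹ := by group
          _ = d * (k⁻¹ * s * k) * d⁻¹ := by rw [h4]; group
          _ = _ := by rw [← h3]; group)
      calc k * d = d * k * d⁻¹ * d := by rw [h2]
        _ = d * k := by group

end Cfsg.Agent.S1127
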