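import Cfsg.Statements.S1132
import Cfsg.Agent.BS.P1
import Cfsg.Agent.BS.PZ

set_option autoImplicit false
open Cfsg
open Cfsg.Agent.H22 Cfsg.Agent.H4
open scoped ComplexConjugate

namespace Cfsg.Agent.S1132

/-- In the rank-one set-up (`G` finite and doubly transitive on `Ω`, `t` an involution moving `a`, `Q` normal in `G_a` with `G_a = Q D`, `Q ⊓ D = 1` for the two-point stabiliser `D = G_a ⊓ G_{t • a}`, `|Q|` even, `|D|` odd), with the action faithful and `G` containing two distinct commuting involutions: a Sylow 2-subgroup of `Q` is abelian or a Suzuki 2-group. -/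
theorem result {G Ω : Type*} [Group G] [Finite G] [MulAction G Ω] [FaithfulSMul G Ω] {a : Ω} {t : G} {Q : Subgroup G}
    (hS : Cfsg.IsRankOneSetup G Ω a t Q)
    (h2 : ∃ x y : G, x ≠ 1 ∧ y ≠ 1 ∧ x ≠ y ∧ x * x = 1 ∧ y * y = 1 ∧ x * y = y * x)
    (S : Sylow 2 ↥Q) : IsMulCommutative (S : Subgroup ↥Q) ∨ Cfsg.IsSuzukiTwoGroup ↥(S : Subgroup ↥Q) := by
  obtain ⟨r, F, _, τ, κ, h⟩ := BS.exists_R1 hS h2
  by_cases hab : IsMulCommutative (S : Subgroup Q)
  · exact Or.inl hab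
  right
  have := h.nilp
  have hSn : (S : Subgroup Q).Normal := inferInstance
  have hSc := S.characteristic_of_normal hSn
  have hmem : ∀ y : F, (⟨τ y, h.tau_mem y⟩ : Q) ∈ (S : Subgroup Q) := fun y => by
    have h1 : IsPGroup 2 (Subgroup.zpowers (⟨τ y, h.tau_mem y⟩ : Q)) := by
      refine IsPGroup.of_card_dvd_pow (n := 1) ?_
      rw [Nat.card_zpowers]
      exact orderOf_dvd_of_pow_eq_one (Subtype.ext (by simpa [pow_two] using h.tau_sq y))
    obtain ⟨T, hT⟩ := h1.exists_le_sylow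
    have := Sylow.unique_of_normal S hSn
    rw [Subsingleton.elim S T]
    exact hT (Subgroup.mem_zpowers _)
  let f : Fˣ →* MulAut (S : Subgroup Q) := (MulAut.characteristic (S : Subgroup Q)).comp
    (Q.normalizerMonoidHom.comp (κ.codRestrict _ h.kap_mem_normalizer))
  have hf : ∀ μ (x : (S : Subgroup Q)), ((f μ x : Q) : G) = κ μ * (x : Q) * (κ μ)⁻¹ := fun _ _ => rfl
  have := h.finF
  refine ⟨inferInstance, S.isPGroup', ?_, ?_, f.range, isCyclic_of_surjective _ f.rangeRestrict_surjective, fun x y hx hx2 hy hy2 => ?_⟩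
  · by_contra hc
    push Not at hc
    exact hab ⟨⟨hc⟩⟩
  · obtain ⟨x, h0, h1⟩ := h.exists_third
    exact ⟨⟨_, hmem x⟩, ⟨_, hmem 1⟩, fun e => h1 (h.inj (congrArg (fun z : (S : Subgroup Q) => ((z : Q) : G)) e)),
      fun e => h.tau_ne_one h0 (congrArg (fun z : (S : Subgroup Q) => ((z : Q) : G)) e),
      Subtype.ext (Subtype.ext (h.tau_sq x)),
      fun e => h.s_ne_one (congrArg (fun z : (S : Subgroup Q) => ((z : Q) : G)) e),
      Subtype.ext (Subtype.ext (h.tau_sq 1))⟩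
  · obtain ⟨u, hu⟩ := (h.mem ((x : Q) : G)).1 ⟨(x : Q).2, congrArg (fun z : (S : Subgroup Q) => ((z : Q) : G)) hx2⟩
    obtain ⟨v, hv⟩ := (h.mem ((y : Q) : G)).1 ⟨(y : Q).2, congrArg (fun z : (S : Subgroup Q) => ((z : Q) : G)) hy2⟩
    have hu0 : u ≠ 0 := fun e => hx (Subtype.ext (Subtype.ext (by rw [← hu, e, h.tau_zero]; rfl)))
    have hv0 : v ≠ 0 := fun e => hy (Subtype.ext (Subtype.ext (by rw [← hv, e, h.tau_zero]; rfl)))
    refine ⟨⟨f (Units.mk0 v hv0 * (Units.mk0 u hu0)⁻¹), _, rfl⟩, Subtype.ext (Subtype.ext ?_), ?_⟩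
    · rw [hf, ← hu, h.conj, ← hv]
      simp [hu0]
    · rintro ⟨_, μ, rfl⟩ e
      have e' := congrArg (fun z : (S : Subgroup Q) => ((z : Q) : G)) e
      simp only [hf] at e'
      rw [← hu, h.conj, ← hv] at e'
      refine Subtype.ext (congrArg f (Units.ext ?_))
      simp [← h.inj e', hu0]

end Cfsg.Agent.S1132
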