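import Cfsg.Statements.S1151
import Cfsg.Agent.H15.ReeM
import Cfsg.Agent.H15.Ree2

set_option autoImplicit false
open Cfsg

namespace Cfsg.Agent.S1151

/-- In the small Ree group ²G₂(q), q = 3^(2m+1), realised as G¹ inside the Chevalley group G₂ over the field with q elements (θ the 3^m-th power map), with H¹ = G¹ ∩ H and U¹ = G¹ ∩ U the intersections with the ambient diagonal and positive unipotent subgroups: `H¹` has exactly `(q - 1)/2` elements of odd order, and each non-identity one centralises no non-identity element of `U¹`. -/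
theorem result {K : Type*} [Field K] [Fintype K] {m : ℕ} (hK : Fintype.card K = 3 ^ (2 * m + 1)) :
    2 * Nat.card {h : ↥(Cfsg.Lie.chevG2.diagonalSubgroup K ⊓ Cfsg.Lie.twistedG2 K (3 ^ m)) // Odd (orderOf h)} = 3 ^ (2 * m + 1) - 1 ∧
      ∀ h ∈ (Cfsg.Lie.chevG2.diagonalSubgroup K ⊓ Cfsg.Lie.twistedG2 K (3 ^ m)), h ≠ 1 → Odd (orderOf h) →
        (Cfsg.Lie.chevG2.posUnipotent K ⊓ Cfsg.Lie.twistedG2 K (3 ^ m)) ⊓ Subgroup.centralizer {h} = ⊥ := by
  obtain ⟨_, M, h0, h1, -, h, -⟩ := H15.exists_ree hK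
  obtain ⟨n, hn⟩ : ∃ n, Nat.card K = 2 * (2 * n + 1) + 1 := ⟨Nat.card K / 4, by have := M.card_mod_four; omega⟩
  constructor
  · let e := (MonoidHom.ofInjective M.D_inj).trans (H15.infEquiv h1)
    rw [← Nat.card_congr (e.toEquiv.subtypeEquiv (p := fun k => k ^ (2 * n + 1) = 1) fun k => ?_),
      H15.card_units_pow, ← Nat.card_eq_fintype_card, ← h, hn, Nat.add_sub_cancel, Nat.gcd_mul_left_right]
    rw [MulEquiv.toEquiv_eq_coe, MulEquiv.coe_toEquiv, MulEquiv.orderOf_eq, ← orderOf_dvd_iff_pow_eq_one]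
    refine ⟨Odd.of_dvd_nat ⟨n, rfl⟩, fun hk => (Nat.coprime_two_right.2 hk).dvd_of_dvd_mul_left ?_⟩
    have := orderOf_dvd_natCard k
    rwa [Nat.card_units, hn, Nat.add_sub_cancel] at this
  · rintro y ⟨hy, hy'⟩ a1 a2
    rw [eq_bot_iff]
    rintro u ⟨⟨hu, hu'⟩, a3⟩
    obtain ⟨k, hk⟩ := h1.ge (show (⟨y, hy'⟩ : Lie.twistedG2 K (3 ^ m)) ∈ _ from hy)
    obtain ⟨a, b, c, e⟩ := h0.ge (show (⟨u, hu'⟩ : Lie.twistedG2 K (3 ^ m)) ∈ _ from hu)
    rcases M.D_comm_S (k := k) (a := a) (b := b) (c := c) (by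
      rw [hk, ← e]; exact Subtype.ext (a3 y rfl)) with rfl | ⟨rfl, -⟩ | a4
    · exact absurd (congrArg Subtype.val (hk.symm.trans (map_one _))) a1
    · rw [show y = M.h0 from congrArg Subtype.val hk.symm, Subgroup.orderOf_coe, M.orderOf_h0] at a2
      exact absurd a2 (by decide)
    · exact congrArg Subtype.val (e.trans (M.S_eq_one.2 a4))

end Cfsg.Agent.S1151
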