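import Cfsg.Statements.S1166
import Cfsg.Agent.H15.RankOne

set_option autoImplicit false
open Cfsg

namespace Cfsg.Agent.S1166

/-- In the rank-one set-up (`G` finite and doubly transitive on `Ω`, `t` an involution moving `a`, `Q` normal in `G_a` with `G_a = Q D`, `Q ⊓ D = 1` for the two-point stabiliser `D = G_a ⊓ G_{t • a}`, `|Q|` even, `|D|` odd), with `t x t = g_x h_x t f_x` and `t y t = g_y h_y t f_y` (`g, f ∈ Q`, `h ∈ D`) for `x, y ∈ Q ∖ 1` with `x y ≠ 1`: then `z = f_x g_y ≠ 1`, and if `t z t = g_z h_z t f_z` and `t (x y) t = g' h' t f'` then `f' = (t h_y t)⁻¹ f_z (t h_y t) f_y` and `h' = h_x h_z h_y` (H6). -/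
theorem result {G Ω : Type*} [Group G] [Finite G] [MulAction G Ω] {a : Ω} {t : G} {Q : Subgroup G}
    (hS : Cfsg.IsRankOneSetup G Ω a t Q)
    (x y gx hx fx gy hy fy : G) (hxQ : x ∈ Q) (hx1 : x ≠ 1) (hyQ : y ∈ Q) (hy1 : y ≠ 1) (hxy : x * y ≠ 1)
    (hgx : gx ∈ Q) (hhx : hx ∈ (MulAction.stabilizer G a ⊓ MulAction.stabilizer G (t • a))) (hfx : fx ∈ Q) (ex : t * x * t = gx * hx * t * fx)
    (hgy : gy ∈ Q) (hhy : hy ∈ (MulAction.stabilizer G a ⊓ MulAction.stabilizer G (t • a))) (hfy : fy ∈ Q) (ey : t * y * t = gy * hy * t * fy) :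
    fx * gy ≠ 1 ∧
      ∀ gz hz fz g' h' f' : G, gz ∈ Q → hz ∈ (MulAction.stabilizer G a ⊓ MulAction.stabilizer G (t • a)) → fz ∈ Q → t * (fx * gy) * t = gz * hz * t * fz →
        g' ∈ Q → h' ∈ (MulAction.stabilizer G a ⊓ MulAction.stabilizer G (t • a)) → f' ∈ Q → t * (x * y) * t = g' * h' * t * f' →
          f' = (t * hy * t)⁻¹ * fz * (t * hy * t) * fy ∧ h' = hx * hz * hy := by
  have tt := hS.mul_self
  have e0 : t * (x * y) * t = gx * hx * t * (fx * gy) * hy * t * fy := by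
    calc t * (x * y) * t = t * x * (t * t) * y * t := by rw [tt]; group
      _ = (t * x * t) * (t * y * t) := by group
      _ = _ := by rw [ex, ey]; group
  refine ⟨fun h => ?_, fun gz hz fz g' h' f' hgz hhz hfz ez hg' hh' hf' e' => ?_⟩
  · apply H15.RO.txt_not_fix hS (mul_mem hxQ hyQ) hxy
    rw [e0, h, mul_one, show gx * hx * t * hy * t * fy = gx * hx * (t * hy * t) * fy by group,
      mul_smul, mul_smul, mul_smul, H15.RO.Q_fix hS hfy, (H15.RO.tDt hS hhy).1, hhx.1,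
      H15.RO.Q_fix hS hgx]
  · have hc := H15.RO.tDt hS hhy
    have e1 : t * (x * y) * t = (gx * (hx * gz * hx⁻¹)) * (hx * hz * hy) * t *
        ((t * hy * t)⁻¹ * fz * (t * hy * t) * fy) := by
      calc t * (x * y) * t = gx * hx * t * (fx * gy) * (t * t) * hy * t * fy := by
            rw [e0, tt, mul_one]
        _ = gx * hx * (t * (fx * gy) * t) * (t * hy * t) * fy := by group
        _ = gx * hx * gz * hz * t * fz * (t * hy * t) * fy := by rw [ez]; group
        _ = gx * hx * gz * hz * t⁻¹ * fz * (t * hy * t) * fy := by rw [H15.RO.t_inv hS]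
        _ = _ := by group
    have := H15.RO.ghtf_unique hS hg' (mul_mem hgx (H15.RO.conj_Q hS hhx.1 hgz)) hh'
      (mul_mem (mul_mem hhx hhz) hhy) hf' (mul_mem (H15.RO.conj_Q' hS hc.1 hfz) hfy)
      (e'.symm.trans e1)
    exact ⟨this.2.2, this.2.1⟩

end Cfsg.Agent.S1166
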