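import Cfsg.Statements.S1167
import Cfsg.Agent.H4.Zass7

set_option autoImplicit false
open Cfsg

namespace Cfsg.Agent.S1167

open Cfsg.Agent.H4


/-- Let `G` be a finite simple Zassenhaus group on `Ω`, `U` a normal subgroup of `G_a` regular on `Ω` minus `a` which is an abelian 2-group, and `v` an involution with `v • a ≠ a`. Then there is a unique `u₀ ∈ U`, `u₀ ≠ 1`, with `v u₀ v = u₀ v u₀`. -/
theorem result {G Ω : Type*} [Group G] [Finite G] [MulAction G Ω] [Finite Ω]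
    (hZ : Cfsg.IsZassenhausGroup G Ω) [IsSimpleGroup G] {a : Ω}
    (U : Subgroup G) (hUle : U ≤ MulAction.stabilizer G a)
    (hUn : ∀ h ∈ MulAction.stabilizer G a, ∀ u ∈ U, h * u * h⁻¹ ∈ U)
    (hreg : ∀ c d : Ω, c ≠ a → d ≠ a → ∃! u : U, (u : G) • c = d)
    (hU2 : IsPGroup 2 U) (hUab : ∀ u ∈ U, ∀ u' ∈ U, u * u' = u' * u)
    (v : G) (hv1 : v ≠ 1) (hv2 : v * v = 1) (hva : v • a ≠ a) :
    ∃! u₀ : G, u₀ ∈ U ∧ u₀ ≠ 1 ∧ v * u₀ * v = u₀ * v * u₀ := by
  have h := hZ.zt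
  have hab := hva.symm
  obtain rfl := h.eq_K_of_reg hab hUle hreg
  have hK := h.K_ne_bot' hab (hZ.St2_ne_bot hab)
  have h0 := (h.K a).one_lt_card_iff_ne_bot.2 hK
  obtain ⟨n, hn⟩ := hU2.exists_card_eq
  have h1 : 2 ∣ Nat.card (h.K a) := hn ▸ dvd_pow_self 2 (by rintro rfl; simp [hn] at h0)
  obtain ⟨p, f, hp, h2, h3⟩ := h.elem_of_large hab hK ((hZ.feit hab (Nat.not_even_iff_odd.1
    fun he => absurd (Nat.eq_one_of_dvd_coprimes (h.coprime_St2_K hab) he.two_dvd h1)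
      (by norm_num))).resolve_right fun h2 => h2.2.1
    (Subgroup.commutator_eq_bot_iff_le_centralizer.2 fun u hu v hv => hUab v hv u hu))
  obtain rfl := (Nat.prime_dvd_prime_iff_eq Nat.prime_two hp).1
    (Nat.prime_two.dvd_of_dvd_pow (h3 ▸ h1))
  obtain ⟨c, hc⟩ := Set.ncard_eq_one.1 (h.card_fixedBy_invol_odd (s := v) (by
    rw [← h.card_K hab]; exact (even_iff_two_dvd.2 h1).add_one)
    (orderOf_eq_prime ((sq v).trans hv2) hv1))
  have h4 : ∀ d, v • d = d ↔ d = c := fun d => Set.ext_iff.1 hc d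
  have h5 := (h4 c).2 rfl
  have h6 : v • v • a = a := by rw [← mul_smul, hv2, one_smul]
  have h7 : c ≠ a := by rintro rfl; exact hva h5
  have h8 : c ≠ v • a := by rintro rfl; exact hva (h5.symm.trans h6)
  obtain ⟨u, hu, h9⟩ := h.K_trans hva h7
  have h10 : u * u = 1 := (sq u).symm.trans (h2 u hu)
  have h11 : u • c = v • a := by rw [← h9, ← mul_smul, h10, one_smul]
  refine ⟨u, ⟨hu, by rintro rfl; exact h8 (by simpa using h11), h.ext3 hab h8.symm h7.symm ?_ ?_ ?_⟩,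
    fun w ⟨hw, _, h12⟩ => h.K_ext hva hw hu ?_⟩
  · simp only [mul_smul, h9, h5, h.K_smul hu]
  · simp only [mul_smul, h9, h5, h6, h.K_smul hu, h11]
  · simp only [mul_smul, h9, h5, h6, h.K_smul hu, h11]
  · rw [h9, ← h4, ← mul_smul, ← mul_smul, h12, mul_smul, mul_smul, h.K_smul hw]

end Cfsg.Agent.S1167
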