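import Cfsg.Statements.S1168
import Cfsg.Agent.H4.HigField

set_option autoImplicit false
open Cfsg

namespace Cfsg.Agent.S1168

open Cfsg.Agent.H4


/-- For a finite field `F` of characteristic 2: if `q : F → F` is quadratic over the prime field, i.e. `(x, y) ↦ q (x + y) + q x + q y` is additive in each variable, then `q x = Σ c_{σ,τ} σ(x) τ(x)` for some coefficients indexed by pairs of field automorphisms. -/
theorem result {F : Type*} [Field F] [Fintype F] [CharP F 2]
    (q : F → F)
    (hq : ∀ x y z : F, q (x + y + z) + q (x + y) + q (x + z) + q (y + z) + q x + q y + q z = 0) :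
    ∃ (s : Finset ((F ≃+* F) × (F ≃+* F))) (c : (F ≃+* F) × (F ≃+* F) → F),
      ∀ x : F, q x = ∑ p ∈ s, c p * (p.1 x * p.2 x) := by
  classical
  letI : Fintype (F ≃+* F) := Fintype.ofFinite _
  have h2 : (2 : F) = 0 := CharTwo.two_eq_zero
  have h0 : q 0 = 0 := by
    have := hq 0 0 0
    simp only [add_zero] at this
    linear_combination this - 3 * q 0 * h2
  let B : F →+ F →+ F := AddMonoidHom.mk' (fun x => AddMonoidHom.mk'
    (fun y => q (x + y) + q x + q y) (fun y z => by
      have := hq y z x
      rw [show y + z + x = x + (y + z) by ring, add_comm y x, add_comm z x] at this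
      linear_combination this - (q (x + y) + q (x + z) + q y + q z + q x) * h2)) (fun x y => by
      ext z
      have := hq x y z
      simp only [AddMonoidHom.mk'_apply, AddMonoidHom.add_apply]
      linear_combination this - (q (x + z) + q (y + z) + q x + q y + q z) * h2)
  obtain ⟨γ, hγ⟩ := exists_biadd_diag (CharTwo.add_self_eq_zero (R := F))
    (CharTwo.add_self_eq_zero (R := F)) q B (fun x y => by
      simp only [B, AddMonoidHom.mk'_apply]
      linear_combination - (q x + q y) * h2)
  obtain ⟨c, hc⟩ := exists_biadd_expand γ
  refine ⟨Finset.univ, fun p => c p.1 p.2, fun x => ?_⟩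
  rw [← hγ, hc, Fintype.sum_prod_type]

end Cfsg.Agent.S1168
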