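import Cfsg.Statements.S1176
import Cfsg.Agent.H11.Iso

set_option autoImplicit false
open Cfsg

namespace Cfsg.Agent.S1176

open Cfsg.Agent.H11



/-- Let x₀ be an involution of the finite group G and D its conjugacy class. Assume (a) for each x ∈ D the subgroup W(x) generated by the members of D commuting with x is a 2-group of nilpotency class at most 2, and (b) the product of two distinct commuting members of D again lies in D. Then for all x, y ∈ D, if xy has even order greater than 2, its order is 4. -/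
theorem result {G : Type*} [Group G] [Finite G] (x₀ : G) (hx₀ : orderOf x₀ = 2) (ha : ∀ x : G, IsConj x₀ x → IsPGroup 2 ↥(Subgroup.closure {y : G | IsConj x₀ y ∧ Commute y x}) ∧ ⁅⁅Subgroup.closure {y : G | IsConj x₀ y ∧ Commute y x}, Subgroup.closure {y : G | IsConj x₀ y ∧ Commute y x}⁆, Subgroup.closure {y : G | IsConj x₀ y ∧ Commute y x}⁆ = ⊥) (hb : ∀ x y : G, IsConj x₀ x → IsConj x₀ y → x ≠ y → Commute x y → IsConj x₀ (x * y)) (x y : G) (hx : IsConj x₀ x) (hy : IsConj x₀ y) (heven : Even (orderOf (x * y))) (hgt : 2 < orderOf (x * y)) : orderOf (x * y) = 4 := by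
  have hx2' : orderOf x = 2 := (orderOf_eq_of_isConj hx).symm.trans hx₀
  have hy2' : orderOf y = 2 := (orderOf_eq_of_isConj hy).symm.trans hx₀
  have hx2 := mul_self_of_orderOf_two hx2'
  have hy2 := mul_self_of_orderOf_two hy2'
  obtain ⟨hz, hzx, hzy⟩ := half_pow_commute (orderOf_pos _) hx2 hy2 heven
  set n := orderOf (x * y) with hn
  set z := (x * y) ^ (n / 2) with hzdef
  have hinvx := invol_inverts_left hx2 hy2
  have hinvy := invol_inverts_right hx2 hy2
  -- `x z` lies in the class
  have hxz : IsConj x₀ (x * z) := (isConj_mul_pow hx2 hy2 _).elim hx.trans hy.trans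
  have hzD : IsConj x₀ z := by
    have := hb x (x * z) hx hxz (by simpa using ne_one_of_orderOf_two hz)
      ((Commute.refl x).mul_right hzx.symm)
    rwa [← mul_assoc, hx2, one_mul] at this
  obtain ⟨-, h2⟩ := ha z hzD
  set W := Subgroup.closure {y : G | IsConj x₀ y ∧ Commute y z}
  have hxW : x ∈ W := Subgroup.subset_closure ⟨hx, hzx.symm⟩
  have hyW : y ∈ W := Subgroup.subset_closure ⟨hy, hzy.symm⟩
  have h3 := Subgroup.commutator_mem_commutator (Subgroup.commutator_mem_commutator hxW hyW) hxW
  rw [h2, Subgroup.mem_bot, commutatorElement_eq_one_iff_mul_comm, commutatorElement_def,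
    inv_eq_of_orderOf_two hx2', inv_eq_of_orderOf_two hy2'] at h3
  have h4 : (x * y) ^ 4 = 1 := by
    have h5 := pow_mul_of_inv hinvx 2
    have h6 : (x * y) ^ 2 = x * y * x * y := by rw [pow_two]; group
    rw [← h6, h5] at h3
    have h7 := mul_left_cancel h3
    calc (x * y) ^ 4 = (x * y) ^ 2 * (x * y) ^ 2 := by group
      _ = 1 := by nth_rewrite 1 [← h7]; group
  have h8 : n ∣ 4 := orderOf_dvd_of_pow_eq_one h4
  have h9 : n ≤ 4 := Nat.le_of_dvd (by norm_num) h8
  obtain ⟨k, hk⟩ := heven
  omega

end Cfsg.Agent.S1176
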