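import Cfsg.Statements.S1177
import Cfsg.Agent.H11.Syl

set_option autoImplicit false
open Cfsg

namespace Cfsg.Agent.S1177

open Cfsg.Agent.H11



/-- Let A be a nontrivial elementary abelian 2-subgroup of a finite group G which is a T.I. set (each conjugate of A meets A trivially or equals A) and which does not commute elementwise with any conjugate of A other than A itself. Then for every a ∈ A, a ≠ 1, every conjugate of A contained in C_G(a) is equal to A (A is weakly closed in C_G(a)). -/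
theorem result {G : Type*} [Group G] [Finite G] (A : Subgroup G) (hA : Cfsg.IsElementaryAbelian 2 A) (hA1 : A ≠ ⊥) (hTI : ∀ g : G, A.map (MulAut.conj g).toMonoidHom ⊓ A = ⊥ ∨ A.map (MulAut.conj g).toMonoidHom = A) (hb : ∀ g : G, (∀ a ∈ A, ∀ b ∈ A.map (MulAut.conj g).toMonoidHom, a * b = b * a) → A.map (MulAut.conj g).toMonoidHom = A) (a : G) (ha : a ∈ A) (ha1 : a ≠ 1) (g : G) (hg : A.map (MulAut.conj g).toMonoidHom ≤ Subgroup.centralizer ({a} : Set G)) : A.map (MulAut.conj g).toMonoidHom = A := by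
  apply hb
  set B := A.map (MulAut.conj g).toMonoidHom with hB
  -- `B` normalizes `A`
  have h1 : ∀ b ∈ B, cj b A = A := by
    intro b hb'
    rcases hTI b with h | h
    · exfalso
      have : a ∈ cj b A ⊓ A := ⟨mem_cj.2 (by
        rw [mul_assoc, ← mem_cent1.1 (hg hb')]; simpa using ha), ha⟩
      rw [h] at this
      exact ha1 (Subgroup.mem_bot.1 this)
    · exact h
  by_cases hAB : B = A
  · intro x hx y hy
    rw [hAB] at hy
    exact congrArg Subtype.val (hA.1.is_comm.comm (⟨x, hx⟩ : A) ⟨y, hy⟩)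
  have hdis : B ⊓ A = ⊥ := (hTI g).resolve_right hAB
  have key : ∀ c ∈ B, c ≠ 1 → ∀ w ∈ A, w * c = c * w → ∀ b ∈ B, w * b = b * w := by
    intro c hc hc1 w hw hwc b hb'
    have h2 : cj w B = B := by
      rcases hTI (g⁻¹ * w * g) with h | h
      · exfalso
        have h3 : g⁻¹ * c * g ∈ cj (g⁻¹ * w * g) A ⊓ A := by
          refine ⟨mem_cj.2 ?_, mem_map_conj.1 hc⟩
          have := mem_map_conj.1 hc
          convert this using 1
          calc (g⁻¹ * w * g)⁻¹ * (g⁻¹ * c * g) * (g⁻¹ * w * g) = g⁻¹ * w⁻¹ * (c * w) * g := by group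
            _ = _ := by rw [← hwc]; group
        rw [h, Subgroup.mem_bot] at h3
        apply hc1
        calc c = g * (g⁻¹ * c * g) * g⁻¹ := by group
          _ = 1 := by rw [h3]; group
      · change cj w (cj g A) = cj g A
        rw [← cj_mul, show w * g = g * (g⁻¹ * w * g) by group, cj_mul]
        exact congrArg (cj g) h
    have h4 : w * b * w⁻¹ * b⁻¹ ∈ B ⊓ A := by
      refine Subgroup.mem_inf.2
        ⟨B.mul_mem (conj_mem_of_mem_normalizer (cj_eq_iff.1 h2) hb') (B.inv_mem hb'), ?_⟩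
      have := A.mul_mem hw (conj_mem_of_mem_normalizer (cj_eq_iff.1 (h1 b hb')) (A.inv_mem hw))
      simpa only [mul_assoc] using this
    rw [hdis, Subgroup.mem_bot, mul_inv_eq_one, mul_inv_eq_iff_eq_mul] at h4
    exact h4
  have hcomm : ∀ x ∈ A, ∀ y ∈ A, x * y = y * x := fun x hx y hy =>
    congrArg Subtype.val (hA.1.is_comm.comm (⟨x, hx⟩ : A) ⟨y, hy⟩)
  have hBsq : ∀ b ∈ B, b * b = 1 := by
    rintro _ ⟨b, hb', rfl⟩
    rw [← map_mul, ← pow_two, hA.2 b hb', map_one]
  intro x hx y hy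
  by_contra hxy
  let A₀ := A ⊓ Subgroup.centralizer (B : Set G)
  have hlt : A₀ < A := lt_of_le_of_ne inf_le_left fun h =>
    hxy ((h.symm ▸ hx : x ∈ A₀).2 y hy).symm
  have hle : Nat.card B ≤ Nat.card A₀ := by
    refine Nat.card_le_card_of_injective (fun b : B => (⟨x * (b * x * (b : G)⁻¹), ?_⟩ : A₀)) ?_
    · have h5 := conj_mem_of_mem_normalizer (cj_eq_iff.1 (h1 b b.2)) hx
      refine ⟨A.mul_mem hx h5, ?_⟩
      by_cases hb1 : (b : G) = 1
      · rw [hb1, one_mul, inv_one, mul_one, ← pow_two, hA.2 x hx]; exact Subgroup.one_mem _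
      · intro c hc
        refine (key b b.2 hb1 _ (A.mul_mem hx h5) ?_ c hc).symm
        rw [hcomm x hx _ h5]
        calc (b : G) * x * (b : G)⁻¹ * x * b = b * (x * ((b : G)⁻¹ * x * b)) := by group
          _ = b * (x * (b * x * (b : G)⁻¹)) := by
            rw [inv_eq_of_mul_eq_one_right (hBsq b b.2)]
          _ = _ := by rw [hcomm x hx _ h5]
    · intro b c hbc
      have h6 : (b : G) * x * (b : G)⁻¹ = c * x * (c : G)⁻¹ :=
        mul_left_cancel (congrArg Subtype.val hbc)
      by_contra hne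
      refine hxy (key ((c : G)⁻¹ * b) (B.mul_mem (B.inv_mem c.2) b.2)
        (fun h => hne (Subtype.ext (inv_mul_eq_one.1 h).symm)) x hx ?_ y hy)
      calc x * ((c : G)⁻¹ * b) = (c : G)⁻¹ * (c * x * (c : G)⁻¹) * b := by group
        _ = _ := by rw [← h6]; group
  have := card_lt_of_lt hlt
  rw [hB, card_map_conj] at hle
  omega

end Cfsg.Agent.S1177
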