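import Cfsg.Statements.S1178
import Cfsg.Agent.H3.Fusion

set_option autoImplicit false
open Cfsg

namespace Cfsg.Agent.S1178

open Cfsg.Agent.H3

/-- Let A be a subgroup of a Sylow 2-subgroup S of the finite group G which is weakly closed in S. If a conjugate g A g⁻¹ commutes elementwise with A, then g A g⁻¹ = A. -/
theorem result {G : Type*} [Group G] [Finite G] (S : Sylow 2 G) (A : Subgroup G) (hW : Cfsg.IsWeaklyClosed A (S : Subgroup G)) (g : G) (hc : ∀ a ∈ A, ∀ b ∈ A.map (MulAut.conj g).toMonoidHom, a * b = b * a) : A.map (MulAut.conj g).toMonoidHom = A := by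
  obtain ⟨h, h1, h2⟩ := exists_mul_mem_normalizer_of_weaklyClosed S hW
    (H := Subgroup.normalizer (A : Set G)) Subgroup.le_normalizer (g := g)
    (fun b hb => Subgroup.centralizer_le_normalizer _ fun a ha => hc a ha b hb)
  exact mem_normalizer_iff_conj_smul.mp (by simpa using mul_mem (inv_mem h1) h2)

end Cfsg.Agent.S1178
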