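import Cfsg.Statements.S1181
import Cfsg.Agent.H11.Iso

set_option autoImplicit false
open Cfsg

namespace Cfsg.Agent.S1181

open Cfsg.Agent.H11



/-- Let z be an isolated involution of the finite group G and N a normal subgroup with z ∉ N. Then the centralizer of zN in G/N is the image of C_G(z), and zN is an isolated involution of G/N. -/
theorem result {G : Type*} [Group G] [Finite G] (z : G) (hz : Cfsg.IsIsolatedInvolution z) (N : Subgroup G) [N.Normal] (hzN : z ∉ N) : Subgroup.centralizer ({(QuotientGroup.mk z : G ⧸ N)} : Set (G ⧸ N)) = (Subgroup.centralizer ({z} : Set G)).map (QuotientGroup.mk' N) ∧ Cfsg.IsIsolatedInvolution (QuotientGroup.mk z : G ⧸ N) := by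
  constructor
  · apply le_antisymm
    · intro q hq
      obtain ⟨g, rfl⟩ := QuotientGroup.mk_surjective q
      obtain ⟨m, -, -, hm⟩ := iso_exists_sqrt hz (isConj_conj g z)
      set k := (g * z * g⁻¹ * z) ^ m with hk
      have hkN : k ∈ N := by
        apply N.pow_mem
        rw [← QuotientGroup.eq_one_iff]
        have := mem_cent1.1 hq
        simp only [QuotientGroup.mk_mul, QuotientGroup.mk_inv]
        rw [this, mul_inv_cancel_right, ← QuotientGroup.mk_mul, mul_self_of_orderOf_two hz.1]
        rfl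
      refine ⟨k⁻¹ * g, mem_cent1.2 ?_, ?_⟩
      · calc k⁻¹ * g * z = k⁻¹ * (g * z * g⁻¹) * g := by group
          _ = _ := by rw [← hm]; group
      · rw [QuotientGroup.mk'_apply, QuotientGroup.mk_mul, QuotientGroup.mk_inv,
          (QuotientGroup.eq_one_iff k).2 hkN, inv_one, one_mul]
    · rintro _ ⟨g, hg, rfl⟩
      rw [mem_cent1, QuotientGroup.mk'_apply, ← QuotientGroup.mk_mul, mem_cent1.1 hg]
      rfl
  · have h2 : (z : G ⧸ N) * z = 1 := by
      rw [← QuotientGroup.mk_mul, mul_self_of_orderOf_two hz.1]; rfl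
    refine ⟨orderOf_two_of (by rwa [Ne, QuotientGroup.eq_one_iff]) h2, fun q hq => ?_⟩
    obtain ⟨g, rfl⟩ := QuotientGroup.mk_surjective q
    have h1 : Odd (orderOf ((z : G ⧸ N) * (g * z * (g : G ⧸ N)⁻¹))) :=
      Odd.of_dvd_nat (iso_odd hz g) (orderOf_map_dvd (QuotientGroup.mk' N) _)
    have h3 := eq_one_of_odd_of_sq h1 (by
      rw [← pow_two, hq.mul_pow, conj_pow, pow_two, h2]; group)
    rw [eq_inv_of_mul_eq_one_right h3, inv_eq_of_mul_eq_one_right h2]

end Cfsg.Agent.S1181
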