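import Cfsg.Statements.S1183
import Cfsg.Agent.H11.Iso
import Cfsg.Agent.H3.Fusion

set_option autoImplicit false
open Cfsg

namespace Cfsg.Agent.S1183

open Cfsg.Agent.H11



/-- Let z be an isolated involution of the finite group G and C = C_G(z). Then the subgroup of G generated by its elements of odd order is all of G if and only if the subgroup of C generated by its elements of odd order is all of C. -/
theorem result {G : Type*} [Group G] [Finite G] (z : G) (hz : Cfsg.IsIsolatedInvolution z) : Cfsg.pResidual 2 G = ⊤ ↔ Cfsg.pResidual 2 ↥(Subgroup.centralizer ({z} : Set G)) = ⊤ := by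
  haveI : Fact (Nat.Prime 2) := ⟨Nat.prime_two⟩
  obtain ⟨S, hzS, hS⟩ := iso_exists_sylow hz
  have h1 := H3.sylow_inf_pResidual_eq_of_fusion S hS (fun x hx g hg => by
    obtain ⟨c, -, hc, he⟩ := iso_fusion hz (H := ⊤) (Subgroup.le_normalizer trivial) (mem_cent1.1 (hS hx))
      (mem_cent1.1 (hS hg)) (Subgroup.mem_top g)
    exact ⟨c, mem_cent1.2 hc, he⟩)
  constructor
  · intro h
    rw [h, inf_top_eq, eq_comm, inf_eq_left] at h1
    rw [← H3.pResidual_sup_sylow (S.subtype hS), eq_comm, sup_eq_left]
    intro x hx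
    obtain ⟨y, hy, he⟩ := h1 hx
    rwa [← Subtype.ext he]
  · intro h
    rw [h, ← MonoidHom.range_eq_map, Subgroup.range_subtype, inf_eq_left.2 hS, inf_eq_left] at h1
    rw [← H3.pResidual_sup_sylow S, eq_comm, sup_eq_left]
    exact h1

end Cfsg.Agent.S1183
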