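import Cfsg.Statements.S1185
import Cfsg.Agent.H11.Iso

set_option autoImplicit false
open Cfsg

namespace Cfsg.Agent.S1185

open Cfsg.Agent.H11



/-- Let z be an isolated involution of the finite group G with centralizer C. Then for every g ∈ G there is exactly one element k in the coset gC that has odd order and is inverted by z. -/
theorem result {G : Type*} [Group G] [Finite G] (z : G) (hz : Cfsg.IsIsolatedInvolution z) (g : G) : ∃! k : G, (Odd (orderOf k) ∧ z * k * z⁻¹ = k⁻¹) ∧ g⁻¹ * k ∈ Subgroup.centralizer ({z} : Set G) := by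
  obtain ⟨m, h1, h2, h3⟩ := iso_exists_sqrt hz (isConj_conj g z)
  set k := (g * z * g⁻¹ * z) ^ m
  refine ⟨k, ⟨⟨h1, h2⟩, mem_cent1.2 ?_⟩, ?_⟩
  · calc g⁻¹ * k * z = g⁻¹ * (k * z * k⁻¹) * k := by group
      _ = _ := by rw [h3]; group
  · rintro l ⟨⟨hl1, hl2⟩, hl3⟩
    have h4 : l * z * l⁻¹ = k * z * k⁻¹ := by
      rw [h3]
      calc l * z * l⁻¹ = g * (g⁻¹ * l * z) * l⁻¹ := by group
        _ = _ := by rw [mem_cent1.1 hl3]; group
    rw [conj_eq_sq_mul h2, conj_eq_sq_mul hl2] at h4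
    exact eq_of_sq_eq_of_odd hl1 h1 (mul_right_cancel h4)

end Cfsg.Agent.S1185
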