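import Cfsg.Statements.S1186
import Cfsg.Agent.H11.Iso
import Mathlib.Combinatorics.Enumerative.DoubleCounting

set_option autoImplicit false
open Cfsg

namespace Cfsg.Agent.S1186

open Cfsg.Agent.H11



/-- Let z be an isolated involution of the finite group G, C = C_G(z), K the set of elements of odd order inverted by z, and s an involution of C. Then |G| = |C| · |C_K(sz)| · |C_K(s)|. -/
theorem result {G : Type*} [Group G] [Finite G] (z : G) (hz : Cfsg.IsIsolatedInvolution z) (s : G) (hs : orderOf s = 2) (hsz : Commute s z) : Nat.card G = Nat.card (Subgroup.centralizer ({z} : Set G)) * Nat.card {k : G // Odd (orderOf k) ∧ z * k * z⁻¹ = k⁻¹ ∧ Commute k (s * z)} * Nat.card {k : G // Odd (orderOf k) ∧ z * k * z⁻¹ = k⁻¹ ∧ Commute k s} := by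
  classical
  haveI := Fintype.ofFinite G
  have hz2 := mul_self_of_orderOf_two hz.1
  have hs2 := mul_self_of_orderOf_two hs
  rw [iso_card_inverted hz (hsz.symm.mul_right (Commute.refl z)), iso_card_inverted hz hsz.symm,
    ← card_isConj_mul z, mul_comm, mul_assoc]
  congr 1
  let D : Finset G := Finset.univ.filter fun t => IsConj z t
  let A : Finset G := Finset.univ.filter fun t => IsConj z t ∧ Commute t s
  have h1 := Finset.sum_card_bipartiteAbove_eq_sum_card_bipartiteBelow (s := A) (t := D)
    (fun a t => Commute t (s * a))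
  have h2 : ∀ t ∈ D, (A.bipartiteBelow (fun a t => Commute t (s * a)) t).card = 1 := by
    intro t ht
    have hzt : IsConj z t := (Finset.mem_filter.1 ht).2
    have ht2 := mul_self_of_orderOf_two ((orderOf_eq_of_isConj hzt).symm.trans hz.1)
    rw [Finset.card_eq_one]
    simp only [Finset.eq_singleton_iff_unique_mem, Finset.mem_bipartiteBelow, A,
      Finset.mem_filter, Finset.mem_univ, true_and]
    by_cases hsc : IsConj z s
    · have hs' : s = z := iso_eq hz hsc hsz.symm
      subst hs'
      exact ⟨s, ⟨⟨hsc, Commute.refl s⟩, by rw [hs2]; exact Commute.one_right _⟩,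
        fun a ha => iso_eq hz ha.1.1 ha.1.2.symm⟩
    have huniq : ∀ a, (IsConj z a ∧ Commute a s) ∧ Commute t (s * a) →
        orderOf (s * a) = 2 ∧ s * a ∈ Subgroup.zpowers (s * t) := by
      rintro a ⟨⟨hza, has⟩, hta⟩
      have ha2 := mul_self_of_orderOf_two ((orderOf_eq_of_isConj hza).symm.trans hz.1)
      have h3 : s * a * (s * a) = 1 := by
        rw [← pow_two, has.symm.mul_pow, pow_two, pow_two, hs2, ha2, one_mul]
      refine ⟨orderOf_two_of (fun h => hsc ?_) h3, ?_⟩
      · rwa [eq_inv_of_mul_eq_one_left h, inv_eq_of_mul_eq_one_right ha2]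
      · obtain ⟨m, hm⟩ := iso_odd₂ hz hza hzt
        refine ⟨((2 * m + 1 : ℕ) : ℤ), ?_⟩
        have h4 : s * t = (s * a) * (a * t) := by rw [mul_assoc, ← mul_assoc a, ha2, one_mul]
        have h5 : Commute (s * a) (a * t) :=
          (has.symm.mul_left (Commute.refl a)).mul_right hta.symm
        change (s * t) ^ ((2 * m + 1 : ℕ) : ℤ) = _
        rw [zpow_natCast, h4, h5.mul_pow, ← hm, pow_orderOf_eq_one, mul_one, hm, pow_succ,
          pow_mul, pow_two, h3, one_pow, one_mul]
    have he : Even (orderOf (s * t)) := by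
      by_contra ho
      exact hsc (hzt.trans (isConj_of_odd hs2 ht2 (Nat.not_even_iff_odd.1 ho)).symm)
    obtain ⟨hc, hcs, hct⟩ := half_pow_commute (orderOf_pos _) hs2 ht2 he
    -- find the conjugate of `t` commuting with `s`
    obtain ⟨k, m, y, hm, hkm, hy1, hy, j, hj⟩ := exists_conj_two_part hs2 ht2
    have hzy : IsConj z y := hzt.trans (isConj_iff.2 ⟨_, hj⟩ : IsConj y t).symm
    have hy2 := mul_self_of_orderOf_two ((orderOf_eq_of_isConj hzy).symm.trans hz.1)
    have hys : Commute y s := (iso_commute_of_isPGroup (iso_of_isConj hz hzy)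
      (isPGroup_closure_pair (k := k) hs2 hy2 (by rw [← hy, pow_orderOf_eq_one]))
      (Subgroup.subset_closure (by simp)) (Subgroup.subset_closure (by simp))).symm
    have hsy : s * y * (s * y) = 1 := by
      rw [← pow_two, hys.symm.mul_pow, pow_two, pow_two, hs2, hy2, one_mul]
    have hty : Commute t (s * y) := by
      have h6 := invol_inverts_right hs2 ht2
      have h7 : t * (s * y) * t⁻¹ = (s * y)⁻¹ := by rw [hy1, ← conj_pow, h6, inv_pow]
      rw [inv_eq_of_mul_eq_one_right hsy, mul_inv_eq_iff_eq_mul] at h7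
      exact h7
    refine ⟨y, ⟨⟨hzy, hys⟩, hty⟩, fun a ha => ?_⟩
    obtain ⟨h8, h9⟩ := huniq a ha
    obtain ⟨h10, h11⟩ := huniq y ⟨⟨hzy, hys⟩, hty⟩
    exact mul_left_cancel (invol_unique_zpowers h8 h10 h9 h11)
  have h3 : ∀ a ∈ A, (D.bipartiteAbove (fun a t => Commute t (s * a)) a).card =
      Nat.card {t : G // IsConj z t ∧ Commute t (s * z)} := by
    intro a ha
    obtain ⟨hza, has⟩ := (Finset.mem_filter.1 ha).2
    obtain ⟨c, hc, rfl⟩ := iso_exists_conj_mem hz (H := Subgroup.centralizer {s}) (IsConj.refl z)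
      hza (mem_cent1.2 hsz.symm) (mem_cent1.2 has)
    have hcs : s * (c * z * c⁻¹) = c * (s * z) * c⁻¹ := by
      rw [← mul_assoc, ← mul_assoc, ← mem_cent1.1 hc]; group
    rw [natCard_subtype_eq]
    symm
    refine Finset.card_bij (fun t _ => c * t * c⁻¹) ?_ ?_ ?_
    · intro t ht
      obtain ⟨h4, h5⟩ := (Finset.mem_filter.1 ht).2
      rw [Finset.mem_bipartiteAbove, hcs]
      exact ⟨Finset.mem_filter.2 ⟨Finset.mem_univ _, h4.trans (isConj_conj c t)⟩, h5.conj c⟩
    · intro t _ u _ h; exact mul_left_cancel (mul_right_cancel h)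
    · intro t ht
      rw [Finset.mem_bipartiteAbove, hcs] at ht
      refine ⟨c⁻¹ * t * c⁻¹⁻¹, Finset.mem_filter.2 ⟨Finset.mem_univ _,
        (Finset.mem_filter.1 ht.1).2.trans (isConj_conj _ t), ?_⟩, by group⟩
      have := ht.2.conj c⁻¹
      convert this using 1; group
  rw [Finset.sum_congr rfl h2, Finset.sum_congr rfl h3, Finset.sum_const, Finset.sum_const,
    smul_eq_mul, smul_eq_mul, mul_one] at h1
  rw [natCard_subtype_eq (fun t => IsConj z t), natCard_subtype_eq (fun t => IsConj z t ∧ Commute t s),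
    mul_comm]
  exact h1.symm

end Cfsg.Agent.S1186
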