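import Cfsg.Statements.S1187
import Cfsg.Agent.H6.ZStar2
-- import your own Cfsg.Agent.* helpers here

set_option autoImplicit false
open Cfsg

namespace Cfsg.Agent.S1187

open Cfsg.Agent.H4 Cfsg.Agent.H6


/-- Let z be an isolated involution of the finite group G and p a prime. If Q is a p-subgroup normalized by z that is maximal among p-subgroups normalized by z, then Q is a Sylow p-subgroup of G. -/
theorem result {G : Type*} [Group G] [Finite G] (z : G) (hz : Cfsg.IsIsolatedInvolution z) {p : ℕ} [Fact p.Prime] (Q : Subgroup G) (hQ : IsPGroup p Q) (hzQ : z ∈ Subgroup.normalizer (Q : Set G)) (hmax : ∀ R : Subgroup G, IsPGroup p R → z ∈ Subgroup.normalizer (R : Set G) → Q ≤ R → R = Q) : ∃ P : Sylow p G, (P : Subgroup G) = Q := by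
  have hz2 : Nat.card (Subgroup.zpowers z) = 2 := by rw [Nat.card_zpowers, hz.1]
  by_cases hp : p = 2
  · subst hp
    have hzp : IsPGroup 2 (Subgroup.zpowers z) := IsPGroup.of_card (n := 1) hz2
    have h1 : z ∈ Q := by
      have := hmax (Q ⊔ Subgroup.zpowers z)
        (IsPGroup.to_sup_of_normal_left' hQ hzp (Subgroup.zpowers_le.2 hzQ))
        (Subgroup.le_normalizer (Subgroup.mem_sup_right (Subgroup.mem_zpowers z))) le_sup_left
      rw [← this]
      exact Subgroup.mem_sup_right (Subgroup.mem_zpowers z)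
    obtain ⟨P, hP⟩ := hQ.exists_le_sylow
    exact ⟨P, hmax P P.isPGroup' (Subgroup.le_normalizer (hP h1)) hP⟩
  set N := Subgroup.normalizer (Q : Set G) with hN
  let w : N := ⟨z, hzQ⟩
  have hw : orderOf w = 2 := by rw [← Subgroup.orderOf_coe]; exact hz.1
  have hc := zstar hw fun g hg => Subtype.ext (hz.2 g (hg.map N.subtype))
  obtain ⟨T⟩ := (inferInstance : Nonempty (Sylow p (N ⧸ pPrimeCore 2 N)))
  set L := (T : Subgroup (N ⧸ pPrimeCore 2 N)).comap (QuotientGroup.mk' _) with hL
  have hO : pPrimeCore 2 N ≤ L := fun x hx => by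
    rw [hL, Subgroup.mem_comap, QuotientGroup.mk'_apply, (QuotientGroup.eq_one_iff x).2 hx]
    exact one_mem _
  have hwL : Subgroup.zpowers w ≤ Subgroup.normalizer (L : Set N) :=
    Subgroup.zpowers_le.2 (H3.mem_normalizer_of_conj_mem fun x hx => by
      simpa using L.mul_mem (hO (hc x)) hx)
  have hcard : Nat.card L = Nat.card T * Nat.card (pPrimeCore 2 N) := by
    have h1 : L.index = (T : Subgroup (N ⧸ pPrimeCore 2 N)).index :=
      Subgroup.index_comap_of_surjective _ (QuotientGroup.mk'_surjective _)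
    have h2 := L.card_mul_index
    have h3 := (T : Subgroup (N ⧸ pPrimeCore 2 N)).card_mul_index
    rw [Subgroup.card_eq_card_quotient_mul_card_subgroup (pPrimeCore 2 N), ← h3, h1] at h2
    exact Nat.eq_of_mul_eq_mul_right (Nat.pos_of_ne_zero Subgroup.FiniteIndex.index_ne_zero)
      (h2.trans (by ring))
  have hcop : (Nat.card (Subgroup.zpowers w)).Coprime (Nat.card L) := by
    obtain ⟨k, hk⟩ := T.isPGroup'.exists_card_eq
    rw [Nat.card_zpowers, hw, hcard, hk]
    exact Nat.Coprime.mul_right (Nat.Coprime.pow_right _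
      ((Nat.coprime_primes Nat.prime_two Fact.out).2 (Ne.symm hp)))
      (H1.coprime_card_pPrimeCore 2 N).symm
  obtain ⟨P, hP, hwP⟩ := H1.exists_invariant_isSylowIn p hwL hcop
    (Or.inl (H1.isSolvable_zpowers w))
  have hP' : H1.IsSylowIn p P ⊤ := hP.trans le_top (by
    rw [Subgroup.relIndex_top_right, hL,
      Subgroup.index_comap_of_surjective _ (QuotientGroup.mk'_surjective _)]
    exact T.not_dvd_index)
  have hP2 := hP'.map N.subtype
  rw [← MonoidHom.range_eq_map, Subgroup.range_subtype] at hP2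
  have h1 : P.map N.subtype = Q := by
    refine hmax _ hP2.isPGroup (H3.mem_normalizer_of_conj_mem ?_)
      (hP2.le_of_le_normalizer Subgroup.le_normalizer hQ hP2.le)
    rintro _ ⟨x, hx, rfl⟩
    exact ⟨_, (Subgroup.mem_normalizer_iff.1 (hwP (Subgroup.mem_zpowers w)) x).1 hx, rfl⟩
  rw [h1] at hP2
  exact (H1.isSylowIn_of_isSylowIn_normalizer (K := ⊤) (by rwa [inf_top_eq])).exists_sylow_top

end Cfsg.Agent.S1187
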