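import Cfsg.Statements.S1222
import Cfsg.Agent.H11.Bend

set_option autoImplicit false
open Cfsg

namespace Cfsg.Agent.S1222

/-- Let G be a finite simple group with a strongly embedded subgroup H such that H permutes transitively the cosets gH with g ∉ H, and H has a normal subgroup Q acting regularly on those cosets (transitively, with only the identity fixing any of them). Then G is isomorphic to PSL(2,F) with F of characteristic 2 and at least 4 elements, or is simple with the order of a Suzuki group, or is isomorphic to PSU(3) over a field with q² elements, q ≥ 4 a power of 2. -/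
theorem result {G : Type*} [Group G] [Finite G] [IsSimpleGroup G] (H : Subgroup G) (hH : Cfsg.IsStronglyEmbedded H) (Q : Subgroup G) (hQH : Q ≤ H) (hQn : (Q.subgroupOf H).Normal) (htrans : ∀ g₁ g₂ : G, g₁ ∉ H → g₂ ∉ H → ∃ u ∈ Q, g₂⁻¹ * (u * g₁) ∈ H) (hreg : ∀ g : G, g ∉ H → ∀ u ∈ Q, g⁻¹ * (u * g) ∈ H → u = 1) : (∃ (F : Type) (_ : Field F) (_ : Fintype F), CharP F 2 ∧ 4 ≤ Fintype.card F ∧ Nonempty (G ≃* Matrix.ProjectiveSpecialLinearGroup (Fin 2) F)) ∨ Cfsg.IsSuzuki G ∨ (∃ (F : Type) (_ : Field F) (_ : Fintype F) (q : ℕ), Fintype.card F = q ^ 2 ∧ Even q ∧ 4 ≤ q ∧ Nonempty (G ≃* Cfsg.PSU 3 F q)) := by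
  obtain ⟨t, htH, ht⟩ := H11.SE.exists_invol_not_mem hH
  have ht2 : t * t = 1 := by rw [← sq, ← ht, pow_orderOf_eq_one]
  let a : G ⧸ H := ((1 : G) : G ⧸ H)
  have hs : ∀ g : G, g • a = (g : G ⧸ H) := fun g => by
    simp only [a, MulAction.Quotient.smul_mk, smul_eq_mul, mul_one]
  have hfix : ∀ g : G, g • a = a ↔ g ∈ H := fun g => by
    rw [hs, eq_comm, QuotientGroup.eq]; simp
  have hfix2 : ∀ g : G, g • t • a = t • a ↔ t⁻¹ * (g * t) ∈ H := fun g => by
    rw [← mul_smul, hs, hs, eq_comm, QuotientGroup.eq]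
  have hodd : Odd (Nat.card (BS.Dd a t)) := by
    have := hH.2.2 t htH
    convert this using 3
    ext g
    rw [BS.mem_Dd, hfix, hfix2, Subgroup.mem_inf]
    refine and_congr_right fun _ => ⟨fun h => ⟨_, h, by simp [mul_assoc]⟩, ?_⟩
    rintro ⟨y, hy, rfl⟩
    simpa [mul_assoc] using hy
  have h4 : ∀ g : G, g • a = a → ∀ x ∈ Q, g * x * g⁻¹ ∈ Q := fun g hg x hx =>
    hQn.conj_mem ⟨x, hQH hx⟩ hx ⟨g, (hfix g).1 hg⟩
  have h6 : ∀ c, c ≠ a → ∃ x ∈ Q, x • t • a = c := by
    intro c hc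
    induction c using QuotientGroup.induction_on with
    | H g =>
      obtain ⟨u, hu, h⟩ := htrans t g htH (fun e => hc (by rw [← hs]; exact (hfix g).2 e))
      exact ⟨u, hu, by rw [← mul_smul, hs, eq_comm, QuotientGroup.eq]; exact h⟩
  have h7 : Even (Nat.card Q) := by
    have h1 : Nat.card H = Nat.card Q * Nat.card (BS.Dd a t) := by
      refine BS.PB.card_eq_mul hQH (fun g hg => (hfix g).1 hg.1)
        (fun x hx hx' => hreg t htH x hx ((hfix2 x).1 hx'.2)) fun x hx => ?_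
      obtain ⟨u, hu, h⟩ := h6 (x • t • a) fun e => htH ((hfix t).1 (by
        have := congrArg (fun c => x⁻¹ • c) e
        simpa [(hfix x⁻¹).2 (inv_mem hx)] using this))
      refine ⟨u, hu, u⁻¹ * x, BS.mem_Dd.2 ⟨(hfix _).2 (mul_mem (inv_mem (hQH hu)) hx), ?_⟩, by group⟩
      rw [mul_smul, ← h, inv_smul_smul]
    have h2 := hH.2.1
    rw [h1, Nat.even_mul] at h2
    exact h2.resolve_right (Nat.not_even_iff_odd.2 hodd)
  exact (H11.isBender_of_setup (BS.mkSetup ht2 (fun e => htH ((hfix t).1 e))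
    (fun x hx => (hfix x).2 (hQH hx)) h4 (fun x hx e => hreg t htH x hx ((hfix2 x).1 e)) h6 h7 hodd)
    (H11.SE.two_of_simple hH)).order_form

end Cfsg.Agent.S1222
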