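import Cfsg.Statements.S1224
import Cfsg.Agent.H11.StrEmb

set_option autoImplicit false
open Cfsg

namespace Cfsg.Agent.S1224

open Cfsg.Agent.H11



/-- Let H be a strongly embedded subgroup of the finite group G and x ≠ y two cosets in G/H. Then the number of involutions i of G with i • x = y equals the number of involutions lying in H. -/
theorem result {G : Type*} [Group G] [Finite G] (H : Subgroup G) (hH : Cfsg.IsStronglyEmbedded H) (x y : G ⧸ H) (hxy : x ≠ y) : Nat.card {i : G // orderOf i = 2 ∧ i • x = y} = Nat.card {t : G // orderOf t = 2 ∧ t ∈ H} := by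
  induction x using QuotientGroup.induction_on with
  | H a =>
  induction y using QuotientGroup.induction_on with
  | H b =>
  have hg : a⁻¹ * b ∉ H := fun h => hxy (QuotientGroup.eq.2 h)
  rw [← SE.card_invol_coset hH hg]
  refine Nat.card_congr ⟨fun i => ⟨a⁻¹ * i.1 * a⁻¹⁻¹, by rw [orderOf_conj, i.2.1], ?_⟩,
    fun j => ⟨a * j.1 * a⁻¹, by rw [orderOf_conj, j.2.1], ?_⟩, fun i => by ext; simp [mul_assoc],
    fun j => by ext; simp [mul_assoc]⟩
  · have : ((i.1 * a : G) : G ⧸ H) = b := i.2.2
    have := QuotientGroup.eq.1 this.symm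
    convert this using 1; group
  · change ((a * j.1 * a⁻¹ * a : G) : G ⧸ H) = b
    rw [eq_comm, QuotientGroup.eq]
    convert j.2.2 using 1; group

end Cfsg.Agent.S1224
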