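import Cfsg.Statements.S1231
import Cfsg.Agent.H11.StrEmb

set_option autoImplicit false
open Cfsg

namespace Cfsg.Agent.S1231

open Cfsg.Agent.H11

theorem pRankLE_iff {G : Type*} [Group G] {p k : ℕ} {X : Subgroup G} :
    PRankLE p k X ↔ ∀ A : Subgroup G, A ≤ X → (∀ a ∈ A, ∀ b ∈ A, a * b = b * a) →
      (∀ a ∈ A, a ^ p = 1) → Nat.card A ≤ p ^ k := by
  constructor
  · intro h A hA hc hp
    rw [← card_subgroupOf hA]
    exact h _ ⟨⟨fun a b => Subtype.ext (Subtype.ext (hc _ a.2 _ b.2))⟩⟩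
      fun a ha => Subtype.ext (hp _ ha)
  · intro h A hc hp
    rw [← card_map_subtype]
    refine h _ (Subgroup.map_subtype_le _) ?_ ?_
    · rintro _ ⟨a, ha, rfl⟩ _ ⟨b, hb, rfl⟩
      exact congrArg (fun x : A => ((x : X) : G)) (hc.is_comm.comm ⟨a, ha⟩ ⟨b, hb⟩)
    · rintro _ ⟨a, ha, rfl⟩
      rw [← map_pow, hp a ha, map_one]

/-- Let H be a subgroup of the finite group G, p a prime, k ≥ 1, and P a Sylow p-subgroup of H whose p-rank is at least k. Then N_G(X) ≤ H for every subgroup X of P of p-rank at least k if and only if H ∩ gHg⁻¹ has p-rank less than k for every g ∉ H. -/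
theorem result {G : Type*} [Group G] [Finite G] {p : ℕ} [Fact p.Prime] (k : ℕ) (hk : 1 ≤ k) (H : Subgroup G) (P : Sylow p ↥H) (hP : ¬ Cfsg.PRankLE p (k - 1) ↥(P : Subgroup ↥H)) : (∀ X : Subgroup G, X ≤ (P : Subgroup ↥H).map H.subtype → ¬ Cfsg.PRankLE p (k - 1) ↥X → Subgroup.normalizer (X : Set G) ≤ H) ↔ (∀ g : G, g ∉ H → Cfsg.PRankLE p (k - 1) ↥(H ⊓ H.map (MulAut.conj g).toMonoidHom)) := by
  have hmono : ∀ X Y : Subgroup G, X ≤ Y → ¬ PRankLE p (k - 1) X → ¬ PRankLE p (k - 1) Y :=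
    fun X Y hXY h1 h2 => h1 (pRankLE_iff.2 fun A hA => pRankLE_iff.1 h2 A (hA.trans hXY))
  constructor
  · intro h g hg
    rw [pRankLE_iff]
    intro A hA hc hp
    by_contra hlt
    refine hg (mem_of_normalizers_le (isSylIn_map P) (fun X => ¬ PRankLE p (k - 1) X) ?_ hmono h
      (X := A) (fun a => ⟨1, Subtype.ext (by simpa using hp a a.2)⟩) ?_ (hA.trans inf_le_left)
      (hA.trans inf_le_right))
    · intro X x h1 h2
      apply h1
      rw [pRankLE_iff] at h2 ⊢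
      intro B hB hc' hp'
      rw [← card_cj x B]
      refine h2 _ (cj_mono x hB) ?_ ?_
      · rintro _ ⟨a, ha, rfl⟩ _ ⟨b, hb, rfl⟩
        rw [← map_mul, hc' a ha b hb, map_mul]
      · rintro _ ⟨a, ha, rfl⟩
        rw [← map_pow, hp' a ha, map_one]
    · exact fun h2 => hlt (pRankLE_iff.1 h2 A le_rfl hc hp)
  · intro h X hX hr g hg
    by_contra hgH
    have hXH : X ≤ H := hX.trans (Subgroup.map_subtype_le _)
    refine hmono X _ (le_inf hXH ?_) hr (h g hgH)
    rw [← cj_eq_iff.2 hg]; exact cj_mono g hXH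

end Cfsg.Agent.S1231
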