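import Cfsg.Statements.S1235
import Cfsg.Agent.H11.SRank2

set_option autoImplicit false
open Cfsg

namespace Cfsg.Agent.S1235

open Cfsg.Agent.H11



/-- Let G be a finite group, x an involution and T ≤ G a Sylow 2-subgroup of C_G(x) (T ≤ C_G(x) with |C_G(x) : T| odd) which is the internal direct product of a subgroup D that is dihedral (of order ≥ 4) or quasi-dihedral and a Klein four-subgroup B. Suppose that for every involution b ∈ B, T ≤ C_G(b) with |C_G(b) : T| odd. Then every section of G has 2-rank at most 4. -/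
theorem result {G : Type*} [Group G] [Finite G] (x : G) (hx : orderOf x = 2) (T D B : Subgroup G) (hT : IsPGroup 2 T) (hTx : T ≤ Subgroup.centralizer ({x} : Set G)) (hTxi : Odd (T.relIndex (Subgroup.centralizer ({x} : Set G)))) (hprod : Cfsg.IsInternalDirectProduct D B T) (hD : (∃ m : ℕ, 2 ≤ m ∧ Nonempty (D ≃* DihedralGroup m)) ∨ Cfsg.IsQuasiDihedral D) (hB : IsKleinFour B) (hTb : ∀ b ∈ B, orderOf b = 2 → T ≤ Subgroup.centralizer ({b} : Set G) ∧ Odd (T.relIndex (Subgroup.centralizer ({b} : Set G)))) : Cfsg.SectionalPRankLE 2 4 G := by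
  obtain ⟨hDT, hBT, hDB, hdis, hsup⟩ := hprod
  obtain ⟨S, hTS⟩ := hT.exists_le_sylow
  refine SR.sectional_of_sylow S ?_
  have hcb : ∀ b ∈ B, b ≠ 1 → ∀ s ∈ (S : Subgroup G), s * b = b * s → s ∈ T := by
    intro b hb hb1 s hs hsb
    obtain ⟨h1, h2⟩ := hTb b hb (klein_orderOf hB hb hb1)
    have h3 := isSylIn_of_not_dvd h1 hT (fun h => (Nat.not_even_iff_odd.2 h2) (even_iff_two_dvd.2 h))
    exact (h3.eq (S.2.to_le inf_le_left) (le_inf hTS h1) inf_le_right).le ⟨hs, mem_cent1.2 hsb⟩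
  have hDn : D ≤ Subgroup.normalizer (B : Set G) := fun d hd =>
    mem_normalizer_of_forall fun b hb => by rw [hDB d hd b hb]; simpa using hb
  have hdec : ∀ t ∈ T, ∃ d ∈ D, ∃ b ∈ B, d * b = t := fun t ht =>
    (H10.mem_sup_iff_of_left_le_normalizer hDn).1 (hsup ▸ ht)
  have hcard : Nat.card T = Nat.card D * 4 := by
    have := H10.card_sup_mul_card_inf hDn
    rw [hsup, hdis, hB.card_four] at this
    simpa using this
  have hsq : ∀ d ∈ D, ∀ b ∈ B, d * d = 1 → d * b * (d * b) = 1 := by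
    intro d hd b hb hdd
    calc d * b * (d * b) = d * (b * d) * b := by group
      _ = (d * d) * (b * b) := by rw [← hDB d hd b hb]; group
      _ = 1 := by rw [hdd, klein_sq hB hb, one_mul]
  have hcases : IsKleinFour D ∨ ∃ n e f X Y, MC D n e f X Y := by
    rcases hD with ⟨m, hm, ⟨φ⟩⟩ | hD
    · rcases dihedral_cases (hT.to_le hDT) hm φ with h | ⟨n, X, Y, -, h⟩
      · exact Or.inl h
      · exact Or.inr ⟨_, _, _, _, _, h⟩
    · obtain ⟨n, X, Y, -, h⟩ := exists_MC_of_qd hD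
      exact Or.inr ⟨_, _, _, _, _, h⟩
  rcases hcases with hK | ⟨n, e, f, X, Y, h⟩
  · refine SR_of_sixteen S.2 hTS (fun t ht => ?_) (by rw [hcard, hK.card_four]) hBT hB.card_four hcb
    obtain ⟨d, hd, b, hb, rfl⟩ := hdec t ht
    exact hsq d hd b hb (klein_sq hK hd)
  have hST : (S : Subgroup G) = T := by
    by_contra hne
    obtain ⟨s, hs, hsT, hsn, hs2⟩ := exists_mem_normalizer_pow_mem S.2
      (lt_of_le_of_ne hTS (Ne.symm hne))
    rw [pow_two] at hs2
    set E := T ⊓ Subgroup.centralizer (T : Set G) with hE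
    have hz := mul_self_of_orderOf_two h.orderOf_z
    have hEm : ∀ x ∈ E, ∃ d, (d = 1 ∨ d = X (hh n)) ∧ ∃ b ∈ B, d * b = x := by
      intro x hx
      obtain ⟨d, hd, b, hb, rfl⟩ := hdec x hx.1
      refine ⟨d, (h.central_iff hd).1 fun t ht => ?_, b, hb, rfl⟩
      have := hx.2 t (hDT ht)
      rw [mul_assoc, ← hDB t ht b hb, ← mul_assoc, ← mul_assoc] at this
      exact mul_right_cancel this
    have hE2 : ∀ x ∈ E, x * x = 1 := by
      intro x hx
      obtain ⟨d, hd | hd, b, hb, rfl⟩ := hEm x hx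
      · exact hsq d (hd ▸ D.one_mem) b hb (by rw [hd, one_mul])
      · exact hsq d (hd ▸ h.X_mem _) b hb (by rw [hd, hz])
    have hBE : B ≤ E := fun b hb => ⟨hBT hb, fun t ht => by
      obtain ⟨d, hd, c, hc, rfl⟩ := hdec t ht
      rw [mul_assoc, klein_comm hB hc hb, ← mul_assoc, hDB d hd b hb, mul_assoc]⟩
    have hzE : X (hh n) ∈ E := ⟨hDT (h.X_mem _), fun t ht => by
      obtain ⟨d, hd, c, hc, rfl⟩ := hdec t ht
      rw [mul_assoc, ← hDB _ (h.X_mem _) c hc, ← mul_assoc, h.z_comm hd, mul_assoc]⟩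
    have hzB : X (hh n) ∉ B := fun hb => ne_one_of_orderOf_two h.orderOf_z
      (Subgroup.mem_bot.1 (hdis ▸ (⟨h.X_mem _, hb⟩ : X (hh n) ∈ D ⊓ B)))
    have c1 := two_mul_card_le_of_lt hBE hzE hzB
    have c2 : Nat.card E ≤ 8 := by
      have h1 : E ≤ Subgroup.zpowers (X (hh n)) ⊔ B := by
        intro x hx
        obtain ⟨d, hd | hd, b, hb, rfl⟩ := hEm x hx
        · rw [hd, one_mul]; exact Subgroup.mem_sup_right hb
        · rw [hd]; exact Subgroup.mul_mem_sup (Subgroup.mem_zpowers _) hb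
      have h2 := H10.card_sup_dvd ((h.zpowers_le (hh n)).trans hDn)
      rw [Nat.card_zpowers, h.orderOf_z, hB.card_four] at h2
      exact (Subgroup.card_le_of_le h1).trans (Nat.le_of_dvd (by norm_num) h2)
    obtain ⟨K, hK, -, hKc⟩ := exists_comm_sub hE2 (t := s)
      (H10.le_normalizer_inf (H := Subgroup.normalizer (T : Set G)) le_rfl
        (H10.le_normalizer_centralizer le_rfl) hsn) fun x hx => hx.2 _ hs2
    have c3 := Subgroup.card_le_of_le hK
    have c4 := card_mul_le_of_disjoint (inf_le_left : E ⊓ Subgroup.centralizer {s} ≤ E) hBE (by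
      rw [eq_bot_iff]
      intro b hb
      by_contra hb1
      exact hsT (hcb b hb.2 hb1 s hs (mem_cent1.1 hb.1.2).symm))
    rw [hB.card_four] at c1 c4
    nlinarith
  rw [hST]
  refine h.SR.ext (b := 2) ?_
  have := card_mul_relIndex hDT
  rw [hcard] at this
  rw [Nat.eq_of_mul_eq_mul_left Nat.card_pos this]
  rfl

end Cfsg.Agent.S1235
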