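import Cfsg.Statements.S1236
import Cfsg.Agent.H11.Dih

set_option autoImplicit false
open Cfsg

namespace Cfsg.Agent.S1236

open Cfsg.Agent.H11



/-- Let R be a finite group, t a central involution of R such that R ⧸ ⟨t⟩ is dihedral (of order ≥ 4) or quasi-dihedral, and A ≤ R an elementary abelian subgroup of order 8 containing t. Then C_R(A) = A. -/
theorem result {R : Type*} [Group R] [Finite R] (t : R) (ht : orderOf t = 2) (htz : t ∈ Subgroup.center R) [(Subgroup.zpowers t).Normal] (hq : (∃ m : ℕ, 2 ≤ m ∧ Nonempty (R ⧸ Subgroup.zpowers t ≃* DihedralGroup m)) ∨ Cfsg.IsQuasiDihedral (R ⧸ Subgroup.zpowers t)) (A : Subgroup R) (hA : Cfsg.IsElementaryAbelian 2 A) (hA8 : Nat.card A = 8) (htA : t ∈ A) : Subgroup.centralizer (A : Set R) = A := by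
  set π := QuotientGroup.mk' (Subgroup.zpowers t) with hπ
  have hle : Subgroup.zpowers t ≤ A := Subgroup.zpowers_le.2 htA
  have hk : IsKleinFour (A.map π) := by
    rw [isKleinFour_iff]
    constructor
    · have h1 := Subgroup.card_mul_index (π.ker.subgroupOf A)
      have h2 : (π.ker.subgroupOf A).index = Nat.card (A.map π) := by
        rw [← Subgroup.relIndex, Subgroup.relIndex_ker]
      have h3 : π.ker = Subgroup.zpowers t := QuotientGroup.ker_mk' _
      rw [h2, h3, card_subgroupOf hle, Nat.card_zpowers, ht, hA8] at h1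
      omega
    · rintro _ ⟨x, hx, rfl⟩
      rw [← map_mul, ← pow_two, hA.2 x hx, map_one]
  have key : Subgroup.centralizer ((A.map π : Subgroup _) : Set (R ⧸ Subgroup.zpowers t)) ≤
      A.map π := by
    rcases hq with ⟨m, hm, ⟨φ⟩⟩ | hq
    · haveI : NeZero m := ⟨by omega⟩
      have h1 : IsKleinFour ((A.map π).map φ.toMonoidHom) :=
        isKleinFour_of_equiv hk (Subgroup.equivMapOfInjective _ _ φ.injective).symm
      intro g hg
      have h2 := dihedral_klein_centralizer h1 (x := φ g) (by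
        rintro _ ⟨y, hy, rfl⟩
        have := congrArg φ (hg y hy)
        simpa using this)
      obtain ⟨y, hy, h3⟩ := h2
      rwa [← φ.injective h3]
    · obtain ⟨n, X, Y, h3, h⟩ := exists_MC_top_of_qd hq
      obtain ⟨a, ha, hTe⟩ := h.klein_eq le_top hk
      have hY : Y a ∈ A.map π := hTe ▸ Subgroup.subset_closure (by simp)
      intro g hg
      rw [hTe, ← h.commute_Y_iff (Subgroup.mem_top g)]
      exact (hg _ hY).symm
  refine le_antisymm (fun g hg => ?_) fun g hg x hx => congrArg Subtype.val (hA.1.1.1 ⟨x, hx⟩ ⟨g, hg⟩)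
  obtain ⟨y, hy, h3⟩ := key (x := π g) (by
    rintro _ ⟨y, hy, rfl⟩
    rw [← map_mul, ← map_mul, hg y hy])
  have h4 : y⁻¹ * g ∈ Subgroup.zpowers t := QuotientGroup.eq.1 h3
  simpa using A.mul_mem hy (hle h4)

end Cfsg.Agent.S1236
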