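import Cfsg.Statements.S1239
import Cfsg.Agent.H6.ZStar2
import Cfsg.Agent.H11.WR4
import Cfsg.Agent.H11.QD2
-- import your own Cfsg.Agent.* helpers here

set_option autoImplicit false
open Cfsg

namespace Cfsg.Agent.S1239

open Cfsg.Agent.H4 Cfsg.Agent.H6


/-- Let X be a finite group whose Sylow 2-subgroup S is quasi-dihedral or wreathed, and suppose some involution of S is isolated in X. Then the product of the largest normal odd-order subgroup O(X) with the centre of S is normal in X. -/
theorem result {X : Type*} [Group X] [Finite X] (S : Sylow 2 X) (hS : Cfsg.IsQuasiDihedral (S : Subgroup X) ∨ Cfsg.IsWreathed (S : Subgroup X)) (z : X) (hzS : z ∈ S) (hz : Cfsg.IsIsolatedInvolution z) : (Cfsg.oddCore X ⊔ (Subgroup.center (S : Subgroup X)).map (S : Subgroup X).subtype).Normal := by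
  have key : ∀ x ∈ (Subgroup.center (S : Subgroup X)).map (S : Subgroup X).subtype, ∀ g : X,
      x * g * x⁻¹ * g⁻¹ ∈ pPrimeCore 2 X := by
    have hc : ∀ t ∈ (S : Subgroup X), t * z = z * t := fun t ht =>
      H11.iso_commute_of_isPGroup hz S.isPGroup' hzS ht
    rcases hS with hS | hS
    · obtain ⟨n, A, B, -, h⟩ := H11.exists_MC_of_qd hS
      rw [h.map_center]
      intro x hx g
      rcases h.mem_zpowers_z.1 hx with rfl | rfl
      · simp
      · rcases (h.central_iff hzS).1 hc with h1 | h1
        · exact absurd h1 (H11.ne_one_of_orderOf_two hz.1)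
        · rw [← h1]; exact zstar hz.1 hz.2 g
    · obtain ⟨n, E, F, h⟩ := H11.exists_WR hS
      rw [h.map_center]
      intro x hx
      have hU : H11.WRNU n E := by
        refine h.NU_or_YU.resolve_right fun hU => ?_
        obtain ⟨c, hc1⟩ := h.mem_Z.1 ((h.central_iff hzS).1 hc)
        have h2 := hz.1
        rw [hc1, h.orderOf_E_two] at h2
        have h3 : z = E (H11.hh n) (H11.hh n) := by
          rcases h2 with h2 | h2 | h2
          · rw [hc1, h2.1]
          · exact absurd (h2.1.symm.trans h2.2) h.hh0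
          · exact absurd (h2.2.symm.trans h2.1) h.hh0
        have h4 := H11.iso_eq hz (h3 ▸ H11.WR.wt_of_YU hU) (hc _ (h.E_mem _ _)).symm
        rw [h3] at h4
        exact h.hh0 (h.E_inj.1 h4).2.symm
      exact zstar_closed S (h.Z_le hx) fun g hg => h.conj_Z_of_NU hU hx hg
  refine ⟨fun a ha g => ?_⟩
  obtain ⟨o, ho, x, hx, rfl⟩ := Subgroup.mem_sup_of_normal_left.1 ha
  have h1 := Subgroup.inv_mem _ (key x hx g)
  have h2 := (Subgroup.mul_mem _ (Subgroup.Normal.conj_mem inferInstance o ho g) h1)
  convert Subgroup.mul_mem _ (Subgroup.mem_sup_left h2) (Subgroup.mem_sup_right hx) using 1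
  group

end Cfsg.Agent.S1239
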