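import Cfsg.Statements.S1241
import Cfsg.Agent.H11.Iso

set_option autoImplicit false
open Cfsg

namespace Cfsg.Agent.S1241

open Cfsg.Agent.H11



/-- Let G be a finite group, p a prime, H a subgroup of index prime to p, K a subgroup of H normal in H with H/K commutative, and g ∈ H ∖ K an element of p-power order such that for all integers m and all a ∈ G with a g^m a⁻¹ ∈ H one has a g^m a⁻¹ ∈ g^m K. Then g ∉ G'. -/
theorem result {G : Type*} [Group G] [Finite G] {p : ℕ} [Fact p.Prime] (H K : Subgroup G) (hHK : K ≤ H) (hKn : (K.subgroupOf H).Normal) (hab : ∀ x ∈ H, ∀ y ∈ H, x * y * x⁻¹ * y⁻¹ ∈ K) (hidx : Nat.Coprime p H.index) (g : G) (hgH : g ∈ H) (hgK : g ∉ K) (hgp : ∃ k : ℕ, orderOf g = p ^ k) (hctrl : ∀ (m : ℤ) (a : G), a * g ^ m * a⁻¹ ∈ H → (a * g ^ m * a⁻¹) * (g ^ m)⁻¹ ∈ K) : g ∉ commutator G := by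
  intro hgc
  letI : CommGroup (H ⧸ K.subgroupOf H) :=
    { (inferInstance : Group (H ⧸ K.subgroupOf H)) with
      mul_comm := fun a b => by
        obtain ⟨a, rfl⟩ := QuotientGroup.mk_surjective a
        obtain ⟨b, rfl⟩ := QuotientGroup.mk_surjective b
        rw [← QuotientGroup.mk_mul, ← QuotientGroup.mk_mul, QuotientGroup.eq,
          Subgroup.mem_subgroupOf]
        have := hab _ (H.inv_mem b.2) _ (H.inv_mem a.2)
        simpa [mul_assoc] using this }
  let φ : H →* H ⧸ K.subgroupOf H := QuotientGroup.mk' _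
  have h1 := transfer_eq_pow_of_mod φ (g := g) (a := φ ⟨g, hgH⟩) (fun k x h => by
    rw [← map_pow, ← mul_inv_eq_one, ← map_inv, ← map_mul]
    refine (QuotientGroup.eq_one_iff _).2 ?_
    have := hctrl k x⁻¹ (by simpa using h)
    simpa [Subgroup.mem_subgroupOf] using this)
  rw [map_eq_one_of_mem_commutator _ hgc] at h1
  obtain ⟨k, hk⟩ := hgp
  have h2 : orderOf (φ ⟨g, hgH⟩) ∣ p ^ k := by
    rw [← hk, ← Subgroup.orderOf_mk g hgH]; exact orderOf_map_dvd φ _
  have h3 := Nat.eq_one_of_dvd_coprimes (hidx.pow_left k) h2 (orderOf_dvd_of_pow_eq_one h1.symm)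
  exact hgK ((QuotientGroup.eq_one_iff (N := K.subgroupOf H) ⟨g, hgH⟩).1 (orderOf_eq_one_iff.1 h3))

end Cfsg.Agent.S1241
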