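import Cfsg.Statements.S1242
import Cfsg.Agent.H3.Fusion

set_option autoImplicit false
open Cfsg

namespace Cfsg.Agent.S1242

open Cfsg.Agent.H3

/-- Let G be a finite group, p a prime and H a subgroup of index prime to p such that any two elements of H of p-power order that are conjugate in G are conjugate in H. Then (O^p(G)·G') ∩ H = O^p(H)·H', where O^p denotes the subgroup generated by the elements of order prime to p. -/
theorem result {G : Type*} [Group G] [Finite G] {p : ℕ} [Fact p.Prime] (H : Subgroup G) (hidx : Nat.Coprime p H.index) (hfus : ∀ g ∈ H, (∃ k : ℕ, orderOf g = p ^ k) → ∀ a : G, a * g * a⁻¹ ∈ H → ∃ h ∈ H, h * g * h⁻¹ = a * g * a⁻¹) : (Cfsg.pResidual p G ⊔ commutator G) ⊓ H = (Cfsg.pResidual p ↥H ⊔ commutator ↥H).map H.subtype := by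
  refine le_antisymm (fun x hx => ?_) (le_inf ?_ (Subgroup.map_subtype_le _))
  · obtain ⟨a, b, ha, hb, hk, hc, he⟩ := exists_p_part p (⟨x, hx.2⟩ : H)
    obtain rfl : x = a * b := congrArg Subtype.val he
    have h1 : (b : G) ∈ pResidual p G :=
      mem_pResidual_of_coprime (by rwa [Subgroup.orderOf_coe])
    obtain ⟨k, hk⟩ := hk
    have hk' : (a : G) ^ p ^ k = 1 := congrArg Subtype.val hk
    have h2 : (a : G) ∈ commutator G := by
      refine mem_commutator_of_mem_sup_pResidual ⟨k, hk'⟩ ?_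
      rw [sup_comm]
      simpa using Subgroup.mul_mem _ hx.1 (Subgroup.inv_mem _ (Subgroup.mem_sup_left h1))
    obtain ⟨Q, hQ, h3⟩ := exists_sylowIn_le (R := Subgroup.zpowers (a : G)) (H := H)
      (IsPGroup.of_card_dvd_pow (n := k) (by
        rw [Nat.card_zpowers]; exact orderOf_dvd_of_pow_eq_one hk')) (by simp)
    have h4 : SylowIn p Q ⊤ := ⟨le_top, hQ.isPGroup, by
      rw [Subgroup.relIndex_top_right, ← Subgroup.relIndex_mul_index hQ.le]
      exact fun h => (((Fact.out : p.Prime).dvd_mul).mp h).elim hQ.not_dvd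
        ((Nat.Prime.coprime_iff_not_dvd Fact.out).mp hidx)⟩
    have h5 := commutator_inf_sylow_le h4.toSylowTop (K := ⁅H, H⁆) (fun y hy g hg => by
      obtain ⟨j, hj⟩ := hQ.isPGroup ⟨y, hy⟩
      obtain ⟨i, -, hi⟩ := (Nat.dvd_prime_pow Fact.out).mp
        (orderOf_dvd_of_pow_eq_one (congrArg Subtype.val hj))
      obtain ⟨h, hh, he⟩ := hfus y (hQ.le hy) ⟨i, hi⟩ g (hQ.le hg)
      exact he ▸ commutator_mem_of_mem (hQ.le hy) hh) ⟨h2, h3 (Subgroup.mem_zpowers _)⟩
    rw [Subgroup.map_sup, Subgroup.map_subtype_commutator]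
    exact mul_mem (Subgroup.mem_sup_right h5)
      (Subgroup.mem_sup_left ⟨b, mem_pResidual_of_coprime hc, rfl⟩)
  · rw [Subgroup.map_sup, Subgroup.map_subtype_commutator]
    exact sup_le_sup (pResidual_map_le _) (Subgroup.commutator_mono le_top le_top)

end Cfsg.Agent.S1242
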