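import Cfsg.Statements.S1243
import Cfsg.Agent.H3.Fusion

set_option autoImplicit false
open Cfsg

namespace Cfsg.Agent.S1243

open Cfsg.Agent.H3

open scoped Pointwise

/-- Let T be a Sylow p-subgroup of the finite group G and W ≤ T a subgroup weakly closed in T. If d and g d g⁻¹ both centralize W, then g d g⁻¹ = h d h⁻¹ for some h ∈ N_G(W). -/
theorem result {G : Type*} [Group G] [Finite G] {p : ℕ} [Fact p.Prime] (T : Sylow p G) (W : Subgroup G) (hW : Cfsg.IsWeaklyClosed W (T : Subgroup G)) (d g : G) (hd : d ∈ Subgroup.centralizer (W : Set G)) (hgd : g * d * g⁻¹ ∈ Subgroup.centralizer (W : Set G)) : ∃ h ∈ Subgroup.normalizer (W : Set G), h * d * h⁻¹ = g * d * g⁻¹ := by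
  have h1 : W ≤ Subgroup.centralizer {g * d * g⁻¹} := fun y hy =>
    Subgroup.mem_centralizer_singleton_iff.mpr (hgd y hy)
  have h2 : MulAut.conj g • W ≤ Subgroup.centralizer {g * d * g⁻¹} := by
    rw [conj_smul_le_iff]
    intro y hy
    rw [Subgroup.mem_centralizer_singleton_iff]
    calc g * y * g⁻¹ * (g * d * g⁻¹) = g * (y * d) * g⁻¹ := by group
      _ = _ := by rw [hd y hy]; group
  obtain ⟨c, hc, hn⟩ := exists_mul_mem_normalizer_of_weaklyClosed T hW h1 h2
  refine ⟨c * g, hn, ?_⟩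
  calc c * g * d * (c * g)⁻¹ = c * (g * d * g⁻¹) * c⁻¹ := by group
    _ = _ := by rw [Subgroup.mem_centralizer_singleton_iff.mp hc]; group

end Cfsg.Agent.S1243
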