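import Cfsg.Statements.S1244
import Cfsg.Agent.H11.TwoGp
import Cfsg.Agent.H11.Iso
import Cfsg.Agent.H11.Simp
import Cfsg.Agent.H1.Rank

set_option autoImplicit false
open Cfsg

namespace Cfsg.Agent.S1244

open Cfsg.Agent.H11



/-- Let G be a finite group with no subgroup of index 2 whose Sylow 2-subgroup S is commutative, and let R ≤ S be a subgroup whose 2-rank is exactly one less than the 2-rank r of S. Then every involution of S is conjugate, by an element of N_G(S), to an element of R. -/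
theorem result {G : Type*} [Group G] [Finite G] (hG : ∀ H : Subgroup G, H.index ≠ 2) (S : Sylow 2 G) (hS : IsMulCommutative (S : Subgroup G)) (r : ℕ) (hr1 : 1 ≤ r) (hSr : Cfsg.PRankLE 2 r (S : Subgroup G) ∧ ¬ Cfsg.PRankLE 2 (r - 1) (S : Subgroup G)) (R : Subgroup G) (hRS : R ≤ S) (hRr : Cfsg.PRankLE 2 (r - 1) R ∧ (r = 1 ∨ ¬ Cfsg.PRankLE 2 (r - 2) R)) (t : G) (ht : orderOf t = 2) (htS : t ∈ S) : ∃ n ∈ Subgroup.normalizer ((S : Subgroup G) : Set G), n * t * n⁻¹ ∈ R := by
  by_contra hcon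
  push Not at hcon
  have hA := H3.isMulCommutative_iff_mem.1 hS
  set Ω := om1 (S : Subgroup G) hA with hΩ
  have hΩe : Cfsg.IsElementaryAbelian 2 Ω :=
    ⟨H3.isMulCommutative_iff_mem.2 fun a ha b hb => hA a ha.1 b hb.1, fun a ha => by rw [pow_two]; exact ha.2⟩
  have h1 : Nat.card Ω ≤ 2 ^ r := H1.pRankLE_iff.1 hSr.1 Ω om1_le hΩe
  have h2 : 2 ^ (r - 1) ≤ Nat.card ↥(R ⊓ Ω) := by
    by_cases hr : r = 1
    · rw [hr]; exact Nat.card_pos
    · obtain ⟨A, hAR, hAe, hAc⟩ := H1.not_pRankLE_iff.1 (hRr.2.resolve_left hr)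
      rw [show r - 2 + 1 = r - 1 by omega] at hAc
      exact hAc.trans (Subgroup.card_le_of_le (le_inf hAR fun a ha =>
        ⟨hRS (hAR ha), by rw [← pow_two]; exact hAe.2 a ha⟩))
  have htt := mul_self_of_orderOf_two ht
  have htΩ : t ∈ Ω := ⟨htS, htt⟩
  have htR : t ∉ R := by simpa using hcon 1 (Subgroup.one_mem _)
  have h3 : (R ⊓ Ω).relIndex Ω = 2 := by
    have e := card_mul_relIndex (inf_le_right : R ⊓ Ω ≤ Ω)
    have e0 : (R ⊓ Ω).relIndex Ω ≠ 0 := Subgroup.index_ne_zero_of_finite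
    have e1 : (R ⊓ Ω).relIndex Ω ≠ 1 := fun h => htR (Subgroup.relIndex_eq_one.1 h htΩ).1
    have e2 : 2 ^ r = 2 * 2 ^ (r - 1) := by rw [← pow_succ']; congr 1; omega
    have e3 : 0 < 2 ^ (r - 1) := by positivity
    by_contra hne
    have : 3 ≤ (R ⊓ Ω).relIndex Ω := by omega
    nlinarith
  letI : CommGroup (S : Subgroup G) := { (inferInstance : Group (S : Subgroup G)) with mul_comm := hS.is_comm.comm }
  set K := (R ⊓ Ω).subgroupOf (S : Subgroup G) with hK
  let φ : (S : Subgroup G) →* (S : Subgroup G) ⧸ K := QuotientGroup.mk' K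
  have hφ : MonoidHom.transfer φ t = φ ⟨t, htS⟩ ^ (S : Subgroup G).index := by
    apply transfer_eq_pow_of_mod
    intro k x hx
    rw [← map_pow]
    rcases Nat.even_or_odd' k with ⟨j, hj | hj⟩
    · congr 1; apply Subtype.ext
      show x⁻¹ * t ^ k * x = t ^ k
      rw [hj, pow_mul, pow_two, htt]; simp
    · have e : t ^ k = t := by rw [hj, pow_succ, pow_mul, pow_two, htt]; simp
      have hx' : x⁻¹ * t * x⁻¹⁻¹ ∈ (S : Subgroup G) := by rw [inv_inv, ← e]; exact hx
      obtain ⟨n, -, hn, hnt⟩ := (isSylIn_top S).exists_normalizer_conj (x := t) (g := x⁻¹) trivial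
        (fun s hs => hA s hs t htS) (fun s hs => hA s hs _ hx')
      have hR := hcon n hn
      rw [hnt] at hR
      have hΩ' : x⁻¹ * t * x⁻¹⁻¹ ∈ Ω := ⟨hx', mul_self_of_orderOf_two (by rw [orderOf_conj, ht])⟩
      apply (QuotientGroup.eq).2
      show (x⁻¹ * t ^ k * x)⁻¹ * t ^ k ∈ R ⊓ Ω
      rw [e, mul_mem_iff_of_relIndex_two h3 (Ω.inv_mem (by simpa using hΩ')) htΩ, Subgroup.inv_mem_iff]
      rw [inv_inv] at hR
      exact ⟨fun h => absurd h.1 hR, fun h => absurd h.1 htR⟩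
  have hne : MonoidHom.transfer φ t ≠ 1 := by
    obtain ⟨j, hj⟩ : Odd (S : Subgroup G).index := Nat.odd_iff.2 (by have := S.not_dvd_index; omega)
    have e : (⟨t, htS⟩ : (S : Subgroup G)) ^ 2 = 1 := Subtype.ext (by simpa [pow_two] using htt)
    rw [hφ, ← map_pow, hj, pow_succ, pow_mul, e, one_pow, one_mul]
    intro h
    exact htR ((QuotientGroup.eq_one_iff _).1 h).1
  have hp : IsPGroup 2 (MonoidHom.transfer φ).range := (S.2.to_quotient K).to_subgroup _
  obtain ⟨H, hH⟩ := exists_index_eq_of_isPGroup hp (by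
    intro h
    rw [Subgroup.card_eq_one, MonoidHom.range_eq_bot_iff] at h
    exact hne (by rw [h]; rfl))
  exact no_index_two_of_surjective (MonoidHom.transfer φ).rangeRestrict_surjective hG H hH

end Cfsg.Agent.S1244
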