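import Cfsg.Statements.S1246
import Cfsg.Agent.H10.Local2

set_option autoImplicit false
open Cfsg

namespace Cfsg.Agent.S1246

/-- Let V ≤ U be p-subgroups of the finite group G. If the generalized Fitting subgroup of C_G(V) is a p-group, then so is that of C_G(U). -/
theorem result {G : Type*} [Group G] [Finite G] {p : ℕ} [Fact p.Prime] (U V : Subgroup G) (hVU : V ≤ U) (hU : IsPGroup p U) (hV : IsPGroup p ↥(Cfsg.generalizedFittingSubgroup ↥(Subgroup.centralizer (V : Set G)))) : IsPGroup p ↥(Cfsg.generalizedFittingSubgroup ↥(Subgroup.centralizer (U : Set G))) := by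
  open Subgroup Cfsg.Agent.H10 in
  rw [← XOf_eq_bot_iff_isPGroup] at hV ⊢
  exact XOf_centralizer_eq_bot_of_le hU hVU hV

end Cfsg.Agent.S1246
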