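import Cfsg.Statements.S1247
import Cfsg.Agent.H10.Bender
import Cfsg.Agent.H3.PNil

set_option autoImplicit false
open Cfsg

namespace Cfsg.Agent.S1247

/-- Let G be a non-abelian finite simple group, A a maximal subgroup, F = F*(A) its generalized Fitting subgroup (viewed in G), and S ≤ F a subgroup subnormal in F with C_F(S) ≤ S. Let B be any subgroup of G containing S. Then (a) for every prime q not dividing |F(A)|, O_q(B) ∩ A = 1; and (b) for every prime p dividing |F(A)|, O_p(B) commutes elementwise with the subgroup of F generated by its elements of order prime to p. -/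
theorem result {G : Type*} [Group G] [Finite G] [IsSimpleGroup G] (hna : ¬ IsMulCommutative G) (A : Subgroup G) (hA : IsCoatom A) (S : Subgroup G) (hSF : S ≤ (Cfsg.generalizedFittingSubgroup ↥A).map A.subtype) (hSsn : (S.subgroupOf ((Cfsg.generalizedFittingSubgroup ↥A).map A.subtype)).IsSubnormal) (hSC : (Cfsg.generalizedFittingSubgroup ↥A).map A.subtype ⊓ Subgroup.centralizer (S : Set G) ≤ S) (B : Subgroup G) (hSB : S ≤ B) : (∀ q : ℕ, q.Prime → ¬ q ∣ Nat.card (Cfsg.fittingSubgroup ↥A) → (Cfsg.pCore q ↥B).map B.subtype ⊓ A = ⊥) ∧ (∀ p : ℕ, p.Prime → p ∣ Nat.card (Cfsg.fittingSubgroup ↥A) → ∀ x ∈ (Cfsg.pCore p ↥B).map B.subtype, ∀ y ∈ (Cfsg.pResidual p ↥(Cfsg.generalizedFittingSubgroup ↥A)).map ((Cfsg.generalizedFittingSubgroup ↥A).subtype) , x * (A.subtype y) = (A.subtype y) * x) := by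
  open Subgroup Cfsg.Agent.H10 in
  have h : Large A B := (large_of_subnormal ⟨hSF, hSsn⟩ hSC).mono hSB
  have hP := prim_of_isCoatom hA B
  refine ⟨fun q hq hd => ?_, fun p hp hd x hx => ?_⟩
  · haveI : Fact q.Prime := ⟨hq⟩
    exact h.OpOf_inf_eq_bot hq (by_contra fun h' => hd (card_FitOf A ▸ OpOf_ne_bot_iff.1 h'))
  · haveI : Fact p.Prime := ⟨hp⟩
    have hO : OpOf p A ≠ ⊥ := OpOf_ne_bot_iff.2 (card_FitOf A ▸ hd)
    set Y := LayOf A ⊔ (FitOf A ⊓ OqOf p A)
    have h1 : Y ≤ centralizer (OpOf p B : Set G) := by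
      refine sup_le (le_centralizer_iff.1 (h.OpOf_le_centralizer_LayOf hP hp hO)) ?_
      refine le_of_nilpotent (isNilpotent_of_le inf_le_left FitOf_nilpotent) fun r hr => ?_
      by_cases hrp : r = p
      · subst hrp
        rw [eq_bot_of_isPGroup_of_coprime OpOf_isPGroup
          (coprime_card_of_le (OpOf_le.trans inf_le_right) OqOf_coprime)]
        exact bot_le
      · exact (le_OpOf_of_le_FitOf (OpOf_le.trans inf_le_left) OpOf_isPGroup).trans
          (le_centralizer_iff.1 (h.OpOf_le_centralizer_OpOf hP hp hr (Ne.symm hrp) hO))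
    have hAY : A ≤ normalizer (Y : Set G) := le_normalizer_sup (le_normalizer_LayOf le_normalizer)
      (le_normalizer_inf (le_normalizer_FitOf le_normalizer) (le_normalizer_OqOf le_normalizer))
    have h2 : FstarOf A ≤ Y ⊔ OpOf p A := by
      rw [FstarOf_eq]
      exact sup_le (le_sup_of_le_left le_sup_left) ((FitOf_le_OpOf_sup_inf p).trans
        (sup_le le_sup_right (le_sup_of_le_left le_sup_right)))
    have h3 : ((pResidual p ↥(generalizedFittingSubgroup ↥A)).map
        (generalizedFittingSubgroup ↥A).subtype).map A.subtype ≤ Y := by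
      rw [map_map, map_le_iff_le_comap, pResidual, closure_le]
      intro y hy
      have hy1 : ((y : A) : G) ∈ FstarOf A := mem_map_of_mem _ y.2
      refine mem_of_mem_sup_of_coprime (OpOf_le.trans hAY) (h2 hy1)
        (coprime_card_of_isPGroup OpOf_isPGroup ?_).symm
      simpa using hy
    intro y hy
    exact (h1 (h3 (mem_map_of_mem _ hy)) x hx)

end Cfsg.Agent.S1247
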