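import Cfsg.Statements.S1253
import Cfsg.Agent.H11.Iso

set_option autoImplicit false
open Cfsg

namespace Cfsg.Agent.S1253

open Cfsg.Agent.H11

theorem relIndex_cent_eq {G : Type*} [Group G] (P : Subgroup G) (t : G) :
    (Subgroup.centralizer {t}).relIndex P = Nat.card {s : G // ∃ x ∈ P, x * t * x⁻¹ = s} := by
  letI : MulAction P G := MulAction.compHom G ((MulAut.conj (G := G)).comp P.subtype)
  have h1 : (Subgroup.centralizer {t}).subgroupOf P = MulAction.stabilizer P t := by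
    ext x
    rw [Subgroup.mem_subgroupOf, mem_cent1, MulAction.mem_stabilizer_iff,
      ← mul_inv_eq_iff_eq_mul]
    rfl
  rw [Subgroup.relIndex, h1, MulAction.index_stabilizer, ← Nat.card_coe_set_eq]
  exact natCard_congr_iff fun s =>
    ⟨fun ⟨x, hx⟩ => ⟨x, x.2, hx⟩, fun ⟨x, hx, h⟩ => ⟨⟨x, hx⟩, h⟩⟩

/-- Let z be an isolated involution of the finite group G with centralizer C, p an odd prime and P a Sylow p-subgroup of G normalized by z. Then P ∩ C has p-power-free index in C (it is a Sylow p-subgroup of C), and |P : C_P(z)| equals the number of elements x ∈ P with z x z⁻¹ = x⁻¹. -/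
theorem result {G : Type*} [Group G] [Finite G] (z : G) (hz : Cfsg.IsIsolatedInvolution z) {p : ℕ} [Fact p.Prime] (hp : p ≠ 2) (P : Sylow p G) (hzP : z ∈ Subgroup.normalizer ((P : Subgroup G) : Set G)) : ¬ p ∣ ((P : Subgroup G) ⊓ Subgroup.centralizer ({z} : Set G)).relIndex (Subgroup.centralizer ({z} : Set G)) ∧ ((P : Subgroup G) ⊓ Subgroup.centralizer ({z} : Set G)).relIndex (P : Subgroup G) = Nat.card {x : G // x ∈ P ∧ z * x * z⁻¹ = x⁻¹} := by
  classical
  have hz2 := mul_self_of_orderOf_two hz.1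
  have hzi := inv_eq_of_orderOf_two hz.1
  have hodd : ∀ x ∈ (P : Subgroup G), Odd (orderOf x) := by
    intro x hx
    obtain ⟨k, hk⟩ := IsPGroup.iff_orderOf.1 P.isPGroup' ⟨x, hx⟩
    rw [Subgroup.orderOf_mk] at hk
    rw [hk]; exact ((Fact.out : p.Prime).odd_of_ne_two hp).pow
  have hidx : ∀ t : G, ((P : Subgroup G) ⊓ Subgroup.centralizer {t}).relIndex P =
      Nat.card {s : G // ∃ x ∈ (P : Subgroup G), x * t * x⁻¹ = s} := by
    intro t
    rw [Subgroup.inf_relIndex_left, relIndex_cent_eq]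
  have h2 : ((P : Subgroup G) ⊓ Subgroup.centralizer {z}).relIndex P =
      Nat.card {x : G // x ∈ P ∧ z * x * z⁻¹ = x⁻¹} := by
    rw [hidx]
    symm
    refine Nat.card_eq_of_bijective (fun k => ⟨k.1 * z * k.1⁻¹, k.1, k.2.1, rfl⟩) ⟨?_, ?_⟩
    · rintro ⟨k, hk, hk2⟩ ⟨l, hl, hl2⟩ he
      have he' : k * z * k⁻¹ = l * z * l⁻¹ := congrArg Subtype.val he
      rw [conj_eq_sq_mul hk2, conj_eq_sq_mul hl2] at he'
      exact Subtype.ext (eq_of_sq_eq_of_odd (hodd k hk) (hodd l hl) (mul_right_cancel he'))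
    · rintro ⟨_, x, hx, rfl⟩
      obtain ⟨m, -, h2, h3⟩ := iso_exists_sqrt hz (isConj_conj x z)
      refine ⟨⟨_, (P : Subgroup G).pow_mem ?_ m, h2⟩, Subtype.ext h3⟩
      have := (P : Subgroup G).mul_mem hx
        (conj_mem_of_mem_normalizer hzP ((P : Subgroup G).inv_mem hx))
      rw [hzi] at this
      simpa only [mul_assoc] using this
  refine ⟨?_, h2⟩
  set C := Subgroup.centralizer ({z} : Set G) with hC
  obtain ⟨a, ha⟩ : ∃ a, ((P : Subgroup G) ⊓ C).relIndex P = p ^ a := P.isPGroup'.index _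
  -- `p ^ a` divides the size of each `P`-orbit on the class of `z`
  have h3 : ∀ t, IsConj z t → p ^ a ∣ Nat.card {s : G // ∃ x ∈ (P : Subgroup G), x * t * x⁻¹ = s} := by
    intro t ht
    obtain ⟨b, hb⟩ : ∃ b, ((P : Subgroup G) ⊓ Subgroup.centralizer {t}).relIndex P = p ^ b :=
      P.isPGroup'.index _
    have hle : p ^ a ≤ p ^ b := by
      rw [← ha, ← hb, h2, hidx]
      refine Nat.card_le_card_of_injective (fun k => ⟨k.1⁻¹ * t * k.1⁻¹⁻¹, k.1⁻¹,
        (P : Subgroup G).inv_mem k.2.1, rfl⟩) ?_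
      rintro ⟨k, hk, hk2⟩ ⟨l, hl, hl2⟩ he
      have he' : k⁻¹ * t * k⁻¹⁻¹ = l⁻¹ * t * l⁻¹⁻¹ := congrArg Subtype.val he
      have hc : ∀ k ∈ (P : Subgroup G), z * k * z⁻¹ = k⁻¹ → IsConj z (k * z) := by
        intro k hk hk2
        obtain ⟨m, hm⟩ := exists_sq_eq_of_odd (hodd k hk)
        refine isConj_iff.2 ⟨k ^ m, ?_⟩
        rw [conj_eq_sq_mul (by rw [← conj_pow, hk2, inv_pow]), hm]
      have h4 : k * z * (l * z) = k * l⁻¹ := by rw [← hl2, hzi]; group
      have := iso_eq_of_commute hz (hc k hk hk2) (hc l hl hl2) ht (by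
        rw [h4]
        change _ = _
        calc k * l⁻¹ * t = k * (l⁻¹ * t * l⁻¹⁻¹) * l⁻¹ := by group
          _ = _ := by rw [← he']; group)
      exact Subtype.ext (mul_right_cancel this)
    rw [← hidx, hb]
    exact pow_dvd_pow _ ((Nat.pow_le_pow_iff_right (Fact.out : p.Prime).one_lt).1 hle)
  have h4 : p ^ a ∣ C.index := by
    haveI := Fintype.ofFinite G
    rw [hC, ← card_isConj_eq_index, natCard_subtype_eq]
    let r : Setoid G :=
      { r := fun s t => ∃ x ∈ (P : Subgroup G), x * s * x⁻¹ = t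
        iseqv := ⟨fun s => ⟨1, Subgroup.one_mem _, by group⟩,
          fun ⟨x, hx, h⟩ => ⟨x⁻¹, Subgroup.inv_mem _ hx, by rw [← h]; group⟩,
          fun ⟨x, hx, h⟩ ⟨y, hy, h'⟩ => ⟨y * x, Subgroup.mul_mem _ hy hx, by
            rw [← h', ← h]; group⟩⟩ }
    rw [Finset.card_eq_sum_card_image (Quotient.mk r)]
    refine Finset.dvd_sum fun q hq => ?_
    obtain ⟨t, ht, rfl⟩ := Finset.mem_image.1 hq
    have hzt : IsConj z t := (Finset.mem_filter.1 ht).2
    have := h3 t hzt
    rw [natCard_subtype_eq] at this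
    refine this.trans (dvd_of_eq (congrArg Finset.card ?_))
    symm
    ext s
    simp only [Finset.mem_filter, Finset.mem_univ, true_and, Quotient.eq]
    constructor
    · rintro ⟨-, h⟩; exact r.symm h
    · intro h
      refine ⟨?_, r.symm h⟩
      obtain ⟨x, -, rfl⟩ := h
      exact hzt.trans (isConj_conj x t)
  intro hd
  have h5 := Subgroup.relIndex_mul_index (inf_le_right : (P : Subgroup G) ⊓ C ≤ C)
  have h6 := Subgroup.relIndex_mul_index (inf_le_left : (P : Subgroup G) ⊓ C ≤ P)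
  have h7 : p ^ a * p ∣ p ^ a * (P : Subgroup G).index := by
    rw [← ha, h6, ← h5, ha, mul_comm]; exact Nat.mul_dvd_mul hd h4
  exact P.not_dvd_index (Nat.dvd_of_mul_dvd_mul_left (pow_pos (Fact.out : p.Prime).pos a) h7)

end Cfsg.Agent.S1253
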