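import Cfsg.Statements.S1254
import Cfsg.Agent.H26.DihFrob
import Cfsg.Agent.H9.Basic

set_option autoImplicit false
open Cfsg

namespace Cfsg.Agent.S1254


/-- Let X be a finite group whose Sylow 2-subgroup S is dihedral (of order at least 4). Then X has a normal 2-complement if and only if, for every Klein four-subgroup U ≤ S, the normalizer N_X(U) is generated by C_X(U) and N_S(U). -/
theorem result {X : Type*} [Group X] [Finite X] (S : Sylow 2 X) (m : ℕ) (hm : 2 ≤ m) (eS : (S : Subgroup X) ≃* DihedralGroup m) : Cfsg.HasNormalPComplement 2 X ↔ ∀ U : Subgroup X, U ≤ S → IsKleinFour U → Subgroup.normalizer (U : Set X) = Subgroup.centralizer (U : Set X) ⊔ ((S : Subgroup X) ⊓ Subgroup.normalizer (U : Set X)) := by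
  constructor
  · intro h U hU _
    apply le_antisymm
    · intro g hg
      obtain ⟨y, hy, hc⟩ := H3.exists_sylow_conj_of_hasNormalPComplement h S g
      have h1 : ∀ u ∈ U, y * u * y⁻¹ = g * u * g⁻¹ := fun u hu =>
        hc u (hU hu) (hU ((Subgroup.mem_normalizer_iff.1 hg u).1 hu))
      have h2 : y ∈ Subgroup.normalizer (U : Set X) := Subgroup.mem_normalizer_fintype fun u hu => by
        rw [h1 u hu]; exact (Subgroup.mem_normalizer_iff.1 hg u).1 hu
      have h3 : y⁻¹ * g ∈ Subgroup.centralizer (U : Set X) := by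
        intro u hu
        calc u * (y⁻¹ * g) = y⁻¹ * (y * u * y⁻¹) * g := by group
          _ = _ := by rw [h1 u hu]; group
      have : g = y * (y⁻¹ * g) := by group
      rw [this]
      exact Subgroup.mul_mem _ (Subgroup.mem_sup_right ⟨hy, h2⟩) (Subgroup.mem_sup_left h3)
    · exact sup_le (Subgroup.centralizer_le_normalizer _) inf_le_right
  · intro h
    apply H3.hasNormalPComplement_of_forall_le S
    intro T hT _ g hg ho
    rcases H26.odd_cent_of_dihedral S.isPGroup' hm eS hT hg (Nat.coprime_two_right.1 ho) with h1 | h1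
    · exact h1
    · have h2 := hg
      rw [h T hT h1, sup_comm] at h2
      obtain ⟨s, hs, c, hc, rfl⟩ := (H9.mem_sup_of_le_normalizer_right
        (H9.le_normalizer_centralizer inf_le_right)).1 h2
      refine H26.mem_cent_of_odd_of_eq_mul S.isPGroup' hs.1 (fun u hu => ?_) hg ho
      rw [mul_assoc s c, ← hc u hu]; group

end Cfsg.Agent.S1254
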