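import Cfsg.Statements.S1255
import Cfsg.Agent.H11.Dih

set_option autoImplicit false
open Cfsg

namespace Cfsg.Agent.S1255

open Cfsg.Agent.H11



/-- Let X be a finite group whose Sylow 2-subgroup S is dihedral of order 2m ≥ 4. Then X has no subgroup of index 2 and no isolated involution if and only if either all involutions of X are conjugate, or for every Klein four-subgroup U ≤ S the index |N_X(U) : C_X(U)| equals 3 when |S| = 4 and equals 6 when |S| > 4. -/
theorem result {X : Type*} [Group X] [Finite X] (S : Sylow 2 X) (m : ℕ) (hm : 2 ≤ m) (eS : (S : Subgroup X) ≃* DihedralGroup m) : ((∀ H : Subgroup X, H.index ≠ 2) ∧ (∀ z : X, ¬ Cfsg.IsIsolatedInvolution z)) ↔ ((∀ a b : X, orderOf a = 2 → orderOf b = 2 → IsConj a b) ∨ (∀ U : Subgroup X, U ≤ S → IsKleinFour U → (Subgroup.centralizer (U : Set X)).relIndex (Subgroup.normalizer (U : Set X)) = (if Nat.card S = 4 then 3 else 6))) := by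
  rcases dihedral_cases S.isPGroup' hm eS with hk | ⟨n, A, B, -, h⟩
  · have h4 : Nat.card S = 4 := hk.card_four
    rw [if_pos h4]
    have hall : (∀ a ∈ (S : Subgroup X), a ≠ 1 → ∃ b ∈ (S : Subgroup X), b ≠ a ∧ IsConj a b) →
        ∀ a b : X, orderOf a = 2 → orderOf b = 2 → IsConj a b := fun hm a b ha hb => by
      obtain ⟨g, hg⟩ := exists_conj_invol_mem_sylow S ha
      obtain ⟨k, hk'⟩ := exists_conj_invol_mem_sylow S hb
      exact (isConj_conj g a).trans ((klein_isConj_of_moved hk hm hg hk'
        (by simpa using ne_one_of_orderOf_two ha) (by simpa using ne_one_of_orderOf_two hb)).trans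
        (isConj_conj k b).symm)
    constructor
    · rintro ⟨-, h2⟩
      refine Or.inl (hall fun a ha ha1 => ?_)
      by_contra! hc
      refine h2 a (iso_of_sylow (klein_orderOf hk ha ha1) S fun g hg => ?_)
      by_contra hne
      exact hc _ hg hne (isConj_conj g a)
    · intro h1
      have h2 : ∀ a b : X, orderOf a = 2 → orderOf b = 2 → IsConj a b := by
        refine h1.elim id fun h1 => hall fun a ha ha1 => ?_
        have h3 := h1 S le_rfl hk
        obtain ⟨g, hg, hgc⟩ : ∃ g ∈ Subgroup.normalizer ((S : Subgroup X) : Set X),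
            g ∉ Subgroup.centralizer ((S : Subgroup X) : Set X) := by
          by_contra! hc
          rw [Subgroup.relIndex_eq_one.2 hc] at h3
          omega
        refine ⟨_, conj_mem_of_mem_normalizer hg ha, fun he => hgc ?_, isConj_conj g a⟩
        obtain ⟨b, hb, hb1, hba⟩ := klein_exists_other hk a
        have hmem := fun x => klein_mem_iff hk ha hb ha1 hb1 hba.symm (x := x)
        have h5 : g ^ 2 ∈ Subgroup.centralizer ((S : Subgroup X) : Set X) := by
          have e1 : g ^ 2 * a = a * g ^ 2 := (Commute.pow_left (mul_inv_eq_iff_eq_mul.1 he) 2)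
          have e2 : g ^ 2 * b = b * g ^ 2 := by
            rcases (hmem _).1 (conj_mem_of_mem_normalizer hg hb) with h6 | h6 | h6 | h6
            · exact absurd (by simpa using h6) hb1
            · rw [← he, mul_left_inj, mul_right_inj] at h6; exact absurd h6 hba
            · exact Commute.pow_left (mul_inv_eq_iff_eq_mul.1 h6) 2
            · rw [← mul_inv_eq_iff_eq_mul]
              calc g ^ 2 * b * (g ^ 2)⁻¹ = g * (g * b * g⁻¹) * g⁻¹ := by rw [pow_two]; group
                _ = g * (a * b) * g⁻¹ := by rw [h6]
                _ = (g * a * g⁻¹) * (g * b * g⁻¹) := by group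
                _ = b := by rw [he, h6, ← mul_assoc, klein_sq hk ha, one_mul]
          rw [klein_eq_closure hk ha hb ha1 hb1 hba.symm, mem_centralizer_closure_pair]
          exact ⟨e1, e2⟩
        have h6 : g ^ 3 ∈ Subgroup.centralizer ((S : Subgroup X) : Set X) := by
          have := Subgroup.pow_index_mem (H := (Subgroup.centralizer ((S : Subgroup X) : Set X)).subgroupOf
            (Subgroup.normalizer ((S : Subgroup X) : Set X))) ⟨g, hg⟩
          rw [Subgroup.mem_subgroupOf] at this
          change g ^ (Subgroup.relIndex _ _) ∈ _ at this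
          rwa [h3] at this
        have := Subgroup.mul_mem _ h6 (Subgroup.inv_mem _ h5)
        rwa [show g ^ 3 * (g ^ 2)⁻¹ = g by group] at this
      obtain ⟨a, ha, b, hb, ha1, hb1, hab⟩ := klein_exists_gens hk
      have hoa := klein_orderOf hk ha ha1
      have hob := klein_orderOf hk hb hb1
      refine ⟨fun H hH => not_sylow_le_of_index_two S hH ?_, fun z hz => ?_⟩
      · haveI := Subgroup.normal_of_index_eq_two hH
        obtain ⟨t, ht, htH⟩ : ∃ t, orderOf t = 2 ∧ t ∈ H := by
          by_cases h5 : a ∈ H
          · exact ⟨a, hoa, h5⟩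
          by_cases h6 : b ∈ H
          · exact ⟨b, hob, h6⟩
          refine ⟨a * b, klein_orderOf hk (Subgroup.mul_mem _ ha hb) fun h7 => hab ?_,
            (Subgroup.mul_mem_iff_of_index_two hH).2 (by tauto)⟩
          rw [mul_eq_one_iff_eq_inv.1 h7, inv_eq_of_orderOf_two hob]
        intro x hx
        by_cases hx1 : x = 1
        · rw [hx1]; exact H.one_mem
        obtain ⟨g, rfl⟩ := isConj_iff.1 (h2 t x ht (klein_orderOf hk hx hx1))
        exact Subgroup.Normal.conj_mem inferInstance t htH g
      · exact hab (iso_eq (iso_of_isConj hz (h2 z b hz.1 hob)) (h2 b a hob hoa) (klein_comm hk hb ha))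
  · have h4 : Nat.card S ≠ 4 := by
      have h1 := h.card
      have h2 : 2 ^ 3 ≤ 2 ^ (n + 1) := Nat.pow_le_pow_right (by norm_num) (by have := h.two_le; omega)
      change Nat.card (S : Subgroup X) ≠ 4
      omega
    rw [if_neg h4]
    constructor
    · rintro ⟨h1, -⟩
      exact Or.inl fun a b ha hb => (h.dih_isConj_of_no_index_two h1 ha).symm.trans
        (h.dih_isConj_of_no_index_two h1 hb)
    · intro h1
      have h2 : ∀ a, IsConj (A (hh n)) (B a) := fun a => by
        refine h1.elim (fun h1 => h1 _ _ h.orderOf_z (h.dih_oY a)) fun h1 => ?_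
        rcases h.four_index (a := a) (by ring) rfl with ⟨h3, -⟩ | ⟨-, g, -, hg⟩
        · have := h1 _ (h.closure_XY_le _ _) (h.isKleinFour_four (a := a) (by ring))
          omega
        · exact isConj_iff.2 ⟨g, hg⟩
      refine ⟨fun H hH => not_sylow_le_of_index_two S hH ?_, fun z hz => ?_⟩
      · haveI := Subgroup.normal_of_index_eq_two hH
        have h3 : A (hh n) ∈ H := by
          have := Subgroup.mul_self_mem_of_index_two hH (A (qq n))
          rwa [h.XX, ← two_mul, h.qq2] at this
        have h5 : ∀ a, B a ∈ H := fun a => by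
          obtain ⟨g, hg⟩ := isConj_iff.1 (h2 a)
          exact hg ▸ Subgroup.Normal.conj_mem inferInstance _ h3 g
        refine h.le_of_X_one_Y ?_ (h5 0)
        have := H.mul_mem (h5 0) (h5 1)
        rwa [h.YY, show (0 : ZMod (2 ^ n)) + 1 - 0 + 0 * 0 = 1 by ring] at this
      · have h3 : IsConj (A (hh n)) z := (h.dih_invol_G hz.1).elim id
          fun h3 => h3.elim (h2 0).trans (h2 1).trans
        exact h.Y_ne_X _ _ (iso_eq (iso_of_isConj hz h3.symm) (h2 0) (h.z_comm (h.Y_mem 0)).symm)

end Cfsg.Agent.S1255
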