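import Cfsg.Statements.S1256
import Cfsg.Agent.H11.Dih

set_option autoImplicit false
open Cfsg

namespace Cfsg.Agent.S1256

open Cfsg.Agent.H11



/-- Let X be a finite group whose Sylow 2-subgroup S is dihedral of order 2m ≥ 4. If |S| = 4, any two Klein four-subgroups of X are conjugate; if |S| > 4, there are Klein four-subgroups U₁, U₂ of X that are not conjugate, and every Klein four-subgroup of X is conjugate to U₁ or to U₂. -/
theorem result {X : Type*} [Group X] [Finite X] (S : Sylow 2 X) (m : ℕ) (hm : 2 ≤ m) (eS : (S : Subgroup X) ≃* DihedralGroup m) : (Nat.card S = 4 → ∀ U V : Subgroup X, IsKleinFour U → IsKleinFour V → (∃ x : X, U.map (MulAut.conj x).toMonoidHom = V)) ∧ (4 < Nat.card S → ∃ U₁ U₂ : Subgroup X, IsKleinFour U₁ ∧ IsKleinFour U₂ ∧ ¬ (∃ x : X, U₁.map (MulAut.conj x).toMonoidHom = U₂) ∧ ∀ V : Subgroup X, IsKleinFour V → (∃ x : X, V.map (MulAut.conj x).toMonoidHom = U₁) ∨ (∃ x : X, V.map (MulAut.conj x).toMonoidHom = U₂)) := by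
  rcases dihedral_cases S.isPGroup' hm eS with hk | ⟨n, A, B, -, h⟩
  · refine ⟨fun _ U V hU hV => ?_, fun h4 => ?_⟩
    · have h1 : ∀ W : Subgroup X, IsKleinFour W → IsSylIn 2 W ⊤ := fun W hW =>
        (isSylIn_top S).of_card_ge (klein_isPGroup hW) le_top (by rw [hk.card_four, hW.card_four])
      obtain ⟨g, -, hg⟩ := (h1 U hU).exists_cj_eq (h1 V hV)
      exact ⟨g, hg⟩
    · have := hk.card_four
      change 4 < Nat.card (S : Subgroup X) at h4
      omega
  · refine ⟨fun h4 => ?_, fun _ => ⟨_, _, h.isKleinFour_four (a := 0) (by ring),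
      h.isKleinFour_four (a := 1) (by ring), fun ⟨g, hg⟩ => h.dih_not_cj g hg,
      fun V hV => h.dih_klein_cj hV⟩⟩
    have h1 := h.card
    have h2 : 2 ^ 3 ≤ 2 ^ (n + 1) := Nat.pow_le_pow_right (by norm_num) (by have := h.two_le; omega)
    change Nat.card (S : Subgroup X) = 4 at h4
    omega

end Cfsg.Agent.S1256
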