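import Cfsg.Statements.S1258
import Cfsg.Agent.H10.Comp

set_option autoImplicit false
open Cfsg

namespace Cfsg.Agent.S1258

/-- If the central quotient of a finite group X is non-abelian simple, then X = X' Z(X) and the commutator subgroup X' is quasisimple. -/
theorem result {X : Type*} [Group X] [Finite X] (hs : IsSimpleGroup (X ⧸ Subgroup.center X)) (hna : ¬ IsMulCommutative (X ⧸ Subgroup.center X)) : commutator X ⊔ Subgroup.center X = ⊤ ∧ Cfsg.IsQuasisimple ↥(commutator X) := by
  open Subgroup Cfsg.Agent.H10 in
  have hq : IsQuasisimple (X ⧸ center X) := isQuasisimple_of_simple hna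
  have := isQuasisimple_commutator_of_map (K := ⊤) (QuotientGroup.mk' (center X))
    (by rw [QuotientGroup.ker_mk', top_inf_eq]; exact commutator_center_left _)
    (by rw [map_top_of_surjective _ (QuotientGroup.mk'_surjective _)]; exact isQuasisimple_top.2 hq)
  rw [QuotientGroup.ker_mk', top_inf_eq] at this
  exact ⟨this.1, this.2.2⟩

end Cfsg.Agent.S1258
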