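import Cfsg.Statements.S1259
import Cfsg.Agent.H10.Comp

set_option autoImplicit false
open Cfsg

namespace Cfsg.Agent.S1259

/-- In a quasisimple group, every subnormal subgroup is either the whole group or central. -/
theorem result {X : Type*} [Group X] [Finite X] (hX : Cfsg.IsQuasisimple X) (H : Subgroup X) (hH : H.IsSubnormal) : H = ⊤ ∨ H ≤ Subgroup.center X := by
  open Subgroup Cfsg.Agent.H10 in
  rcases QS.subnormal_cases (isQuasisimple_top.2 hX) (subnormalIn_top.2 hH) with h | h
  · exact .inr (commutator_top_right_eq_bot_iff_le_center.1 h)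
  · exact .inl h

end Cfsg.Agent.S1259
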