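import Cfsg.Statements.S1263
import Cfsg.Agent.H10.Misc

set_option autoImplicit false
open Cfsg

namespace Cfsg.Agent.S1263

/-- For a finite group G, Z(E(G)) is the subgroup generated by the centres Z(L) of the components L of G (all viewed as subgroups of G). -/
theorem result {G : Type*} [Group G] [Finite G] : (Subgroup.center ↥(Cfsg.layer G)).map (Cfsg.layer G).subtype = ⨆ L : {K : Subgroup G // Cfsg.IsComponent K}, (Subgroup.center ↥(L : Subgroup G)).map (L : Subgroup G).subtype := by
  open Subgroup Cfsg.Agent.H10 in
  rw [center_map_subtype, ← LayOf_top]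
  refine le_antisymm (LayOf_inf_centralizer_le fun K hK => ?_) (iSup_le fun L => ?_)
  · refine le_iSup_of_le ⟨K, compOf_top.1 hK⟩ ?_
    rw [center_map_subtype]
  · rw [center_map_subtype]
    exact (compOf_top.2 L.2).center_le

end Cfsg.Agent.S1263
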