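import Cfsg.Statements.S1267
import Cfsg.Agent.H10.Local2

set_option autoImplicit false
open Cfsg

namespace Cfsg.Agent.S1267

/-- Let G be finite and P ≤ O_p(G). Then E(N_G(P)) = E(G). -/
theorem result {G : Type*} [Group G] [Finite G] (p : ℕ) [Fact p.Prime] (P : Subgroup G) (hP : P ≤ Cfsg.pCore p G) : (Cfsg.layer ↥(Subgroup.normalizer ((P : Subgroup G) : Set G))).map (Subgroup.normalizer ((P : Subgroup G) : Set G)).subtype = Cfsg.layer G := by
  open Subgroup Cfsg.Agent.H10 in
  have hPp : IsPGroup p P := (pCore_isPGroup' p G).to_le hP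
  rw [← LayOf_def, LayOf_normalizer hPp, ← LayOf_top]
  apply le_antisymm
  · have h1 := XOf_inf_centralizer_le_centralizer (H := ⊤) hPp le_normalizer_of_normal
    rw [top_inf_eq, OpOf_top] at h1
    refine (LayOf_le_LayOf_of_le (LayOf_le_XOf.trans h1) (centralizer_anti hP)).trans ?_
    exact (SubnormalIn.of_normal le_top le_normalizer_of_normal).LayOf_le
  · refine LayOf_le_LayOf_of_le ?_ le_top
    refine le_trans ?_ (centralizer_anti hP)
    rw [← OpOf_top]
    exact commutator_eq_bot_iff_le_centralizer.1 (commutator_LayOf_OpOf p)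

end Cfsg.Agent.S1267
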