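import Cfsg.Statements.S1271
import Cfsg.Agent.H10.Balance

set_option autoImplicit false
open Cfsg

namespace Cfsg.Agent.S1271

/-- Let G be finite with O_{p'}(G) = 1. Suppose that for every component L of G and every subgroup H ≥ L in which L is normal, the quotient H / C_H(L) is balanced for the prime p. Then G is balanced for p. -/
theorem result {G : Type*} [Group G] [Finite G] (p : ℕ) [Fact p.Prime] (hO : Cfsg.pPrimeCore p G = ⊥) (h : ∀ L : Subgroup G, Cfsg.IsComponent L → ∀ H : Subgroup G, L ≤ H → (L.subgroupOf H).Normal → ∀ [((Subgroup.centralizer (L : Set G)).subgroupOf H).Normal], Cfsg.IsBalancedFor p (↥H ⧸ (Subgroup.centralizer (L : Set G)).subgroupOf H)) : Cfsg.IsBalancedFor p G := by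
  open Subgroup Cfsg.Agent.H10 in
  intro x hx
  have hO' : OqOf p (⊤ : Subgroup G) = ⊥ := by rw [OqOf_top, hO]
  have hxp : x ^ p = 1 := hx ▸ pow_orderOf_eq_one x
  have hX : centralizerPPrimeCore p x ≤ OqOf p (⊤ ⊓ centralizer ({x} : Set G)) := by
    rw [top_inf_eq]; exact le_rfl
  set X := centralizerPPrimeCore p x
  have hxH : x ∈ normalizer ((⊤ : Subgroup G) : Set G) := le_normalizer (mem_top x)
  refine (eq_bot_of_centralizes hO' le_top OqOf_coprime (hX.trans
    (OqOf_inf_centralizer_le_centralizer_OpOf hxH hxp)) fun L hL => ?_).le.trans bot_le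
  by_contra hn
  obtain ⟨h1, h2⟩ := hL.mem_normalizer_of_not_le hO' hxH hx hX hn
  have hXL := hX.trans (hL.OqOf_le_normalizer hO' hxH hxp)
  have hTL : X ⊔ zpowers x ≤ normalizer (L : Set G) := sup_le hXL (zpowers_le.2 h1)
  have hML : L ⊔ (X ⊔ zpowers x) ≤ normalizer (L : Set G) := sup_le le_normalizer hTL
  haveI : ((centralizer (L : Set G)).subgroupOf (L ⊔ (X ⊔ zpowers x))).Normal :=
    normal_subgroupOf_of_le_normalizer (le_normalizer_centralizer hML)
  let f := QuotientGroup.mk' ((centralizer (L : Set G)).subgroupOf (L ⊔ (X ⊔ zpowers x)))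
  have hk : kr f ≤ centralizer (L : Set G) :=
    (kr_eq_of_ker (QuotientGroup.ker_mk' _)).le.trans inf_le_left
  have hxT : x ∈ X ⊔ zpowers x := mem_sup_right (mem_zpowers x)
  have h3 := hL.im_le_OqOf (f := f) hO' (inf_le_right.trans hk) le_rfl hTL le_normalizer_of_normal
    hxT hxp (sup_le OqOf_le (zpowers_le_centralizer_singleton rfl)) le_sup_left hX
  rw [im_self_of_surjective (QuotientGroup.mk'_surjective _), top_inf_eq] at h3
  have h4 := h3.trans (h L (compOf_top.1 hL) _ le_sup_left (normal_subgroupOf_of_le_normalizer hML) _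
    (orderOf_eq_of_pow (by rw [← map_pow]; exact (congrArg f (Subtype.ext hxp)).trans (map_one f))
      fun e => h2 (hk ((mem_kr _).2 e))))
  refine hn (QS.le_centralizer_of_commutator_ne hL.2 hXL fun e => ?_)
  have h5 : im f L ≤ pPrimeCore p _ := by
    refine (im_mono (e.ge : L ≤ ⁅L, X⁆)).trans ?_
    exact (im_commutator (V := X) le_sup_left (le_sup_of_le_right le_sup_left)).le.trans <|
      (commutator_mono le_rfl h4).trans (commutator_le_right _ _)
  refine QS.inf_centralizer_eq_bot_of_OqOf hL.2 (hL.dvd_card hO') (U := L ⊓ kr f) inf_le_left ?_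
    (inf_le_right.trans hk)
  have := card_im_mul (f := f) (U := L) le_sup_left
  rw [← card_mul_relIndex (inf_le_left : L ⊓ kr f ≤ L), mul_comm] at this
  rw [← Nat.eq_of_mul_eq_mul_left Nat.card_pos this]
  exact not_dvd_of_coprime (coprime_card_of_le h5 (pPrimeCore_coprime _ _))

end Cfsg.Agent.S1271
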