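import Cfsg.Statements.S1286

set_option autoImplicit false
open Cfsg

namespace Cfsg.Agent.S1286

open Subgroup Equiv

def t (g : Perm (Fin 5)) : Perm (Fin 5) :=
  if g = swap 0 1 then c[2, 3, 4] else if g = swap 2 3 then c[0, 1, 4] else 1

def A : Subgroup (Perm (Fin 5)) where
  carrier := {g | g ∈ ({1, swap 0 1, swap 2 3, swap 0 1 * swap 2 3} : Finset _)}
  mul_mem' := by simp only [Set.mem_setOf, Finset.mem_insert, Finset.mem_singleton]; rintro _ _ (rfl | rfl | rfl | rfl) (rfl | rfl | rfl | rfl) <;> decide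
  one_mem' := by simp
  inv_mem' := by simp only [Set.mem_setOf, Finset.mem_insert, Finset.mem_singleton]; rintro _ (rfl | rfl | rfl | rfl) <;> decide

theorem mem_A {g : Perm (Fin 5)} : g ∈ A ↔ g = 1 ∨ g = swap 0 1 ∨ g = swap 2 3 ∨ g = swap 0 1 * swap 2 3 := by
  simp [← SetLike.mem_coe, A]

theorem t3 (g : Perm (Fin 5)) : t g ^ 3 = 1 := by unfold t; split_ifs <;> decide

theorem mem_t {g x : Perm (Fin 5)} : x ∈ zpowers (t g) ↔ x = 1 ∨ x = t g ∨ x = t g ^ 2 := by
  refine ⟨?_, by rintro (rfl | rfl | rfl) <;> simp [pow_mem]⟩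
  rintro ⟨k, rfl⟩
  have h1 := Int.emod_nonneg k three_ne_zero
  have h2 := Int.emod_lt_of_pos k three_pos
  simp only [zpow_eq_zpow_emod k (n := 3) (t3 g)]
  interval_cases k % 3 <;> simp [zpow_ofNat]

/-- There exist a finite group X, an elementary abelian subgroup A of order 4 and a solvable A-signalizer functor θ on X for the prime 2 which is not complete. -/
theorem result : ∃ (X : Type) (_ : Group X) (_ : Finite X) (A : Subgroup X) (θ : X → Subgroup X), Cfsg.IsElementaryAbelian 2 A ∧ Nat.card ↥A = 4 ∧ Cfsg.IsSolvableSignalizerFunctor 2 A θ ∧ ¬ Cfsg.IsCompleteSignalizerFunctor 2 A θ := by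
  refine ⟨Perm (Fin 5), inferInstance, inferInstance, A, fun g => zpowers (t g), ⟨⟨⟨fun a b => Subtype.ext ?_⟩⟩,
    fun a ha => ?_⟩, ?_, ⟨⟨fun a ha _ x hx => ?_, fun a _ _ h => ?_, fun a ha _ b hb x hx => ?_,
    fun a ha h1 b hb h2 x hx => ?_⟩, fun _ _ _ => inferInstance⟩, fun ⟨_, X, _, h1, h2⟩ => h1 ?_⟩
  · obtain ⟨a, ha⟩ := a
    obtain ⟨b, hb⟩ := b
    change a * b = b * a
    rcases mem_A.mp ha with rfl | rfl | rfl | rfl <;> rcases mem_A.mp hb with rfl | rfl | rfl | rfl <;> decide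
  · rcases mem_A.mp ha with rfl | rfl | rfl | rfl <;> decide
  · exact (Nat.card_eq_finsetCard {1, swap 0 1, swap 2 3, swap 0 1 * swap 2 3}).trans (by decide)
  · rw [mem_centralizer_singleton_iff]
    rcases mem_A.mp ha with rfl | rfl | rfl | rfl <;> rcases mem_t.mp hx with rfl | rfl | rfl <;> decide
  · rw [Nat.card_zpowers] at h
    exact absurd (h.trans (orderOf_dvd_of_pow_eq_one (t3 a))) (by decide)
  · rw [mem_t]
    rcases mem_A.mp ha with rfl | rfl | rfl | rfl <;> rcases mem_t.mp hx with rfl | rfl | rfl <;>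
      rcases mem_A.mp hb with rfl | rfl | rfl | rfl <;> decide
  · have h3 := mem_centralizer_singleton_iff.mp hx.2
    rw [mem_t]
    revert h3 h1 h2
    rcases mem_A.mp ha with rfl | rfl | rfl | rfl <;> rcases mem_t.mp hx.1 with rfl | rfl | rfl <;>
      rcases mem_A.mp hb with rfl | rfl | rfl | rfl <;> decide
  have hx := ((h2 (swap 0 1) (mem_A.mpr (by decide)) (by decide)).ge (mem_zpowers _)).1
  have hy := ((h2 (swap 2 3) (mem_A.mpr (by decide)) (by decide)).ge (mem_zpowers _)).1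
  exact (orderOf_eq_prime (by decide +kernel) (by decide +kernel)).symm.dvd.trans (X.orderOf_dvd_natCard (mul_mem (mul_mem hx hx)
    (mul_mem hy (mul_mem hx hy))))

end Cfsg.Agent.S1286
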