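import Cfsg.Statements.S1297
import Cfsg.Agent.H10.Balance

set_option autoImplicit false
open Cfsg

namespace Cfsg.Agent.S1297

/-- Let G be finite. Suppose that for every involution x, writing C = C_G(x), every component K of C / O(C) has K / Z(K) locally balanced. Then G is balanced. -/
theorem result {G : Type*} [Group G] [Finite G] (h : ∀ x : G, orderOf x = 2 → ∀ K : Subgroup (↥(Subgroup.centralizer ({x} : Set G)) ⧸ Cfsg.oddCore ↥(Subgroup.centralizer ({x} : Set G))), Cfsg.IsComponent K → Cfsg.IsLocallyBalanced (↥K ⧸ Subgroup.center ↥K)) : Cfsg.IsBalanced G := by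
  open Subgroup Cfsg.Agent.H10 in
  have key : ∀ x y : G, orderOf x = 2 → orderOf y = 2 → x * y = y * x →
      centralizerPPrimeCore 2 x ⊓ Subgroup.centralizer {y} ≤ centralizerPPrimeCore 2 y := by
    intro x y hx hy hxy
    have hc : Nat.card (zpowers x) = 2 ^ 1 := by rw [Nat.card_zpowers, hx, pow_one]
    refine le_trans (inf_le_inf_right _ ?_) (delta_inf_le_OqOf (B := zpowers x) (k := 1) le_rfl
      (fun L hL => .inr fun H hH A hA hAk => ?_) ⟨inferInstance, fun a ha => ?_⟩ hc.ge
      (zpowers_le_centralizer_singleton hxy))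
    · refine le_iInf ?_
      rintro ⟨a, ha, ha1⟩
      rcases eq_bot_or_eq_of_le_zpowers hx (zpowers_le.2 ha) with e | e
      · exact absurd (zpowers_eq_bot.1 e) ha1
      · change OqOf 2 _ ≤ OqOf 2 (centralizer {a})
        rw [← centralizer_zpowers a, e, centralizer_zpowers]
    · obtain ⟨a, ha, ha1⟩ := exists_ne_one_of_card_eq le_rfl hAk
      rw [← le_bot_iff, ← h y hy L hL H hH a (orderOf_eq_of_pow (hA.2 a ha) ha1)]
      exact iInf_le (fun a : {a : H // a ∈ A ∧ a ≠ 1} => centralizerPPrimeCore 2 (a : H))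
        ⟨a, ha, ha1⟩
    · rw [← orderOf_dvd_iff_pow_eq_one, ← hx]
      exact orderOf_dvd_of_mem_zpowers ha
  intro x y hx hy hxy
  exact le_antisymm (le_inf (key x y hx hy hxy) (inf_le_left.trans OqOf_le))
    (le_inf (key y x hy hx hxy.symm) (inf_le_left.trans OqOf_le))

end Cfsg.Agent.S1297
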