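import Cfsg.Statements.S1300
import Cfsg.Agent.H10.Basic

set_option autoImplicit false
open Cfsg

namespace Cfsg.Agent.S1300

/-- For a finite group G, balance in the sense of commuting involutions is the same as 1-balance for the prime 2. -/
theorem result {G : Type*} [Group G] [Finite G] : Cfsg.IsBalanced G ↔ Cfsg.IsKBalanced 2 1 G := by
  open Subgroup Cfsg.Agent.H10 in
  classical
  have hz : ∀ x : G, orderOf x = 2 → signalizerDelta 2 (zpowers x) = centralizerPPrimeCore 2 x := by
    intro x hx
    have hx1 : x ≠ 1 := fun e => by simp [e] at hx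
    refine le_antisymm (iInf_le_of_le ⟨x, mem_zpowers x, hx1⟩ le_rfl) (le_iInf ?_)
    rintro ⟨a, ha, ha1⟩
    obtain ⟨n, hn, rfl⟩ := Finset.mem_image.1 (mem_zpowers_iff_mem_range_orderOf.1 ha)
    rw [hx, Finset.mem_range] at hn
    interval_cases n
    · exact absurd (pow_zero x) ha1
    · simp only [pow_one]; exact le_rfl
  constructor
  · intro h A hA hc b hb hab
    have : Fact (Nat.Prime 2) := ⟨Nat.prime_two⟩
    obtain ⟨x, hx⟩ := exists_prime_orderOf_dvd_card' (G := A) 2 (by rw [hc]; norm_num)
    have hx' : orderOf (x : G) = 2 := (orderOf_coe x).trans hx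
    have : zpowers (x : G) = A := eq_of_le_of_card_ge (zpowers_le.2 x.2)
      (by rw [hc, Nat.card_zpowers, hx']; norm_num)
    rw [← this, hz _ hx', h x b hx' hb (hab x x.2)]
    exact inf_le_left
  · intro h
    have key : ∀ x y : G, orderOf x = 2 → orderOf y = 2 → x * y = y * x →
        centralizerPPrimeCore 2 x ⊓ centralizer {y} ≤ centralizerPPrimeCore 2 y ⊓ centralizer {x} := by
      intro x y hx hy hxy
      refine le_inf ?_ (inf_le_left.trans (map_subtype_le _))
      rw [← hz x hx]
      refine h _ ⟨inferInstance, fun a ha => ?_⟩ (by rw [Nat.card_zpowers, hx]; norm_num) y hy ?_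
      · obtain ⟨n, rfl⟩ := ha
        rw [← hx, ← zpow_natCast, ← zpow_mul, mul_comm, zpow_mul, zpow_natCast, pow_orderOf_eq_one,
          one_zpow]
      · rintro _ ⟨n, rfl⟩
        exact ((show Commute x y from hxy).zpow_left n).eq
    exact fun x y hx hy hxy => le_antisymm (key x y hx hy hxy) (key y x hy hx hxy.symm)

end Cfsg.Agent.S1300
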