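import Cfsg.Statements.S1303
import Cfsg.Agent.H9.PCons
import Cfsg.Agent.H26.Q8C3

set_option autoImplicit false
open Cfsg

namespace Cfsg.Agent.S1303

open Subgroup Matrix MatrixGroups Cfsg.Agent.H26
open scoped commutatorElement

/-- The group X = SL(2, 3): it is 2-constrained, O_{2'}(X) = 1, its centre A = Z(X) contains every involution of X = C_X(A), and X has a subgroup of order 3 (normalized by A) not contained in O_{2'}(X). -/
theorem result : Cfsg.IsPConstrained 2 (Matrix.SpecialLinearGroup (Fin 2) (ZMod 3)) ∧ Cfsg.pPrimeCore 2 (Matrix.SpecialLinearGroup (Fin 2) (ZMod 3)) = ⊥ ∧ (∀ t : Matrix.SpecialLinearGroup (Fin 2) (ZMod 3), orderOf t = 2 → t ∈ Subgroup.center (Matrix.SpecialLinearGroup (Fin 2) (ZMod 3))) ∧ ∃ Q : Subgroup (Matrix.SpecialLinearGroup (Fin 2) (ZMod 3)), Nat.card ↥Q = 3 ∧ ¬ (Q ≤ Cfsg.pPrimeCore 2 (Matrix.SpecialLinearGroup (Fin 2) (ZMod 3))) := by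
  haveI : Fact (Nat.Prime 2) := ⟨Nat.prime_two⟩
  haveI : Fact (Nat.Prime 3) := ⟨Nat.prime_three⟩
  have h1 : pPrimeCore 2 SL(2, ZMod 3) = ⊥ := by
    have h1 : ∀ x ∈ pPrimeCore 2 SL(2, ZMod 3), x ^ 2 ^ 2 = 1 → x = 1 := fun x hx h =>
      orderOf_eq_one_iff.mp (Nat.eq_one_of_dvd_coprimes ((H1.coprime_card_pPrimeCore 2 _).pow_right 2)
        (orderOf_dvd_natCard _ hx) (orderOf_dvd_of_pow_eq_one h))
    have h2 : ∀ x : SL(2, ZMod 3), x ^ 2 ^ 2 = 1 ∨ ⁅x, slI⁆ ≠ 1 ∧ ⁅x, slI⁆ ^ 2 ^ 2 = 1 := by decide +kernel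
    exact eq_bot_iff.mpr fun x hx => (h2 x).elim (h1 x hx) fun h =>
      (h.1 (h1 _ (commutator_le_left _ ⊤ (commutator_mem_commutator hx trivial)) h.2)).elim
  refine ⟨H9.isPConstrained_of_isPSolvable (H9.isPSolvable_of_isSolvable ?_), h1, fun t ht => ?_, zpowers slW,
    by rw [Nat.card_zpowers]; exact orderOf_eq_prime (by decide +kernel) (by decide +kernel), fun h => ?_⟩
  · haveI : slHom.range.Normal := ⟨by
      rintro _ ⟨a, rfl⟩ g
      revert a g
      simp only [MonoidHom.mem_range]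
      decide +kernel⟩
    haveI : IsCyclic (SL(2, ZMod 3) ⧸ slHom.range) := ⟨slW, fun x => by
      obtain ⟨x, rfl⟩ := QuotientGroup.mk_surjective x
      obtain ⟨a, n, rfl⟩ := sl_surj x
      exact ⟨n.val, by simp [(QuotientGroup.eq_one_iff (N := slHom.range) (slHom a)).mpr ⟨a, rfl⟩]⟩⟩
    haveI := (IsPGroup.of_card (G := QuaternionGroup 2) (p := 2) (n := 3) (by simp [QuaternionGroup.card])).isNilpotent
    exact solvable_of_ker_le_range slHom (QuotientGroup.mk' slHom.range) (QuotientGroup.ker_mk' _).le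
  · have h2 : ∀ t g : SL(2, ZMod 3), t ^ 2 = 1 → g * t = t * g := by decide +kernel
    exact mem_center_iff.mpr fun g => h2 t g (orderOf_dvd_iff_pow_eq_one.mp ht.dvd)
  exact absurd (mem_bot.mp (h1.le (h (mem_zpowers _)))) (by decide +kernel)

end Cfsg.Agent.S1303
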