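import Cfsg.Statements.S1306
import Cfsg.Agent.H10.Local2

set_option autoImplicit false
open Cfsg

namespace Cfsg.Agent.S1306

/-- Let G be finite, x an involution and L ≤ C_G(x) a component of C_G(x). Suppose L is a component of C_G(y) for every involution y ∈ C_G(L), and ⁅L, g L g⁻¹⁆ ≠ 1 whenever g L g⁻¹ ≠ L. Then L is a standard subgroup of G. -/
theorem result {G : Type*} [Group G] [Finite G] (x : G) (hx : orderOf x = 2) (L : Subgroup G) (hLx : L ≤ Subgroup.centralizer ({x} : Set G)) (hL : Cfsg.IsComponent (L.subgroupOf (Subgroup.centralizer ({x} : Set G)))) (hne : ∀ y : G, orderOf y = 2 → y ∈ Subgroup.centralizer (L : Set G) → L ≤ Subgroup.centralizer ({y} : Set G) ∧ Cfsg.IsComponent (L.subgroupOf (Subgroup.centralizer ({y} : Set G)))) (hnc : ∀ g : G, L.map (MulAut.conj g).toMonoidHom ≠ L → ⁅L, L.map (MulAut.conj g).toMonoidHom⁆ ≠ ⊥) : Cfsg.IsStandardSubgroup L := by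
  open Subgroup Cfsg.Agent.H10 in
  have hL' : CompOf L _ := compOf_iff.2 ⟨hLx, hL⟩
  have hx' := le_centralizer_singleton_iff.1 hLx
  have key : ∀ g : G, 2 ∣ Nat.card ↥(centralizer (L : Set G) ⊓
      (centralizer (L : Set G)).map (MulAut.conj g).toMonoidHom) → g ∈ normalizer (L : Set G) := by
    intro g hg
    obtain ⟨y, hy, e⟩ := exists_orderOf_eq_of_dvd hg
    have h1 : CompOf L _ := compOf_iff.2 (hne y e hy.1)
    have h2 : CompOf L _ := compOf_iff.2 (hne (g⁻¹ * y * g) ((orderOf_conj' g y).trans e) (mem_conj_iff.1 hy.2))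
    have h3 := h2.map_of_injective (conj_injective g)
    rw [conj_centralizer_singleton, show g * (g⁻¹ * y * g) * g⁻¹ = y by group] at h3
    rw [mem_normalizer_iff_conj_eq]
    by_contra hn
    exact hnc g hn (h1.commutator_eq_bot h3 (Ne.symm hn))
  refine ⟨hL'.2, ⟨even_iff_two_dvd.2 (dvd_card_of_orderOf hx' hx), fun g hg => ?_⟩, hnc,
    le_antisymm (normalizer_le_normalizer_centralizer L) fun g hg => key g ?_⟩
  · rw [← Nat.not_even_iff_odd, even_iff_two_dvd]
    exact fun h => hg (normalizer_le_normalizer_centralizer L (key g h))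
  · rw [mem_normalizer_iff_conj_eq.1 hg, inf_idem]
    exact dvd_card_of_orderOf hx' hx

end Cfsg.Agent.S1306
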