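import Cfsg.Statements.S1307
import Cfsg.Agent.H15T.R1

set_option autoImplicit false
open Cfsg

namespace Cfsg.Agent.S1307

/-- Let G be finite, x an involution and L ≤ C_G(x) a component of C_G(x) of even order and 2-rank 1, such that L is a component of C_G(y) for every involution y ∈ C_G(L). Then some involution of L is a classical involution of G. -/
theorem result {G : Type*} [Group G] [Finite G] (x : G) (hx : orderOf x = 2) (L : Subgroup G) (hLx : L ≤ Subgroup.centralizer ({x} : Set G)) (hL : Cfsg.IsComponent (L.subgroupOf (Subgroup.centralizer ({x} : Set G)))) (heven : Even (Nat.card ↥L)) (hrk : Cfsg.PRankLE 2 1 ↥L) (hne : ∀ y : G, orderOf y = 2 → y ∈ Subgroup.centralizer (L : Set G) → L ≤ Subgroup.centralizer ({y} : Set G) ∧ Cfsg.IsComponent (L.subgroupOf (Subgroup.centralizer ({y} : Set G)))) : ∃ t ∈ L, Cfsg.IsClassicalInvolution t := by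
  obtain ⟨t, ht, ho, hS⟩ := Cfsg.Agent.H15T.classical_inv
    ((Cfsg.Agent.H10.isQuasisimple_subgroupOf_iff hLx).1 hL.2) heven hrk
  have ho' : orderOf (t : G) = 2 := by rw [Subgroup.orderOf_coe, ho]
  obtain ⟨h1, h2⟩ := hne t ho' (Subgroup.mem_centralizer_iff.2 fun y hy =>
    congrArg Subtype.val (Subgroup.mem_center_iff.1 ht ⟨y, hy⟩))
  exact ⟨t, t.2, ho', L, h1, t.2, h2.1, hS⟩

end Cfsg.Agent.S1307
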