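import Cfsg.Statements.S1316
import Cfsg.Agent.H10.Comp

set_option autoImplicit false
open Cfsg

namespace Cfsg.Agent.S1316

/-- For a finite group X, E(X) equals the intersection of the derived series of F*(X) (its last term). -/
theorem result {X : Type*} [Group X] [Finite X] : (⨅ n : ℕ, (derivedSeries ↥(Cfsg.generalizedFittingSubgroup X) n).map (Cfsg.generalizedFittingSubgroup X).subtype) = Cfsg.layer X := by
  open Subgroup Cfsg.Agent.H10 in
  set F := generalizedFittingSubgroup X with hF
  have hE : layer X ≤ F := le_sup_left
  apply le_antisymm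
  · have hs : Group.IsSolvable (F.map (QuotientGroup.mk' (layer X))) := by
      rw [hF, fstar_def, Subgroup.map_sup, QuotientGroup.map_mk'_self, bot_sup_eq]
      exact isSolvable_map _ _ (isSolvable_of_nilpotent (fitting_nilpotent X))
    obtain ⟨n, hn⟩ := hs
    refine (iInf_le _ n).trans ?_
    have h1 := map_derivedSeries_le_derivedSeries ((QuotientGroup.mk' (layer X)).subgroupMap F) n
    rw [hn, le_bot_iff, Subgroup.map_eq_bot_iff] at h1
    rintro _ ⟨x, hx, rfl⟩
    exact (QuotientGroup.eq_one_iff _).1 (congrArg Subtype.val (h1 hx))
  · refine le_iInf fun n => ?_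
    induction n with
    | zero => rw [derivedSeries_zero, ← MonoidHom.range_eq_map, range_subtype]; exact hE
    | succ n ih =>
      rw [derivedSeries_succ, map_commutator]
      have := LayOf_perfect (H := (⊤ : Subgroup X))
      rw [LayOf_top] at this
      exact this.ge.trans (commutator_mono ih ih)

end Cfsg.Agent.S1316
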