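import Cfsg.Statements.S1321
import Cfsg.Agent.H10.Misc

set_option autoImplicit false
open Cfsg

namespace Cfsg.Agent.S1321

/-- Let X be finite and U ≤ X. Then E(X) is generated by C_{E(X)}(U) together with ⁅E(X), U⁆ (indeed it is their product, ⁅E(X), U⁆ being normal in E(X)). -/
theorem result {X : Type*} [Group X] [Finite X] (U : Subgroup X) : Cfsg.layer X = (Cfsg.layer X ⊓ Subgroup.centralizer (U : Set X)) ⊔ ⁅Cfsg.layer X, U⁆ ∧ ⁅Cfsg.layer X, U⁆ ≤ Cfsg.layer X := by
  open Subgroup Cfsg.Agent.H10 in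
  rw [← LayOf_top]
  have h1 : ⁅LayOf (⊤ : Subgroup X), U⁆ ≤ LayOf ⊤ :=
    commutator_le_left_of_le_normalizer (le_normalizer_LayOf (le_normalizer_of_le le_top))
  refine ⟨le_antisymm ?_ (sup_le inf_le_left h1), h1⟩
  conv_lhs => rw [LayOf_eq_sSup]
  refine sSup_le fun K hK => ?_
  rcases CompOf.le_commutator_or hK (le_normalizer_of_le le_top : U ≤ _) with h | h
  · exact le_sup_of_le_right h
  · exact le_sup_of_le_left (le_inf (CompOf.le_LayOf hK) h)

end Cfsg.Agent.S1321
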