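import Cfsg.Statements.S1326
import Cfsg.Agent.H10.Comp

set_option autoImplicit false
open Cfsg

namespace Cfsg.Agent.S1326

/-- For a finite group X: the Fitting subgroup contains its centralizer if and only if the layer of X is trivial. -/
theorem result {X : Type*} [Group X] [Finite X] : Subgroup.centralizer (Cfsg.fittingSubgroup X : Set X) ≤ Cfsg.fittingSubgroup X ↔ Cfsg.layer X = ⊥ := by
  open Subgroup Cfsg.Agent.H10 in
  refine ⟨fun h => layer_eq_bot_iff.2 fun K hK => ?_, fun h => ?_⟩
  · refine QS.not_le_solvable hK.2 (isSolvable_of_nilpotent (fitting_nilpotent X)) (le_trans ?_ h)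
    have := (compOf_top.2 hK).commutator_FitOf
    rw [FitOf_top] at this
    exact commutator_eq_bot_iff_le_centralizer.1 this
  · have := inf_centralizer_FitOf_le (H := (⊤ : Subgroup X)) (LayOf_top.trans h)
    rwa [FitOf_top, top_inf_eq] at this

end Cfsg.Agent.S1326
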