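import Cfsg.Statements.S1327
import Cfsg.Agent.H10.Local2

set_option autoImplicit false
open Cfsg

namespace Cfsg.Agent.S1327

/-- A finite group X is p-constrained if and only if its p-layer L_{p'}(X) is trivial (equivalently X / O_{p'}(X) has trivial layer). -/
theorem result {X : Type*} [Group X] [Finite X] (p : ℕ) [Fact p.Prime] : Cfsg.IsPConstrained p X ↔ Cfsg.pLayer p X = ⊥ := by
  open Subgroup Cfsg.Agent.H10 in
  have hs := QuotientGroup.mk'_surjective (pPrimeCore p X)
  have key : ∀ P : Sylow p ↥(pPrimePCore p X),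
      (Subgroup.centralizer (((P : Subgroup ↥(pPrimePCore p X)).map (pPrimePCore p X).subtype :
        Subgroup X) : Set X) ≤ pPrimePCore p X ↔
        centralizer (pCore p (X ⧸ pPrimeCore p X) : Set _) ≤ pCore p (X ⧸ pPrimeCore p X)) := by
    intro P
    have h1 := H1.isSylowIn_map_subtype P
    have h2 := h1.map (QuotientGroup.mk' (pPrimeCore p X))
    have h3 : (pPrimePCore p X).map (QuotientGroup.mk' (pPrimeCore p X)) =
        pCore p (X ⧸ pPrimeCore p X) := map_comap_eq_self_of_surjective hs _
    rw [h3] at h2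
    have h4 := h2.eq_of_le h2.le le_rfl (pCore_isPGroup' _ _)
    have h5 := map_centralizer_of_surjective hs (coprime_card_of_isPGroup h1.isPGroup
      (by rw [QuotientGroup.ker_mk']; exact pPrimeCore_coprime p X))
      (.inl (isSolvable_of_isPGroup h1.isPGroup))
    rw [h4] at h5
    rw [← h5, map_le_iff_le_comap]
    rfl
  rw [pLayer_eq_bot_iff]
  have h6 := fstar_eq_pCore_iff (G := X ⧸ pPrimeCore p X) (p := p)
  rw [fstar_eq_pCore_iff', pPrimeCore_quotient_pPrimeCore, and_iff_left rfl] at h6
  rw [h6]
  exact ⟨fun h => (key default).1 (h _), fun h P => (key P).2 h⟩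

end Cfsg.Agent.S1327
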