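import Cfsg.Statements.S1328
import Cfsg.Agent.H10.Local2

set_option autoImplicit false
open Cfsg

namespace Cfsg.Agent.S1328

/-- Let G be finite, H ≤ G with O(H) = 1, t an involution of G normalizing H, and Y a nontrivial subgroup of O(C_H(t)). Then some component E of H is normalized by t and by Y and centralized by neither t nor Y. -/
theorem result {G : Type*} [Group G] [Finite G] (H : Subgroup G) (hO : Cfsg.oddCore ↥H = ⊥) (t : G) (ht : orderOf t = 2) (htH : t ∈ Subgroup.normalizer (H : Set G)) (Y : Subgroup G) (hY1 : Y ≠ ⊥) (hY : Y ≤ (Cfsg.oddCore ↥(H ⊓ Subgroup.centralizer ({t} : Set G))).map (H ⊓ Subgroup.centralizer ({t} : Set G)).subtype) : ∃ E : Subgroup ↥H, Cfsg.IsComponent E ∧ (E.map H.subtype).map (MulAut.conj t).toMonoidHom = E.map H.subtype ∧ Y ≤ Subgroup.normalizer ((E.map H.subtype : Subgroup G) : Set G) ∧ ¬ (t ∈ Subgroup.centralizer ((E.map H.subtype : Subgroup G) : Set G)) ∧ ¬ (Y ≤ Subgroup.centralizer ((E.map H.subtype : Subgroup G) : Set G))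 := by
  open Subgroup Cfsg.Agent.H10 in
  have hO' : OqOf 2 H = ⊥ := (OqOf_eq_bot_iff H).2 hO
  have hP := isPGroup_zpowers ht
  have hPH := zpowers_le.2 htH
  rw [← OqOf_def, ← centralizer_zpowers] at hY
  obtain ⟨L, hL, hYL⟩ : ∃ L, CompOf L H ∧ ¬ Y ≤ centralizer (L : Set G) := by
    by_contra hn
    push Not at hn
    exact hY1 (eq_bot_of_centralizes hO' (hY.trans (OqOf_le.trans inf_le_left))
      (coprime_card_of_le hY OqOf_coprime)
      (hY.trans (OqOf_le_XOf.trans (XOf_inf_centralizer_le_centralizer hP hPH))) hn)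
  have h1 : ¬ (t ∈ normalizer (L : Set G) → t ∈ centralizer (L : Set G)) := fun h =>
    hYL (hY.trans (OqOf_inf_centralizer_le_centralizer hP hPH hO' hL
      (zpowers_inf_normalizer_le ht h)))
  rw [Classical.not_imp] at h1
  refine ⟨L.subgroupOf H, (compOf_iff.1 hL).2, ?_⟩
  rw [subgroupOf_map_subtype, inf_eq_left.2 hL.le]
  exact ⟨mem_normalizer_iff_conj_eq.1 h1.1,
    hY.trans (OqOf_le_XOf.trans (XOf_inf_centralizer_le_normalizer hP hPH hO' hL)), h1.2, hYL⟩

end Cfsg.Agent.S1328
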