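import Cfsg.Statements.S1336
import Cfsg.Agent.H24.SPE
import Cfsg.Agent.BG.Rank

set_option autoImplicit false
open Cfsg

namespace Cfsg.Agent.S1336

open Subgroup Cfsg.Agent.H20 Cfsg.Agent.H21 Cfsg.Agent.BG Relation

/-- Let G be finite and p prime. Then G has a proper subgroup H with p ∣ |H| and p ∤ |H ∩ gHg⁻¹| for every g ∉ H (a strongly p-embedded subgroup) if and only if G is not 1-connected for p. -/
theorem result {G : Type*} [Group G] [Finite G] (p : ℕ) [Fact p.Prime] : (∃ H : Subgroup G, H ≠ ⊤ ∧ p ∣ Nat.card ↥H ∧ ∀ g : G, g ∉ H → ¬ p ∣ Nat.card ↥(H ⊓ H.map (MulAut.conj g).toMonoidHom)) ↔ ¬ Cfsg.IsKConnected p 1 G := by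
  have hp : p.Prime := Fact.out
  have hv : ∀ {A : Subgroup G}, IsElementaryAbelian p A → (p ^ 1 ≤ ♯A ↔ A ≠ ⊥) := fun {A} h => by
    obtain ⟨n, hn⟩ := elem_exists_card h
    rw [Ne, ← card_eq_one, hn, Nat.pow_le_pow_iff_right hp.one_lt, Nat.pow_eq_one]
    have := hp.one_lt
    omega
  refine (exists_congr fun H => H24.se_top_iff_card.symm).trans ⟨fun ⟨H, h⟩ hc => ?_, fun h => ?_⟩
  · obtain ⟨X, hX⟩ := exists_isElem_one (top_inf_eq H ▸ h.dvd)
    refine h.not_le fun g _ => h.mem_of_dvd trivial ((hX.cj g).card_one.symm.dvd.trans (card_dvd_of_le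
      (le_inf (le_inf le_top ?_) (cj_mono g hX.le))))
    have := hc X (cj g X) hX.elem hX.card.ge (hX.cj g).elem (hX.cj g).card.ge
    generalize cj g X = Y at this
    induction this with
    | refl => exact hX.le
    | tail _ h1 ih => exact fun b hb => h.normalizer_le' le_top ih (fun a => ⟨1, Subtype.ext
        (by simpa using h1.1.2 a a.2)⟩) ((hv h1.1).mp h1.2.1) ⟨trivial, centralizer_le_normalizer _
          fun a ha => h1.2.2.2.2 a ha b hb⟩
  obtain ⟨E, E', h1, h2, h3, h4, h5⟩ : ∃ E E' : Subgroup G, _ ∧ _ ∧ _ ∧ _ ∧ _ := by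
    simpa only [IsKConnected, not_forall, exists_prop] using h
  set R := fun A B : Subgroup G => IsElementaryAbelian p A ∧ p ^ 1 ≤ ♯A ∧ IsElementaryAbelian p B ∧
    p ^ 1 ≤ ♯B ∧ ∀ a ∈ A, ∀ b ∈ B, a * b = b * a
  have hs : ∀ {A B}, ReflTransGen R A B → ReflTransGen R B A := fun h => ReflTransGen.mono (fun A B h =>
    ⟨h.2.2.1, h.2.2.2.1, h.1, h.2.1, fun a ha b hb => (h.2.2.2.2 b hb a ha).symm⟩) _ _ (ReflTransGen.swap _ _ h)
  have hj : ∀ g {A B}, ReflTransGen R A B → ReflTransGen R (cj g A) (cj g B) := fun g _ _ =>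
    ReflTransGen.lift (p := R) (cj g) (fun A B h => ⟨elem_cj.mpr h.1, (card_cj g A).symm ▸ h.2.1,
      elem_cj.mpr h.2.2.1, (card_cj g B).symm ▸ h.2.2.2.1,
      fun a ha b hb => cent_cj g (fun b hb a ha => h.2.2.2.2 a ha b hb) hb a ha⟩) _ _
  have hP : ∀ {P A B : Subgroup G}, IsPGroup p P → A ≤ P → B ≤ P → IsElementaryAbelian p A → A ≠ ⊥ →
      IsElementaryAbelian p B → B ≠ ⊥ → ReflTransGen R A B := fun {P A B} hP hA hB h1 h2 h3 h4 => by
    have hZ := omegaOne_center_elem p P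
    have hZ' := (hv hZ).mpr (omegaOne_center_ne_bot hP (ne_bot_of_le_ne_bot h2 hA))
    exact .tail (.single ⟨h1, (hv h1).mpr h2, hZ, hZ', fun a ha b hb => omegaOne_center_le_cent p P hb a (hA ha)⟩)
      ⟨hZ, hZ', h3, (hv h3).mpr h4, fun a ha b hb => (omegaOne_center_le_cent p P ha b (hB hb)).symm⟩
  let M : Subgroup G :=
    { carrier := {g | ReflTransGen R (cj g E) E}
      mul_mem' := fun {a b} ha hb => show ReflTransGen R _ _ from cj_mul a b E ▸ (hj a hb).trans ha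
      one_mem' := show ReflTransGen R _ _ from (cj_one E).symm ▸ .refl
      inv_mem' := fun {a} ha => show ReflTransGen R _ _ from hs (by simpa only [cj_inv_cj] using hj a⁻¹ ha) }
  have hE : ∀ {A : Subgroup G}, IsElementaryAbelian p A → IsPGroup p A := fun h a =>
    ⟨1, Subtype.ext (by simpa using h.2 a a.2)⟩
  obtain ⟨T, hT⟩ := (hE h1).exists_le_sylow
  have h6 := (hv h1).mp h2
  refine ⟨M, H24.se_top_of_normalizer_le (H24.sylIn_top T) (ne_bot_of_le_ne_bot h6 hT) (fun hM => h5 ?_)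
    fun A hA h0 g hg => ?_⟩
  · obtain ⟨g, -, hg⟩ := (sylowOf_top T).exists_le_cj (hE h3) le_top
    exact (hs (hM.ge (mem_top g))).trans (hP (((sylowOf_top T).cj g).isPGroup) (cj_mono g hT) hg
      (elem_cj.mpr h1) (mt cj_eq_bot.mp h6) h3 ((hv h3).mp h4))
  obtain ⟨X, hX⟩ := exists_isElem_one_of_pgroup (T.2.to_le hA) h0
  exact (hj g (hP T.2 hT (hX.le.trans hA) h1 h6 hX.elem hX.ne_bot)).trans (hP T.2
    ((hX.cj_of_mem_norm hg).le.trans hA) hT (hX.cj g).elem (hX.cj g).ne_bot h1 h6)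

end Cfsg.Agent.S1336
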