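import Cfsg.Statements.S1337
import Cfsg.Agent.BG.S04a
import Cfsg.Agent.BG.Misc1
import Cfsg.Agent.H11.TwoGp
import Cfsg.Agent.H11.MC2

set_option autoImplicit false
open Cfsg

namespace Cfsg.Agent.S1337

open Subgroup Cfsg.Agent.H20 Cfsg.Agent.H21 Cfsg.Agent.BG Relation

/-- Let P be a finite p-group of p-rank greater than 2. Then P has a normal elementary abelian subgroup U of order p², and for every elementary abelian X ≤ P with |X| ≥ p²: X is joined to U by a chain of pairwise commuting elementary abelian subgroups of order ≥ p² if and only if C_P(X) has p-rank greater than 2. -/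
theorem result {P : Type*} [Group P] [Finite P] (p : ℕ) [Fact p.Prime] (hP : IsPGroup p P) (hrk : ¬ Cfsg.PRankLE p 2 P) : ∃ U : Subgroup P, U.Normal ∧ Cfsg.IsElementaryAbelian p U ∧ Nat.card ↥U = p ^ 2 ∧ ∀ X : Subgroup P, Cfsg.IsElementaryAbelian p X → p ^ 2 ≤ Nat.card ↥X → (Relation.ReflTransGen (fun A B : Subgroup P => Cfsg.IsElementaryAbelian p A ∧ p ^ 2 ≤ Nat.card ↥A ∧ Cfsg.IsElementaryAbelian p B ∧ p ^ 2 ≤ Nat.card ↥B ∧ ∀ a ∈ A, ∀ b ∈ B, a * b = b * a) X U ↔ ¬ Cfsg.PRankLE p 2 ↥(Subgroup.centralizer (X : Set P))) := by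
  have hp : p.Prime := Fact.out
  rw [pRankLE_top_iff, not_le] at hrk
  have hT : IsPGroup p (⊤ : Subgroup P) := hP.to_subgroup ⊤
  have hnc : ¬ IsCyclic (⊤ : Subgroup P) := not_cyclic_of_pRank (p := p) hrk.le
  obtain ⟨U, hn, hU⟩ : ∃ U : Subgroup P, U ⊴ ⊤ ∧ IsElem p 2 U ⊤ := by
    rcases hp.eq_two_or_odd' with rfl | hodd
    swap
    · obtain ⟨k, hk⟩ := pgroup_exists_card hT
      exact ex_odd_normal_p2Elem hT (hk ▸ hodd.pow) hnc
    by_contra! h
    obtain h1 | ⟨n, e, f, X, Y, h1⟩ := H11.isCyclic_or_MC_of_no_normal_klein hP fun V hV hk =>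
      h V (NormalIn.of_normal V) ⟨le_top, ⟨IsKleinFour.isMulCommutative, fun a ha => congrArg Subtype.val
        ((hk.exponent_two ▸ Monoid.pow_exponent_eq_one (⟨a, ha⟩ : V) :))⟩, hk.card_four⟩
    · exact hnc inferInstance
    obtain ⟨E, hE⟩ := exists_isElem_of_le (n := 3) hrk
    have h2 := pRank_le_add_of_index_le (K := zpowers (X 1)) (n := 1) hE (by
      have h2 := h1.relIndex_zpowers
      rw [relIndex_top_right] at h2
      haveI := normal_of_index_eq_two h2
      exact (relIndex_dvd_index_of_normal _ _).trans h2.dvd)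
    have h3 := (pRank_mono 2 (inf_le_left : zpowers (X 1) ⊓ E ≤ _)).trans (pRank_cyclic inferInstance)
    omega
  have key : ∀ {E : Subgroup P}, IsElem p 3 E ⊤ → ∃ B, IsElem p 2 B (C⟦U⟧ ⊓ E) := fun {E} hE =>
    exists_isElem_of_le (by
      have := pRank_le_add_of_index_le (K := C⟦U⟧) (n := 1) hE
        (by simpa using relIndex_cent_elem2_dvd hE.isPGroup hU (le_top.trans hn.norm))
      omega)
  have big : ∀ {X Y : Subgroup P}, IsElem p 2 X ⊤ → IsElementaryAbelian p Y → Y ≤ C⟦X⟧ → ¬ Y ≤ X →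
      2 < pRank p C⟦X⟧ := fun {X _} hX hY h1 h2 =>
    top_inf_eq C⟦X⟧ ▸ lt_pRank_cent_of_not_max hX fun h => h2 (h.le_of_cent le_top hY h1)
  refine ⟨U, normalizer_eq_top_iff.mp (top_unique hn.norm), hU.elem, hU.card, fun X hX h2 => ?_⟩
  rw [not_pRankLE_iff]
  refine ⟨fun h => ?_, fun h => ?_⟩
  · obtain ⟨n, hXn⟩ := exists_isElem_of_elem hX le_top
    rw [hXn.card, Nat.pow_le_pow_iff_right hp.one_lt] at h2
    obtain rfl | h3 := h2.eq_or_lt
    swap
    · exact h3.trans_le (hXn.of_le hXn.le_cent).le_pRank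
    by_cases e : X = U
    · obtain ⟨E, hE⟩ := exists_isElem_of_le (n := 3) hrk
      obtain ⟨B, hB⟩ := key hE
      by_cases h4 : B ≤ U
      · obtain rfl := hB.eq_of_le hU h4
        exact e ▸ (hE.of_le (le_cent_of_comm hE.comm le_rfl (hB.le.trans inf_le_right))).le_pRank
      exact e ▸ big hU hB.elem (hB.le.trans inf_le_left) h4
    induction h using ReflTransGen.head_induction_on with
    | refl => exact (e rfl).elim
    | @head A B h1 _ ih =>
      by_cases h4 : B ≤ A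
      · obtain rfl := eq_of_le_of_card_ge h4 (hXn.card ▸ h1.2.2.2.1)
        exact ih hX hXn e
      exact big hXn h1.2.2.1 (fun b hb a ha => h1.2.2.2.2 a ha b hb) h4
  obtain ⟨E, hE⟩ := exists_isElem_of_le (n := 3) h
  obtain ⟨B, hB⟩ := key hE.top
  exact .tail (.single ⟨hX, h2, hB.elem, hB.card.ge, fun a ha b hb => hE.le (hB.le hb).2 a ha⟩)
    ⟨hB.elem, hB.card.ge, hU.elem, hU.card.ge, fun a ha b hb => ((hB.le ha).1 b hb).symm⟩

end Cfsg.Agent.S1337
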