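import Cfsg.Statements.S1341
import Cfsg.Agent.H10.Misc

set_option autoImplicit false
open Cfsg

namespace Cfsg.Agent.S1341

/-- Let X be finite and T a Sylow 2-subgroup of L_{2'}(X) O_{2',2}(X). Then L*_{2'}(X) = L_{2'}(X) ⊔ O(X) ⊔ O(C_X(T)). -/
theorem result {X : Type*} [Group X] [Finite X] (T : Sylow 2 ↥(Cfsg.pLayer 2 X ⊔ Cfsg.pPrimePCore 2 X)) : Cfsg.extendedTwoLayer X = Cfsg.pLayer 2 X ⊔ Cfsg.oddCore X ⊔ ((Cfsg.oddCore ↥(Subgroup.centralizer (((T : Subgroup ↥(Cfsg.pLayer 2 X ⊔ Cfsg.pPrimePCore 2 X)).map (Cfsg.pLayer 2 X ⊔ Cfsg.pPrimePCore 2 X).subtype : Subgroup X) : Set X))).map (Subgroup.centralizer (((T : Subgroup ↥(Cfsg.pLayer 2 X ⊔ Cfsg.pPrimePCore 2 X)).map (Cfsg.pLayer 2 X ⊔ Cfsg.pPrimePCore 2 X).subtype : Subgroup X) : Set X)).subtype) := by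
  open Subgroup Cfsg.Agent.H10 in
  haveI : Fact (Nat.Prime 2) := ⟨Nat.prime_two⟩
  haveI := pLayer_normal 2 X
  refine le_antisymm (sup_le le_sup_left (iSup_le fun T' => ?_))
    (sup_le le_sup_left (le_sup_of_le_right (le_iSup_of_le T le_rfl)))
  have h1 := H1.isSylowIn_map_subtype T
  obtain ⟨k, hk, e⟩ := h1.exists_conj_eq (H1.isSylowIn_map_subtype T')
  rw [← e]
  set S := (T : Subgroup ↥(pLayer 2 X ⊔ pPrimePCore 2 X)).map (pLayer 2 X ⊔ pPrimePCore 2 X).subtype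
  change OqOf 2 (centralizer (S.map (MulAut.conj k).toMonoidHom : Set X)) ≤
    pLayer 2 X ⊔ oddCore X ⊔ OqOf 2 (centralizer (S : Set X))
  rw [← conj_centralizer, ← conj_OqOf]
  refine conj_le_of_mem le_sup_right ?_
  have hN : pLayer 2 X ⊔ pPrimePCore 2 X ≤
      normalizer ((pLayer 2 X ⊔ oddCore X ⊔ OqOf 2 (centralizer (S : Set X)) : Subgroup X) : Set X) := by
    refine sup_le (le_normalizer_of_le (le_sup_of_le_left le_sup_left))
      ((pPrimePCore_le_sup h1 le_sup_right).trans (sup_le ?_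
        (le_normalizer_of_le (le_sup_of_le_left le_sup_right))))
    exact le_normalizer_sup (le_normalizer_sup le_normalizer_of_normal le_normalizer_of_normal)
      (le_normalizer_OqOf (le_normalizer_centralizer le_normalizer))
  exact hN hk

end Cfsg.Agent.S1341
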