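import Cfsg.Statements.S1343
import Cfsg.Agent.H10.Misc
import Cfsg.Agent.S1341

set_option autoImplicit false
open Cfsg

namespace Cfsg.Agent.S1343

/-- Let X be finite. Then L*_{2'}(X) = L_{2'}(X) ⊔ F for some subgroup F of odd order normalized by a Sylow 2-subgroup of X. -/
theorem result {X : Type*} [Group X] [Finite X] : ∃ F : Subgroup X, Odd (Nat.card ↥F) ∧ (∃ S : Sylow 2 X, (S : Subgroup X) ≤ Subgroup.normalizer (F : Set X)) ∧ Cfsg.extendedTwoLayer X = Cfsg.pLayer 2 X ⊔ F := by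
  open Subgroup Cfsg.Agent.H10 in
  haveI : Fact (Nat.Prime 2) := ⟨Nat.prime_two⟩
  haveI := pLayer_normal 2 X
  haveI : (pPrimePCore 2 X).Normal := Normal.comap inferInstance _
  obtain ⟨S⟩ := (inferInstance : Nonempty (Sylow 2 X))
  have h1 := (H1.isSylowIn_top S).inf (N := pLayer 2 X ⊔ pPrimePCore 2 X) le_top le_normalizer_of_normal
  obtain ⟨T, hT⟩ := h1.exists_sylow
  have h2 := S1341.result T
  rw [hT] at h2
  refine ⟨oddCore X ⊔ OqOf 2 (centralizer (((S : Subgroup X) ⊓ (pLayer 2 X ⊔ pPrimePCore 2 X) : Subgroup X) : Set X)), ?_, ⟨S, ?_⟩, ?_⟩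
  · rw [← Nat.coprime_two_right, sup_comm]
    exact coprime_card_sup le_normalizer_of_normal OqOf_coprime (pPrimeCore_coprime 2 X)
  · exact le_normalizer_sup le_normalizer_of_normal (le_normalizer_OqOf (le_normalizer_centralizer
      (le_normalizer_inf le_normalizer le_normalizer_of_normal)))
  · rw [h2, sup_assoc]; rfl

end Cfsg.Agent.S1343
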