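import Cfsg.Statements.S1344
import Cfsg.Agent.H10.Misc

set_option autoImplicit false
open Cfsg

namespace Cfsg.Agent.S1344

/-- Let K be a 2-component of the finite group X. Then K ≤ L*_{2'}(X) and K is normal in L*_{2'}(X). -/
theorem result {X : Type*} [Group X] [Finite X] (K : Subgroup X) (hK : Cfsg.IsPComponent 2 K) : K ≤ Cfsg.extendedTwoLayer X ∧ (K.subgroupOf (Cfsg.extendedTwoLayer X)).Normal := by
  open Subgroup Cfsg.Agent.H10 in
  haveI : Fact (Nat.Prime 2) := ⟨Nat.prime_two⟩
  have hK' := pcompOf_top.2 hK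
  have h1 : K ≤ extendedTwoLayer X :=
    le_sup_of_le_left (le_sup_of_le_left (PLayOf_top (G := X) (p := 2) ▸ hK'.le_PLayOf))
  refine ⟨h1, (normal_subgroupOf_iff_le_normalizer h1).2 ?_⟩
  refine sup_le (sup_le ?_ ?_) (iSup_le fun T => ?_)
  · exact PLayOf_top (G := X) (p := 2) ▸ hK'.PLayOf_le_normalizer
  · exact (OqOf_top (G := X) 2).symm.le.trans hK'.OqOf_le_normalizer
  · have := XOf_inf_centralizer_le_normalizer_pcomp (H1.isSylowIn_map_subtype T).2
      (le_normalizer_of_le le_top) hK'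
    rw [top_inf_eq] at this
    exact OqOf_le_XOf.trans this

end Cfsg.Agent.S1344
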