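import Cfsg.Statements.S1346
import Cfsg.Agent.H10.CoreBal
import Cfsg.Agent.H10.FT

set_option autoImplicit false
open Cfsg

namespace Cfsg.Agent.S1346

/-- Let G be a finite group all of whose 2-local subgroups have known non-abelian composition factors, and x, y commuting involutions. Then the extended 2-layer of L*_{2'}(C_G(x)) ∩ C_G(y) (as a group) is contained in L*_{2'}(C_G(y)). -/
theorem result {G : Type*} [Group G] [Finite G] (hK : ∀ T : Subgroup G, IsPGroup 2 ↥T → T ≠ ⊥ → Cfsg.IsCompositionKGroup ↥(Subgroup.normalizer (T : Set G))) (x y : G) (hx : orderOf x = 2) (hy : orderOf y = 2) (hxy : x * y = y * x) : (Cfsg.extendedTwoLayer ↥((Cfsg.extendedTwoLayer ↥(Subgroup.centralizer ({x} : Set G))).map (Subgroup.centralizer ({x} : Set G)).subtype ⊓ Subgroup.centralizer ({y} : Set G))).map ((Cfsg.extendedTwoLayer ↥(Subgroup.centralizer ({x} : Set G))).map (Subgroup.centralizer ({x} : Set G)).subtype ⊓ Subgroup.centralizer ({y} : Set G)).subtype ≤ (Cfsg.extendedTwoLayer ↥(Subgroup.centralizer ({y} : Set G))).map (Subgroup.centralizer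 ({y} : Set G)).subtype := by
  open Subgroup Cfsg.Agent.H10 in
  change LstOf (LstOf (centralizer {x}) ⊓ centralizer {y}) ≤ LstOf (centralizer {y})
  haveI : Fact (Nat.Prime 2) := ⟨Nat.prime_two⟩
  set H := centralizer ({y} : Set G) with hH
  set Y := LstOf (centralizer {x}) ⊓ H with hY
  have hx2 := isPGroup_zpowers hx
  have hxH : zpowers x ≤ H := zpowers_le_centralizer_singleton hxy
  have hL : LstOf (centralizer {x}) ≤ centralizer ({x} : Set G) := map_subtype_le _
  have hs : SubnormalIn Y (H ⊓ centralizer (zpowers x : Set G)) := by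
    rw [centralizer_zpowers]
    exact SubnormalIn.of_normal (le_inf inf_le_right (inf_le_left.trans hL))
      (le_normalizer_inf (inf_le_right.trans le_normalizer_LstOf) (inf_le_left.trans le_normalizer))
  refine LstOf_le_of (hs.PLayOf_le.trans ((oddSolv.lbal_le hx2 hxH).trans PLayOf_le_LstOf))
    fun T hT hT2 => ?_
  have h1 := (hs.inf_right (centralizer (T : Set G))).OqOf_le (p := 2)
  rw [inf_assoc H, ← H10.centralizer_sup] at h1
  refine h1.trans (OqOf_inf_centralizer_le_LstOf ?_ (sup_le hxH (hT.trans inf_le_right)))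
  refine IsPGroup.to_sup_of_normal_left' hx2 hT2 (le_normalizer_of_le_centralizer ?_)
  exact hT.trans (hs.le.trans inf_le_right)

end Cfsg.Agent.S1346
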