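import Cfsg.Statements.S1348
import Cfsg.Agent.H14.GLCen

set_option autoImplicit false
open Cfsg

namespace Cfsg.Agent.S1348

/-- Let F be a finite field of odd order, n ≥ 7 odd, and t ∈ SL(n, F) the diagonal matrix with entries −1, …, −1, 1. Then E(C(t)) is a standard subgroup of SL(n, F). -/
theorem result {F : Type*} [Field F] [Fintype F] [DecidableEq F] (hF : Odd (Fintype.card F)) (n : ℕ) (hn : 7 ≤ n) (hodd : Odd n) (t : Matrix.SpecialLinearGroup (Fin n) F) (ht : (t : Matrix (Fin n) (Fin n) F) = Matrix.diagonal (fun i : Fin n => if (i : ℕ) + 1 = n then (1 : F) else -1)) : Cfsg.IsStandardSubgroup ((Cfsg.layer ↥(Subgroup.centralizer ({t} : Set (Matrix.SpecialLinearGroup (Fin n) F)))).map (Subgroup.centralizer ({t} : Set (Matrix.SpecialLinearGroup (Fin n) F))).subtype) := by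
  obtain ⟨m, rfl⟩ : ∃ m, n = m + 1 := ⟨n - 1, by omega⟩
  refine H14.GLCen.standard_SL (κ := Fin m)
    ((Equiv.sumCongr (Equiv.refl _) (Equiv.ofUnique Unit (Fin 1))).trans finSumFinEquiv)
    (H14.GLCen.two_ne_zero_of_odd hF) (by simp; omega)
    (by obtain ⟨k, hk⟩ := hodd; exact ⟨k, by simp; omega⟩) ?_
  rw [ht]
  ext i j
  refine Fin.lastCases ?_ (fun i => ?_) i <;> refine Fin.lastCases ?_ (fun j => ?_) j <;>
    simp [H14.GLCen.blk, Matrix.diagonal_apply, Matrix.one_apply, Fin.ext_iff]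
  · exact j.2.ne'
  · exact fun h => absurd h i.2.ne
  · rw [if_neg i.2.ne]
    split_ifs <;> simp

end Cfsg.Agent.S1348
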