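import Cfsg.Statements.S1350
import Cfsg.Agent.BG.S10b

set_option autoImplicit false
open Cfsg

namespace Cfsg.Agent.S1350

/-- Let G be a minimal simple group of odd order and M a maximal subgroup. Then M_σ (the largest normal σ(M)-subgroup of M) is a Hall σ(M)-subgroup of M and also of G, and every Hall σ(M)-subgroup of M that is normal in M equals M_σ. -/
theorem result {G : Type*} [Group G] [Finite G] (hG : Cfsg.IsMinSimpleOddOrder G)
    (M : Subgroup G) (hM : IsCoatom M) :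
    Cfsg.IsPiHallOf (Cfsg.sigma M) (Cfsg.sigmaCore M) M ∧ Cfsg.IsPiHall (Cfsg.sigma M) (Cfsg.sigmaCore M) ∧
      ∀ N : Subgroup G, M ≤ Subgroup.normalizer (N : Set G) → Cfsg.IsPiHallOf (Cfsg.sigma M) N M →
        N = Cfsg.sigmaCore M := by
  have : Cfsg.Agent.BG.MinSimple G := ⟨hG⟩
  exact ⟨BG.Msigma_Hall hM, H21.Hall.top_iff.1 (BG.Msigma_Hall_G hM),
    fun N h1 h2 => H21.Hall.eq_piCoreOf h2 ⟨h2.1, h1⟩⟩

end Cfsg.Agent.S1350
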