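import Cfsg.Statements.S1396
import Cfsg.Agent.BG.S07

set_option autoImplicit false
open Cfsg

namespace Cfsg.Agent.S1396

/-- Let G be a minimal simple group of odd order, p a prime dividing the order of G and A an abelian p-subgroup. Suppose either (1) A consists exactly of the elements x of C_G(A) with x^p = 1, and every proper subgroup of G has p-length at most one, or (2) A is normal and self-centralizing in some Sylow p-subgroup of G and has rank at least 2. Then A satisfies the transitivity hypothesis. -/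
theorem result {G : Type*} [Group G] [Finite G] (hG : Cfsg.IsMinSimpleOddOrder G)
    (p : ℕ) [Fact p.Prime] (hp : p ∣ Nat.card G) (A : Subgroup G) (hAp : IsPGroup p A) (hAc : IsMulCommutative A)
    (h : (∀ x ∈ Subgroup.centralizer (A : Set G), x ^ p = 1 ↔ x ∈ A) ∧ (∀ H : Subgroup G, H ≠ ⊤ → Cfsg.PLengthLE p 1 H) ∨
      ∃ P : Sylow p G, Cfsg.IsSCN (P : Subgroup G) A ∧ ¬ Cfsg.PRankLE p 1 A) :
    Cfsg.TransitivityHypothesis A := by
  haveI : Cfsg.Agent.BG.MinSimple G := ⟨hG⟩
  refine BG.normedConstrained_iff.1 ?_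
  rcases h with ⟨h1, h2⟩ | ⟨P, h1, h2⟩
  · have hA : H20.IsMaxElem p A ⊤ := BG.isMaxElem_mk le_top
      ⟨hAc, fun a ha => (h1 a (H20.comm_le_cent hAc ha)).2 ha⟩ fun x _ hx hxp => (h1 x hx).1 hxp
    exact BG.plength_1_normed_constrained (hA.ne_bot (by rwa [H21.card_top'])) hA
      fun M hM => H21.pLen1_iff_pLengthLE.2 (h2 M hM)
  · exact BG.SCN_normed_constrained (H21.sylowOf_top P) h1
      ((BG.not_pRankLE_iff.1 h2).trans_le (BG.pRank_le_rank p A))

end Cfsg.Agent.S1396
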