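import Cfsg.Statements.S1405
import Cfsg.Agent.BG.S10b

set_option autoImplicit false
open Cfsg

namespace Cfsg.Agent.S1405

/-- Let G be a minimal simple group of odd order and M a maximal subgroup, α(M) the set of primes p with M of p-rank at least 3, and M_α = O_{α(M)}(M). Then M_α is a Hall α(M)-subgroup of M and of G, M_α ≤ M_σ, the quotient M/M_α has no elementary abelian subgroup of order p ^ 3 for any prime p, and the image of M' in M/M_α is nilpotent. -/
theorem result {G : Type*} [Group G] [Finite G] (hG : Cfsg.IsMinSimpleOddOrder G)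
    (M : Subgroup G) (hM : IsCoatom M) :
    Cfsg.IsPiHallOf (Cfsg.alpha M) (Cfsg.alphaCore M) M ∧ Cfsg.IsPiHall (Cfsg.alpha M) (Cfsg.alphaCore M) ∧
      Cfsg.alphaCore M ≤ Cfsg.sigmaCore M ∧ Cfsg.RankLE 2 (↥M ⧸ Cfsg.piCore (Cfsg.alpha M) ↥M) ∧
      Group.IsNilpotent ↥((commutator ↥M).map (QuotientGroup.mk' (Cfsg.piCore (Cfsg.alpha M) ↥M))) := by
  have : Cfsg.Agent.BG.MinSimple G := ⟨hG⟩
  refine ⟨BG.Malpha_Hall hM, H21.Hall.top_iff.1 (BG.Malpha_Hall_G hM), BG.Malpha_sub_Msigma hM, ?_, ?_⟩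
  · rw [BG.rankLE_top_iff, ← BG.rank_map (H20.quoEmb_injective _), H20.top_map_quoEmb]
    exact BG.Malpha_quo_rank2 hM
  · rw [← H20.isNilpotent_map_iff (H20.quoEmb_injective _), H20.map_mk'_map_quoEmb, Subgroup.map_subtype_commutator]
    exact BG.Malpha_quo_nil hM

end Cfsg.Agent.S1405
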