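import Cfsg.Statements.S1414
import Cfsg.Agent.BG.S10b

set_option autoImplicit false
open Cfsg

namespace Cfsg.Agent.S1414

/-- Let G be a minimal simple group of odd order, M a maximal subgroup, β(M) the set of ideal primes in α(M), and M_β = O_{β(M)}(M). Then M_β is a Hall β(M)-subgroup of M and of G; M' and M_σ each have a nilpotent Hall β(M)'-subgroup; and for each prime p dividing the order of M with p ∉ β(M), both M' and M_σ have normal p-complements and every prime dividing the index of O_{p'}(M) in M is at most p. -/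
theorem result {G : Type*} [Group G] [Finite G] (hG : Cfsg.IsMinSimpleOddOrder G)
    (M : Subgroup G) (hM : IsCoatom M) :
    Cfsg.IsPiHallOf (Cfsg.beta M) (Cfsg.piCoreOf (Cfsg.beta M) M) M ∧ Cfsg.IsPiHall (Cfsg.beta M) (Cfsg.piCoreOf (Cfsg.beta M) M) ∧
      (∃ H : Subgroup G, Cfsg.IsPiHallOf {q | q.Prime ∧ q ∉ Cfsg.beta M} H ⁅M, M⁆ ∧ Group.IsNilpotent H) ∧
      (∃ H : Subgroup G, Cfsg.IsPiHallOf {q | q.Prime ∧ q ∉ Cfsg.beta M} H (Cfsg.sigmaCore M) ∧ Group.IsNilpotent H) ∧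
      ∀ p : ℕ, p.Prime → p ∣ Nat.card M → p ∉ Cfsg.beta M →
        Cfsg.HasNormalPComplement p ↥⁅M, M⁆ ∧ Cfsg.HasNormalPComplement p ↥(Cfsg.sigmaCore M) ∧
        ∀ q : ℕ, q.Prime → q ∣ (Cfsg.pPrimeCore p ↥M).index → q ≤ p := by
  have : Cfsg.Agent.BG.MinSimple G := ⟨hG⟩
  have key : ∀ K ≤ ⁅M, M⁆, ∃ H : Subgroup G, Cfsg.IsPiHallOf {q | q.Prime ∧ q ∉ Cfsg.beta M} H K ∧
      Group.IsNilpotent H := fun K hK => by
    obtain ⟨H, hH⟩ := H21.exists_hall {q | q.Prime ∧ q ∉ Cfsg.beta M}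
      (BG.sub_mmax_sol hM (hK.trans (H21.der_le M)))
    exact ⟨H, hH, BG.beta'_der1_nil hM ((H21.Hall.isPi hH).mono fun _ h => h.2) (hH.1.trans hK)⟩
  refine ⟨BG.Mbeta_Hall hM, H21.Hall.top_iff.1 (BG.Mbeta_Hall_G hM), key _ le_rfl, key _ (BG.Msigma_der1 hM),
    fun p hp _ hb => ?_⟩
  have := Fact.mk hp
  obtain ⟨h1, h2, h3⟩ := BG.beta_max_pdiv hM hb
  refine ⟨H21.hasNormalPComplement_iff.2 h1, H21.hasNormalPComplement_iff.2 h2, fun q hq hd => h3 q hq ?_⟩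
  rwa [← H21.map_pPrimeCore, Subgroup.relIndex, Subgroup.subgroupOf,
    Subgroup.comap_map_eq_self_of_injective M.subtype_injective]

end Cfsg.Agent.S1414
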