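import Cfsg.Statements.S1433
import Mathlib
import Cfsg.Agent.BG.S14a
import Cfsg.Agent.BG.Fcore

set_option autoImplicit false
open Cfsg

namespace Cfsg.Agent.S1433

open Cfsg.Agent.BG Cfsg.Agent.H20 Cfsg.Agent.H21 in
theorem fcore_le {G : Type*} [Group G] [Finite G] [BG.MinSimple G] {L : Subgroup G} (hL : IsCoatom L) :
    fittingHallOf L ≤ sigmaCore L := by
  refine le_Msigma_s13 hL (Fcore_le L) fun p hp hd => ?_
  haveI := Fact.mk hp
  have hS := Fcore_pcore_Sylow hd
  have h1 := Hall.sylow_ne_bot hS (hd.trans (card_dvd (Fcore_le L)))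
  exact sigma_of_norm_Sylow hS h1 (mmax_normal hL (piCoreOf_normalIn _ L) h1).le

open Cfsg.Agent.BG Cfsg.Agent.H20 Cfsg.Agent.H21 in
theorem supportR_le {G : Type*} [Group G] [Finite G] [BG.MinSimple G] {M : Subgroup G} (hM : IsCoatom M)
    {x : G} (hx : x ∈ sigmaCore M) (h1 : x ≠ 1) : supportR M x ≤ sigR x := by
  unfold supportR
  split_ifs with h
  · have h2 := (not_sCX_card_sigma_mmax ⟨hM, hx⟩ h1).2 h.1
    have h3 := Classical.choose_spec h.2.exists
    rw [(FT_signalizer_context2 (Msigma_ell1 hM hx h1) h2).2.1.eq h3.1 h3.2]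
    exact inf_le_inf_right _ (fcore_le (FT_signalizer_context2 (Msigma_ell1 hM hx h1) h2).1)
  · exact bot_le

/-- Let G be a minimal simple group of odd order, M and N maximal subgroups, x ≠ 1 in M_σ and y ≠ 1 in N_σ with x ≠ y, where R(x) = 1 if C_G(x) ≤ M and R(x) = C_{L_F}(x) for the unique maximal L containing C_G(x) otherwise (and likewise R(y) relative to N). Then no element lies in both x R(x) and y R(y). -/
theorem result {G : Type*} [Group G] [Finite G] (hG : Cfsg.IsMinSimpleOddOrder G)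
    (M N : Subgroup G) (hM : IsCoatom M) (hN : IsCoatom N) (x y : G) (hx : x ∈ Cfsg.sigmaCore M) (hy : y ∈ Cfsg.sigmaCore N)
    (hx1 : x ≠ 1) (hy1 : y ≠ 1) (hxy : x ≠ y) :
    ∀ r ∈ Cfsg.supportR M x, ∀ s ∈ Cfsg.supportR N y, x * r ≠ y * s := by
  haveI : BG.MinSimple G := ⟨hG⟩
  exact fun r hr s hs => BG.sigma_cover_disjoint (BG.Msigma_ell1 hM hx hx1) (BG.Msigma_ell1 hN hy hy1) hxy
    r (supportR_le hM hx hx1 hr) s (supportR_le hN hy hy1 hs)

end Cfsg.Agent.S1433
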