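import Cfsg.Statements.S1441
import Cfsg.Agent.BG.S01b

set_option autoImplicit false
open Cfsg

namespace Cfsg.Agent.S1441

open Cfsg.Agent.H20 Cfsg.Agent.H21 Cfsg.Agent.BG

/-- Let G be a finite group, H a solvable subgroup and A a subgroup normalizing H. Suppose there is a chain H = H₀ ≥ H₁ ≥ ⋯ ≥ H_n = 1 of subgroups normal in H and normalized by A such that A acts trivially on each factor H_{i-1}/H_i (that is, [H_{i-1}, A] ≤ H_i). Then every prime dividing the index of C_A(H) in A divides the order of H. -/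
theorem result {G : Type*} [Group G] [Finite G] (H A : Subgroup G) (hH : Group.IsSolvable H) (hA : (A ≤ Subgroup.normalizer (H : Set G)))
    (n : ℕ) (c : Fin (n + 1) → Subgroup G) (hc0 : c 0 = H) (hcn : c (Fin.last n) = ⊥) (hanti : Antitone c)
    (hcN : ∀ i, H ≤ Subgroup.normalizer ((c i : Subgroup G) : Set G)) (hcA : ∀ i, A ≤ Subgroup.normalizer ((c i : Subgroup G) : Set G))
    (htriv : ∀ i : Fin n, ⁅c i.castSucc, A⁆ ≤ c i.succ) :
    ∀ p : ℕ, p.Prime → p ∣ (A ⊓ Subgroup.centralizer (H : Set G)).relIndex A → p ∣ Nat.card H := by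
  intro p hp hd
  by_contra hn
  haveI := Fact.mk hp
  obtain ⟨S, hS⟩ := exists_sylowOf (p := p) A
  have hle : ∀ i, c i ≤ H := fun i => hc0 ▸ hanti (Fin.zero_le i)
  have h1 : S ≤ C⟦H⟧ := hc0 ▸ coprime_cent_of_chain c hcn (fun i =>
    (coprime_of_isPGroup hS.isPGroup (coprime_of_le_left ((Nat.Prime.coprime_iff_not_dvd hp).2 hn).symm
      (hle i))).symm) (fun i => (Subgroup.commutator_mono le_rfl hS.le).trans (htriv i)) 0
  exact hS.not_dvd (hd.trans (Subgroup.relIndex_dvd_of_le_left A (le_inf hS.le h1)))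

end Cfsg.Agent.S1441
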