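import Cfsg.Statements.S1445
import Cfsg.Agent.BG.S03a

set_option autoImplicit false
set_option linter.style.haveILetI false
open Cfsg

namespace Cfsg.Agent.S1445

open Cfsg.Agent.H20 Cfsg.Agent.H21 Cfsg.Agent.BG

/-- Let G be a solvable group of odd order, K a normal subgroup and R a subgroup with G = KR and the orders of K and R coprime. Suppose K ∩ C_G(x) = K ∩ C_G(R) for every non-identity x ∈ R, and F(K) ∩ C_G(R) = 1. Then [K, R] is contained in the Fitting subgroup of K. -/
theorem result {G : Type*} [Group G] [Finite G] [Group.IsSolvable G] (hodd : Odd (Nat.card G)) (K R : Subgroup G) [K.Normal] (hKR : K ⊔ R = ⊤) (hcop : (Nat.card K).Coprime (Nat.card R))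
    (hprime : ∀ x ∈ R, x ≠ 1 → K ⊓ Subgroup.centralizer ({x} : Set G) = (K ⊓ Subgroup.centralizer (R : Set G)))
    (hF : Cfsg.fittingOf K ⊓ Subgroup.centralizer (R : Set G) = ⊥) :
    ⁅K, R⁆ ≤ Cfsg.fittingOf K := by
  have ho : ∀ A : Subgroup G, Odd (Nat.card A) := fun A => hodd.of_dvd_nat (card_dvd_card A)
  exact odd_sdprod_primact_commg_sub_Fitting Subgroup.le_normalizer_of_normal (ho K) (ho R) inferInstance
    inferInstance hcop hprime hF

end Cfsg.Agent.S1445
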