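import Cfsg.Statements.S1450
import Cfsg.Agent.H21.Top

set_option autoImplicit false
set_option linter.style.haveILetI false
open Cfsg

namespace Cfsg.Agent.S1450

open Cfsg.Agent.H20 Cfsg.Agent.H21 Cfsg.Agent.BG

/-- Let G be a solvable group of odd order, p a prime dividing its order with G having no elementary abelian subgroup of order p ^ 3. Then every prime dividing the index of O_{p'}(G) is at most p; if p = 3 or p is the smallest prime divisor of #G then G has a normal p-complement; the derived subgroup G' has a normal p-complement; every subgroup of G' of order coprime to p lies in O_{p'}(G'); and G/O_{p',p}(G) is abelian of order coprime to p. -/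
theorem result {G : Type*} [Group G] [Finite G] [Group.IsSolvable G] (hodd : Odd (Nat.card G)) (p : ℕ) [Fact p.Prime] (hpG : p ∣ Nat.card G) (hr : Cfsg.PRankLE p 2 G) :
    (∀ q : ℕ, q.Prime → q ∣ (Cfsg.pPrimeCore p G).index → q ≤ p) ∧
      ((p = 3 ∨ ∀ q : ℕ, q.Prime → q ∣ Nat.card G → p ≤ q) → Cfsg.HasNormalPComplement p G) ∧
      Cfsg.HasNormalPComplement p ↥(commutator G) ∧
      (∀ L : Subgroup ↥(commutator G), (Nat.card L).Coprime p → L ≤ Cfsg.pPrimeCore p ↥(commutator G)) ∧
      commutator G ≤ Cfsg.pPrimePCore p G ∧ ((Cfsg.pPrimePCore p G).index).Coprime p := by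
  have hG : Group.IsSolvable (⊤ : Subgroup G) := sol_top_iff.2 ‹_›
  have ho := odd_top_iff.2 hodd
  have h := pRankLE_top_iff.1 hr
  obtain ⟨h1, h2, h3⟩ := rank2_der1_complement p hG ho h
  refine ⟨fun q hq hd => rank2_max_pdiv hG ho h hq (index_pPrimeCore_eq (G := G) p ▸ hd), fun hm =>
    hasNormalPComplement_iff_top.2 (rank2_min_p_complement hG ho h (by rwa [card_top'])),
    hasNormalPComplement_iff.2 h1, fun L hL => ?_, pPrimePCoreOf_top (G := G) p ▸ h2, ?_⟩
  · rw [← map_le_map_iff_inj (Subgroup.subtype_injective _), map_pPrimeCore]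
    exact rank2_sub_p'core_der1 hG ho h (Subgroup.map_subtype_le L)
      (isPi_map_subtype.2 ((isPi_compl_singleton_iff_coprime Fact.out).2 hL))
  · exact ((Nat.Prime.coprime_iff_not_dvd Fact.out).2 (pLengthLE_one_iff.1 (pLen1_top_iff.1 h3))).symm

end Cfsg.Agent.S1450
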