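import Cfsg.Statements.S1451
import Cfsg.Agent.H21.Top

set_option autoImplicit false
set_option linter.style.haveILetI false
open Cfsg

namespace Cfsg.Agent.S1451

open Cfsg.Agent.H20 Cfsg.Agent.H21 Cfsg.Agent.BG

/-- Let G be a solvable group of odd order such that G, or its Fitting subgroup, has no elementary abelian subgroup of order q ^ 3 for any prime q. Then G' is nilpotent; for every Sylow subgroup S of G, every characteristic subgroup T of S with T ≤ [S, S] is normal in G; and for every prime p, G has a characteristic subgroup that is a Hall subgroup for the set of primes greater than p. -/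
theorem result {G : Type*} [Group G] [Finite G] [Group.IsSolvable G] (hodd : Odd (Nat.card G)) (hr : Cfsg.RankLE 2 G ∨ Cfsg.RankLE 2 (Cfsg.fittingSubgroup G)) :
    Group.IsNilpotent ↥(commutator G) ∧
      (∀ (q : ℕ) [Fact q.Prime] (S : Sylow q G) (T : Subgroup ↥(S : Subgroup G)), T.Characteristic → T.map (S : Subgroup G).subtype ≤ ⁅(S : Subgroup G), (S : Subgroup G)⁆ →
        (T.map (S : Subgroup G).subtype).Normal) ∧
      ∀ p : ℕ, ∃ N : Subgroup G, N.Characteristic ∧ Cfsg.IsPiHall {q | q.Prime ∧ p < q} N := by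
  have hG : Group.IsSolvable (⊤ : Subgroup G) := sol_top_iff.2 ‹_›
  have ho := odd_top_iff.2 hodd
  have h : rank (fittingOf (⊤ : Subgroup G)) ≤ 2 := hr.elim
    (fun h => (rank_mono le_top).trans (rankLE_top_iff.1 h)) fun h => fittingOf_top (G := G) ▸ rankLE_iff.1 h
  refine ⟨nil_of_le (nil_fittingOf ⊤) (rank2_der1_sub_Fitting ho hG h), fun q _ S T hT hle =>
    (rank2_char_Sylow_normal ho hG h (sylowOf_top S) charIn_map_subtype hle).normal, fun p =>
    ⟨_, CharIn.top_iff.1 (piCoreOf_charIn {q | p + 1 ≤ q} ⊤), Hall.top_iff.1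
      ((rank2_ge_pcore_Hall (p + 1) ho hG h).congr fun q hq _ => ?_)⟩⟩
  exact ⟨fun h => ⟨hq, h⟩, fun h => h.2⟩

end Cfsg.Agent.S1451
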