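import Cfsg.Statements.S1453
import Mathlib
import Cfsg.Agent.BG.S05

set_option autoImplicit false
open Cfsg

namespace Cfsg.Agent.S1453

open Cfsg.Agent.BG Cfsg.Agent.H20 Cfsg.Agent.H21 in
theorem ucn2_top {R : Type*} [Group R] [Finite R] :
    ucn2 (⊤ : Subgroup R) = Subgroup.upperCentralSeries R 2 := by
  ext x
  rw [mem_ucn2, centerOf_top, Subgroup.mem_upperCentralSeries_succ_iff, Subgroup.upperCentralSeries_one]
  simp [commutatorElement_def]

/-- Let p be an odd prime and R a finite p-group with an elementary abelian subgroup of order p ^ 3 and an elementary abelian subgroup E of order p ^ 2 contained in no larger elementary abelian subgroup. Let Z₂ be the second centre of R, W the subgroup generated by the elements of Z₂ of order dividing p, and T = C_R(W). Then E is not contained in T; the elements of order dividing p of the centre of R generate a group of order p; W is elementary abelian of order p ^ 2; and T is characteristic in R of index p. -/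
theorem result {R : Type*} [Group R] [Finite R] (p : ℕ) [Fact p.Prime] (hp : p ≠ 2) (hR : IsPGroup p R) (hr : ¬ Cfsg.PRankLE p 2 R)
    (E : Subgroup R) (hE : Cfsg.IsElementaryAbelian p E) (hE2 : Nat.card E = p ^ 2)
    (hEmax : ∀ B : Subgroup R, Cfsg.IsElementaryAbelian p B → E ≤ B → B = E) :
    ¬ E ≤ Subgroup.centralizer ((Subgroup.closure {x : R | x ∈ Subgroup.upperCentralSeries R 2 ∧ x ^ p = 1} : Subgroup R) : Set R) ∧
      Nat.card ↥(Subgroup.closure {x : R | x ∈ Subgroup.center R ∧ x ^ p = 1}) = p ∧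
      (Cfsg.IsElementaryAbelian p (Subgroup.closure {x : R | x ∈ Subgroup.upperCentralSeries R 2 ∧ x ^ p = 1}) ∧
        Nat.card ↥(Subgroup.closure {x : R | x ∈ Subgroup.upperCentralSeries R 2 ∧ x ^ p = 1}) = p ^ 2) ∧
      (Subgroup.centralizer ((Subgroup.closure {x : R | x ∈ Subgroup.upperCentralSeries R 2 ∧ x ^ p = 1} : Subgroup R) : Set R)).Characteristic ∧
      (Subgroup.centralizer ((Subgroup.closure {x : R | x ∈ Subgroup.upperCentralSeries R 2 ∧ x ^ p = 1} : Subgroup R) : Set R)).index = p := by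
  have h1 : IsPGroup p (⊤ : Subgroup R) := H21.pgroup_top_iff.2 hR
  obtain ⟨h2, h3, h4, h5, h6⟩ := BG.Ohm1_ucn_p2maxElem h1 (H21.odd_of_pgroup hp h1)
    (not_le.1 fun h => hr (BG.pRankLE_top_iff.2 h)) ⟨le_top, hE, hE2⟩ ⟨le_top, hE, fun B _ => hEmax B⟩
  rw [ucn2_top] at h2 h4 h5 h6
  rw [H20.centerOf_top] at h3
  rw [top_inf_eq] at h5 h6
  rw [Subgroup.relIndex_top_right] at h6
  exact ⟨h2, h3, h4.2, H20.CharIn.top_iff.1 h5, h6⟩

end Cfsg.Agent.S1453
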