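import Cfsg.Statements.S1454
import Mathlib
import Cfsg.Agent.BG.S05

set_option autoImplicit false
open Cfsg

namespace Cfsg.Agent.S1454

open Subgroup Cfsg.Agent.BG Cfsg.Agent.H20 Cfsg.Agent.H21 in
theorem card_cube {G : Type*} [Group G] [Finite G] {p : ℕ} [hp : Fact p.Prime] {R A : Subgroup G}
    (hR : IsPGroup p R) (hodd : Odd ♯R) (hr : pRank p R ≤ 2) (hA : A ≤ N⟦R⟧) (hoA : Odd ♯A)
    (hq : (♯A).Prime) (hd : ¬ ♯A ∣ p * (p - 1)) (hRA : ⁅R, A⁆ = R) (hc : ¬ IsMulCommutative R) :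
    ♯R = p ^ 3 := by
  have hcop : (♯A).Coprime p := (Nat.Prime.coprime_iff_not_dvd hq).2 fun h => hd (h.mul_right _)
  have h1 : R ≠ ⊥ := by rintro rfl; exact hc comm_bot
  obtain ⟨-, h | ⟨S, C, hS, hS3, -, hSC, hcC, hC, hO⟩⟩ :=
    rank2_coprime_comm_cprod hR hodd h1 hr hA hRA hcop hoA
  · exact absurd h hc
  have hes := extraspecialOf_of_card_cube hS3 hS
  have hSR : S ≤ R := le_sup_left.trans hSC.le
  have hCR : C ≤ R := le_sup_right.trans hSC.le
  have hCc := comm_of_cyclic hC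
  have hCZ : C ≤ centerOf R :=
    le_centerOf hCR (by rw [← hSC]; exact le_cent_sup (cent_symm hcC) (comm_le_cent hCc))
  have hZ : centerOf R = C := by
    refine le_antisymm (fun z hz => ?_) hCZ
    have hz1 : z ∈ S ⊔ C := hSC.ge (centerOf_le R hz)
    obtain ⟨s, hs, c, hc', rfl⟩ := (mem_sup_of_norm (hcC.trans (cent_le_norm C))).1 hz1
    have h2 : s ∈ centerOf R := by simpa using mul_mem hz (inv_mem (hCZ hc'))
    have h3 : s ∈ centerOf S := centerOf_inf_le hSR ⟨h2, hs⟩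
    rw [hes.1, ← hO] at h3
    exact mul_mem (omegaOne_le p C h3) hc'
  have hAC : A ≤ C⟦C⟧ := by
    have h2 := relIndex_cent_cyclic_dvd hC (hZ ▸ norm_centerOf hA)
    rcases (Nat.dvd_prime hq).1 (relIndex_dvd_card C⟦C⟧ A) with h | h
    · exact relIndex_eq_one.1 h
    · exfalso
      obtain ⟨k, hk⟩ := IsPGroup.iff_card.1 (hR.to_le hCR)
      rw [h, hk] at h2
      rcases k with _ | k
      · exact hq.one_lt.ne' (Nat.dvd_one.1 (by simpa using h2))
      · rw [Nat.totient_prime_pow_succ hp.out] at h2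
        rcases (Nat.Prime.dvd_mul hq).1 h2 with h3 | h3
        · exact hd ((hq.dvd_of_dvd_pow h3).mul_right _)
        · exact hd (h3.mul_left _)
  have hn : R ≤ N⟦⁅R, R⁆⟧ := (charIn_der R).normalIn.norm
  have hAn : A ≤ N⟦⁅R, R⁆⟧ := (charIn_der R).norm hA
  have h3 := coprime_comm_commg_inf_cent (V := quo R ⁅R, R⁆) (A := quo A ⁅R, R⁆)
    ((quo_comm_iff hn).2 le_rfl) (quo_norm _ hA)
    (coprime_quo_quo (coprime_of_isPGroup hR hcop) _)
  rw [← quo_commg hn hAn, hRA] at h3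
  have h4 : C ≤ ⁅R, R⁆ := (quo_eq_bot_iff (hCR.trans hn)).1
    (le_bot_iff.1 (h3 ▸ le_inf (quo_mono _ hCR) (quo_cent _ (cent_symm hAC))))
  rw [← hSC, der_sup_of_cent hcC, der_eq_bot_iff.2 hCc, sup_bot_eq] at h4
  rw [← hSC, sup_eq_left.2 (h4.trans (der_le S)), hS3]

/-- Let G be a finite group, p an odd prime, R a narrow p-subgroup and A a solvable subgroup of odd order normalizing R with A ∩ C_G(R) = 1. Then [A, A] ≤ O_p(A) and the index of O_p(A) in A is coprime to p; if R has an elementary abelian subgroup of order p ^ 3 then the order of every element of A of order coprime to p divides p − 1; and if the order of A is a prime not dividing p(p − 1), then 2·#A divides p + 1, and if in addition [R, A] = R and R is non-abelian then #R = p ^ 3. -/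
theorem result {G : Type*} [Group G] [Finite G] (p : ℕ) [Fact p.Prime] (hp : p ≠ 2) (R A : Subgroup G) (hR : IsPGroup p R) (hRn : Cfsg.IsNarrow p R)
    (hA : (A ≤ Subgroup.normalizer (R : Set G))) (hAs : Group.IsSolvable A) (hAodd : Odd (Nat.card A)) (hfaith : A ⊓ Subgroup.centralizer (R : Set G) = ⊥) :
    (commutator ↥A ≤ Cfsg.pCore p ↥A ∧ ((Cfsg.pCore p ↥A).index).Coprime p) ∧
      (¬ Cfsg.PRankLE p 2 R → ∀ a ∈ A, (orderOf a).Coprime p → orderOf a ∣ p - 1) ∧
      ((Nat.card A).Prime → ¬ Nat.card A ∣ p * (p - 1) →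
        2 * Nat.card A ∣ p + 1 ∧ (⁅R, A⁆ = R → ¬ IsMulCommutative R → Nat.card R = p ^ 3)) := by
  have hodd := H21.odd_of_pgroup hp hR
  obtain ⟨h1, h2, h3⟩ := BG.Aut_narrow hR hodd ((BG.narrow_iff_isNarrow hR hodd).2 hRn) hA hAs hAodd
  have hrel : ∀ K ≤ A, (Subgroup.centralizer (R : Set G)).relIndex K = Nat.card K := fun K hK => by
    rw [← Subgroup.inf_relIndex_right, ← Subgroup.relIndex_bot_left]
    congr 1
    exact le_bot_iff.1 (hfaith ▸ le_inf (inf_le_right.trans hK) inf_le_left)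
  have hc : H21.coreMod {p} (Subgroup.centralizer (R : Set G)) A = Cfsg.piCoreOf {p} A := by
    refine le_antisymm (H21.le_piCoreOf (H21.coreMod_normalIn _ (H21.norm_cent hA)) ?_)
      (H21.piCoreOf_le_coreMod _ _ _)
    have := H21.piNat_coreMod {p} (H21.norm_cent hA)
    rwa [hrel _ (H21.coreMod_le _ _ _)] at this
  rw [hc, ← H21.map_pCore] at h1 h2
  have hb : ¬ Cfsg.PRankLE p 2 R → ∀ a ∈ A, (orderOf a).Coprime p → orderOf a ∣ p - 1 :=
    fun hr a ha hco => orderOf_dvd_of_pow_eq_one (Subgroup.mem_bot.1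
      (hfaith ▸ (⟨pow_mem ha _, h3 (BG.not_pRankLE_iff.1 hr) a ha hco⟩ :
        a ^ (p - 1) ∈ A ⊓ Subgroup.centralizer (R : Set G))))
  refine ⟨⟨?_, ?_⟩, hb, fun hq hd => ?_⟩
  · rwa [← Subgroup.map_subtype_commutator, Subgroup.map_subtype_le_map_subtype] at h2
  · rw [Subgroup.relIndex, H20.subgroupOf_map_subtype_self] at h1
    exact ((Nat.Prime.coprime_iff_not_dvd Fact.out).2 h1).symm
  have hqp : Nat.card A ≠ p := fun h => hd (h ▸ dvd_mul_right _ _)
  have hr : H20.pRank p R ≤ 2 := by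
    by_contra hr
    haveI := Fact.mk hq
    obtain ⟨a, ha⟩ := exists_prime_orderOf_dvd_card' (G := A) (Nat.card A) dvd_rfl
    rw [← Subgroup.orderOf_coe] at ha
    have := hb (fun h => hr (BG.pRankLE_iff.1 h)) a a.2
      (by rw [ha]; exact (Nat.coprime_primes hq Fact.out).2 hqp)
    exact hd ((ha ▸ this).mul_left _)
  refine ⟨?_, card_cube hR hodd hr hA hAodd hq hd⟩
  obtain ⟨-, -, h | h⟩ := BG.pi_Aut_rank2_pgroup hR hodd hr hA hq (by rw [hrel A le_rfl]) hqp
  · exact h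
  · exact absurd (((dvd_mul_left _ 2).trans h).mul_left _) hd

end Cfsg.Agent.S1454
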