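import Cfsg.Statements.S1455
import Mathlib
import Cfsg.Agent.BG.S05

set_option autoImplicit false
open Cfsg

namespace Cfsg.Agent.S1455

/-- Let G be a solvable group of odd order, p a prime dividing its order, and S a Sylow p-subgroup of G that is narrow; if S has an elementary abelian subgroup of order p ^ 3 assume also G = O_{p',p,p'}(G). Then every prime dividing the index of O_{p'}(G) is at most p; if p = 3 or p is the smallest prime divisor of #G then G has a normal p-complement; G' has a normal p-complement; every subgroup of G' of order coprime to p lies in O_{p'}(G'); and G' ≤ O_{p',p}(G) with the index of O_{p',p}(G) coprime to p. -/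
theorem result {G : Type*} [Group G] [Finite G] [Group.IsSolvable G] (hodd : Odd (Nat.card G)) (p : ℕ) [Fact p.Prime] (hpG : p ∣ Nat.card G) (S : Sylow p G) (hS : Cfsg.IsNarrow p ↥(S : Subgroup G))
    (hpl : ¬ Cfsg.PRankLE p 2 ↥(S : Subgroup G) → Cfsg.PLengthLE p 1 G) :
    (∀ q : ℕ, q.Prime → q ∣ (Cfsg.pPrimeCore p G).index → q ≤ p) ∧
      ((p = 3 ∨ ∀ q : ℕ, q.Prime → q ∣ Nat.card G → p ≤ q) → Cfsg.HasNormalPComplement p G) ∧
      Cfsg.HasNormalPComplement p ↥(commutator G) ∧
      (∀ L : Subgroup ↥(commutator G), (Nat.card L).Coprime p → L ≤ Cfsg.pPrimeCore p ↥(commutator G)) ∧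
      commutator G ≤ Cfsg.pPrimePCore p G ∧ ((Cfsg.pPrimePCore p G).index).Coprime p := by
  have ho : Odd (Nat.card (⊤ : Subgroup G)) := by rwa [H21.card_top']
  have hs : Group.IsSolvable (⊤ : Subgroup G) := H21.sol_top_iff.2 ‹_›
  have hS' := H21.sylowOf_top S
  have hn := (BG.narrow_iff_isNarrow S.isPGroup' (H21.odd_of_le ho le_top)).2 hS
  have hl : 2 < H20.pRank p (S : Subgroup G) → H21.PLen1 p (⊤ : Subgroup G) :=
    fun h => H21.pLen1_top_iff.2 (hpl (BG.not_pRankLE_iff.2 h))
  obtain ⟨h1, h2⟩ := BG.narrow_der1_complement_max_pdiv ho hs hS' hn hl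
  have h3 : ⁅(⊤ : Subgroup G), (⊤ : Subgroup G)⁆ ≤ H20.pPrimePCoreOf p ⊤ := by
    by_cases hr : 2 < H20.pRank p (S : Subgroup G)
    · exact (BG.narrow_plength1_s05 ho hs hS' hn hr (hl hr)).1
    · exact (BG.rank2_der1_complement p hs ho (by rw [← BG.pRank_sylow hS']; omega)).2.1
  have h4 := BG.pLen1_of_der_le_ppcore h3
  have h5 : Cfsg.HasNormalPComplement p ↥(commutator G) := H21.hasNormalPComplement_iff.2 h1
  refine ⟨fun q hq hd => h2 q hq (by rwa [Subgroup.relIndex_top_right, ← H21.pPrimeCore_eq_top]),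
    fun h => H21.hasNormalPComplement_iff_top.2
      (BG.p'core_hall_of_max_pdiv ho h2 (by rwa [H21.card_top'])), h5, fun L hL => ?_, ?_, ?_⟩
  · rw [H21.pPrimeCore_eq_top]
    exact (H21.hasNormalPComplement_iff_top.1 h5).le_of_normalIn (H21.piCoreOf_normalIn _ _)
      (fun q hq hd h => by
        rw [Set.mem_singleton_iff.1 h] at hd
        exact (Nat.Prime.coprime_iff_not_dvd Fact.out).1 hL.symm hd) le_top
  · rwa [H21.pPrimePCoreOf_top] at h3
  · exact ((Nat.Prime.coprime_iff_not_dvd Fact.out).2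
      (H21.pLengthLE_one_iff.1 (H21.pLen1_top_iff.1 h4))).symm

end Cfsg.Agent.S1455
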