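import Cfsg.Statements.S1456
import Mathlib
import Cfsg.Agent.BG.S05

set_option autoImplicit false
open Cfsg

namespace Cfsg.Agent.S1456

open Subgroup Cfsg.Agent.BG Cfsg.Agent.H20 Cfsg.Agent.H21 in
theorem aux {G : Type*} [Group G] [Finite G] {p : ℕ} [hp : Fact p.Prime] {H E : Subgroup G}
    (hodd : Odd ♯H) (hH : Group.IsSolvable H) (hE : E ≤ fittingOf H) (hEe : IsElementaryAbelian p E)
    (hr : rank (fittingOf H ⊓ C⟦E⟧) ≤ 2) : ⁅H, H⁆ ≤ fittingOf H := by
  refine chief_stab_sub_Fitting hH (NormalIn.refl H) (der_le H) fun U V hc hU => ?_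
  obtain ⟨q, hq, he⟩ := sol_chief_abelem hH hc
  haveI := Fact.mk hq
  by_cases h2 : pRank q (fittingOf H) ≤ 2
  · exact rank2_cent_chief hodd hH (fittingOf_normalIn H) h2 hc (ExpDvd.isPGroup he.2) hU
  rw [← pRank_sylow (pCoreOf_sylow_fittingOf q H), not_le] at h2
  have hR := isPGroup_piCoreOf q H
  have hRF := pCoreOf_le_fittingOf q H
  have hRn := piCoreOf_normalIn {q} H
  have hle : ∀ B ≤ piCoreOf {q} H, B ≤ C⟦E⟧ → pRank q B ≤ 2 := fun B h1 h3 =>
    ((pRank_mono q (le_inf (h1.trans hRF) h3)).trans (pRank_le_rank q _)).trans hr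
  obtain rfl : q = p := by
    by_contra hne
    exact absurd (hle _ le_rfl (cent_of_nil_coprime (nil_fittingOf H) hRF hE
      (IsPGroup.coprime_card_of_ne q p hne _ _ hR (ExpDvd.isPGroup hEe.2)))) (not_le.2 h2)
  generalize hRd : piCoreOf {q} H = R at *
  have hER : E ≤ R := hRd ▸ le_pCoreOf_of_le_fittingOf hE (ExpDvd.isPGroup hEe.2)
  have hn : Narrow q R := fun _ => by
    obtain ⟨F, hF, hEF⟩ := exists_isMaxElem_ge hEe hER
    have h3 := hle F hF.le ((comm_le_cent hF.comm).trans (cent_anti hEF))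
    have h4 := elem_isElem_pRank hF.elem
    refine ⟨F, ?_, hF⟩
    by_cases h5 : pRank q F = 2
    · exact h5 ▸ ⟨hF.le, h4.2⟩
    exfalso
    have h6 : ♯F ∣ q := by
      rw [h4.2.2]
      exact (pow_dvd_pow q (by omega)).trans (pow_one q).dvd
    have h7 := hF.omegaOne_center_le hF.le le_rfl
    have h8 : omegaOne q (centerOf R) ≠ ⊥ := omegaOne_center_ne_bot hR (by
      rintro rfl; rw [pRank_bot] at h2; omega)
    have h9 : omegaOne q (centerOf R) = F := by
      refine eq_of_le_of_card_ge h7 ?_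
      rcases (Nat.dvd_prime hq).1 ((card_dvd h7).trans h6) with h | h
      · exact absurd (card_eq_one.1 h) h8
      · rw [h]; exact Nat.le_of_dvd hq.pos h6
    have h10 := hF.pRank_cent
    rw [inf_eq_left.2 (cent_symm (h9 ▸ omegaOne_center_le_cent q R))] at h10
    omega
  obtain ⟨-, h3, -⟩ := Aut_narrow hR (odd_of_le hodd hRn.le) hn hRn.norm hH hodd
  obtain ⟨P, hP⟩ := exists_sylowOf q U
  have hPR : P ≤ R := hRd ▸ le_pCoreOf_of_le_fittingOf (hP.le.trans hU) hP.isPGroup
  refine hc.cent_der_of_sylow (ExpDvd.isPGroup he.2) hP ((piNat_coreMod {q} (norm_cent hRn.norm)).of_dvd ?_)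
  refine (relIndex_dvd_of_le_left _ (cent_anti hPR)).trans (relIndex_dvd_of_norm
    ((der_mono inf_le_left).trans h3) (((der_le _).trans inf_le_left).trans (norm_cent hRn.norm)))

/-- Let G be a solvable group of odd order, p a prime, and E an elementary abelian p-subgroup of the Fitting subgroup F(G) such that F(G) ∩ C_G(E) has no elementary abelian subgroup of order q ^ 3 for any prime q. Then the derived subgroup of G is contained in F(G). -/
theorem result {G : Type*} [Group G] [Finite G] [Group.IsSolvable G] (hodd : Odd (Nat.card G)) (p : ℕ) [Fact p.Prime] (E : Subgroup G) (hE : E ≤ Cfsg.fittingSubgroup G) (hEe : Cfsg.IsElementaryAbelian p E)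
    (hr : Cfsg.RankLE 2 ↥(Cfsg.fittingSubgroup G ⊓ Subgroup.centralizer (E : Set G))) :
    commutator G ≤ Cfsg.fittingSubgroup G := by
  rw [← H21.fittingOf_top] at hE hr ⊢
  exact aux (by rwa [H21.card_top']) (H21.sol_top_iff.2 ‹_›) hE hEe (BG.rankLE_iff.1 hr)

end Cfsg.Agent.S1456
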