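import Cfsg.Statements.S1458
import Cfsg.Agent.BG.AppAB
import Cfsg.Agent.H9.PCons

set_option autoImplicit false
set_option linter.style.haveILetI false
open Cfsg

namespace Cfsg.Agent.S1458

open Cfsg.Agent.H20 Cfsg.Agent.H21 Cfsg.Agent.BG

/-- Let G be a solvable group of odd order, p a prime and S a Sylow p-subgroup of G. Then the subgroup generated by the centre of the Thompson subgroup of S and O_{p'}(G) is normal in G. -/
theorem result {G : Type*} [Group G] [Finite G] [Group.IsSolvable G] (hodd : Odd (Nat.card G)) (p : ℕ) [Fact p.Prime] (S : Sylow p G) :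
    (Cfsg.centerThompsonOf p (S : Subgroup G) ⊔ Cfsg.pPrimeCore p G).Normal := by
  by_cases hp2 : p = 2
  · subst hp2
    have h1 : (S : Subgroup G) = ⊥ := (isPi_of_isPGroup (π := {2}) S.isPGroup' rfl).eq_bot
      ((isPi_compl_singleton_iff Nat.prime_two).2 (hodd.of_dvd_nat (card_dvd_card _)).not_two_dvd_nat)
    rw [eq_bot_iff.2 ((H9.centerThompsonOf_le _ _).trans h1.le), bot_sup_eq, pPrimeCore_eq_top]
    exact (piCoreOf_normalIn _ _).normal
  have h := H9.zj_factorization hp2 dvd_rfl (H9.isPConstrained_of_isPSolvable (H9.isPSolvable_of_isSolvable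
    inferInstance)) (H9.stabCore_iff.2 fun P _ hP => H9.isPStableOn_of_sylow_two_comm hp2 (fun T => by
      rw [(isPi_of_isPGroup (π := {2}) T.isPGroup' rfl).eq_bot ((isPi_compl_singleton_iff Nat.prime_two).2
        ((hodd.of_dvd_nat (Subgroup.card_quotient_dvd_card _)).of_dvd_nat (card_dvd_card _)).not_two_dvd_nat)]
      exact comm_bot) P hP) S
  rw [pPrimeCore_eq_top] at h ⊢
  refine NormalIn.normal ⟨le_top, h.ge.trans (sup_le (norm_of_le le_sup_right) (norm_sup le_rfl ?_))⟩
  exact le_top.trans (piCoreOf_normalIn _ _).norm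

end Cfsg.Agent.S1458
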