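import Cfsg.Statements.S1459
import Cfsg.Agent.BG.S06a

set_option autoImplicit false
set_option linter.style.haveILetI false
open Cfsg

namespace Cfsg.Agent.S1459

open Cfsg.Agent.H20 Cfsg.Agent.H21 Cfsg.Agent.BG

/-- Let G be a finite solvable group. (a) If H is a normal subgroup of order coprime to its index, K is a complement to H, and H ≤ G', then H = [H, K] and H ∩ C_G(K) ≤ [H, H]. (b) If G' is nilpotent and has prime index in G, then the order of G' is coprime to its index and G' = [G, K] (the subgroup generated by commutators of elements of G with elements of K) for every complement K of G'. -/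
theorem result {G : Type*} [Group G] [Finite G] [Group.IsSolvable G] :
    (∀ (H K : Subgroup G), H.Normal → (Nat.card H).Coprime H.index → Subgroup.IsComplement' H K → H ≤ commutator G →
        H = ⁅H, K⁆ ∧ H ⊓ Subgroup.centralizer (K : Set G) ≤ ⁅H, H⁆) ∧
      (Group.IsNilpotent ↥(commutator G) → (commutator G).index.Prime →
        (Nat.card ↥(commutator G)).Coprime (commutator G).index ∧
        ∀ K : Subgroup G, Subgroup.IsComplement' (commutator G) K → commutator G = ⁅(⊤ : Subgroup G), K⁆) := by
  refine ⟨fun H K _ hcop hc h => ?_, fun h1 h2 => ?_⟩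
  · have := coprime_der1_sdprod (NormalIn.of_normal H) (Compl.iff_isComplement'.2 hc)
      (hc.symm.index_eq_card ▸ hcop) inferInstance h
    exact ⟨this.1.symm, this.2⟩
  · have := prime_nil_der1_factor (M := (⊤ : Subgroup G)) h1 (by rwa [Subgroup.relIndex_top_right])
    exact ⟨by simpa [commutator] using this.1.2, fun K hK => this.2 K (Compl.iff_isComplement'.2 hK)⟩

end Cfsg.Agent.S1459
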