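import Cfsg.Statements.S1461
import Cfsg.Agent.BG.S06a

set_option autoImplicit false
set_option linter.style.haveILetI false
open Cfsg

namespace Cfsg.Agent.S1461

open Cfsg.Agent.H20 Cfsg.Agent.H21 Cfsg.Agent.BG

/-- Let G be a finite solvable group, p a prime with G = O_{p',p,p'}(G), and S a Sylow p-subgroup. Then: if S ≤ G' then S ≤ [N_G(S), N_G(S)]; if Y ⊆ S and xYx⁻¹ ⊆ S then x = g c for some g ∈ N_G(S) and c centralizing Y; and for every p-subgroup Q there is x ∈ C_G(Q ∩ S) with xQx⁻¹ ≤ S. -/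
theorem result {G : Type*} [Group G] [Finite G] [Group.IsSolvable G] (p : ℕ) [Fact p.Prime] (hpl : Cfsg.PLengthLE p 1 G) (S : Sylow p G) :
    ((S : Subgroup G) ≤ commutator G → (S : Subgroup G) ≤ ⁅Subgroup.normalizer ((S : Subgroup G) : Set G), Subgroup.normalizer ((S : Subgroup G) : Set G)⁆) ∧
      (∀ (Y : Set G) (x : G), Y ⊆ (S : Subgroup G) → (fun y => x * y * x⁻¹) '' Y ⊆ (S : Subgroup G) →
        ∃ g ∈ Subgroup.normalizer ((S : Subgroup G) : Set G), ∃ c ∈ Subgroup.centralizer Y, g * c = x) ∧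
      ∀ Q : Subgroup G, IsPGroup p Q → ∃ x ∈ Subgroup.centralizer ((Q ⊓ (S : Subgroup G) : Subgroup G) : Set G), Q.map (MulAut.conj x).toMonoidHom ≤ (S : Subgroup G) := by
  have hl := pLen1_top_iff.2 hpl
  refine ⟨fun h => by simpa using plength1_Sylow_sub_der1 (sylowOf_top S) hl h, fun Y x hY h => ?_, fun Q hQ => ?_⟩
  · obtain ⟨u, hu, c, hc, e⟩ := plength1_Sylow_trans (sylowOf_top S) hl hY (Subgroup.mem_top x)
      (Set.image_subset_iff.1 h)
    exact ⟨u, hu.2, c, hc.2, e.symm⟩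
  · obtain ⟨x, hx, h⟩ := plength1_Sylow_Jsub (sylowOf_top S) hl le_top hQ
    exact ⟨x, hx.2, h⟩

end Cfsg.Agent.S1461
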