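import Cfsg.Statements.S1463
import Cfsg.Agent.BG.S02
import Cfsg.Agent.H7.NormalP

set_option autoImplicit false
set_option linter.style.haveILetI false
open scoped MatrixGroups
open Cfsg

namespace Cfsg.Agent.S1463

open Cfsg.Agent.H20 Cfsg.Agent.H21 Cfsg.Agent.BG

/-- Let F be a field of odd characteristic p and H a finite subgroup of odd order of GL(2, F) that leaves no 1-dimensional subspace of F² invariant. Then p does not divide the order of H. -/
theorem result {F : Type*} [Field F] (p : ℕ) [Fact p.Prime] [CharP F p] (hp : p ≠ 2)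
    (H : Subgroup (GL (Fin 2) F)) [Finite H] (hodd : Odd (Nat.card H))
    (hirr : ∀ v : Fin 2 → F, v ≠ 0 → ∃ g ∈ H, (g : Matrix (Fin 2) (Fin 2) F).mulVec v ∉ Submodule.span F {v}) :
    ¬ p ∣ Nat.card H := by
  intro hd
  have h1 := der1_odd_GL2_charf hp hodd H.subtype H.subtype_injective
  obtain ⟨P, hP⟩ := h1.exists_le_sylow
  haveI : (P : Subgroup H).Normal := Subgroup.Normal.of_commutator_le _ hP
  let ρ : P →* Module.End F (Fin 2 → F) :=
    ((Matrix.toLinAlgEquiv' : Matrix (Fin 2) (Fin 2) F ≃ₐ[F] _).toMonoidHom.comp (Units.coeHom _)).comp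
      (H.subtype.comp (P : Subgroup H).subtype)
  obtain ⟨w, -, hw0, hw⟩ := H7.exists_ne_zero_fixed p P.isPGroup' ρ ⊤ (fun _ _ _ => trivial)
    (v := fun _ => 1) trivial (fun h => one_ne_zero (congrFun h 0))
  replace hw : ∀ u ∈ (P : Subgroup H), ((u : GL (Fin 2) F) : Matrix (Fin 2) (Fin 2) F).mulVec w = w :=
    fun u hu => hw ⟨u, hu⟩
  obtain ⟨g, hg, hgw⟩ := hirr w hw0
  obtain ⟨x, hx, hx1⟩ := exists_ne_one (P.ne_bot_of_dvd_card hd)
  let K := LinearMap.ker (Matrix.toLin' ((x : GL (Fin 2) F) : Matrix (Fin 2) (Fin 2) F) - LinearMap.id)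
  have hK : ∀ v, v ∈ K ↔ ((x : GL (Fin 2) F) : Matrix (Fin 2) (Fin 2) F).mulVec v = v := fun v => by
    rw [LinearMap.mem_ker, LinearMap.sub_apply, sub_eq_zero, Matrix.toLin'_apply, LinearMap.id_apply]
  have h2 : (g : Matrix (Fin 2) (Fin 2) F).mulVec w ∈ K := by
    have := hw _ (Subgroup.Normal.conj_mem' inferInstance x hx ⟨g, hg⟩)
    rw [hK]
    conv_rhs => rw [← this]
    rw [Matrix.mulVec_mulVec, Matrix.mulVec_mulVec, ← Units.val_mul, ← Units.val_mul]
    simp [← mul_assoc]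
  have h3 : Submodule.span F {w} < K := lt_of_le_of_ne
    ((Submodule.span_singleton_le_iff_mem _ _).2 ((hK w).2 (hw x hx))) fun h => hgw (h ▸ h2)
  have h4 := Submodule.finrank_lt_finrank_of_lt h3
  rw [finrank_span_singleton hw0] at h4
  have h5 : K = ⊤ := Submodule.eq_top_of_finrank_eq (le_antisymm (Submodule.finrank_le K) (by simpa using Nat.succ_le_of_lt h4))
  refine hx1 (Subtype.ext (Units.ext (Matrix.toLin'.injective (LinearMap.ext fun v => ?_))))
  simpa using (hK v).1 (h5 ▸ Submodule.mem_top)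

end Cfsg.Agent.S1463
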