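import Cfsg.Statements.S1466
import Cfsg.Agent.BG.AppAB

set_option autoImplicit false
set_option linter.style.haveILetI false
open Cfsg

namespace Cfsg.Agent.S1466

open Cfsg.Agent.H20 Cfsg.Agent.H21 Cfsg.Agent.BG

/-- Let p be a prime and R a nontrivial finite p-group. Then for every i > 0, Z(R) ≤ C_R(L_i(R)) ≤ L_i(R); likewise Z(R) ≤ C_R(L_*(R)) ≤ L_*(R) and Z(R) ≤ C_R(L(R)) ≤ L(R); and L(R) ≠ 1, L_*(R) ≠ 1. -/
theorem result {R : Type*} [Group R] [Finite R] (p : ℕ) [Fact p.Prime] (hR : IsPGroup p R) [Nontrivial R] :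
    (∀ i : ℕ, 0 < i → Subgroup.center R ≤ Subgroup.centralizer ((Cfsg.puigSeq R i : Subgroup R) : Set R) ∧
        Subgroup.centralizer ((Cfsg.puigSeq R i : Subgroup R) : Set R) ≤ Cfsg.puigSeq R i) ∧
      (Subgroup.center R ≤ Subgroup.centralizer ((Cfsg.puigLower R : Subgroup R) : Set R) ∧ Subgroup.centralizer ((Cfsg.puigLower R : Subgroup R) : Set R) ≤ Cfsg.puigLower R) ∧
      (Subgroup.center R ≤ Subgroup.centralizer ((Cfsg.puigSubgroup R : Subgroup R) : Set R) ∧ Subgroup.centralizer ((Cfsg.puigSubgroup R : Subgroup R) : Set R) ≤ Cfsg.puigSubgroup R) ∧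
      Cfsg.puigSubgroup R ≠ ⊥ ∧ Cfsg.puigLower R ≠ ⊥ := by
  obtain ⟨B, h1, h2, -, h3⟩ := H3.exists_selfCentralizing_normal_abelian hR ⊥ comm_bot
  have key : ∀ L : Subgroup R, B ≤ L → Subgroup.center R ≤ Subgroup.centralizer (L : Set R) ∧
      Subgroup.centralizer (L : Set R) ≤ L := fun L h =>
    ⟨Subgroup.center_le_centralizer _, (cent_anti h).trans (h3.trans h)⟩
  have hne : ∀ L : Subgroup R, B ≤ L → L ≠ ⊥ := fun L h h4 => by
    have := (key L h).2
    rw [h4, cent_bot] at this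
    exact bot_ne_top (top_le_iff.1 this)
  have h4 := (le_puigLower h2).trans puigLower_le_puigSubgroup
  exact ⟨fun i hi => key _ (le_puigSeq h2 hi), key _ (le_puigLower h2), key _ h4, hne _ h4, hne _ (le_puigLower h2)⟩

end Cfsg.Agent.S1466
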