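import Cfsg.Statements.S1471
import Cfsg.Agent.BG.AppC1

set_option autoImplicit false
open Cfsg

namespace Cfsg.Agent.S1471

/-- Let p and q be odd primes with (p^q − 1)/(p − 1) coprime to p − 1. Then there are at least two elements a of the field with p ^ q elements such that both a and 2 − a have norm 1 to the prime field. -/
theorem result (p q : ℕ) [Fact p.Prime] [Fact q.Prime] (hp : p ≠ 2) (hq : q ≠ 2) (hA : Nat.Coprime ((p ^ q - 1) / (p - 1)) (p - 1)) :
    2 ≤ Set.ncard {a : GaloisField p q | Algebra.norm (ZMod p) a = 1 ∧ Algebra.norm (ZMod p) (2 - a) = 1} := by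
  have hq0 : q ≠ 0 := (Fact.out : q.Prime).ne_zero
  let _ : Fintype (GaloisField p q) := Fintype.ofFinite _
  obtain ⟨a, h1, h2, h3⟩ := Cfsg.Agent.BG.AppC.exists_E (F := GaloisField p q) (p := p) (q := q)
    (by rw [← Nat.card_eq_fintype_card, GaloisField.card p q hq0]) hp hq
  refine (Set.one_lt_ncard (Set.toFinite _)).2 ⟨a, ?_, 1, ?_, h1⟩
  · simp only [Set.mem_setOf_eq, Cfsg.Agent.BG.AppC.galois_norm_iff p q hq0]
    exact ⟨h2, h3⟩
  · simp only [Set.mem_setOf_eq]
    norm_num

end Cfsg.Agent.S1471
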