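import Cfsg.Statements.S1473
import Cfsg.Agent.H21.CN

set_option autoImplicit false
set_option linter.style.haveILetI false
open Cfsg

namespace Cfsg.Agent.S1473

open Cfsg.Agent.H20 Cfsg.Agent.H21 Cfsg.Agent.BG

/-- Let G be a finite group in which the centralizer of every non-identity element is nilpotent, and H a solvable normal subgroup of G. Then in G/H the centralizer of every non-identity element is nilpotent. -/
theorem result {G : Type*} [Group G] [Finite G] (hCN : Cfsg.IsCNGroup G) (H : Subgroup G) [H.Normal] (hH : Group.IsSolvable H) :
    Cfsg.IsCNGroup (G ⧸ H) := by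
  exact isCNGroup_of_equiv (quoTopEquiv H).symm
    (cnOf_iff.1 ((cnOf_top.2 hCN).quo (NormalIn.of_normal H) hH))

end Cfsg.Agent.S1473
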