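import Cfsg.Statements.S1474
import Cfsg.Agent.H21.CN

set_option autoImplicit false
set_option linter.style.haveILetI false
open Cfsg

namespace Cfsg.Agent.S1474

open Cfsg.Agent.H20 Cfsg.Agent.H21 Cfsg.Agent.BG

/-- Let G be a finite group in which every non-identity element has nilpotent centralizer, not itself nilpotent, and having a nontrivial normal Sylow p-subgroup for some prime p. Let H be the largest normal nilpotent Hall subgroup of G. Then H is a nontrivial proper normal subgroup with a complement E that is a Frobenius complement in G (no non-identity element of E centralizes a non-identity element of H), and G/H is nilpotent. -/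
theorem result {G : Type*} [Group G] [Finite G] (hCN : Cfsg.IsCNGroup G) (hnn : ¬ Group.IsNilpotent G) (p : ℕ) [Fact p.Prime] (P : Sylow p G)
    (hP1 : (P : Subgroup G) ≠ ⊥) (hPn : (P : Subgroup G).Normal) :
    Cfsg.fittingHall G ≠ ⊥ ∧ Cfsg.fittingHall G ≠ ⊤ ∧
      (∃ E : Subgroup G, Subgroup.IsComplement' (Cfsg.fittingHall G) E ∧ Cfsg.IsFrobeniusComplement E ∧
        ∀ e ∈ E, e ≠ 1 → Cfsg.fittingHall G ⊓ Subgroup.centralizer ({e} : Set G) = ⊥) ∧
      Group.IsNilpotent (G ⧸ Cfsg.fittingHall G) := by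
  have h1 : fittingHallOf (⊤ : Subgroup G) ≠ ⊥ := fun h => hP1 (le_bot_iff.1
    (h ▸ normal_sylow_le_Fcore (sylowOf_top P) (NormalIn.of_normal _)))
  have hn := mt nil_top_iff.1 hnn
  obtain ⟨E, ⟨⟨hE, -⟩, -, h2, h3⟩, h4⟩ := (cnOf_top.2 hCN).frob_Fcore hn h1
  have h5 := Fcore_nil (⊤ : Subgroup G)
  have h6 := Fcore_normalIn (⊤ : Subgroup G)
  rw [Fcore_top] at h1 hE h3 h5 h6
  have hE' := Compl.iff_isComplement'.1 hE
  refine ⟨h1, fun h => hn (h ▸ h5), ⟨E, hE', H1.isFrobeniusComplement_of_fpf hE' h1 h2 h3, h3⟩, ?_⟩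
  exact Group.nilpotent_of_mulEquiv ((quoEquivOfCompl h6 hE).trans (quoTopEquiv _).symm)

end Cfsg.Agent.S1474
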