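import Cfsg.Statements.S1475
import Cfsg.Agent.H21.CN

set_option autoImplicit false
set_option linter.style.haveILetI false
open Cfsg

namespace Cfsg.Agent.S1475

open Cfsg.Agent.H20 Cfsg.Agent.H21 Cfsg.Agent.BG

/-- Let G be a finite solvable group such that the order of every element is a prime power (1 included). Then at most two distinct primes divide the order of G. -/
theorem result {G : Type*} [Group G] [Finite G] [Group.IsSolvable G] (h : ∀ g : G, IsPrimePow (orderOf g) ∨ g = 1) :
    (Nat.card G).primeFactors.card ≤ 2 := by
  rw [← card_top']
  exact two_primes_of_prime_power_orders (sol_top_iff.2 inferInstance) fun x _ hx => (h x).resolve_right hx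

end Cfsg.Agent.S1475
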