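import Cfsg.Statements.S1476
import Cfsg.Agent.H21.CN

set_option autoImplicit false
set_option linter.style.haveILetI false
open Cfsg

namespace Cfsg.Agent.S1476

open Cfsg.Agent.H20 Cfsg.Agent.H21 Cfsg.Agent.BG

open Subgroup
open scoped commutatorElement

theorem three_step {G : Type*} [Group G] [Finite G] (h : CNOf (⊤ : Subgroup G))
    (hs : Group.IsSolvable (⊤ : Subgroup G)) (h1 : (⊤ : Subgroup G) ≠ ⊥)
    (hF : fittingHallOf (⊤ : Subgroup G) = ⊥) : ∃ p : ℕ, p.Prime ∧ IsThreeStepGroup p G := by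
  obtain ⟨p, hp, hP1⟩ := exists_pCoreOf_ne_bot hs h1
  haveI := Fact.mk hp
  refine ⟨p, hp, ?_⟩
  rw [IsThreeStepGroup, pCore_eq_top]
  have hn := piCoreOf_normalIn {p} (⊤ : Subgroup G)
  have hpP := isPi_piCoreOf {p} (⊤ : Subgroup G)
  have hns : ¬ PiNat {p}ᶜ ((piCoreOf {p} (⊤ : Subgroup G)).relIndex ⊤) := fun h2 =>
    hP1 (le_bot_iff.1 (hF ▸ pcore_le_Fcore (Hall.mk le_top hpP h2)))
  have hC : ∀ X : Subgroup G, X ≠ ⊥ → IsPi {p}ᶜ X → IsPi {p}ᶜ C⟦X⟧ := fun X h1 h2 => by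
    refine (isPi_compl_singleton_iff hp).2 fun hd => ?_
    obtain ⟨Y, hY, eY⟩ := exists_prime_subgroup hp hd
    obtain ⟨Z, hZ, hq⟩ := exists_prime_subgroup_of_ne_bot h1
    haveI := Fact.mk hq
    have hqp : ♯Z ≠ p := h2.mem hq (card_dvd hZ)
    have hZ1 := ne_bot_of_card_prime hq
    have hZq : IsPGroup (♯Z) Z := isPGroup_of_card_prime rfl
    obtain ⟨P, hP, hYP⟩ := exists_sylowOf_ge (isPGroup_of_card_prime eY) (le_top (a := Y))
    obtain ⟨Q, hQ, hZQ⟩ := exists_sylowOf_ge hZq (le_top (a := Z))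
    have h3 := h.cent_pq le_top le_top hP.isPGroup hZq hqp.symm hYP le_rfl (ne_bot_of_card_prime (eY ▸ hp)) hZ1
      (hY.trans (cent_anti hZ))
    have h4 := h.le_pCoreOf hn hP1 hQ.isPGroup le_top (h.cent_pq le_top le_top hQ.isPGroup hpP.isPGroup hqp hZQ
      le_rfl hZ1 hP1 (cent_symm (hP.piCoreOf_le.trans h3)))
    exact hZ1 (le_bot_iff.1 (hF ▸ (hZQ.trans h4).trans
      (pcore_le_Fcore (hQ.of_ge le_top (isPi_piCoreOf _ _) h4))))
  have hmax : ∀ V : Subgroup G, V ⊴ ⊤ → IsPi {p} V → V ≤ piCoreOf {p} ⊤ := fun V => le_piCoreOf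
  generalize piCoreOf {p} (⊤ : Subgroup G) = P at *
  obtain ⟨D, hD⟩ := exists_hall {p}ᶜ hs
  have hCD : ∀ X ≤ D, X ≠ ⊥ → D ≤ C⟦X⟧ → C⟦X⟧ = D := fun X h1 h2 h3 =>
    hD.eq_of_le (hC X h2 (hD.isPi.of_le h1)) h3 le_top
  have hr : Semiregular P D := semiregular_of_prime_subgroups fun X hX hq =>
    hpP.inf_eq_bot (hC X (ne_bot_of_card_prime hq) (hD.isPi.of_le hX))
  have hDn := h.nil_of_regular le_top hP1 (le_top.trans hn.norm) hr
  have hq1 : quo ⊤ P ≠ ⊥ := fun e => hns (by rw [← card_quo hn.norm, e, card_bot]; exact PiNat.one _)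
  obtain ⟨q, W, hq, hW, -, hWn, hWe⟩ := exists_elem_normalIn (NormalIn.refl _) (quo_solvable hs P) hq1
  haveI := Fact.mk hq
  obtain ⟨V, hPV, -, rfl⟩ := exists_quo_eq hn hWn.le
  have hV := (quo_normalIn_iff hPV hn le_top).1 hWn
  have hPV' := hn.of_le hPV le_top
  have hWq := isPi_singleton_iff.2 (isPGroup_of_elem hWe)
  have hqp : q ≠ p := by
    rintro rfl
    exact hW.1 (quo_eq_bot (hmax V hV (hpP.of_relIndex (card_quo hPV'.norm ▸ hWq))))
  have hPS : SylowOf p P V := Hall.mk hPV hpP (card_quo hPV'.norm ▸ hWq.compl_singleton (Ne.symm hqp))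
  have hB := hD.inf_normalIn hV
  have hc := hPS.isComplIn hB
  have hBc : IsCyclic ↥(D ⊓ V) := regular_abelian_cyclic (comm_of_quo_disjoint (le_top.trans hn.norm)
    hc.symm.inf_eq (quo_eq_of_compl hPV' hc ▸ hWe.1)) hP1 (le_top.trans hn.norm) (hr.of_le le_rfl inf_le_left)
  have hB1 : D ⊓ V ≠ ⊥ := fun e => hW.1 (by rw [← quo_eq_of_compl hPV' hc, e, quo_bot])
  have hB0 := hCD _ (inf_le_left.trans inf_le_left) (inf_cent_ne_bot_of_nil hDn (hV.inf_left le_top) hB1)
    (cent_symm inf_le_right)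
  have hN : N⟦D ⊓ V⟧ ≤ N⟦D⟧ := by
    have := norm_cent (norm_of_le_cyclic (A := D ⊓ V ⊓ C⟦D⟧) hBc inf_le_left le_rfl)
    rwa [hB0] at this
  have hG : P ⊔ N⟦D⟧ = ⊤ := top_le_iff.1 ((hB.sol_frattini (sol_of_le hs le_top) hV).ge.trans
    (sup_le (hc.sup_eq.ge.trans (sup_le_sup_left (inf_le_left.trans (le_norm_self D)) P))
      (inf_le_right.trans (hN.trans le_sup_right))))
  have ho : Odd ♯D := by
    by_contra h2
    obtain ⟨t, ht, et⟩ := exists_prime_order_mem Nat.prime_two (even_iff_two_dvd.1 (Nat.not_odd_iff_even.1 h2))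
    have h3 : N⟦D⟧ ≤ C⟦zpowers t⟧ := fun g hg => by
      rw [cent_zpowers, mem_cent1, ← mul_inv_eq_iff_eq_mul]
      exact H1.involution_unique_of_fpf hP1 (le_top.trans hn.norm) hr ht (conj_mem_of_norm hg ht) et
        (et ▸ (MulAut.conj g).orderOf_eq t)
    refine hns ?_
    rw [← hG, relIndex_sup_of_norm' (Or.inr (le_top.trans hn.norm))]
    exact ((hC _ (zpowers_ne_bot.2 (by rintro rfl; simp at et)) (hD.isPi.of_le (zpowers_le.2 ht))).of_le
      h3).relIndex _
  have hDc := nil_Zgroup_cyclic (odd_regular_Zgroup ho hP1 (le_top.trans hn.norm) hr) hDn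
  have hi : PiNat {p} (P ⊔ D).index := by
    rw [← relIndex_top_right]
    exact (PiNat.compl_compl.1 hD.piNat).of_dvd (relIndex_dvd_of_le_left _ le_sup_right)
  refine ⟨hP1, D, fun e => hB1 (by rw [e, bot_inf_eq]), hDc, ho, hD.isPi.coprime_prime hp, ?_, fun e => hns ?_,
    (PiNat.singleton_iff hp index_ne_zero_of_finite).1 hi, hr, fun x hx a ha ha1 hxa => hx ?_⟩
  · refine NormalIn.normal ⟨le_top, hG.ge.trans (sup_le (norm_of_le le_sup_left)
      (norm_sup (le_top.trans hn.norm) le_rfl))⟩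
  · rw [← e, relIndex_sup_of_norm' (Or.inr (le_top.trans hn.norm))]
    exact hD.isPi.relIndex _
  have hN : ∀ y : G, y ∈ N⟦P⟧ := fun y => hn.norm trivial
  have hz := zpowers_le.2 ha
  obtain ⟨n, hn1, c, hc1, rfl⟩ := coprime_prod_of_commg_le (K := zpowers x) (A := zpowers a) (le_top.trans hn.norm)
    (hpP.coprime (hD.isPi.of_le hz)) (Or.inr (sol_of_pgroup hpP.isPGroup)) (by
      rw [← quo_le_cent_iff (le_top.trans hn.norm) (le_top.trans hn.norm), quo_zpowers (hN _), quo_zpowers (hN _),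
        zpowers_le, cent_zpowers, mem_cent1, ← commutatorElement_eq_one_iff_mul_comm, commutatorElement_def,
        ← cos_inv (hN _), ← cos_inv (hN _), ← cos_mul (hN _) (hN _), ← cos_mul (hN _) (hN _),
        ← cos_mul (hN _) (hN _)]
      exact cos_eq_one hxa) x (mem_zpowers x)
  exact mul_mem_sup hn1 (hCD _ hz (zpowers_ne_bot.2 ha1) (le_cent_of_comm (comm_of_cyclic hDc) le_rfl hz) ▸ hc1)

/-- Let G be a finite solvable group in which every non-identity element has nilpotent centralizer. Then either G is nilpotent; or G has a normal subgroup K with a Frobenius complement E (K E = G, K ∩ E = 1, E meets its conjugates by outside elements trivially) such that E is cyclic or E is generated by two elementwise-commuting subgroups, one cyclic of odd order and one isomorphic to a generalized quaternion group; or G is a three-step group with respect to some prime p. -/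
theorem result {G : Type*} [Group G] [Finite G] [Group.IsSolvable G] (hCN : Cfsg.IsCNGroup G) :
    Group.IsNilpotent G ∨
      (∃ K E : Subgroup G, K.Normal ∧ Subgroup.IsComplement' K E ∧ Cfsg.IsFrobeniusComplement E ∧
        (IsCyclic E ∨ ∃ C Q : Subgroup G, C ⊔ Q = E ∧ (∀ a ∈ C, ∀ b ∈ Q, a * b = b * a) ∧ IsCyclic C ∧ Odd (Nat.card C) ∧
          ∃ n : ℕ, Nonempty (↥Q ≃* QuaternionGroup (2 ^ n)))) ∨
      ∃ p : ℕ, p.Prime ∧ Cfsg.IsThreeStepGroup p G := by
  have h := cnOf_top.2 hCN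
  refine or_iff_not_imp_left.2 fun hnn => ?_
  have hn := mt nil_top_iff.1 hnn
  by_cases h1 : fittingHallOf (⊤ : Subgroup G) = ⊥
  · exact Or.inr (three_step h (sol_top_iff.2 inferInstance) (fun e => hn (e ▸ inferInstance)) h1)
  obtain ⟨E, hE, h4⟩ := h.frob_Fcore hn h1
  have hE' := Compl.iff_isComplement'.1 hE.1.1
  haveI := (Fcore_normalIn (⊤ : Subgroup G)).normal
  exact Or.inl ⟨_, E, this, hE', H1.isFrobeniusComplement_of_fpf hE' h1 hE.compl_ne hE.reg,
    nil_regular_structure h4 h1 hE.norm hE.reg⟩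

end Cfsg.Agent.S1476
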