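import Cfsg.Statements.S1481
import Cfsg.Agent.H21.CN
import Cfsg.Agent.BG.S07a

set_option autoImplicit false
set_option linter.style.haveILetI false
open Cfsg

namespace Cfsg.Agent.S1481

open Cfsg.Agent.H20 Cfsg.Agent.H21 Cfsg.Agent.BG

open Subgroup
open scoped commutatorElement

/-- Let G be a finite group and H a local subgroup (the normalizer of a nontrivial subgroup of prime-power order) not properly contained in any local subgroup; let F = F(H), suppose at least two primes divide #F, put X = H ∩ C_G(F), let M ≤ F with F ∩ C_G(M) ≤ M, and let R be a solvable subgroup normalized by M and by X. Then for every prime q not dividing #F there is exactly one maximal M-invariant q-subgroup of R, and it is a Sylow q-subgroup of the largest normal subgroup of R of order coprime to #F. -/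
theorem result {G : Type*} [Group G] [Finite G] (H : Subgroup G) (hH : Cfsg.IsLocalSubgroup H) (hHmax : ∀ L : Subgroup G, Cfsg.IsLocalSubgroup L → H ≤ L → L = H)
    (hF2 : 2 ≤ (Nat.card (Cfsg.fittingOf H)).primeFactors.card)
    (M : Subgroup G) (hM : M ≤ Cfsg.fittingOf H) (hCM : Cfsg.fittingOf H ⊓ Subgroup.centralizer (M : Set G) ≤ M)
    (R : Subgroup G) (hR : Group.IsSolvable R) (hMR : M ≤ Subgroup.normalizer (R : Set G))
    (hXR : H ⊓ Subgroup.centralizer (Cfsg.fittingOf H : Set G) ≤ Subgroup.normalizer (R : Set G))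
    (q : ℕ) [Fact q.Prime] (hq : ¬ q ∣ Nat.card (Cfsg.fittingOf H)) :
    ∃! Q : Subgroup G, Q ∈ Cfsg.maxInvSubgroups R M {q} ∧
      (∀ Q' : Subgroup G, Q' ∈ Cfsg.maxInvSubgroups R M {q} →
        Q' ≤ Cfsg.piCoreOf (Cfsg.primesNotDvd (Nat.card (Cfsg.fittingOf H))) R ∧
        ¬ q ∣ Q'.relIndex (Cfsg.piCoreOf (Cfsg.primesNotDvd (Nat.card (Cfsg.fittingOf H))) R)) := by
  set n := ♯(fittingOf H) with hn
  have hFn := nil_fittingOf H
  have hZ : ∀ p : ℕ, [Fact p.Prime] → p ∣ n → ∃ Z : Subgroup G, IsPGroup p Z ∧ Z ≤ M ∧ Z ≤ C⟦fittingOf H⟧ ∧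
      N⟦Z⟧ = H := fun p hp hd => by
    have h1 := isPGroup_piCoreOf p (fittingOf H)
    have h2 := center_pCoreOf_le_cent hFn (inf_le_left (b := C⟦piCoreOf {p} (fittingOf H)⟧)) inf_le_right
    refine ⟨_, h1.to_le inf_le_left, le_trans (le_inf (inf_le_left.trans (piCoreOf_le _ _))
      (h2.trans (cent_anti hM))) hCM, h2, hHmax _ ⟨p, _, hp.out, h1.to_le inf_le_left, center_ne_bot_of_nil
        h1.isNilpotent ((pCoreOf_sylow_of_nil hFn).sylow_ne_bot hd), rfl⟩
          (piCoreOf_normalIn_of _ (fittingOf_normalIn H)).center.norm⟩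
  have hS : R ⊓ (H ⊓ C⟦fittingOf H⟧) ≤ fittingOf H := by
    have h1 : fittingOf (R ⊓ (H ⊓ C⟦fittingOf H⟧)) ≤ fittingOf H :=
      (fittingOf_le_of_normalIn (NormalIn.inf_of_norm hXR)).trans
        (fittingOf_le_of_normalIn (fittingOf_normalIn H).cent)
    exact (le_inf le_rfl (inf_le_right.trans (inf_le_right.trans (cent_anti h1)))).trans
      ((cent_fittingOf_le (sol_of_le hR inf_le_left)).trans h1)
  have ha : ∀ Y ≤ R, Y ≤ H → (♯Y).Coprime n → M ≤ N⟦Y⟧ → Y = ⊥ := fun Y h1 h2 h3 h4 => by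
    have h5 := h2.trans (fittingOf_normalIn H).norm
    have h6 : M ≤ C⟦Y⟧ := commg_eq_bot.1 (le_bot_iff.1 (inf_eq_bot_coprime h3 ▸ le_inf (commg_le_right h4)
      ((commutator_mono hM le_rfl).trans (commg_le_left h5))))
    have h7 := coprime_nil_cent_of_self_cent hFn h5 h3.symm
      (((inf_le_inf_left _ (cent_anti (le_inf hM h6))).trans hCM).trans (le_inf hM h6))
    exact le_bot_iff.1 (inf_eq_bot_coprime h3 ▸ le_inf le_rfl ((le_inf h1 (le_inf h2 h7)).trans hS))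
  have hRM := sol_sup hR (sol_of_nil (nil_of_le hFn hM)) (Or.inr hMR)
  have hb : ∀ Y ≤ R, (♯Y).Coprime n → M ≤ N⟦Y⟧ → Y ≤ piCoreOf (primesNotDvd n) R := fun Y h1 h2 h3 => by
    have key : ∀ p : ℕ, p.Prime → p ∣ n → Y ≤ piCoreOf {p}ᶜ R := fun p hp hd => by
      obtain ⟨r, hr, hrp⟩ := Finset.exists_mem_ne hF2 p
      haveI := Fact.mk hp
      haveI := Fact.mk (Nat.prime_of_mem_primeFactors hr)
      obtain ⟨Z, z1, z2, z3, z4⟩ := hZ p hd
      obtain ⟨W, w1, w2, w3, w4⟩ := hZ r (Nat.dvd_of_mem_primeFactors hr)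
      have h4 := coprime_commg_sup_cent (w2.trans h3) (coprime_of_le_right h2 (w2.trans hM))
        (Or.inl (sol_of_pgroup w1))
      rw [ha (Y ⊓ C⟦W⟧) (inf_le_left.trans h1) (inf_le_right.trans (w4 ▸ cent_le_norm W))
        (coprime_of_le_left h2 inf_le_left)
        (norm_inf_cent h3 (norm_of_cent (hM.trans (cent_symm w3)))), sup_bot_eq] at h4
      have h5 : W ≤ piCoreOf {p}ᶜ (R ⊔ M) := (le_piCoreOf ⟨le_inf (w2.trans le_sup_right)
        (w3.trans (cent_anti (z2.trans hM))), inf_le_right.trans (w4.symm ▸ z4 ▸ cent_le_norm Z)⟩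
        (isPi_of_isPGroup w1 hrp)).trans (pPrimeCoreOf_cent_le hRM z1 (z2.trans le_sup_right))
      rw [piCoreOf_normalIn_eq (NormalIn.sup_left hMR)]
      exact le_inf (h4 ▸ (commutator_mono le_rfl h5).trans
        ((piCoreOf_normalIn _ _).commg_le' (h1.trans le_sup_left))) h1
    refine le_trans (b := R ⊓ ⨅ p : n.primeFactors, piCoreOf {p.1}ᶜ R) (le_inf h1 (le_iInf fun p =>
      key p (Nat.prime_of_mem_primeFactors p.2) (Nat.dvd_of_mem_primeFactors p.2))) (le_piCoreOf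
        (NormalIn.inf_of_norm' (norm_iInf fun p => (piCoreOf_normalIn _ R).norm)) fun p hp hd => ⟨hp, fun h4 => ?_⟩)
    exact (isPi_piCoreOf {p}ᶜ R).mem hp (hd.trans (card_dvd (inf_le_right.trans
      (iInf_le _ (⟨p, Nat.mem_primeFactors.2 ⟨hp, h4, card_ne_zero _⟩⟩ : n.primeFactors))))) rfl
  have hW := isPi_primesNotDvd_iff.1 (isPi_piCoreOf (primesNotDvd n) R)
  have hMW := norm_piCoreOf (primesNotDvd n) hMR
  have hco := coprime_of_le_right hW hM
  have hs : SolOr M (piCoreOf (primesNotDvd n) R) := Or.inl (sol_of_nil (nil_of_le hFn hM))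
  have hc : ∀ Q ∈ maxInvSubgroups R M {q}, SylowOf q Q (piCoreOf (primesNotDvd n) R) := fun Q hQ => by
    have h1 := maxInv_isPGroup hQ
    obtain ⟨S, s1, s2, s3⟩ := exists_inv_sylow_ge hMW hco hs h1 (hb Q (maxInv_le hQ) (coprime_of_isPGroup h1
      ((Nat.Prime.coprime_iff_not_dvd Fact.out).2 hq).symm) (maxInv_norm hQ)) (maxInv_norm hQ)
    exact maxInv_eq hQ (s1.le.trans (piCoreOf_le _ _)) s1.isPi s2 s3 ▸ s1
  obtain ⟨Q, hQ⟩ := exists_maxInv R M {q}
  refine ⟨Q, ⟨hQ, fun Q' hQ' => ⟨(hc Q' hQ').le, (hc Q' hQ').not_dvd⟩⟩, fun Q' hQ' => ?_⟩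
  obtain ⟨c, hc1, rfl⟩ := inv_sylow_exists_cj_eq hMW hco hs (hc Q hQ) (maxInv_norm hQ) (hc Q' hQ'.1)
    (maxInv_norm hQ'.1)
  obtain ⟨r, hr, -⟩ := Finset.exists_mem_ne hF2 0
  haveI := Fact.mk (Nat.prime_of_mem_primeFactors hr)
  obtain ⟨W, w1, w2, w3, w4⟩ := hZ r (Nat.dvd_of_mem_primeFactors hr)
  rw [ha _ (inf_le_left.trans (piCoreOf_le _ _)) (inf_le_right.trans ((cent_anti w2).trans (w4 ▸ cent_le_norm W)))
    (coprime_of_le_left hW inf_le_left) (norm_inf_cent hMW (le_norm_self M)), mem_bot] at hc1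
  rw [hc1, cj_one]

end Cfsg.Agent.S1481
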