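import Cfsg.Statements.S1485
import Cfsg.Agent.H22.Bridge1

set_option autoImplicit false
open Cfsg
open Cfsg.Agent.H22 Cfsg.Agent.H4
open scoped ComplexConjugate

namespace Cfsg.Agent.S1485

/-- Let H be a normal subgroup of the finite group G and θ an irreducible character of H. On H, the function induced from θ equals r times the sum of the distinct G-conjugates of θ, where r is the number of elements of G fixing θ under conjugation divided by the order of H (the index of H in the inertia group). -/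
theorem result {G : Type*} [Group G] [Fintype G] (H : Subgroup G) [hN : H.Normal] (θ : H → ℂ) (hθ : Cfsg.IsIrrCharacter H θ) : (fun h : H => Cfsg.indFun H θ h) = ((Nat.card {g : G // ∀ h : H, θ ⟨g * h * g⁻¹, hN.conj_mem h h.2 g⟩ = θ h} : ℂ) / (Nat.card H : ℂ)) • ∑ᶠ ψ ∈ {ψ : H → ℂ | ∃ g : G, ψ = fun h : H => θ ⟨g * h * g⁻¹, hN.conj_mem h h.2 g⟩}, ψ := by
  classical
  have h1 := Ind_eq_orb (G := ⊤) le_top (Irr.CF (ex_mem_Irr.2 hθ))
  have h2 : {ψ : H → ℂ | ∃ g : G, ψ = fun h : H => θ ⟨g * h * g⁻¹, hN.conj_mem h h.2 g⟩} =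
      ((orb ⊤ (extendByZero H θ)).image (tr H) : Finset (H → ℂ)) := by
    ext ψ
    simp only [Set.mem_ofPred_eq, Finset.coe_image, Set.mem_image, Finset.mem_coe, ← ex_mem_orb]
    constructor
    · intro h; exact ⟨_, h, tr_ex _ _⟩
    · rintro ⟨φ, h, rfl⟩
      rwa [ex_tr_of_supp (Irr.supp (Irr.orb_subset (ex_mem_Irr.2 hθ) (top_le_normalizer H) h))]
  have h3 : Nat.card {g : G // ∀ h : H, θ ⟨g * h * g⁻¹, hN.conj_mem h h.2 g⟩ = θ h} =
      Nat.card ↥(⊤ ⊓ stab (extendByZero H θ)) :=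
    Nat.card_congr (Equiv.subtypeEquivRight fun g => by rw [top_inf_eq, mem_stab_ex])
  rw [h2, finsum_mem_coe_finset, h3,
    ← relIndexC (le_inertia le_top (Irr.inv (ex_mem_Irr.2 hθ))), Finset.sum_image, indFun_eq, h1]
  · funext x; simp [Finset.sum_apply]
  · intro a ha b hb e
    exact tr_inj (Irr.supp (Irr.orb_subset (ex_mem_Irr.2 hθ) (top_le_normalizer H) ha))
      (Irr.supp (Irr.orb_subset (ex_mem_Irr.2 hθ) (top_le_normalizer H) hb)) e

end Cfsg.Agent.S1485
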