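import Cfsg.Statements.S1488
import Cfsg.Agent.H22.Bridge1

set_option autoImplicit false
open Cfsg
open Cfsg.Agent.H22 Cfsg.Agent.H4
open scoped ComplexConjugate

namespace Cfsg.Agent.S1488

/-- Let A be a normal subgroup of the finite group G contained in the subgroup H, let θ be a function on H and θ₁ a function on the image of H in G ⧸ A whose composite with the projection is θ. Then the function induced from θ₁ to G ⧸ A, composed with the projection G → G ⧸ A, equals the function induced from θ to G. -/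
theorem result {G : Type*} [Group G] [Fintype G] (A H : Subgroup G) [A.Normal] (hAH : A ≤ H) [Fintype (G ⧸ A)] [Fintype ↥(H.map (QuotientGroup.mk' A))] (θ : H → ℂ) (θ₁ : ↥(H.map (QuotientGroup.mk' A)) → ℂ) (hθ : ∀ x : H, θ₁ ⟨QuotientGroup.mk' A x, Subgroup.mem_map_of_mem _ x.2⟩ = θ x) (g : G) : Cfsg.indFun (H.map (QuotientGroup.mk' A)) θ₁ (QuotientGroup.mk' A g) = Cfsg.indFun H θ g := by
  classical
  let f : (⊤ : Subgroup G) →* G ⧸ A := (QuotientGroup.mk' A).comp (Subgroup.subtype ⊤)
  have hf : ∀ x : G, pf f x = QuotientGroup.mk' A x := fun x => pf_of_mem f trivial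
  have hp : ∀ K : Subgroup G, H20.pmap f K = K.map (QuotientGroup.mk' A) := by
    intro K; ext y
    simp only [mem_pmap', hf, Subgroup.mem_map, Subgroup.mem_top, true_and]
  have hk : ⊤ ⊓ pker f ≤ H := fun x hx => hAH (by
    have := ((mem_pker f).1 hx.2).2
    rwa [hf, QuotientGroup.mk'_apply, QuotientGroup.eq_one_iff] at this)
  have h1 := Ind_pull f (G := ⊤) le_rfl le_top hk (extendByZero _ θ₁)
  have h2 : pull f H (extendByZero _ θ₁) = extendByZero H θ :=
    ext_supp (pull_supp _ _ _) (ex_supp _ _) fun x hx => by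
      rw [pull_of_mem _ _ hx, hf, ex_apply_mem _ hx, ← hθ,
        ex_apply_mem _ (Subgroup.mem_map_of_mem _ hx)]
  rw [h2, hp, hp, Subgroup.map_top_of_surjective _ (QuotientGroup.mk'_surjective A)] at h1
  rw [indFun_eq, indFun_eq, h1, pull_of_mem _ _ (Subgroup.mem_top g), hf]

end Cfsg.Agent.S1488
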