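import Cfsg.Statements.S1489
import Cfsg.Agent.H22.Bridge1

set_option autoImplicit false
open Cfsg
open Cfsg.Agent.H22 Cfsg.Agent.H4
open scoped ComplexConjugate

namespace Cfsg.Agent.S1489

/-- Let H be a normal subgroup of the finite group G, θ an irreducible character of H, and T the inertia group of θ (the elements g with θ(g h g⁻¹) = θ(h) for all h ∈ H). If ψ and ψ' are irreducible characters of T having nonzero inner product with the function induced from θ to T, then the function induced from ψ to G is an irreducible character of G, and it equals the one induced from ψ' only if ψ = ψ'. -/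
theorem result {G : Type*} [Group G] [Fintype G] (H T : Subgroup G) [hN : H.Normal] [Fintype T] (θ : H → ℂ) (hθ : Cfsg.IsIrrCharacter H θ) (hT : ∀ g : G, g ∈ T ↔ ∀ h : H, θ ⟨g * h * g⁻¹, hN.conj_mem h h.2 g⟩ = θ h) (hHT : H ≤ T) (ψ ψ' : T → ℂ) (hψ : Cfsg.IsIrrCharacter T ψ) (hψ' : Cfsg.IsIrrCharacter T ψ') (hc : Cfsg.classInner (Cfsg.indFun (H.subgroupOf T) (fun x => θ ⟨(x : T), Subgroup.mem_subgroupOf.mp x.2⟩)) ψ ≠ 0) (hc' : Cfsg.classInner (Cfsg.indFun (H.subgroupOf T) (fun x => θ ⟨(x : T), Subgroup.mem_subgroupOf.mp x.2⟩)) ψ' ≠ 0) : Cfsg.IsIrrCharacter G (Cfsg.indFun T ψ) ∧ (Cfsg.indFun T ψ = Cfsg.indFun T ψ' → ψ = ψ') := by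
  have key : ∀ ψ : T → ℂ, IsIrrCharacter T ψ → Cfsg.classInner (Cfsg.indFun (H.subgroupOf T)
      (fun x => θ ⟨(x : T), Subgroup.mem_subgroupOf.mp x.2⟩)) ψ ≠ 0 →
      dot H (extendByZero T ψ) (extendByZero H θ) ≠ 0 := by
    intro ψ hψ hc e
    apply hc
    rw [← dot_ex, indFun_eq, ex_Ind_top T hHT, dot_Ind_left hHT _ (Irr.inv (ex_mem_Irr.2 hψ)),
      ← dot_zero_symm e]
    refine dot_congr (fun x hx => ?_) fun _ _ => rfl
    rw [ex_apply_mem _ (hHT hx), ex_apply_mem _ hx,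
      ex_apply_mem _ (show (⟨x, hHT hx⟩ : T) ∈ H.subgroupOf T from hx)]
  have hT' := (top_inf_stab_eq H T θ hT).le
  rw [indFun_eq, indFun_eq, ← mem_Irr_top]
  exact ⟨Irr.Ind_inertia_irr le_top (top_le_normalizer H) (ex_mem_Irr.2 hθ) hT' le_top
      (ex_mem_Irr.2 hψ) (key ψ hψ hc),
    fun e => ex_injective T (Irr.Ind_inertia_inj le_top (top_le_normalizer H) (ex_mem_Irr.2 hθ) hT'
      le_top (ex_mem_Irr.2 hψ) (key ψ hψ hc) (ex_mem_Irr.2 hψ') (key ψ' hψ' hc') e)⟩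

end Cfsg.Agent.S1489
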