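import Cfsg.Statements.S1491
import Cfsg.Agent.H22.Ext

set_option autoImplicit false
open Cfsg
open Cfsg.Agent.H22 Cfsg.Agent.H4
open scoped ComplexConjugate

namespace Cfsg.Agent.S1491

/-- Let H be a normal subgroup of the finite group G and θ an irreducible character of H with inertia group T, where T/H is abelian (commutators of T lie in H) and the index of H in T is coprime to the order of H. Then the function induced from θ is the sum of a set of exactly [T:H] irreducible characters of G, each of degree [G:T] * θ(1). -/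
theorem result {G : Type*} [Group G] [Fintype G] (H T : Subgroup G) [hN : H.Normal] (θ : H → ℂ) (hθ : Cfsg.IsIrrCharacter H θ) (hT : ∀ g : G, g ∈ T ↔ ∀ h : H, θ ⟨g * h * g⁻¹, hN.conj_mem h h.2 g⟩ = θ h) (hab : ∀ x ∈ T, ∀ y ∈ T, x * y * x⁻¹ * y⁻¹ ∈ H) (hcop : Nat.Coprime (Nat.card H) (H.relIndex T)) : ∃ C : Finset (G → ℂ), (∀ χ ∈ C, Cfsg.IsIrrCharacter G χ) ∧ C.card = H.relIndex T ∧ Cfsg.indFun H θ = ∑ χ ∈ C, χ ∧ ∀ χ ∈ C, χ 1 = (T.index : ℂ) * θ 1 := by
  have hT' := top_inf_stab_eq H T θ hT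
  obtain ⟨h1, h2, h3⟩ := Irr.Ind_abelian_inertia_coprime (G := ⊤) le_top (top_le_normalizer H)
    (ex_mem_Irr.2 hθ) (by rw [hT']; exact Subgroup.commutator_le.2 hab) (by rwa [hT'])
  rw [hT'] at h1 h3
  exact ⟨IrrOver ⊤ H (extendByZero H θ), fun χ hχ => mem_Irr_top.1 (mem_over.1 hχ).1, h1,
    by rw [indFun_eq, h2], fun χ hχ => by simpa using h3 χ hχ⟩

end Cfsg.Agent.S1491
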