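import Cfsg.Statements.S1492
import Cfsg.Agent.H22.Bridge1

set_option autoImplicit false
open Cfsg
open Cfsg.Agent.H22 Cfsg.Agent.H4
open scoped ComplexConjugate

namespace Cfsg.Agent.S1492

/-- Let ψ be an irreducible character of the finite group G and B ≤ D ≤ C subgroups with B normal in C, every commutator of an element of D with an element of C lying in B (so D/B is central in C/B), and ψ constant equal to ψ 1 on B. Then ψ(1) ^ 2 * |C| * |D| ≤ |G| ^ 2. -/
theorem result {G : Type*} [Group G] [Finite G] (ψ : G → ℂ) (hψ : Cfsg.IsIrrCharacter G ψ) (B C D : Subgroup G) (hBD : B ≤ D) (hDC : D ≤ C) (hBn : ∀ c ∈ C, ∀ b ∈ B, c * b * c⁻¹ ∈ B) (hcent : ∀ d ∈ D, ∀ c ∈ C, d * c * d⁻¹ * c⁻¹ ∈ B) (hker : ∀ b ∈ B, ψ b = ψ 1) : ‖ψ 1‖ ^ 2 * (Nat.card C : ℝ) * (Nat.card D : ℝ) ≤ (Nat.card G : ℝ) ^ 2 := by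
  have := Fintype.ofFinite G
  have h1 := mem_Irr_top.2 hψ
  have h2 := Irr.deg_sq_le_section (B := B) (C := C) (D := D) h1 le_top hDC (hBD.trans hDC)
    ((Irr.le_ker_iff h1).2 hker) fun d hd c hc => by
      simpa [mul_assoc] using B.inv_mem (hcent d hd c hc)
  have h3 : ((deg ψ ^ 2 : ℕ) : ℝ) ≤ ((C.relIndex ⊤ ^ 2 * D.relIndex C : ℕ) : ℝ) := by
    exact_mod_cast h2
  push_cast at h3
  rw [relIndexR le_top, relIndexR hDC, Subgroup.card_top] at h3
  rw [(Irr.char h1).norm_one]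
  have h4 := cardR_pos C
  have h5 := cardR_pos D
  calc _ ≤ ((Nat.card G : ℝ) / Nat.card C) ^ 2 * (Nat.card C / Nat.card D) * Nat.card C * Nat.card D := by
        gcongr
    _ = _ := by field_simp

end Cfsg.Agent.S1492
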