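import Cfsg.Statements.S1493
import Cfsg.Agent.H22.Galois

set_option autoImplicit false
open Cfsg
open Cfsg.Agent.H22 Cfsg.Agent.H4
open scoped ComplexConjugate

namespace Cfsg.Agent.S1493

/-- Let G be a finite group of order a * b with a and b coprime, let k be coprime to a, and let χ be a character of G. Then there is a character χ' of G such that χ'(g) = χ(g ^ k) whenever the order of g divides a and χ'(g) = χ(g) whenever the order of g is coprime to a; moreover χ' is irreducible if χ is. -/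
theorem result {G : Type*} [Group G] [Finite G] (a b k : ℕ) (hab : Nat.card G = a * b) (hcop : Nat.Coprime a b) (hk : Nat.Coprime k a) (χ : G → ℂ) (hχ : Cfsg.IsCharacter G χ) : ∃ χ' : G → ℂ, Cfsg.IsCharacter G χ' ∧ (Cfsg.IsIrrCharacter G χ → Cfsg.IsIrrCharacter G χ') ∧ (∀ g : G, orderOf g ∣ a → χ' g = χ (g ^ k)) ∧ (∀ g : G, Nat.Coprime (orderOf g) a → χ' g = χ g) := by
  have := Fintype.ofFinite G
  have ha : a ≠ 0 := by rintro rfl; simpa using (Nat.card_pos (α := G)).ne' (by simpa using hab)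
  have hb : b ≠ 0 := by rintro rfl; simpa using (Nat.card_pos (α := G)).ne' (by simpa using hab)
  obtain ⟨σ, h1, h2⟩ := exists_aut_pow_fix ha hb hcop hk
  have hχ' := isChar_top.2 hχ
  refine ⟨aut σ χ, isChar_top.1 (hχ'.aut σ), fun h => mem_Irr_top.1 (Irr.aut σ (mem_Irr_top.2 h)),
    fun g hg => VC.aut_apply_eq_pow hχ'.VC h1 trivial (orderOf_dvd_iff_pow_eq_one.1 hg),
    fun g hg => ?_⟩
  have h3 : orderOf g ∣ b := hg.dvd_of_dvd_mul_left (hab ▸ orderOf_dvd_natCard g)
  simpa using VC.aut_apply_eq_pow (m := 1) hχ'.VC (by simpa using h2) trivial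
    (orderOf_dvd_iff_pow_eq_one.1 h3)

end Cfsg.Agent.S1493
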