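import Cfsg.Statements.S1495
import Cfsg.Agent.H22.Galois

set_option autoImplicit false
open Cfsg
open Cfsg.Agent.H22 Cfsg.Agent.H4
open scoped ComplexConjugate

namespace Cfsg.Agent.S1495

/-- Let p be a prime, ε = exp(2πi/p), and n an integer such that n = (1 − ε) * ω for some algebraic integer ω. Then p divides n. -/
theorem result (p : ℕ) (hp : p.Prime) (n : ℤ) (ω : ℂ) (hω : IsIntegral ℤ ω) (h : (n : ℂ) = (1 - Complex.exp (2 * Real.pi * Complex.I / p)) * ω) : (p : ℤ) ∣ n := by
  simpa using EqMod.prime_dvd hp (Complex.isPrimitiveRoot_exp p hp.ne_zero) (a := n) (b := 0)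
    ⟨ω, hω, by simpa using h⟩

end Cfsg.Agent.S1495
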