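import Cfsg.Statements.S1497
import Cfsg.Agent.H22.Dade

set_option autoImplicit false
open Cfsg
open Cfsg.Agent.H22 Cfsg.Agent.H4
open scoped ComplexConjugate

namespace Cfsg.Agent.S1497

/-- Let A be a nonempty subset of the finite group G not containing 1 and L a subgroup. Then A is a TI-subset whose normaliser is L if and only if the Dade hypothesis holds for A, L and the constant choice H(a) = ⊥. -/
theorem result {G : Type*} [Group G] [Finite G] (A : Set G) (hA : A.Nonempty) (h1 : (1 : G) ∉ A) (L : Subgroup G) : (Cfsg.IsTISubset A ∧ Subgroup.normalizer A = L) ↔ Cfsg.DadeHypothesis A L (fun _ => ⊥) := by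
  have := Fintype.ofFinite G
  constructor
  · rintro ⟨h, rfl⟩
    have key : ∀ g, ∀ a ∈ A, g⁻¹ * a * g ∈ A → g ∈ Subgroup.normalizer A := fun g a ha hg => by
      by_contra hn
      exact h1 (h g⁻¹ (by simpa using hn) a ha (by simpa using hg) ▸ ha)
    exact TI.dade ⟨le_top, fun a ha => key a a ha (by simpa using ha), le_rfl,
      fun g _ => key g⟩ h1
  · intro hD
    have h := Dade.TI_of_bot hD subset_rfl (Dade.le_norm hD) fun _ _ => rfl
    obtain ⟨a, ha⟩ := hA
    refine ⟨fun g hg x hx hc => (hg (h.norm ?_)).elim, le_antisymm (fun g hg => ?_) h.norm⟩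
    · simpa using h.ti g⁻¹ trivial x hx (by simpa using hc)
    · exact h.ti g trivial a ha ((Subgroup.mem_set_normalizer_iff''.1 hg a).1 ha)

end Cfsg.Agent.S1497
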