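import Cfsg.Statements.S1499
import Cfsg.Agent.H22.Dade

set_option autoImplicit false
open Cfsg
open Cfsg.Agent.H22 Cfsg.Agent.H4
open scoped ComplexConjugate

namespace Cfsg.Agent.S1499

/-- Under the Dade hypothesis for (A, L, H), let a, b ∈ A. If an element of the coset a·H(a) is conjugate in G to an element of b·H(b), then a and b are conjugate by an element of L. Moreover the set normaliser of the coset a·H(a) is the centraliser of a. -/
theorem result {G : Type*} [Group G] [Finite G] (A : Set G) (L : Subgroup G) (H : G → Subgroup G) (hD : Cfsg.DadeHypothesis A L H) (a b : G) (ha : a ∈ A) (hb : b ∈ A) : ((∃ u ∈ H a, ∃ v ∈ H b, ∃ g : G, g * (a * u) * g⁻¹ = b * v) → ∃ x ∈ L, x * a * x⁻¹ = b) ∧ Subgroup.normalizer ((fun u : G => a * u) '' (H a : Set G)) = Subgroup.centralizer ({a} : Set G) := by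
  have := Fintype.ofFinite G
  refine ⟨fun ⟨u, hu, v, hv, g, e⟩ => Dade.fuse hD ha hb hu hv e, ?_⟩
  ext g
  constructor
  · intro hg
    obtain ⟨v, hv, e⟩ := (Subgroup.mem_set_normalizer_iff.1 hg a).1 ⟨1, (H a).one_mem, by simp⟩
    have := Dade.conj_eq hD (g := g) ha ha (H a).one_mem hv (by simpa using e.symm)
    exact Subgroup.mem_centralizer_singleton_iff.2 (by rwa [← mul_inv_eq_iff_eq_mul])
  · intro hg
    have key : ∀ g ∈ Subgroup.centralizer ({a} : Set G), ∀ y ∈ (fun u : G => a * u) '' (H a : Set G),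
        g * y * g⁻¹ ∈ (fun u : G => a * u) '' (H a : Set G) := by
      rintro g hg _ ⟨u, hu, rfl⟩
      exact ⟨_, hD.conj_mem_H a ha g hg u hu, by
        simp only [← mul_assoc, Subgroup.mem_centralizer_singleton_iff.1 hg]⟩
    exact Subgroup.mem_set_normalizer_iff.2 fun y => ⟨key g hg y, fun h => by
      simpa [mul_assoc] using key _ (Subgroup.inv_mem _ hg) _ h⟩

end Cfsg.Agent.S1499
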