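import Cfsg.Statements.S1500
import Cfsg.Agent.H22.Dade
import Cfsg.Agent.H22.Bridge1

set_option autoImplicit false
open Cfsg
open Cfsg.Agent.H22 Cfsg.Agent.H4
open scoped ComplexConjugate

namespace Cfsg.Agent.S1500

/-- Under the Dade hypothesis for (A, L, H), let α be a class function of L vanishing outside A. Then (i) for every class function β of L vanishing outside A, the inner product over G of the Dade images of α and β equals the inner product of α and β over L; and (ii) for every class function χ of G and every function ψ on L whose value at each a ∈ A is the average of χ over the coset a·H(a), the inner product over G of the Dade image of α with χ equals the inner product over L of α with ψ. -/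
theorem result {G : Type*} [Group G] [Fintype G] (A : Set G) (L : Subgroup G) [Fintype L] (H : G → Subgroup G) (hD : Cfsg.DadeHypothesis A L H) (α : L → ℂ) (hα : Cfsg.IsClassFunction L α) (hαA : ∀ x : L, (x : G) ∉ A → α x = 0) : (∀ β : L → ℂ, Cfsg.IsClassFunction L β → (∀ x : L, (x : G) ∉ A → β x = 0) → Cfsg.classInner (Cfsg.dadeIsometry A L H α) (Cfsg.dadeIsometry A L H β) = Cfsg.classInner α β) ∧ (∀ (χ : G → ℂ) (ψ : L → ℂ), Cfsg.IsClassFunction G χ → (∀ a : L, (a : G) ∈ A → ψ a = (Nat.card (H a) : ℂ)⁻¹ * ∑ᶠ u ∈ (H a : Set G), χ (a * u)) → Cfsg.classInner (Cfsg.dadeIsometry A L H α) χ = Cfsg.classInner α ψ) := by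
  have e : ∀ β : L → ℂ, dadeIsometry A L H β = dade A L H (extendByZero L β) := fun β => by
    change _ = dadeIsometry A L H (tr L (extendByZero L β)); rw [tr_ex]
  have hs : Supp A (extendByZero L α) := fun x hx => by
    by_cases h : x ∈ L
    · rw [ex_apply_mem _ h]; exact hαA _ hx
    · exact ex_supp _ _ _ h
  refine ⟨fun β hβ _ => ?_, fun χ ψ hχ hψ => ?_⟩
  · rw [e, e, ← dot_top, Dade.dot_eq' hD (ex_mem_CF hα).2 (ex_mem_CF hβ).2 hs, dot_ex]
  · rw [e, ← dot_top, Dade.dot_rho hD (ex_mem_CF hα).2 (inv_top_iff.2 hχ), ← dot_ex]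
    refine dot_congr_supp hs fun a haL ha => ?_
    rw [ex_apply_mem _ haL, hψ _ ha, rho_apply H _ ha, ← coe_fs (H a : Set G),
      finsum_mem_coe_finset, coe_fs]

end Cfsg.Agent.S1500
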