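import Cfsg.Statements.S1501
import Cfsg.Agent.H22.Dade
import Cfsg.Agent.H22.Bridge1

set_option autoImplicit false
open Cfsg
open Cfsg.Agent.H22 Cfsg.Agent.H4
open scoped ComplexConjugate

namespace Cfsg.Agent.S1501

/-- Under the Dade hypothesis for (A, L, H): if α is a generalized character of L vanishing outside A, then its image under the Dade map is a generalized character of G. -/
theorem result {G : Type*} [Group G] [Fintype G] (A : Set G) (L : Subgroup G) [Fintype L] (H : G → Subgroup G) (hD : Cfsg.DadeHypothesis A L H) (α : L → ℂ) (hα : Cfsg.IsGeneralizedCharacter L α) (hαA : ∀ x : L, (x : G) ∉ A → α x = 0) : Cfsg.IsGeneralizedCharacter G (Cfsg.dadeIsometry A L H α) := by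
  have e : ∀ β : L → ℂ, dadeIsometry A L H β = dade A L H (extendByZero L β) := fun β => by
    change _ = dadeIsometry A L H (tr L (extendByZero L β)); rw [tr_ex]
  have hs : Supp A (extendByZero L α) := fun x hx => by
    by_cases h : x ∈ L
    · rw [ex_apply_mem _ h]; exact hαA _ hx
    · exact ex_supp _ _ _ h
  rw [e]
  exact mem_VC_top.1 (Dade.mem_VC hD (ex_mem_VC.2 hα) hs)

end Cfsg.Agent.S1501
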