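import Cfsg.Statements.S1502
import Cfsg.Agent.H22.Bridge2

set_option autoImplicit false
open Cfsg
open Cfsg.Agent.H22 Cfsg.Agent.H4
open scoped ComplexConjugate

namespace Cfsg.Agent.S1502

/-- Let W₁, W₂ be nontrivial subgroups of the finite group G generating a cyclic subgroup W = W₁ ⊔ W₂ of odd order that is the normaliser of every nonempty set of its elements outside W₁ ∪ W₂. Then there is a family attaching to each linear character ω of W an irreducible character of G up to sign, orthonormal, sending the trivial character to the principal character, with χ ω = ω on W outside W₁ ∪ W₂, and such that inducing (1 − φ)(1 − ψ) to G gives 1 − χ φ − χ ψ + χ (φψ) whenever φ ≠ 1 is trivial on W₂ and ψ ≠ 1 is trivial on W₁. -/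
theorem result {G : Type*} [Group G] [Fintype G] (W₁ W₂ : Subgroup G) (hW : Cfsg.IsSelfNormalizingCyclic W₁ W₂) (hodd : Odd (Nat.card ↥(W₁ ⊔ W₂))) : ∃ χ : (↥(W₁ ⊔ W₂) →* ℂˣ) → (G → ℂ), Cfsg.IsCyclicTIFamily W₁ W₂ χ := by
  have h : CycTI ⊤ (W₁ ⊔ W₂) W₁ W₂ := ⟨CycTI0.of_self hW, hodd⟩
  have f := h.fam
  have d := h.dp
  refine ⟨fun l => eta ⊤ (W₁ ⊔ W₂) (resL d.le1 (LC.of l)) (resL d.le2 (LC.of l)),
    fun l => mem_Dirr_top.1 (f.dirr _ _), fun l l' => ?_, by
      have := f.one; rw [one_top] at this; exact this, fun l w h1 h2 => ?_,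
    fun φ ψ h1 h2 h3 h4 => ?_⟩
  · rw [← dot_top, f.dot_eq]
    by_cases e : l = l'
    · simp [e]
    · rw [if_neg e, if_neg fun e' => e (d.LC_ext.2 e' : LC.of l = LC.of l')]
  · rw [f.apply h.toCycTI0 _ _ ⟨w.2, h1, h2⟩, ← d.lc_eq_om, lc_of, lin_coe]
  · have e1 := (resL_eq_one d.le2 φ).2 h3
    have e2 := (resL_eq_one d.le1 ψ).2 h4
    rw [indFun_eq, d.ex_alpha e1 e2, f.Ind_four h.toCycTI0, f.one, one_top]
    simp only [of_mul, resL_mul, e1, e2, mul_one, one_mul]
    funext g; simp; ring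

end Cfsg.Agent.S1502
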