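import Cfsg.Statements.S1504
import Cfsg.Agent.H22.Bridge2

set_option autoImplicit false
open Cfsg
open Cfsg.Agent.H22 Cfsg.Agent.H4
open scoped ComplexConjugate

namespace Cfsg.Agent.S1504

/-- Let W₁, W₂ be subgroups of a finite group with W₁ ⊓ W₂ = ⊥ whose elements commute, and W = W₁ ⊔ W₂. For linear characters φ, ψ of W with φ trivial on W₂ and ψ trivial on W₁, the function (1 − φ)(1 − ψ) vanishes on W₁ ∪ W₂; and the family of these functions, indexed by pairs (φ, ψ) with φ ≠ 1 ≠ ψ, is linearly independent over ℂ. -/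
theorem result {G : Type*} [Group G] [Finite G] (W₁ W₂ : Subgroup G) (hdisj : W₁ ⊓ W₂ = ⊥) (hcomm : ∀ a ∈ W₁, ∀ b ∈ W₂, a * b = b * a) : (∀ φ ψ : ↥(W₁ ⊔ W₂) →* ℂˣ, (∀ w : ↥(W₁ ⊔ W₂), (w : G) ∈ W₂ → φ w = 1) → (∀ w : ↥(W₁ ⊔ W₂), (w : G) ∈ W₁ → ψ w = 1) → ∀ w : ↥(W₁ ⊔ W₂), ((w : G) ∈ W₁ ∨ (w : G) ∈ W₂) → (1 - (φ w : ℂ) - (ψ w : ℂ) + (φ w : ℂ) * (ψ w : ℂ)) = 0) ∧ LinearIndependent ℂ (fun p : {p : (↥(W₁ ⊔ W₂) →* ℂˣ) × (↥(W₁ ⊔ W₂) →* ℂˣ) // p.1 ≠ 1 ∧ p.2 ≠ 1 ∧ (∀ w : ↥(W₁ ⊔ W₂), (w : G) ∈ W₂ → p.1 w = 1) ∧ (∀ w : ↥(W₁ ⊔ W₂), (w : G) ∈ W₁ → p.2 w = 1)} => fun w : ↥(W₁ ⊔ W₂) => 1 - (p.1.1 w : ℂ) - (p.1.2 w : ℂ) + (p.1.1 w : ℂ) * (p.1.2 w : ℂ)) := by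
  classical
  have := Fintype.ofFinite G
  have d := DP.of_comm hdisj hcomm
  refine ⟨fun φ ψ h1 h2 w hw => ?_, ?_⟩
  · rcases hw with hw | hw
    · simp [h2 w hw]
    · simp [h1 w hw]
  refine LinearIndependent.of_comp (exL (W₁ ⊔ W₂)) (linearIndependent_iff'.2 fun s g hs p hp => ?_)
  have := congrArg (fun α => dot (W₁ ⊔ W₂) α (lc (LC.of p.1.1 * LC.of p.1.2))) hs
  simp only [dot_sum_left, dot_smul_left, Function.comp, exL_apply, ex_alpha, dot_sub_left,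
    dot_add_left, dot_lc, dot_zero_left] at this
  have k : ∀ q : {p : (↥(W₁ ⊔ W₂) →* ℂˣ) × (↥(W₁ ⊔ W₂) →* ℂˣ) // p.1 ≠ 1 ∧ p.2 ≠ 1 ∧
      (∀ w : ↥(W₁ ⊔ W₂), (w : G) ∈ W₂ → p.1 w = 1) ∧ (∀ w : ↥(W₁ ⊔ W₂), (w : G) ∈ W₁ → p.2 w = 1)},
      resL d.le2 (LC.of q.1.1) = 1 ∧ resL d.le1 (LC.of q.1.2) = 1 ∧
      resL d.le1 (LC.of q.1.1) ≠ 1 ∧ resL d.le2 (LC.of q.1.2) ≠ 1 := fun q => by
    have e1 := (resL_eq_one d.le2 _).2 q.2.2.2.1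
    have e2 := (resL_eq_one d.le1 _).2 q.2.2.2.2
    exact ⟨e1, e2, fun e => q.2.1 (d.LC_ext.2 ⟨e, e1⟩ : LC.of _ = 1),
      fun e => q.2.2.1 (d.LC_ext.2 ⟨e2, e⟩ : LC.of _ = 1)⟩
  rw [Finset.sum_eq_single_of_mem p hp] at this
  · simpa [d.LC_ext, resL_mul, k p, (k p).2.2.1.symm, (k p).2.2.2.symm] using this
  · intro q _ hq
    have : ¬(resL d.le1 (LC.of q.1.1) = resL d.le1 (LC.of p.1.1) ∧
        resL d.le2 (LC.of q.1.2) = resL d.le2 (LC.of p.1.2)) := fun e =>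
      hq (Subtype.ext (Prod.ext (d.LC_ext.2 ⟨e.1, (k q).1.trans (k p).1.symm⟩ : LC.of _ = LC.of _)
        (d.LC_ext.2 ⟨(k q).2.1.trans (k p).2.1.symm, e.2⟩ : LC.of _ = LC.of _)))
    simp [d.LC_ext, resL_mul, k p, k q, (k p).2.2.1.symm, (k p).2.2.2.symm, this]

end Cfsg.Agent.S1504
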