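import Cfsg.Statements.S1505
import Cfsg.Agent.H22.Bridge2

set_option autoImplicit false
open Cfsg
open Cfsg.Agent.H22 Cfsg.Agent.H4
open scoped ComplexConjugate

namespace Cfsg.Agent.S1505

open Classical in
/-- Let W₁, W₂ ≤ G form a self-normalising cyclic subgroup W = W₁ ⊔ W₂. For nontrivial linear characters φ, φ' of W trivial on W₂ and ψ, ψ' trivial on W₁, put α = (1 − φ)(1 − ψ) and α' = (1 − φ')(1 − ψ'). Then the function induced from α to G has inner product 1 with the principal character, and the inner product of the functions induced from α and α' is 1 + a + b + ab where a = 1 if φ = φ' (else 0) and b = 1 if ψ = ψ' (else 0). -/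
theorem result {G : Type*} [Group G] [Fintype G] (W₁ W₂ : Subgroup G) (hW : Cfsg.IsSelfNormalizingCyclic W₁ W₂) (φ φ' ψ ψ' : ↥(W₁ ⊔ W₂) →* ℂˣ) (hφ : φ ≠ 1) (hφ' : φ' ≠ 1) (hψ : ψ ≠ 1) (hψ' : ψ' ≠ 1) (hφ₂ : ∀ w : ↥(W₁ ⊔ W₂), (w : G) ∈ W₂ → φ w = 1 ∧ φ' w = 1) (hψ₁ : ∀ w : ↥(W₁ ⊔ W₂), (w : G) ∈ W₁ → ψ w = 1 ∧ ψ' w = 1) : Cfsg.classInner (Cfsg.indFun (W₁ ⊔ W₂) (fun w => 1 - (φ w : ℂ) - (ψ w : ℂ) + (φ w : ℂ) * (ψ w : ℂ))) (fun _ => 1) = 1 ∧ Cfsg.classInner (Cfsg.indFun (W₁ ⊔ W₂) (fun w => 1 - (φ w : ℂ) - (ψ w : ℂ) + (φ w : ℂ) * (ψ w : ℂ))) (Cfsg.indFun (W₁ ⊔ W₂) (fun w => 1 - (φ' w : ℂ) - (ψ' w : ℂ) + (φ' w : ℂ) * (ψ' w : ℂ))) = 1 + (if φ = φ' then 1 else 0) + (if ψ = ψ' then 1 else 0) + (if φ = φ' then 1 else 0) * (if ψ = ψ' then 1 else 0) := by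
  have h := CycTI0.of_self hW
  have d := h.dp
  have e1 := (resL_eq_one d.le2 φ).2 fun w hw => (hφ₂ w hw).1
  have e2 := (resL_eq_one d.le1 ψ).2 fun w hw => (hψ₁ w hw).1
  have e1' := (resL_eq_one d.le2 φ').2 fun w hw => (hφ₂ w hw).2
  have e2' := (resL_eq_one d.le1 ψ').2 fun w hw => (hψ₁ w hw).2
  have n1 : resL d.le1 (LC.of φ) ≠ 1 := fun e => hφ (d.LC_ext.2 ⟨e, e1⟩ : LC.of _ = 1)
  have n2 : resL d.le2 (LC.of ψ) ≠ 1 := fun e => hψ (d.LC_ext.2 ⟨e2, e⟩ : LC.of _ = 1)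
  have n1' : resL d.le1 (LC.of φ') ≠ 1 := fun e => hφ' (d.LC_ext.2 ⟨e, e1'⟩ : LC.of _ = 1)
  have n2' : resL d.le2 (LC.of ψ') ≠ 1 := fun e => hψ' (d.LC_ext.2 ⟨e2', e⟩ : LC.of _ = 1)
  have k1 : φ = φ' ↔ resL d.le1 (LC.of φ) = resL d.le1 (LC.of φ') := by
    rw [← of_inj, d.LC_ext, e1, e1']; simp
  have k2 : ψ = ψ' ↔ resL d.le2 (LC.of ψ) = resL d.le2 (LC.of ψ') := by
    rw [← of_inj, d.LC_ext, e2, e2']; simp
  rw [indFun_eq, indFun_eq, d.ex_alpha e1 e2, d.ex_alpha e1' e2', ← dot_top, ← dot_top,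
    h.dot_Ind (d.supp_four _ _ _ _) (d.supp_four _ _ _ _), dot_Ind_left le_top _ (fun _ _ _ => rfl),
    ← dot_Res_right]
  change dot _ _ (one _) = 1 ∧ _
  rw [← d.om_one_one]
  simp only [k1, k2]
  simp [d.dot_om, n1, n2, n1', n2', n1'.symm, n2'.symm, ite_and]
  split_ifs <;> ring

end Cfsg.Agent.S1505
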