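import Cfsg.Statements.S1507
import Cfsg.Agent.H22.Bridge2

set_option autoImplicit false
open Cfsg
open Cfsg.Agent.H22 Cfsg.Agent.H4
open scoped ComplexConjugate

namespace Cfsg.Agent.S1507

open Classical in
/-- Let W₁, W₂ ≤ G form a self-normalising cyclic subgroup W = W₁ ⊔ W₂ of odd order with Nat.card W₁ < Nat.card W₂, and χ an orthonormal family of irreducible characters of G up to sign, indexed by the linear characters ω of W, with χ_1 = 1, χ_ω = ω on W outside W₁ ∪ W₂, and the induction identity for (1 − φ)(1 − ψ). Let θ be a class function of G vanishing on W outside W₁ ∪ W₂, and suppose fewer than 2 · Nat.card W₁ linear characters ω of W have ⟨θ, χ ω⟩ ≠ 0. Then one of: all ⟨θ, χ ω⟩ vanish; or there are ψ₀ and a with ⟨θ, χ ω⟩ = a when ω ψ₀⁻¹ is trivial on W₂ and 0 otherwise; or there are φ₀ and a with ⟨θ, χ ω⟩ = a when ω φ₀⁻¹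 is trivial on W₁ and 0 otherwise. -/
theorem result {G : Type*} [Group G] [Fintype G] (W₁ W₂ : Subgroup G) (hW : Cfsg.IsSelfNormalizingCyclic W₁ W₂) (hodd : Odd (Nat.card ↥(W₁ ⊔ W₂))) (χ : (↥(W₁ ⊔ W₂) →* ℂˣ) → (G → ℂ)) (hχ : Cfsg.IsCyclicTIFamily W₁ W₂ χ) (hlt : Nat.card W₁ < Nat.card W₂) (θ : G → ℂ) (hθ : Cfsg.IsClassFunction G θ) (hθV : ∀ w : ↥(W₁ ⊔ W₂), (w : G) ∉ W₁ → (w : G) ∉ W₂ → θ w = 0) (hfew : Nat.card {ω : ↥(W₁ ⊔ W₂) →* ℂˣ // Cfsg.classInner θ (χ ω) ≠ 0} < 2 * Nat.card W₁) : (∀ ω, Cfsg.classInner θ (χ ω) = 0) ∨ (∃ (ψ₀ : ↥(W₁ ⊔ W₂) →* ℂˣ) (a : ℂ), ∀ ω, Cfsg.classInner θ (χ ω) = if (∀ w : ↥(W₁ ⊔ W₂), (w : G) ∈ W₂ → (ω * ψ₀⁻¹) w = 1) then a else 0) ∨ (∃ (φ₀ : ↥(W₁ ⊔ W₂) →* ℂˣ) (a : ℂ), ∀ ω, Cfsg.classInner θ (χ ω) = if (∀ w : ↥(W₁ ⊔ W₂), (w : G) ∈ W₁ → (ω * φ₀⁻¹) w = 1) then a else 0) := by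
  have h : CycTI ⊤ (W₁ ⊔ W₂) W₁ W₂ := ⟨CycTI0.of_self hW, hodd⟩
  have d := h.dp
  obtain ⟨η, f, e⟩ := CycFam.of_family d hχ
  by_cases h0 : ∀ ω, Cfsg.classInner θ (χ ω) = 0
  · exact Or.inl h0
  right
  push Not at h0
  obtain ⟨ω₀, h0⟩ := h0
  have hN : NC ⊤ η θ < 2 * min (Nat.card W₁) (Nat.card W₂) := by
    rw [min_eq_left hlt.le]
    refine lt_of_eq_of_lt ?_ hfew
    rw [NC, ← Nat.card_eq_finsetCard]
    symm
    refine Nat.card_eq_of_bijective (fun ω => ⟨(resL d.le1 (LC.of ω.1), resL d.le2 (LC.of ω.1)), by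
      simpa [← e, dot_top] using ω.2⟩) ⟨fun a b hab => Subtype.ext
        (d.LC_ext.2 (Prod.ext_iff.1 (congrArg Subtype.val hab)) : LC.of _ = LC.of _), ?_⟩
    rintro ⟨⟨i, j⟩, hp⟩
    obtain ⟨l, rfl, rfl⟩ := d.exists_omL i j
    exact ⟨⟨l.hom, by rw [e, ← dot_top]; exact (Finset.mem_filter.1 hp).2⟩, rfl⟩
  rw [e, ← dot_top] at h0
  rcases f.small h (inv_top_iff.2 hθ) (fun x hx => hθV ⟨x, hx.1⟩ hx.2.1 hx.2.2) hN h0 with k | k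
  · refine Or.inl ⟨ω₀, dot ⊤ θ (η (resL d.le1 (LC.of ω₀)) (resL d.le2 (LC.of ω₀))), fun ω => ?_⟩
    rw [e, ← dot_top, k]
    simp only [← resL_eq_one d.le2, of_mul, of_inv, resL_mul, resL_inv, mul_inv_eq_one]
  · refine Or.inr ⟨ω₀, dot ⊤ θ (η (resL d.le1 (LC.of ω₀)) (resL d.le2 (LC.of ω₀))), fun ω => ?_⟩
    rw [e, ← dot_top, k]
    simp only [← resL_eq_one d.le1, of_mul, of_inv, resL_mul, resL_inv, mul_inv_eq_one]

end Cfsg.Agent.S1507
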