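import Cfsg.Statements.S1511
import Cfsg.Agent.H22.Bridge3

set_option autoImplicit false
open Cfsg
open Cfsg.Agent.H22 Cfsg.Agent.H4
open scoped ComplexConjugate

namespace Cfsg.Agent.S1511

/-- Let L be a finite group with K normal with complement W₁ ≠ 1 a cyclic Hall subgroup, and W₂ ≠ 1 a cyclic subgroup of K equal to C_K(x) for every non-identity x ∈ W₁, with W₁W₂ of odd order. Then there are a map μ from the linear characters of W = W₁ ⊔ W₂ to irreducible characters of L, injective, and a sign δ(ω) ∈ {1, −1} depending only on the values of ω on W₂, such that: for ω, ω' agreeing on W₂, the function induced to L from ω − ω' equals δ(ω) • (μ ω − μ ω'); μ ω x = δ(ω) ω x for x ∈ W outside W₂; every irreducible character of L not of the form μ ω vanishes on W outside W₂; and μ ω 1 − δ(ω) is an integer multiple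 of Nat.card W₁. -/
theorem result {L : Type*} [Group L] [Fintype L] (K W₁ W₂ : Subgroup L) [hK : K.Normal] (hKW₁ : K ⊓ W₁ = ⊥) (hKW₁' : K ⊔ W₁ = ⊤) (hW₁ : W₁ ≠ ⊥) (hW₁c : IsCyclic W₁) (hHall : Nat.Coprime (Nat.card W₁) W₁.index) (hW₂ : W₂ ≠ ⊥) (hW₂c : IsCyclic W₂) (hW₂K : W₂ ≤ K) (hC : ∀ x ∈ W₁, x ≠ 1 → K ⊓ Subgroup.centralizer ({x} : Set L) = W₂) (hodd : Odd (Nat.card ↥(W₁ ⊔ W₂))) : ∃ (μ : (↥(W₁ ⊔ W₂) →* ℂˣ) → (L → ℂ)) (δ : (↥(W₁ ⊔ W₂) →* ℂˣ) → ℂ), Function.Injective μ ∧ (∀ ω, Cfsg.IsIrrCharacter L (μ ω)) ∧ (∀ ω, δ ω = 1 ∨ δ ω = -1) ∧ (∀ ω ω' : ↥(W₁ ⊔ W₂) →* ℂˣ, (∀ w : ↥(W₁ ⊔ W₂), (w : L) ∈ W₂ → ω w = ω' w) → δ ω = δ ω' ∧ Cfsg.indFun (W₁ ⊔ W₂) (fun w => (ω w : ℂ) - (ω' w : ℂ)) = δ ω • (μ ω - μ ω')) ∧ (∀ ω, ∀ w : ↥(W₁ ⊔ W₂), (w : L) ∉ W₂ → μ ω w = δ ω * (ω w : ℂ)) ∧ (∀ θ : L → ℂ, Cfsg.IsIrrCharacter L θ → (∀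 ω, θ ≠ μ ω) → ∀ w : ↥(W₁ ⊔ W₂), (w : L) ∉ W₂ → θ w = 0) ∧ (∀ ω, ∃ n : ℤ, μ ω 1 - δ ω = n * (Nat.card W₁ : ℂ)) := by
  have h := PrimeTI.of_top hKW₁ hKW₁' hW₁ hW₁c hHall hW₂ hW₂c hW₂K hC hodd
  have d := h.dp
  have hv : ∀ (ω : ↥(W₁ ⊔ W₂) →* ℂˣ) (w : ↥(W₁ ⊔ W₂)),
      om (W₁ ⊔ W₂) (resL d.le1 (LC.of ω)) (resL d.le2 (LC.of ω)) w = ω w := fun ω w => by
    rw [← d.lc_eq_om, lc_of, lin_coe]
  refine ⟨fun ω => mu2 ⊤ (W₁ ⊔ W₂) (resL d.le1 (LC.of ω)) (resL d.le2 (LC.of ω)),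
    fun ω => dl ⊤ (W₁ ⊔ W₂) W₁ (resL d.le2 (LC.of ω)), fun a b e => of_inj.1 (d.LC_ext.2 (h.mu2_inj e)),
    fun ω => mem_Irr_top.1 (h.mu2_irr _ _), fun ω => dl_cases _ _ _ _, fun ω ω' e => ?_,
    fun ω w hw => (h.mu2_apply _ _ w.2 hw).trans (by rw [hv]), fun θ hθ hne w hw => ?_, fun ω => ?_⟩
  · have e2 : resL d.le2 (LC.of ω') = resL d.le2 (LC.of ω) :=
      MonoidHom.ext fun w => (e ⟨w, d.le2 w.2⟩ w.2).symm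
    refine ⟨by simp only [e2], ?_⟩
    simp only [e2, smul_sub, dl_smul_mu2]
    rw [← h.Ind_sub, indFun_eq]
    congr 1
    refine ext_supp (ex_supp _ _) ((om_supp _ _ _).sub (om_supp _ _ _)) fun x hx => ?_
    rw [ex_apply_mem _ hx, Pi.sub_apply, hv ω ⟨x, hx⟩, ← e2, hv ω' ⟨x, hx⟩]
  · refine h.vanish_irr (mem_Irr_top.2 hθ) (fun i j e => ?_) w.2 hw
    obtain ⟨l, rfl, rfl⟩ := d.exists_omL i j
    exact hne l.hom e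
  · obtain ⟨n, hn⟩ := h.mu2_one_mod (resL d.le1 (LC.of ω)) (resL d.le2 (LC.of ω))
    exact ⟨n, by rw [hn, mul_comm]⟩

end Cfsg.Agent.S1511
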