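import Cfsg.Statements.S1512
import Cfsg.Agent.H22.Misc1

set_option autoImplicit false
open Cfsg
open Cfsg.Agent.H22 Cfsg.Agent.H4
open scoped ComplexConjugate

namespace Cfsg.Agent.S1512

/-- Let K be a normal subgroup of the finite group L and x a non-identity element whose order is coprime to the order of K, such that K ⊓ C_L(y) = W₂ for every non-identity element y of the cyclic group generated by x. Then the number of conjugacy classes of K mapped to themselves by conjugation by x is at most Nat.card W₂. -/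
theorem result {L : Type*} [Group L] [Finite L] (K W₂ : Subgroup L) [hK : K.Normal] (x : L) (hx1 : x ≠ 1) (hx : Nat.Coprime (orderOf x) (Nat.card K)) (hC : ∀ y ∈ Subgroup.zpowers x, y ≠ 1 → K ⊓ Subgroup.centralizer ({y} : Set L) = W₂) : Nat.card {C : ConjClasses K // ConjClasses.map (MulEquiv.toMonoidHom ((MulAut.conjNormal x : MulAut K))) C = C} ≤ Nat.card W₂ := by
  have := Fintype.ofFinite L
  rw [← hC x (Subgroup.mem_zpowers x) hx1]
  have key : ∀ C : {C : ConjClasses K // ConjClasses.map (MulEquiv.toMonoidHom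
      ((MulAut.conjNormal x : MulAut K))) C = C}, ∃ r : ↥(K ⊓ Subgroup.centralizer ({x} : Set L)),
      ConjClasses.mk (⟨r, r.2.1⟩ : K) = C := by
    rintro ⟨C, hC⟩
    obtain ⟨k, rfl⟩ := ConjClasses.mk_surjective C
    obtain ⟨h, e⟩ := isConj_iff.1 (ConjClasses.mk_eq_mk_iff_isConj.1 hC).symm
    obtain ⟨y, hy, h1⟩ := exists_conj_cent_of_fixed (top_le_normalizer K trivial) hx h.2
      (k := k) (congrArg Subtype.val e).symm
    exact ⟨⟨y * k * y⁻¹, hK.conj_mem _ k.2 _, Subgroup.mem_centralizer_singleton_iff.2 h1.symm⟩,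
      ConjClasses.mk_eq_mk_iff_isConj.2 (IsConj.symm (isConj_iff.2 ⟨⟨y, hy⟩, rfl⟩))⟩
  choose f hf using key
  exact Nat.card_le_card_of_injective f fun a b e => Subtype.ext (by rw [← hf a, ← hf b, e])

end Cfsg.Agent.S1512
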