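import Cfsg.Statements.S1513
import Cfsg.Agent.H22.Bridge3

set_option autoImplicit false
open Cfsg
open Cfsg.Agent.H22 Cfsg.Agent.H4
open scoped ComplexConjugate

namespace Cfsg.Agent.S1513

/-- Let L be a finite group with K normal with complement W₁ ≠ 1 a cyclic Hall subgroup, and W₂ ≠ 1 a cyclic subgroup of K equal to C_K(x) for every non-identity x ∈ W₁, with W₁W₂ of odd order. For an irreducible character θ of K: if θ is not fixed under conjugation by some element of W₁, then the function induced from θ to L is an irreducible character of L; and the irreducible characters of K fixed by all of W₁ are exactly Nat.card W₂ in number, each inducing to the sum of Nat.card W₁ pairwise distinct irreducible characters of L. -/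
theorem result {L : Type*} [Group L] [Fintype L] (K W₁ W₂ : Subgroup L) [hK : K.Normal] (hKW₁ : K ⊓ W₁ = ⊥) (hKW₁' : K ⊔ W₁ = ⊤) (hW₁ : W₁ ≠ ⊥) (hW₁c : IsCyclic W₁) (hHall : Nat.Coprime (Nat.card W₁) W₁.index) (hW₂ : W₂ ≠ ⊥) (hW₂c : IsCyclic W₂) (hW₂K : W₂ ≤ K) (hC : ∀ x ∈ W₁, x ≠ 1 → K ⊓ Subgroup.centralizer ({x} : Set L) = W₂) (hodd : Odd (Nat.card ↥(W₁ ⊔ W₂))) : (∀ θ : K → ℂ, Cfsg.IsIrrCharacter K θ → (∃ x ∈ W₁, (fun k : K => θ ⟨x * k * x⁻¹, hK.conj_mem (k : L) k.2 x⟩) ≠ θ) → Cfsg.IsIrrCharacter L (Cfsg.indFun K θ)) ∧ Nat.card {θ : Cfsg.IrrCharacter K // ∀ x ∈ W₁, (fun k : K => (θ : K → ℂ) ⟨x * k * x⁻¹, hK.conj_mem (k : L) k.2 x⟩) = θ} = Nat.card W₂ ∧ (∀ θ : K → ℂ, Cfsg.IsIrrCharacter K θ → (∀ x ∈ W₁, (fun k : K => θ ⟨x * k * x⁻¹, hK.conj_mem (k : L) k.2 x⟩) = θ) → ∃ C : Finset (L → ℂ), C.card = Nat.card W₁ ∧ (∀ μ ∈ C, Cfsg.IsIrrCharacter L μ) ∧ Cfsg.indFun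 K θ = ∑ μ ∈ C, μ) := by
  classical
  have h := PrimeTI.of_top hKW₁ hKW₁' hW₁ hW₁c hHall hW₂ hW₂c hW₂K hC hodd
  have k1 : ∀ (θ : K → ℂ) (x : L), (fun k : K => θ ⟨x * k * x⁻¹, hK.conj_mem (k : L) k.2 x⟩) = θ ↔
      x ∈ stab (extendByZero K θ) := fun θ x => by rw [mem_stab_ex, funext_iff]
  obtain ⟨⟨x, hx⟩, hx1⟩ := Subgroup.ne_bot_iff_exists_ne_one.1 hW₁
  have k2 : ∀ θ : K → ℂ, IsIrrCharacter K θ →
      (∀ x ∈ W₁, (fun k : K => θ ⟨x * k * x⁻¹, hK.conj_mem (k : L) k.2 x⟩) = θ) →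
      ∃ j : LC W₂, extendByZero K θ = chiR ⊤ K (W₁ ⊔ W₂) W₁ j := fun θ hθ hf =>
    h.exists_chiR_of_fixed (ex_mem_Irr.2 hθ) hx (by simpa using hx1) ((k1 θ x).1 (hf x hx))
  refine ⟨fun θ hθ ⟨y, _, hy⟩ => ?_, ?_, fun θ hθ hf => ?_⟩
  · rcases h.irr_cases (ex_mem_Irr.2 hθ) with ⟨j, e⟩ | e
    · exact (hy ((k1 θ y).2 (e ▸ (h.chiR_inv j).le_stab trivial))).elim
    · rw [indFun_eq]; exact mem_Irr_top.1 e
  · rw [← h.card2, ← Nat.card_eq_fintype_card]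
    have k3 : ∀ j : LC W₂, ∀ y ∈ W₁, y ∈ stab (extendByZero K (tr K (chiR ⊤ K (W₁ ⊔ W₂) W₁ j))) :=
      fun j y _ => by
        rw [ex_tr_of_supp (Irr.supp (h.chiR_irr j))]; exact (h.chiR_inv j).le_stab trivial
    symm
    refine Nat.card_eq_of_bijective (fun j : LC W₂ => ⟨⟨tr K (chiR ⊤ K (W₁ ⊔ W₂) W₁ j),
      (mem_Irr.1 (h.chiR_irr j)).2⟩, fun y hy => (k1 _ y).2 (k3 j y hy)⟩) ⟨fun a b e => ?_, fun θ => ?_⟩
    · exact h.chiR_inj (tr_inj (Irr.supp (h.chiR_irr a)) (Irr.supp (h.chiR_irr b))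
        (congrArg (fun θ => θ.1.1) e))
    · obtain ⟨j, e⟩ := k2 θ.1.1 θ.1.2 θ.2
      exact ⟨j, Subtype.ext (Subtype.ext (by simp only [← e, tr_ex]))⟩
  · obtain ⟨j, e⟩ := k2 θ hθ hf
    refine ⟨Finset.univ.image fun i : LC W₁ => mu2 ⊤ (W₁ ⊔ W₂) i j, ?_, fun μ hμ => ?_, ?_⟩
    · rw [Finset.card_image_of_injective _ fun a b e => (h.mu2_inj e).1, Finset.card_univ, h.card1]
    · obtain ⟨i, -, rfl⟩ := Finset.mem_image.1 hμ
      exact mem_Irr_top.1 (h.mu2_irr i j)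
    · rw [indFun_eq, e, h.Ind_chiR, Finset.sum_image fun a _ b _ e => (h.mu2_inj e).1, muR]

end Cfsg.Agent.S1513
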