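import Cfsg.Statements.S1515
import Cfsg.Agent.PF.Br5

set_option autoImplicit false
open Cfsg

namespace Cfsg.Agent.S1515
open Cfsg.Agent.H20 Cfsg.Agent.H22 Cfsg.Agent.BG Cfsg.Agent.PF

/-- Let (S, τ, R) be a coherence system from L to G, χ ∈ S, and ψ an integer combination of S with ⟨χ, ψ⟩ = ⟨conj χ, ψ⟩ = 0. Let τ₁ be a linear isometry on the integer combinations of χ − ψ and χ − conj χ, with virtual-character values, agreeing with τ on integer multiples of χ − conj χ. Then the sum over α ∈ R χ of the squared absolute values of ⟨τ₁(χ − ψ), α⟩ is at least ⟨χ, χ⟩; and if ⟨τ₁(χ − ψ), τ₁(χ − ψ)⟩ minus that sum is at least ⟨ψ, ψ⟩, then the sum equals ⟨χ, χ⟩ and every ⟨τ₁(χ − ψ), α⟩ with α ∈ R χ is 0 or 1. -/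
theorem result {L : Type*} [Group L] [Fintype L] {G : Type*} [Group G] [Fintype G] (S : Set (L → ℂ)) (τ : (L → ℂ) → (G → ℂ)) (R : (L → ℂ) → Finset (G → ℂ)) (hS : Cfsg.IsCoherenceSystem S τ R) (χ : L → ℂ) (hχ : χ ∈ S) (ψ : L → ℂ) (hψ : ψ ∈ Cfsg.zspan S) (h1 : Cfsg.classInner χ ψ = 0) (h2 : Cfsg.classInner (Cfsg.conjFun χ) ψ = 0) (τ₁ : (L → ℂ) → (G → ℂ)) (hτ₁ : Cfsg.IsLinearIsometryOn (Cfsg.zspan {χ - ψ, χ - Cfsg.conjFun χ}) τ₁) (hagree : ∀ n : ℤ, τ₁ (n • (χ - Cfsg.conjFun χ)) = τ (n • (χ - Cfsg.conjFun χ))) : (Cfsg.classInner χ χ).re ≤ ∑ α ∈ R χ, ‖Cfsg.classInner (τ₁ (χ - ψ)) α‖ ^ 2 ∧ ((Cfsg.classInner ψ ψ).re ≤ (Cfsg.classInner (τ₁ (χ - ψ)) (τ₁ (χ - ψ))).re - ∑ α ∈ R χ, ‖Cfsg.classInner (τ₁ (χ - ψ)) α‖ ^ 2 → (∑ α ∈ R χ, ‖Cfsg.classInner (τ₁ (χ - ψ)) α‖ ^ 2 = (Cfsg.classInner χ χ).re ∧ ∀ α ∈ R χ, Cfsg.classInner (τ₁ (χ - ψ)) α = 0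 ∨ Cfsg.classInner (τ₁ (χ - ψ)) α = 1)) := by
  classical
  obtain ⟨F, rfl⟩ := (finite_of_system hS).exists_finset_coe
  obtain ⟨T, h, hT⟩ := subcoh_of_system hS
  have m1 : χ - ψ ∈ zspan {χ - ψ, χ - conjFun χ} := Submodule.subset_span (by simp)
  have m2 : χ - conjFun χ ∈ zspan {χ - ψ, χ - conjFun χ} := Submodule.subset_span (by simp)
  have hX := mem_VC_top.2 (hτ₁.2.2.2 _ m1)
  have e1 := hagree 1
  rw [one_smul, conjFun_eq, ← hT _ (h.sub_star_mem hχ) (h.sub_star_one hχ)] at e1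
  have e2 := hτ₁.2.2.1 _ m1 _ m2
  have e3 := hτ₁.2.2.1 _ m1 _ m1
  simp only [← dot_top, conjFun_eq] at h1 h2 e2 e3 ⊢
  rw [e1, dot_sub_left, dot_sub_right, dot_sub_right, h.dot_star hχ, dot_zero_symm h1,
    dot_zero_symm h2] at e2
  simp only [sub_zero] at e2
  have hi : ∀ α ∈ R χ, ∃ n : ℤ, dot ⊤ (τ₁ (χ - ψ)) α = n := fun α hα => VC.dot_int hX (h.R_vc χ hχ α hα)
  have k1 := h.nrm_le hχ hi e2
  simp only [← nrm_eq_re, e3]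
  refine ⟨k1, fun hle => ?_⟩
  rw [nrm_sub_orth h1] at hle
  refine ⟨by linarith, orthon_zero_or_one (f := id) hi ?_⟩
  simp only [id]
  rw [← h.sum_eq χ hχ, e2, ← nrm_eq_re]
  linarith

end Cfsg.Agent.S1515
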