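import Cfsg.Statements.S1516
import Cfsg.Agent.PF.Br5

set_option autoImplicit false
open Cfsg

namespace Cfsg.Agent.S1516
open Cfsg.Agent.H20 Cfsg.Agent.H22 Cfsg.Agent.BG Cfsg.Agent.PF

/-- Let (S, τ, R) be a coherence system from L to G with degrees φ 1 = d φ and squared norms ⟨φ, φ⟩ = n φ for φ ∈ S. Let S₁ ⊆ S be a finite subset closed under complex conjugation such that (S₁, L minus 1, τ) is coherent, let χ ∈ S with χ ∉ S₁ and conj χ ∉ S₁, and let χ₁ ∈ S₁ with d χ₁ dividing d χ and 2 d χ d χ₁ < Σ_{φ ∈ S₁} (d φ)² / n φ. Then S₁ together with χ and conj χ is coherent. -/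
theorem result {L : Type*} [Group L] [Fintype L] {G : Type*} [Group G] [Fintype G] (S : Set (L → ℂ)) (τ : (L → ℂ) → (G → ℂ)) (R : (L → ℂ) → Finset (G → ℂ)) (hS : Cfsg.IsCoherenceSystem S τ R) (d n : (L → ℂ) → ℕ) (hd : ∀ φ ∈ S, φ 1 = (d φ : ℂ)) (hn : ∀ φ ∈ S, Cfsg.classInner φ φ = (n φ : ℂ)) (S₁ : Finset (L → ℂ)) (hS₁ : ↑S₁ ⊆ S) (hS₁c : ∀ φ ∈ S₁, Cfsg.conjFun φ ∈ S₁) (hcoh : Cfsg.IsCoherent (↑S₁ : Set (L → ℂ)) {1}ᶜ τ) (χ : L → ℂ) (hχ : χ ∈ S) (hχ₁ : χ ∉ S₁) (hχ₂ : Cfsg.conjFun χ ∉ S₁) (χ₁ : L → ℂ) (hχ₁S : χ₁ ∈ S₁) (hdvd : d χ₁ ∣ d χ) (hineq : (2 * d χ * d χ₁ : ℝ) < ∑ φ ∈ S₁, ((d φ : ℝ) ^ 2 / (n φ : ℝ))) : Cfsg.IsCoherent (↑S₁ ∪ {χ, Cfsg.conjFun χ} : Set (L → ℂ)) {1}ᶜ τ := by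
  classical
  obtain ⟨F, rfl⟩ := (finite_of_system hS).exists_finset_coe
  obtain ⟨T, h, hT⟩ := subcoh_of_system hS
  have hs : CSub S₁ F := ⟨by exact_mod_cast hS₁, hS₁c⟩
  have hd' : ∀ φ ∈ F, deg φ = d φ := fun φ hφ => deg_of_eq (hd φ hφ)
  have hn' : ∀ φ ∈ F, nrm ⊤ φ = n φ := fun φ hφ => by
    rw [nrm_eq_re, dot_top, hn φ hφ]; simp
  have := h.extend hs hχ₁S hχ hχ₁ (coh_of_isCoherent' hT hs.sub hcoh)
    (by rwa [hd' _ hχ, hd' _ (hs.sub hχ₁S)]) (by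
      rw [hd' _ hχ, hd' _ (hs.sub hχ₁S), Finset.sum_congr rfl fun φ hφ => by
        rw [hd' _ (hs.sub hφ), hn' _ (hs.sub hφ)]]
      exact hineq)
  convert h.isCoherent hT (hs.insert hχ (h.star_mem χ hχ)) (by simp) this using 1
  ext φ
  simp only [conjFun_eq, Set.mem_union, Finset.mem_coe, Set.mem_insert_iff, Set.mem_singleton_iff,
    Finset.coe_insert]
  tauto

end Cfsg.Agent.S1516
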