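import Cfsg.Statements.S1518
import Cfsg.Agent.PF.Br5

set_option autoImplicit false
open Cfsg

namespace Cfsg.Agent.S1518
open Cfsg.Agent.H20 Cfsg.Agent.H22 Cfsg.Agent.BG Cfsg.Agent.PF

/-- Under the Dade hypothesis for (A, L, H): if χ is an irreducible character of L vanishing at every non-identity element of L outside A, then the Dade image of χ − conj χ equals μ − conj μ for some irreducible character μ of G. -/
theorem result {G : Type*} [Group G] [Fintype G] (A : Set G) (L : Subgroup G) [Fintype L] (H : G → Subgroup G) (hD : Cfsg.DadeHypothesis A L H) (χ : L → ℂ) (hχ : Cfsg.IsIrrCharacter L χ) (hsupp : ∀ x : L, x ≠ 1 → (x : G) ∉ A → χ x = 0) : ∃ μ : G → ℂ, Cfsg.IsIrrCharacter G μ ∧ Cfsg.dadeIsometry A L H (χ - Cfsg.conjFun χ) = μ - Cfsg.conjFun μ := by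
  have e : ∀ β : L → ℂ, dadeIsometry A L H β = dade A L H (extendByZero L β) := fun β => by
    change _ = dadeIsometry A L H (tr L (extendByZero L β)); rw [tr_ex]
  obtain ⟨μ, h1, h2⟩ := dade_irr_sub_star hD (ex_mem_Irr.2 hχ) fun x hx => by
    rw [Set.mem_insert_iff, not_or] at hx
    by_cases h : x ∈ L
    · rw [ex_apply_mem _ h]
      exact hsupp _ (fun e => hx.1 (congrArg Subtype.val e)) hx.2
    · exact ex_supp L χ x h
  refine ⟨μ, mem_Irr_top.1 h1, ?_⟩
  rw [e, conjFun_eq, conjFun_eq, ← h2, ← ex_star, ← exL_apply, ← exL_apply, ← exL_apply, map_sub]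

end Cfsg.Agent.S1518
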