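import Cfsg.Statements.S1520
import Cfsg.Agent.PF.Br5

set_option autoImplicit false
open Cfsg

namespace Cfsg.Agent.S1520
open Cfsg.Agent.H20 Cfsg.Agent.H22 Cfsg.Agent.BG Cfsg.Agent.PF

/-- Let K be a solvable normal subgroup of the finite group L and (S, τ, R) a coherence system from L to G with S the functions induced from non-principal irreducible characters of K; S(A) the members of S induced from characters whose kernel contains A. Let M ≤ H₁ ≤ H ≤ K be normal subgroups of L such that every term of the lower central series of H eventually lies in M (H/M nilpotent), S(H₁) is coherent and [H:H₁] > 4 * [L:K]^2 + 1. Then S(M) is coherent. -/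
theorem result {L : Type*} [Group L] [Fintype L] {G : Type*} [Group G] [Fintype G] (K : Subgroup L) [hK : K.Normal] (hsolv : Group.IsSolvable K) (τ : (L → ℂ) → (G → ℂ)) (R : (L → ℂ) → Finset (G → ℂ)) (hS : Cfsg.IsCoherenceSystem (Cfsg.inducedIrrAbove K ⊥) τ R) (M H₁ H : Subgroup L) [M.Normal] [H₁.Normal] [H.Normal] (hMH₁ : M ≤ H₁) (hH₁H : H₁ ≤ H) (hHK : H ≤ K) [(M.subgroupOf H).Normal] (hnil : Group.IsNilpotent (↥H ⧸ M.subgroupOf H)) (hcoh : Cfsg.IsCoherent (Cfsg.inducedIrrAbove K H₁) {1}ᶜ τ) (hbig : 4 * K.index ^ 2 + 1 < H₁.relIndex H) : Cfsg.IsCoherent (Cfsg.inducedIrrAbove K M) {1}ᶜ τ := by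
  have h1 : H₁ < H := lt_of_le_of_ne hH₁H fun e => by
    rw [e, Subgroup.relIndex_self] at hbig; omega
  rw [inducedIrrAbove_eq bot_le] at hS
  rw [inducedIrrAbove_eq (hH₁H.trans hHK)] at hcoh
  rw [inducedIrrAbove_eq (hMH₁.trans (hH₁H.trans hHK))]
  obtain ⟨T, h, hT⟩ := subcoh_of_system hS
  exact h.isCoherent hT (csub_seqIndD le_rfl bot_le) (seqIndD_nonempty_top ((hMH₁.trans_lt h1).trans_le hHK))
    (bounded_seqIndD_coherence (normalIn_top K) hsolv h (top_le_normalizer M) (top_le_normalizer H)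
      (top_le_normalizer H₁) hMH₁ hH₁H hHK
      ((Group.isNilpotent_congr (quoEquiv (le_top.trans (top_le_normalizer M)))).1 hnil)
      (coh_of_isCoherent' hT seqIndD_sub_bot hcoh) (by rwa [Subgroup.relIndex_top_right]))

end Cfsg.Agent.S1520
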