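import Cfsg.Statements.S1521
import Cfsg.Agent.PF.Br5

set_option autoImplicit false
open Cfsg

namespace Cfsg.Agent.S1521
open Cfsg.Agent.H20 Cfsg.Agent.H22 Cfsg.Agent.BG Cfsg.Agent.PF

/-- Let K be a solvable normal subgroup of the finite group L of odd order and (S, τ, R) a coherence system from L to G with S the functions induced from non-principal irreducible characters of K; S(A) as before. Let M ≤ K be normal in L with K/M nilpotent, H₁ = [K, K] ⊔ M, H₁ < K < L, and suppose every element of K outside H₁ is centralised modulo H₁ only from inside K (L/H₁ is a Frobenius group with kernel K/H₁). Suppose one of the following: some normal subgroup of L lies strictly between H₁ and K; or [K:H₁] > 4[L:K]^2 + 1; or [K:M] is not a prime power; or [K,K] ≤ M; or [K:M] is a power of a prime p with [L:K] dividing p − 1. Then S(M) is coherent. -/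
theorem result {L : Type*} [Group L] [Fintype L] {G : Type*} [Group G] [Fintype G] (K : Subgroup L) [hK : K.Normal] (hsolv : Group.IsSolvable K) (τ : (L → ℂ) → (G → ℂ)) (R : (L → ℂ) → Finset (G → ℂ)) (hS : Cfsg.IsCoherenceSystem (Cfsg.inducedIrrAbove K ⊥) τ R) (hodd : Odd (Nat.card L)) (M : Subgroup L) [M.Normal] (hMK : M ≤ K) [(M.subgroupOf K).Normal] (hnil : Group.IsNilpotent (↥K ⧸ M.subgroupOf K)) (H₁ : Subgroup L) (hH₁ : H₁ = ⁅K, K⁆ ⊔ M) (hH₁K : H₁ < K) (hKL : K < ⊤) (hfrob : ∀ k ∈ K, k ∉ H₁ → ∀ x : L, x * k * x⁻¹ * k⁻¹ ∈ H₁ → x ∈ K) (hgood : (∃ N : Subgroup L, N.Normal ∧ H₁ < N ∧ N < K) ∨ 4 * K.index ^ 2 + 1 < H₁.relIndex K ∨ (¬ ∃ p m : ℕ, p.Prime ∧ M.relIndex K = p ^ m) ∨ ⁅K, K⁆ ≤ M ∨ (∃ p m : ℕ, p.Prime ∧ M.relIndex K = p ^ m ∧ K.index ∣ p - 1)) : Cfsg.IsCoherent (Cfsg.inducedIrrAbove K M) {1}ᶜ τ := by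
  subst hH₁
  rw [inducedIrrAbove_eq bot_le] at hS
  rw [inducedIrrAbove_eq hMK]
  obtain ⟨T, h, hT⟩ := subcoh_of_system hS
  refine h.isCoherent hT (csub_seqIndD le_rfl bot_le) (seqIndD_nonempty_top (le_sup_right.trans_lt hH₁K))
    (by_contra fun hn => ?_)
  obtain ⟨h1, h2, p, hp, h3, h4, h5⟩ := non_coherent_chief (normalIn_top K) hsolv h
    ⟨odd_top hodd, top_le_normalizer M, hMK,
      (Group.isNilpotent_congr (quoEquiv (le_top.trans (top_le_normalizer M)))).1 hnil, hH₁K, hKL.ne,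
      fun k hk h1 x _ h2 => hfrob k hk h1 x h2⟩ hn
  rw [Subgroup.relIndex_top_right] at h2 h5
  have := Fact.mk hp
  obtain ⟨m, hm⟩ := IsPGroup.iff_card.1 h3
  rw [card_quo (le_top.trans (top_le_normalizer M))] at hm
  rcases hgood with ⟨N, hN, h6, h7⟩ | h6 | h6 | h6 | ⟨q, n, hq, h6, h7⟩
  · rcases h1.2.2.2 N h6.le h7.le (top_le_normalizer N) with e | e
    · exact h6.ne' e
    · exact h7.ne e
  · omega
  · exact h6 ⟨p, m, hp, hm⟩
  · exact h4 h6
  · have h8 : 1 < M.relIndex K := one_lt_relIndex (le_sup_right.trans_lt hH₁K).not_ge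
    rcases n with _ | n
    · rw [pow_zero] at h6; omega
    · have : q ∣ p ^ m := by rw [← hm, h6]; exact dvd_pow_self q (by omega)
      rw [(Nat.prime_dvd_prime_iff_eq hq hp).1 (hq.dvd_of_dvd_pow this)] at h7
      exact h5 h7

end Cfsg.Agent.S1521
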