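import Cfsg.Statements.S1522
import Cfsg.Agent.PF.Br5

set_option autoImplicit false
open Cfsg

namespace Cfsg.Agent.S1522
open Cfsg.Agent.H20 Cfsg.Agent.H22 Cfsg.Agent.BG Cfsg.Agent.PF

/-- Let K be a nilpotent normal subgroup of the finite group L of odd order with [K,K] < K < L and L/[K,K] a Frobenius group with kernel K/[K,K] (elements of K outside [K,K] are centralised modulo [K,K] only from inside K); let (S, τ, R) be a coherence system from L to G with S the functions induced from non-principal irreducible characters of K. Let Z be a nontrivial normal subgroup of L contained in the centre of K, and suppose every member of S outside S(Z) is an irreducible character of L. Then S minus S(Z) is the set of irreducible characters χ of L with χ z ≠ χ 1 for some z ∈ Z, and it is coherent. -/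
theorem result {L : Type*} [Group L] [Fintype L] {G : Type*} [Group G] [Fintype G] (K : Subgroup L) [hK : K.Normal] (hsolv : Group.IsSolvable K) (τ : (L → ℂ) → (G → ℂ)) (R : (L → ℂ) → Finset (G → ℂ)) (hS : Cfsg.IsCoherenceSystem (Cfsg.inducedIrrAbove K ⊥) τ R) (hodd : Odd (Nat.card L)) (hnil : Group.IsNilpotent K) (hH₁K : ⁅K, K⁆ < K) (hKL : K < ⊤) (hfrob : ∀ k ∈ K, k ∉ ⁅K, K⁆ → ∀ x : L, x * k * x⁻¹ * k⁻¹ ∈ ⁅K, K⁆ → x ∈ K) (Z : Subgroup L) [Z.Normal] (hZ1 : Z ≠ ⊥) (hZK : Z ≤ K) (hZc : ∀ z ∈ Z, ∀ k ∈ K, z * k = k * z) (hirr : ∀ χ ∈ Cfsg.inducedIrrAbove K ⊥ \ Cfsg.inducedIrrAbove K Z, Cfsg.IsIrrCharacter L χ) : Cfsg.inducedIrrAbove K ⊥ \ Cfsg.inducedIrrAbove K Z = {χ | Cfsg.IsIrrCharacter L χ ∧ ∃ z ∈ Z, χ z ≠ χ 1} ∧ Cfsg.IsCoherent (Cfsg.inducedIrrAbove K ⊥ \ Cfsg.inducedIrrAbove K Z) {1}ᶜ τ := by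
  classical
  rw [inducedIrrAbove_eq bot_le] at hS
  rw [inducedIrrAbove_eq bot_le, inducedIrrAbove_eq hZK, ← Finset.coe_sdiff] at hirr ⊢
  have e := seqIndD.eq_sdiff (K := K) (L := ⊤) (H := Z) (M := ⊥) le_top hZK (top_le_normalizer Z) bot_le
    (le_normalizer_bot _) (top_le_normalizer K)
  rw [sup_bot_eq] at e
  rw [← e] at hirr ⊢
  have hi : seqIndD K ⊤ Z ⊥ ⊆ Irr ⊤ := fun χ h => mem_Irr_top.2 (hirr χ h)
  obtain ⟨T, h, hT⟩ := subcoh_of_system hS
  refine ⟨?_, h.isCoherent hT (csub_seqIndD hZK le_rfl)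
    (seqIndD.nonempty ⊤ hZK ⟨bot_le, le_normalizer_bot _⟩ (by simpa using hZ1))
    (seqIndD_irr_coherence (normalIn_top K) h ⟨odd_top hodd, le_normalizer_bot _, bot_le,
      (Group.isNilpotent_congr (quoBotEquiv K)).1 hnil, by simpa using hH₁K, hKL.ne,
      fun k hk h1 x _ h2 => hfrob k hk (by simpa using h1) x (by simpa using h2)⟩ hZK
      (top_le_normalizer Z) (fun z hz k hk => (hZc z hz k hk).symm) hi)⟩
  rw [seqIndD_eq_filter (normalIn_top K) hZK (top_le_normalizer Z) hi]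
  ext χ
  simp only [Finset.coe_filter, Set.mem_ofPred_eq, ← mem_Irr_top]
  exact and_congr_right fun hχ => H4.not_le_ker_iff hχ

end Cfsg.Agent.S1522
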