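import Cfsg.Statements.S1523
import Cfsg.Agent.H4.Coh5

set_option autoImplicit false
open Cfsg

namespace Cfsg.Agent.S1523

open Cfsg.Agent.H4

open Cfsg.Agent.H22


/-- Let G be a finite group, p a prime, P a Sylow p-subgroup whose underlying set is a TI-subset of G, with L the set normaliser of P of odd order. Let Z ≠ ⊥ be a subgroup of P, normal in L and central in P, such that the centralisers in L of any two non-identity elements of Z have the same order. If ψ is an irreducible character of G taking the same value at all non-identity elements of Z, then for z ∈ Z, z ≠ 1, the value ψ z is an integer n with Nat.card P dividing ψ(1) − n (as integers, ψ 1 being the degree). -/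
theorem result {G : Type*} [Group G] [Finite G] (p : ℕ) [Fact p.Prime] (P : Sylow p G) (hTI : Cfsg.IsTISubset ((P : Subgroup G) : Set G)) (hodd : Odd (Nat.card (Subgroup.normalizer ((P : Subgroup G) : Set G)))) (Z : Subgroup G) (hZ1 : Z ≠ ⊥) (hZP : Z ≤ P) (hZn : ∀ x ∈ Subgroup.normalizer ((P : Subgroup G) : Set G), ∀ z ∈ Z, x * z * x⁻¹ ∈ Z) (hZc : ∀ z ∈ Z, ∀ y ∈ (P : Subgroup G), z * y = y * z) (hCL : ∀ z ∈ Z, ∀ z' ∈ Z, z ≠ 1 → z' ≠ 1 → Nat.card ↥(Subgroup.normalizer ((P : Subgroup G) : Set G) ⊓ Subgroup.centralizer ({z} : Set G)) = Nat.card ↥(Subgroup.normalizer ((P : Subgroup G) : Set G) ⊓ Subgroup.centralizer ({z'} : Set G))) (ψ : G → ℂ) (hψ : Cfsg.IsIrrCharacter G ψ) (hconst : ∀ z ∈ Z, ∀ z' ∈ Z, z ≠ 1 → z' ≠ 1 → ψ z = ψ z') (z : G) (hz : z ∈ Z) (hz1 : z ≠ 1) : ∃ n d : ℤ, ψ z = n ∧ ψ 1 = d ∧ (Nat.card (P : Subgroup G) : ℤ) ∣ d - n := by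
  have := Fintype.ofFinite G
  have h1 := mem_Irr_top.2 hψ
  have hc : ∀ y ∈ Z, y ≠ 1 → ψ y = ψ z := fun y hy hy1 => hconst y hy z hz hy1 hz1
  obtain ⟨n, hn⟩ := exists_int_of_const (Irr.VC h1) le_top hz hz1 hc
  obtain ⟨d, hd⟩ := VC.one_int (Irr.VC h1)
  have hL : ∀ g x : G, x ∈ (P : Subgroup G) → x ≠ 1 → g * x * g⁻¹ ∈ (P : Subgroup G) →
      g ∈ Subgroup.normalizer ((P : Subgroup G) : Set G) := fun g x hx hx1 h =>
    by_contra fun h2 => hx1 (hTI g h2 x hx h)
  have h2 := eqMod_of_const (P := P) h1 le_top le_top (fun x hx z hz => (hZc z hz x hx).symm) hz hz1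
    (fun g _ e => hz1 (eq_one_of_real hodd (Subgroup.le_normalizer (hZP hz))
      (hL g z (hZP hz) hz1 (e ▸ hZP (Z.inv_mem hz))) e.symm)) hc fun g _ x hx hx1 e => by
    refine hZn g (hL g z (hZP hz) hz1 ?_) z hz
    have h3 := hL (g * z * g⁻¹) x hx hx1 (by rw [← e, mul_inv_cancel_right]; exact hx)
    obtain ⟨k, hk⟩ := P.isPGroup' ⟨z, hZP hz⟩
    have h4 : IsPGroup p (Subgroup.zpowers (g * z * g⁻¹)) := by
      rintro ⟨_, m, rfl⟩
      refine ⟨k, Subtype.ext ?_⟩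
      have h5 : z ^ p ^ k = 1 := congrArg Subtype.val hk
      change ((g * z * g⁻¹) ^ m) ^ p ^ k = 1
      rw [← zpow_natCast, ← zpow_mul, mul_comm m, zpow_mul, zpow_natCast, conj_pow, h5]
      simp
    exact (H1.isSylowIn_top P).le_of_le_normalizer' le_top h4 (Subgroup.zpowers_le.2 h3)
      (Subgroup.mem_zpowers _)
  refine ⟨n, d, hn, hd, EqMod.int_dvd ?_⟩
  rw [← hn, ← hd, Int.cast_natCast]
  exact h2.symm

end Cfsg.Agent.S1523
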