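import Cfsg.Statements.S1524
import Cfsg.Agent.PF.Br5

set_option autoImplicit false
open Cfsg

namespace Cfsg.Agent.S1524
open Cfsg.Agent.H20 Cfsg.Agent.H22 Cfsg.Agent.BG Cfsg.Agent.PF

/-- Let G be a finite group and H ≤ L subgroups with L of odd order, H ≠ ⊥ nilpotent and normal in L with a nontrivial complement W₁ in L (H ⊓ W₁ = ⊥, H ⊔ W₁ = L) acting on H without non-identity fixed points (L is a Frobenius group with kernel H), and suppose the underlying set of H is a TI-subset of G whose normaliser is L. Let S be the set of functions on L induced from the non-principal irreducible characters of H. Then (S, L minus 1, induction to G) is coherent. -/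
theorem result {G : Type*} [Group G] [Fintype G] (H L W₁ : Subgroup G) [Fintype L] (hodd : Odd (Nat.card L)) (hHL : H ≤ L) (hW₁L : W₁ ≤ L) (hH1 : H ≠ ⊥) (hW1 : W₁ ≠ ⊥) (hnil : Group.IsNilpotent H) (hHn : ∀ x ∈ L, ∀ h ∈ H, x * h * x⁻¹ ∈ H) (hinf : H ⊓ W₁ = ⊥) (hsup : H ⊔ W₁ = L) (hfpf : ∀ w ∈ W₁, w ≠ 1 → ∀ h ∈ H, w * h = h * w → h = 1) (hTI : Cfsg.IsTISubset (H : Set G)) (hN : Subgroup.normalizer (H : Set G) = L) : Cfsg.IsCoherent (Cfsg.inducedIrrAbove (H.subgroupOf L) ⊥) {1}ᶜ (fun α : L → ℂ => Cfsg.indFun L α) := by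
  classical
  have hF : Frob L H W₁ := hsup ▸ frob_mk (hW₁L.trans hN.ge) hH1 hW1
    (semiregular_iff.2 fun x hx h1 y hy e => hfpf x hx h1 y hy e.symm)
  have hK := fk_of_Frob hF
  have hT : TI ⊤ (sharp H) L := hN ▸ TI.of_isTISubset hTI
  have e := seqIndD_eq_SA hK bot_le (le_normalizer_bot L)
  refine H4.isCoherent_ind (S := H4.SA L H ⊥) H4.SA_irr (fun θ => ?_) ?_ ?_
  · rw [← e, inducedIrrAbove_eq bot_le, Finset.mem_coe, mem_seqIndD', mem_seqIndD']
    simp only [mem_IrrKD_self, bot_le, true_and]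
    have e1 : extendByZero L (one (H.subgroupOf L : Set L)) = one (H : Set G) := by
      refine ext_supp (ex_supp L _) ((one_supp _).mono hHL) fun x hx => ?_
      rw [ex_apply_mem _ hx]
      simp [one_apply, Subgroup.mem_subgroupOf]
    constructor
    · rintro ⟨φ, ⟨h1, h2⟩, rfl⟩
      exact ⟨_, ⟨(ex_mem_Irr_sub L hHL (Irr.supp h1)).2 h1, fun h => h2 (ex_injective L (h.trans e1.symm))⟩,
        ex_Ind_top L hHL φ⟩
    · rintro ⟨φ, ⟨h1, h2⟩, h3⟩
      have h4 := ex_tr_of_supp ((Irr.supp h1).mono hHL)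
      refine ⟨tr L φ, ⟨(ex_mem_Irr_sub L hHL (θ := tr L φ) fun x hx => Irr.supp h1 x hx).1 (h4.symm ▸ h1 :),
        fun h => h2 (by rw [← h4, h, e1])⟩, ex_injective L ?_⟩
      rw [ex_Ind_top L hHL, h4, h3]
  · obtain ⟨φ, hφ⟩ := seqIndD.nonempty L (le_refl H) ⟨bot_le, le_normalizer_bot _⟩ (by simpa using hH1)
    exact e ▸ seqIndD.two_le_card hodd hF.normalIn le_rfl hφ
  · rcases (⟨hK, hT⟩ : H4.TK ⊤ L H).feit_sibley (Frob.ker_ne_top hF) with h | ⟨h2, h1, -⟩
    · exact h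
    · obtain ⟨n, hn⟩ := IsPGroup.iff_card.1 h2
      have h3 : Odd (Nat.card H) := H22.odd_of_le hodd hHL
      rw [hn] at h3
      rcases n with _ | n
      · rw [pow_zero, Subgroup.card_eq_one] at hn
        exact absurd hn hH1
      · exact absurd h3 (by simp [pow_succ])

end Cfsg.Agent.S1524
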