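import Cfsg.Statements.S1525
import Cfsg.Agent.H22.Dade
import Cfsg.Agent.H22.Bridge1

set_option autoImplicit false
open Cfsg
open Cfsg.Agent.H22 Cfsg.Agent.H4
open scoped ComplexConjugate

namespace Cfsg.Agent.S1525

/-- Under the Dade hypothesis for (A, L, H), let χ be a class function of G and let ψ be a function on L whose value at each a ∈ A is the average of χ over the coset a·H(a). Then (1/|G|) Σ |χ g|² over the elements g of G conjugate into some coset a·H(a) with a ∈ A is at least (1/|L|) Σ_{a ∈ A ∩ L} |ψ a|². -/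
theorem result {G : Type*} [Group G] [Fintype G] (A : Set G) (L : Subgroup G) [Fintype L] (H : G → Subgroup G) (hD : Cfsg.DadeHypothesis A L H) (χ : G → ℂ) (hχ : Cfsg.IsClassFunction G χ) (ψ : L → ℂ) (hψ : ∀ a : L, (a : G) ∈ A → ψ a = (Nat.card (H a) : ℂ)⁻¹ * ∑ᶠ u ∈ (H a : Set G), χ (a * u)) : (Nat.card L : ℝ)⁻¹ * ∑ᶠ a ∈ {a : L | (a : G) ∈ A}, ‖ψ a‖ ^ 2 ≤ (Nat.card G : ℝ)⁻¹ * ∑ᶠ g ∈ {g : G | ∃ a ∈ A, ∃ u ∈ H a, ∃ x : G, x * g * x⁻¹ = a * u}, ‖χ g‖ ^ 2 := by
  classical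
  have h := Dade.nrm_rho_le' hD (inv_top_iff.2 hχ)
  unfold nrm at h
  rw [Subgroup.card_top] at h
  convert h using 2
  · rw [← Finset.sum_subset (fs_mono hD.subset) (fun a _ ha => by
      rw [rho_supp _ _ _ _ (mt mem_fs.2 ha)]; simp), ← coe_fs {a : L | (a : G) ∈ A},
      finsum_mem_coe_finset]
    refine Finset.sum_bij (fun a _ => (a : G)) (fun a ha => by simpa using ha)
      (fun _ _ _ _ => Subtype.ext) (fun a ha => ⟨⟨a, hD.subset (mem_fs.1 ha)⟩,
        by simpa using ha, rfl⟩) fun a ha => ?_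
    have ha' : (a : G) ∈ A := by simpa using ha
    rw [hψ _ ha', rho_apply H _ ha', ← coe_fs (H a : Set G), finsum_mem_coe_finset, coe_fs]
  · change ∑ᶠ g ∈ dsupp A H, _ = _
    rw [← Finset.sum_subset (fs_mono (A := dsupp A H) (B := (⊤ : Subgroup G)) (Set.subset_univ _))
      (fun a _ ha => by rw [Res_supp _ _ _ (mt mem_fs.2 ha)]; simp), ← coe_fs (dsupp A H),
      finsum_mem_coe_finset, coe_fs]
    exact Finset.sum_congr rfl fun g hg => by rw [Res_of_mem _ (mem_fs.1 hg)]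

end Cfsg.Agent.S1525
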