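import Cfsg.Statements.S1526
import Cfsg.Agent.PF.Br5

set_option autoImplicit false
open Cfsg

namespace Cfsg.Agent.S1526
open Cfsg.Agent.H20 Cfsg.Agent.H22 Cfsg.Agent.BG Cfsg.Agent.PF

/-- Let G be a finite group of odd order and (L i, H i), i in a finite index type with at least two elements, pairs of subgroups with H i a nontrivial proper normal subgroup of L i such that every non-identity element of H i has its centraliser within L i contained in H i (L i is a Frobenius group with kernel H i), the orders of the H i pairwise coprime, and the underlying set of each H i a TI-subset of G with normaliser L i. If every non-identity element of G is conjugate to an element of some H i, we reach a contradiction. -/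
theorem result {G : Type*} [Group G] [Finite G] (hodd : Odd (Nat.card G)) {ι : Type*} [Fintype ι] (hι : 2 ≤ Fintype.card ι) (L H : ι → Subgroup G) (hHL : ∀ i, H i < L i) (hH1 : ∀ i, H i ≠ ⊥) (hHn : ∀ i, ∀ x ∈ L i, ∀ h ∈ H i, x * h * x⁻¹ ∈ H i) (hfrob : ∀ i, ∀ h ∈ H i, h ≠ 1 → L i ⊓ Subgroup.centralizer ({h} : Set G) ≤ H i) (hcop : ∀ i j, i ≠ j → Nat.Coprime (Nat.card (H i)) (Nat.card (H j))) (hTI : ∀ i, Cfsg.IsTISubset (H i : Set G) ∧ Subgroup.normalizer (H i : Set G) = L i) (hcover : ∀ g : G, g ≠ 1 → ∃ i, ∃ x : G, x * g * x⁻¹ ∈ H i) : False := by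
  have := Fintype.ofFinite G
  refine no_coherent_Frobenius_partition_fk hodd Finset.univ
    (Finset.card_pos.1 (by rw [Finset.card_univ]; omega)) (L := L) (H := H)
    (fun i _ => ⟨(hHL i).le, (hTI i).2.ge, fun x hx h1 g hg e => hfrob i x hx h1 ⟨hg, by
      simpa [Subgroup.mem_centralizer_iff] using e.symm⟩⟩) (fun i _ => (hHL i).ne) (fun i _ => hH1 i)
    (fun i _ => (hTI i).2 ▸ TI.of_isTISubset (hTI i).1) (fun i _ j _ => hcop i j) fun g hg => ?_
  simpa using hcover g hg

end Cfsg.Agent.S1526
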