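import Cfsg.Statements.S1527
import Cfsg.Agent.H22.Misc1

set_option autoImplicit false
open Cfsg
open Cfsg.Agent.H22 Cfsg.Agent.H4
open scoped ComplexConjugate

namespace Cfsg.Agent.S1527

/-- Let G be a finite group and H i (i in a finite index type) subgroups of pairwise coprime orders, each of whose underlying sets is a TI-subset of G, such that every non-identity element of G is conjugate to an element of some H i. Then Nat.card G − 1 = Σ_i [G : N_G(H i)] · (Nat.card (H i) − 1). -/
theorem result {G : Type*} [Group G] [Finite G] {ι : Type*} [Fintype ι] (H : ι → Subgroup G) (hcop : ∀ i j, i ≠ j → Nat.Coprime (Nat.card (H i)) (Nat.card (H j))) (hTI : ∀ i, Cfsg.IsTISubset (H i : Set G)) (hcover : ∀ g : G, g ≠ 1 → ∃ i, ∃ x : G, x * g * x⁻¹ ∈ H i) : Nat.card G - 1 = ∑ i, (Subgroup.normalizer (H i : Set G)).index * (Nat.card (H i) - 1) := by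
  classical
  have := Fintype.ofFinite G
  have h1 : (Finset.univ.erase (1 : G)) =
      Finset.univ.biUnion fun i => fs (cls ⊤ ((H i : Set G) \ {1})) := by
    ext g
    simp only [Finset.mem_erase, Finset.mem_univ, and_true, Finset.mem_biUnion, true_and, mem_fs]
    constructor
    · intro hg
      obtain ⟨i, x, hx⟩ := hcover g hg
      exact ⟨i, mem_cls'.2 ⟨x, trivial, hx, by simpa using hg⟩⟩
    · rintro ⟨i, hi⟩ rfl
      simpa using one_mem_cls.1 hi
  have h2 := congrArg Finset.card h1
  rw [Finset.card_erase_of_mem (Finset.mem_univ _), Finset.card_univ, Finset.card_biUnion] at h2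
  · rw [Nat.card_eq_fintype_card, h2]
    refine Finset.sum_congr rfl fun i _ => ?_
    rw [card_fs_set, (TI.of_isTISubset (hTI i)).card_cls (by simp),
      Set.ncard_diff_singleton_of_mem (H i).one_mem]
    rfl
  · intro i _ j _ hij
    refine Finset.disjoint_left.2 fun g hi hj => ?_
    obtain ⟨x, -, hx, hx1⟩ := mem_cls'.1 (mem_fs.1 hi)
    obtain ⟨y, -, hy, -⟩ := mem_cls'.1 (mem_fs.1 hj)
    have e1 : orderOf (x * g * x⁻¹) = orderOf g := (MulAut.conj x).orderOf_eq g
    have e2 : orderOf (y * g * y⁻¹) = orderOf g := (MulAut.conj y).orderOf_eq g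
    exact hx1 (orderOf_eq_one_iff.1 (Nat.eq_one_of_dvd_coprimes (hcop i j hij)
      (Subgroup.orderOf_dvd_natCard _ hx) (e1.trans e2.symm ▸ Subgroup.orderOf_dvd_natCard _ hy)))

end Cfsg.Agent.S1527
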