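import Cfsg.Statements.S1530
import Cfsg.Agent.H4.Coh2

set_option autoImplicit false
open Cfsg

namespace Cfsg.Agent.S1530

open Cfsg.Agent.H4

open Cfsg.Agent.H22


/-- Let N be a subgroup of the finite group G and S₀ a finite set of irreducible characters of N, χ an irreducible character of N not in S₀, with degrees ξ 1 = d ξ. Let τ be a linear isometry on the integer combinations of S₀ ∪ {χ} vanishing at 1, with values virtual characters of G vanishing at 1, such that (S₀, N minus 1, τ) is coherent. If some ψ ∈ S₀ has d ψ dividing d χ and 2 · d ψ · d χ < Σ_{ξ ∈ S₀} (d ξ)², then (S₀ ∪ {χ}, N minus 1, τ) is coherent. -/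
theorem result {G : Type*} [Group G] [Fintype G] (N : Subgroup G) [Fintype N] (S₀ : Finset (N → ℂ)) (χ : N → ℂ) (hirr : ∀ ξ ∈ S₀, Cfsg.IsIrrCharacter N ξ) (hχ : Cfsg.IsIrrCharacter N χ) (hχS : χ ∉ S₀) (d : (N → ℂ) → ℕ) (hd : ∀ ξ ∈ insert χ S₀, ξ 1 = (d ξ : ℂ)) (τ : (N → ℂ) → (G → ℂ)) (hτ : Cfsg.IsLinearIsometryOn (Cfsg.zspanOn (↑(insert χ S₀) : Set (N → ℂ)) {1}ᶜ) τ) (hτ1 : ∀ α ∈ Cfsg.zspanOn (↑(insert χ S₀) : Set (N → ℂ)) {1}ᶜ, τ α 1 = 0) (hcoh : Cfsg.IsCoherent (↑S₀ : Set (N → ℂ)) {1}ᶜ τ) (ψ : N → ℂ) (hψ : ψ ∈ S₀) (hdvd : d ψ ∣ d χ) (hlt : 2 * d ψ * d χ < ∑ ξ ∈ S₀, d ξ ^ 2) : Cfsg.IsCoherent (↑(insert χ S₀) : Set (N → ℂ)) {1}ᶜ τ := by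
  have h0 : S₀ ⊆ Irr ⊤ := fun ξ hξ => mem_Irr_top.2 (hirr ξ hξ)
  have h1 : insert χ S₀ ⊆ Irr ⊤ := Finset.insert_subset (mem_Irr_top.2 hχ) h0
  obtain ⟨T, hT, hT'⟩ := exists_iso0 h1 hτ hτ1
  have hs : S₀ ⊆ insert χ S₀ := Finset.subset_insert _ _
  obtain ⟨h2, h3⟩ := (isCoherent_iff h0 fun α hα => hT' α (Z0_mono hs hα)).1 hcoh
  have hdeg : ∀ ξ ∈ insert χ S₀, deg ξ = d ξ := fun ξ hξ => deg_of_eq (hd ξ hξ)
  refine (isCoherent_iff h1 hT').2 ⟨h2.trans_le (Finset.card_le_card hs), ?_⟩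
  convert Coh.feit (by convert hT) h3 hψ ?_ ?_
  · rwa [hdeg ψ (hs hψ), hdeg χ (Finset.mem_insert_self _ _)]
  · rwa [hdeg ψ (hs hψ), hdeg χ (Finset.mem_insert_self _ _),
      Finset.sum_congr rfl fun ξ hξ => by rw [hdeg ξ (hs hξ)]]

end Cfsg.Agent.S1530
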