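import Cfsg.Statements.S1531
import Cfsg.Agent.H4.Coh2

set_option autoImplicit false
open Cfsg

namespace Cfsg.Agent.S1531

open Cfsg.Agent.H4

open Cfsg.Agent.H22


/-- Let N be a subgroup of the finite group G, S a set of irreducible characters of N, and α a linear isometry on the integer combinations of S vanishing at 1 with values virtual characters of G vanishing at 1. Let X, Y ⊆ S be disjoint, each with at least two members, and σ, τ linear isometries on ℤ[X], ℤ[Y] into virtual characters agreeing with α on the members vanishing at 1. Then ⟨σ χ, τ η⟩ = 0 for χ ∈ X, η ∈ Y; and if for some χ₀ ∈ X, η₀ ∈ Y with degrees c = χ₀ 1, e = η₀ 1 one has α (c • η₀ − e • χ₀) = c • τ η₀ − e • σ χ₀, then (X ∪ Y, N minus 1, α) is coherent. -/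
theorem result {G : Type*} [Group G] [Fintype G] (N : Subgroup G) [Fintype N] (S X Y : Set (N → ℂ)) (hirr : ∀ ξ ∈ S, Cfsg.IsIrrCharacter N ξ) (hXS : X ⊆ S) (hYS : Y ⊆ S) (hXY : Disjoint X Y) (hX2 : ∃ a ∈ X, ∃ b ∈ X, a ≠ b) (hY2 : ∃ a ∈ Y, ∃ b ∈ Y, a ≠ b) (α : (N → ℂ) → (G → ℂ)) (hα : Cfsg.IsLinearIsometryOn (Cfsg.zspanOn S {1}ᶜ) α) (hα1 : ∀ θ ∈ Cfsg.zspanOn S {1}ᶜ, α θ 1 = 0) (σ τ : (N → ℂ) → (G → ℂ)) (hσ : Cfsg.IsLinearIsometryOn (Cfsg.zspan X) σ) (hσα : ∀ θ ∈ Cfsg.zspanOn X {1}ᶜ, σ θ = α θ) (hτ : Cfsg.IsLinearIsometryOn (Cfsg.zspan Y) τ) (hτα : ∀ θ ∈ Cfsg.zspanOn Y {1}ᶜ, τ θ = α θ) : (∀ χ ∈ X, ∀ η ∈ Y, Cfsg.classInner (σ χ) (τ η) = 0) ∧ ((∃ χ₀ ∈ X, ∃ η₀ ∈ Y, α (χ₀ 1 • η₀ - η₀ 1 • χ₀) = χ₀ 1 • τ η₀ - η₀ 1 • σ χ₀) → Cfsg.IsCoherent (X ∪ Y) {1}ᶜ α) := by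
  classical
  obtain ⟨S, rfl, hS⟩ := exists_finset_irr hirr
  obtain ⟨X, rfl, hX⟩ := exists_finset_irr fun ξ h => hirr ξ (hXS h)
  obtain ⟨Y, rfl, hY⟩ := exists_finset_irr fun ξ h => hirr ξ (hYS h)
  have hXS' : X ⊆ S := by exact_mod_cast hXS
  have hYS' : Y ⊆ S := by exact_mod_cast hYS
  have hXY' : Disjoint X Y := by exact_mod_cast hXY
  obtain ⟨T, hT, hT'⟩ := exists_iso0 hS hα hα1
  rw [zspanOn_eq] at hσα hτα
  have h1 := cohW_of_isom hX hσ fun θ hθ => (hT' θ (Z0_mono hXS' hθ)).trans (hσα θ hθ).symm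
  have h2 := cohW_of_isom hY hτ fun θ hθ => (hT' θ (Z0_mono hYS' hθ)).trans (hτα θ hθ).symm
  have h3 : 1 < X.card := Finset.one_lt_card.2 hX2
  have h4 : ∀ χ ∈ X, ∀ η ∈ Y, dot ⊤ (σ χ) (τ η) = 0 := fun χ hχ η hη =>
    h1.orth_disjoint hT hXS' hYS' hXY' h2 h3 (Finset.one_lt_card.2 hY2) hχ hη
  refine ⟨fun χ hχ η hη => by rw [← dot_top, h4 χ hχ η hη], ?_⟩
  rintro ⟨χ₀, hχ₀, η₀, hη₀, h5⟩
  have hU : X ∪ Y ⊆ S := Finset.union_subset hXS' hYS'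
  rw [← Finset.coe_union]
  refine (isCoherent_iff (hU.trans hS) fun θ hθ => hT' θ (Z0_mono hU hθ)).2
    ⟨h3.trans_le (Finset.card_le_card Finset.subset_union_left), fun ξ => if ξ ∈ X then σ ξ else τ ξ,
      cohW_of_base (Irr.one_ne (hX hχ₀)) (V := σ χ₀) (fun ξ hξ => ?_) (fun ξ hξ η hη hne => ?_)
      fun ξ hξ => ?_⟩
  · split_ifs with h
    · exact h1.dirr ξ h
    · exact h2.dirr ξ ((Finset.mem_union.1 hξ).resolve_left h)
  · split_ifs with h h' h'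
    · exact h1.orth ξ h η h' hne
    · exact h4 ξ h η ((Finset.mem_union.1 hη).resolve_left h')
    · exact dot_zero_symm (h4 η h' ξ ((Finset.mem_union.1 hξ).resolve_left h))
    · exact h2.orth ξ ((Finset.mem_union.1 hξ).resolve_left h) η
        ((Finset.mem_union.1 hη).resolve_left h') hne
  · split_ifs with h
    · exact h1.eq ξ h χ₀ hχ₀
    · have h6 := (Finset.mem_union.1 hξ).resolve_left h
      rw [← hT' _ (dd_mem_Z0 hS (hYS' hη₀) (hXS' hχ₀))] at h5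
      refine smul_right_injective _ (Irr.one_ne (hY hη₀)) ?_
      have h7 : η₀ 1 • (χ₀ 1 • ξ - ξ 1 • χ₀) =
          χ₀ 1 • (η₀ 1 • ξ - ξ 1 • η₀) + ξ 1 • (χ₀ 1 • η₀ - η₀ 1 • χ₀) := by module
      simp only
      rw [← map_smul, h7, map_add, map_smul, map_smul, h5, h2.eq ξ h6 η₀ hη₀]
      module

end Cfsg.Agent.S1531
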