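import Cfsg.Statements.S1532
import Cfsg.Agent.H4.Coh5

set_option autoImplicit false
open Cfsg

namespace Cfsg.Agent.S1532

open Cfsg.Agent.H4

open Cfsg.Agent.H22


/-- Let G be a finite group, p an odd prime and P a Sylow p-subgroup that is non-abelian, whose underlying set is a TI-subset of G, with P properly contained in its set normaliser N and C_G(x) ≤ P for every non-identity x ∈ P. Let Z be a nontrivial subgroup of the centre of P normalised by N. Then the set of irreducible characters χ of N with χ z ≠ χ 1 for some z ∈ Z is coherent for the map induced by induction from N to G. -/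
theorem result {G : Type*} [Group G] [Fintype G] (p : ℕ) [Fact p.Prime] (hp : p ≠ 2) (P : Sylow p G) (hna : ¬ IsMulCommutative (P : Subgroup G)) (hTI : Cfsg.IsTISubset ((P : Subgroup G) : Set G)) (hlt : (P : Subgroup G) < Subgroup.normalizer ((P : Subgroup G) : Set G)) (hC : ∀ k ∈ (P : Subgroup G), k ≠ 1 → Subgroup.centralizer ({k} : Set G) ≤ (P : Subgroup G)) [Fintype ↥(Subgroup.normalizer ((P : Subgroup G) : Set G))] (Z : Subgroup G) (hZ1 : Z ≠ ⊥) (hZP : ∀ z ∈ Z, z ∈ (P : Subgroup G) ∧ ∀ y ∈ (P : Subgroup G), z * y = y * z) (hZn : ∀ x ∈ Subgroup.normalizer ((P : Subgroup G) : Set G), ∀ z ∈ Z, x * z * x⁻¹ ∈ Z) : Cfsg.IsCoherent {χ : ↥(Subgroup.normalizer ((P : Subgroup G) : Set G)) → ℂ | Cfsg.IsIrrCharacter ↥(Subgroup.normalizer ((P : Subgroup G) : Set G)) χ ∧ ∃ z : ↥(Subgroup.normalizer ((P : Subgroup G) : Set G)), (z : G) ∈ Z ∧ χ z ≠ χ 1} {1}ᶜ (fun α => Cfsg.indFun (Subgroup.normalizer ((P : Subgroup G) : Set G)) α) := by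
  classical
  have h := TK.of hTI hC
  have hZ : Z ≤ P := fun z hz => (hZP z hz).1
  have hn : Subgroup.normalizer ((P : Subgroup G) : Set G) ≤ Subgroup.normalizer (Z : Set G) :=
    Subgroup.le_normalizer_iff.2 hZn
  have hF := fun θ : ↥(Subgroup.normalizer ((P : Subgroup G) : Set G)) → ℂ =>
    ((mem_X hZ).trans (ex_mem_X (θ := θ) (hZ.trans h.le))).symm
  refine isCoherent_ind (Finset.sdiff_subset.trans SA_irr) hF ?_
    ((h.sibley hp P.isPGroup').mono Finset.sdiff_subset)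
  obtain ⟨k, hk⟩ := IsPGroup.iff_card.1 P.isPGroup'
  have hodd := h.odd_card (hk ▸ ((Fact.out : p.Prime).odd_of_ne_two hp).pow) fun e =>
    hna ⟨⟨fun a b => Subtype.ext
      (Subgroup.commutator_eq_bot_iff_le_centralizer.1 e b.2 a a.2)⟩⟩
  obtain ⟨χ, hχ, hχ'⟩ := exists_IrrK_not_le (M := ⊥) bot_le (le_normalizer_bot _)
    (hZ.trans h.le) (by simpa using hZ1)
  have h1 := (mem_IrrK.1 hχ).1
  exact Finset.one_lt_card.2 ⟨_, (mem_X hZ).2 ⟨Irr.star h1, by rwa [ker_star]⟩, _,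
    (mem_X hZ).2 ⟨h1, hχ'⟩, Irr.star_ne hodd h1 fun e => hχ' (by
      rw [e, ker_one]; exact hZ.trans h.le)⟩

end Cfsg.Agent.S1532
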