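import Cfsg.Statements.S1533
import Cfsg.Agent.H4.Coh5

set_option autoImplicit false
open Cfsg

namespace Cfsg.Agent.S1533

open Cfsg.Agent.H4

open Cfsg.Agent.H22


/-- Let G be a finite group, p an odd prime, and P a nontrivial Sylow p-subgroup whose underlying set is a TI-subset of G, with P properly contained in its set normaliser N and C_G(x) ≤ P for every non-identity x ∈ P. Let S be the set of irreducible characters χ of N with χ x ≠ χ 1 for some x ∈ P. Then either S has exactly one member, P is elementary abelian and Nat.card P = [N:P] + 1; or (S, N minus 1, induction to G) is coherent. -/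
theorem result {G : Type*} [Group G] [Fintype G] (p : ℕ) [Fact p.Prime] (hp : p ≠ 2) (P : Sylow p G) (hP1 : (P : Subgroup G) ≠ ⊥) (hTI : Cfsg.IsTISubset ((P : Subgroup G) : Set G)) (hlt : (P : Subgroup G) < Subgroup.normalizer ((P : Subgroup G) : Set G)) (hC : ∀ k ∈ (P : Subgroup G), k ≠ 1 → Subgroup.centralizer ({k} : Set G) ≤ (P : Subgroup G)) [Fintype ↥(Subgroup.normalizer ((P : Subgroup G) : Set G))] : (Nat.card {χ : ↥(Subgroup.normalizer ((P : Subgroup G) : Set G)) → ℂ // Cfsg.IsIrrCharacter ↥(Subgroup.normalizer ((P : Subgroup G) : Set G)) χ ∧ ∃ x : ↥(Subgroup.normalizer ((P : Subgroup G) : Set G)), (x : G) ∈ (P : Subgroup G) ∧ χ x ≠ χ 1} = 1 ∧ Cfsg.IsElementaryAbelian p (P : Subgroup G) ∧ Nat.card (P : Subgroup G) = ((P : Subgroup G).subgroupOf (Subgroup.normalizer ((P : Subgroup G) : Set G))).index + 1) ∨ Cfsg.IsCoherent {χ : ↥(Subgroup.normalizer ((P : Subgroup G) : Set G)) → ℂ | Cfsg.IsIrrCharacter ↥(Subgroup.normalizer ((P : Subgroup G) : Set G)) χ ∧ ∃ x : ↥(Subgroup.normalizer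 ((P : Subgroup G) : Set G)), (x : G) ∈ (P : Subgroup G) ∧ χ x ≠ χ 1} {1}ᶜ (fun α => Cfsg.indFun (Subgroup.normalizer ((P : Subgroup G) : Set G)) α) := by
  have h := TK.of hTI hC
  have hF := fun θ : ↥(Subgroup.normalizer ((P : Subgroup G) : Set G)) → ℂ =>
    (mem_SA_bot.trans (ex_mem_X (θ := θ) h.le)).symm
  by_cases h1 : Nat.card (P : Subgroup G) =
      (P : Subgroup G).relIndex (Subgroup.normalizer ((P : Subgroup G) : Set G)) + 1
  · obtain ⟨q, hq, h3, h2⟩ := h.elem_of_card h1
    have := Fact.mk hq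
    obtain rfl : q = p := by
      by_contra h4
      exact hP1 (by simpa using IsPGroup.disjoint_of_ne q p h4 _ _ h3 P.isPGroup')
    exact Or.inl ⟨(natCard_ex SA_irr hF).trans (h.card_SA_of_card h1), h2, h1⟩
  exact Or.inr (isCoherent_ind SA_irr hF (h.one_lt_card hlt.ne hP1 h1) (h.sibley hp P.isPGroup'))

end Cfsg.Agent.S1533
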