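import Cfsg.Statements.S1534
import Cfsg.Agent.H4.Coh5

set_option autoImplicit false
open Cfsg

namespace Cfsg.Agent.S1534

open Cfsg.Agent.H4

open Cfsg.Agent.H22


/-- Let G be a finite group and K a nontrivial nilpotent subgroup whose underlying set is a TI-subset of G, properly contained in its set normaliser N, with C_G(k) ≤ K for every non-identity k ∈ K; let e be the index of K in N and S the set of irreducible characters χ of N with χ k ≠ χ 1 for some k ∈ K. Then one of: S has exactly one member, Nat.card K = e + 1 and K is an elementary abelian p-group for some prime p; or K is a Sylow 2-subgroup of G (Nat.card K is the largest power of 2 dividing Nat.card G) and [K : [K,K]] < 4e²; or (S, N minus 1, induction to G) is coherent. -/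
theorem result {G : Type*} [Group G] [Fintype G] (K : Subgroup G) (hK1 : K ≠ ⊥) (hnil : Group.IsNilpotent K) (hTI : Cfsg.IsTISubset (K : Set G)) (hlt : K < Subgroup.normalizer (K : Set G)) (hC : ∀ k ∈ K, k ≠ 1 → Subgroup.centralizer ({k} : Set G) ≤ K) [Fintype ↥(Subgroup.normalizer (K : Set G))] : (Nat.card {χ : ↥(Subgroup.normalizer (K : Set G)) → ℂ // Cfsg.IsIrrCharacter ↥(Subgroup.normalizer (K : Set G)) χ ∧ ∃ k : ↥(Subgroup.normalizer (K : Set G)), (k : G) ∈ K ∧ χ k ≠ χ 1} = 1 ∧ Nat.card K = (K.subgroupOf (Subgroup.normalizer (K : Set G))).index + 1 ∧ ∃ p : ℕ, p.Prime ∧ Cfsg.IsElementaryAbelian p K) ∨ (Nat.card K = 2 ^ (Nat.card G).factorization 2 ∧ (⁅K, K⁆.subgroupOf K).index < 4 * (K.subgroupOf (Subgroup.normalizer (K : Set G))).index ^ 2) ∨ Cfsg.IsCoherent {χ : ↥(Subgroup.normalizer (K : Set G)) → ℂ | Cfsg.IsIrrCharacter ↥(Subgroup.normalizer (K : Set G)) χ ∧ ∃ k : ↥(Subgroup.normalizer (K : Set G)), (k : G) ∈ K ∧ χ k ≠ χ 1} {1}ᶜ (fun α => Cfsg.indFun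 (Subgroup.normalizer (K : Set G)) α) := by
  have h := TK.of hTI hC
  have hF := fun θ : ↥(Subgroup.normalizer (K : Set G)) → ℂ =>
    (mem_SA_bot.trans (ex_mem_X (θ := θ) h.le)).symm
  by_cases h1 : Nat.card K = K.relIndex (Subgroup.normalizer (K : Set G)) + 1
  · obtain ⟨p, hp, -, h2⟩ := h.elem_of_card h1
    exact Or.inl ⟨(natCard_ex SA_irr hF).trans (h.card_SA_of_card h1), h1, p, hp, h2⟩
  right
  rcases h.feit_sibley hlt.ne with h2 | ⟨h2, h3, h4⟩
  · exact Or.inr (isCoherent_ind SA_irr hF (h.one_lt_card hlt.ne hK1 h1) h2)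
  refine Or.inl ⟨?_, h4⟩
  have h5 : H1.IsSylowIn 2 K ⊤ := ⟨le_top, h2, fun h5 => ?_⟩
  · rw [h5.card_eq_pow, Subgroup.card_top]
  obtain ⟨k, hk⟩ := IsPGroup.iff_card.1 h2
  have h6 := h.coprime_relIndex hK1
  refine absurd (Nat.eq_one_of_dvd_coprimes h6 h5 (hk ▸ dvd_pow_self 2 fun e => hK1 ?_)) (by norm_num)
  rwa [e, pow_zero, Subgroup.card_eq_one] at hk

end Cfsg.Agent.S1534
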