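import Cfsg.Statements.S1536
import Cfsg.Agent.H22.Misc1
import Cfsg.Agent.H22.Bridge1

set_option autoImplicit false
open Cfsg
open Cfsg.Agent.H22 Cfsg.Agent.H4
open scoped ComplexConjugate

namespace Cfsg.Agent.S1536

/-- Let H be a normal subgroup of the finite group M whose order is coprime to its index. For x ∈ M: some non-principal irreducible character of H is unchanged under h ↦ θ(x h x⁻¹) if and only if some non-identity element of H commutes with x. -/
theorem result {M : Type*} [Group M] [Finite M] (H : Subgroup M) [hN : H.Normal] (hHall : Nat.Coprime (Nat.card H) H.index) (x : M) : (∃ θ : H → ℂ, Cfsg.IsIrrCharacter H θ ∧ θ ≠ (fun _ => 1) ∧ (fun h : H => θ ⟨x * h * x⁻¹, hN.conj_mem h h.2 x⟩) = θ) ↔ ∃ h ∈ H, h ≠ 1 ∧ x * h = h * x := by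
  classical
  have := Fintype.ofFinite M
  have hx : x⁻¹ ∈ Subgroup.normalizer (H : Set M) := top_le_normalizer H trivial
  have e1 : (∃ θ : H → ℂ, Cfsg.IsIrrCharacter H θ ∧ θ ≠ (fun _ => 1) ∧
      (fun h : H => θ ⟨x * h * x⁻¹, hN.conj_mem h h.2 x⟩) = θ) ↔
      1 < ((Irr H).filter fun χ => cjf x⁻¹ χ = χ).card := by
    have h1 : one (H : Set M) ∈ (Irr H).filter fun χ => cjf x⁻¹ χ = χ :=
      Finset.mem_filter.2 ⟨one_mem_Irr H, cjf_one_set hx⟩
    constructor
    · rintro ⟨θ, h2, h3, h4⟩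
      exact Finset.one_lt_card.2 ⟨extendByZero H θ, Finset.mem_filter.2
        ⟨ex_mem_Irr.2 h2, by rw [← ex_conj, h4]⟩, _, h1, mt (ex_eq_one_iff H θ).1 h3⟩
    · intro h
      obtain ⟨χ, h2, h3⟩ := Finset.exists_mem_ne h (one (H : Set M))
      obtain ⟨h2, h4⟩ := Finset.mem_filter.1 h2
      have h5 := ex_tr_of_supp (Irr.supp h2)
      exact ⟨tr H χ, (mem_Irr.1 h2).2, fun e => h3 (by rw [← h5, e, ex_one]),
        ex_injective H (by rw [ex_conj, h5, h4])⟩
  rw [e1]
  constructor
  · intro h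
    by_cases hc : (orderOf x).Coprime (Nat.card H)
    · have h2 := h.trans_le (card_fixed_Irr_le_cent hx (by simpa using hc))
      obtain ⟨⟨y, hy⟩, h3⟩ := (Subgroup.ne_bot_iff_exists_ne_one).1
        ((Subgroup.one_lt_card_iff_ne_bot _).1 h2)
      exact ⟨y, hy.1, by simpa using h3, (Commute.inv_right_iff.1
        (Subgroup.mem_centralizer_singleton_iff.1 hy.2)).symm⟩
    · obtain ⟨p, hp, h1, h2⟩ := Nat.Prime.not_coprime_iff_dvd.1 hc
      have h3 : orderOf (x ^ (orderOf x / p)) = p := orderOf_pow_orderOf_div (orderOf_pos x).ne' h1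
      refine ⟨x ^ (orderOf x / p), mem_of_coprime_relIndex (top_le_normalizer H) trivial ?_, ?_,
        (Commute.self_pow x _)⟩
      · rw [h3, Subgroup.relIndex_top_right]; exact hHall.coprime_dvd_left h2
      · intro e; rw [e, orderOf_one] at h3; exact hp.one_lt.ne h3
  · rintro ⟨h, hh, h1, h2⟩
    refine lt_of_lt_of_le ?_ (le_card_fixed_Irr (cjf x⁻¹) (fun k => x * k * x⁻¹)
      (fun k hk => hN.conj_mem k hk x) (fun χ hχ => Irr.cjf hχ hx) (fun _ _ _ _ => by simp)
      {1, h} (by simp [hh, H.one_mem]) ?_ ?_)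
    · rw [Finset.card_pair h1.symm]; norm_num
    · intro y hy
      refine ⟨1, H.one_mem, ?_⟩
      rcases Finset.mem_insert.1 hy with rfl | hy
      · simp
      · rw [Finset.mem_singleton.1 hy, h2]; simp
    · intro y hy g _ hg
      rcases Finset.mem_insert.1 hy with rfl | hy
      · simp
      · rw [Finset.mem_singleton.1 hy] at hg ⊢
        simpa [h1] using hg

end Cfsg.Agent.S1536
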