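import Cfsg.Statements.S1551
import Cfsg.Agent.H16.M24h

set_option autoImplicit false
open scoped Pointwise
open Cfsg

namespace Cfsg.Agent.S1551
open H16 MulAction in
theorem base : ∃ N : Subgroup KS, N.Normal ∧ Nat.card N = 64 ∧ ∀ x ∈ N, x * x = 1 := by
  have hT : ∀ p ∈ [251264220733974443179405391472139979, 956686414911292392533330556274977493,
      727779822465181820945843355270720096, 126775857591512641292976906913423040, 154030464334922090319858496493561888,
      278646856474379145913121068687072288], InK gpt 24 KS (get 5 p) := inK_fam (by decide +kernel)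
  obtain ⟨h1, h2⟩ := normal_clos mulOk24 gpt_inj (faith_M24 KS) gen_ksG hT (B := [0, 1, 2]) (by decide) (M := 64)
    (by decide +kernel)
  have h3 := (gen_clos (faith_M24 KS) hT).comm_pow five_le (faith_M24 _) (k := 2) (by decide +kernel)
  exact ⟨_, h2.normal_subgroupOf, (Nat.card_congr (Subgroup.subgroupOfEquivOfLe clos_le).toEquiv).trans h1,
    fun x hx => Subtype.ext (by rw [← sq]; exact h3.2 x hx)⟩


/-- Structure of a sextet stabiliser: it induces every permutation of the six tetrads, the subgroup fixing each tetrad setwise has order 192, and there is a normal subgroup of order 64 consisting of elements squaring to the identity. -/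
theorem result (S : Finset (Finset Cfsg.GolayPt)) (hS : S ∈ Cfsg.sextets) : (∀ e : Equiv.Perm ↥S, ∃ g ∈ MulAction.stabilizer Cfsg.M24 S, ∀ t : ↥S, (g : Equiv.Perm Cfsg.GolayPt) • (t : Finset Cfsg.GolayPt) = ((e t : ↥S) : Finset Cfsg.GolayPt)) ∧ Nat.card {g : ↥(MulAction.stabilizer Cfsg.M24 S) // ∀ t ∈ S, ((g : Cfsg.M24) : Equiv.Perm Cfsg.GolayPt) • t = t} = 192 ∧ ∃ N : Subgroup ↥(MulAction.stabilizer Cfsg.M24 S), N.Normal ∧ Nat.card N = 64 ∧ ∀ x ∈ N, x * x = 1 := by
  obtain ⟨k, rfl⟩ := H16.M24_sextet H16.sx0_mem hS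
  have h := H16.conj_mem_stabilizer k (a := H16.fam 6 (H16.sx 0))
  have h1 := H16.perm_of_tuple hS.1 (H16.tuple_conj h (H16.fam_tuple (by norm_num) H16.ksG_inK
    [[0, 1, 0], [2, 2, 1, 1], [3, 2, 3, 3, 3, 2], [3, 4, 3, 2, 1, 4, 1, 0]] [0, 1, 2, 3, 4, 5] (by decide) rfl
    (by decide +kernel)))
  refine ⟨h1, ?_, ?_⟩
  · have := H16.card_ker_mul _ (H16.stabHom_surj fun e => let ⟨g, _, hg⟩ := h1 e; ⟨g, hg⟩)
    rw [H16.card_conj h, H16.card_KS, Nat.card_perm, Nat.card_eq_fintype_card (α := (k • H16.fam 6 (H16.sx 0) : Finset _)),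
      Fintype.card_coe, hS.1, show Nat.factorial 6 = 720 from rfl] at this
    rw [← show Nat.card (H16.stabHom M24 (k • H16.fam 6 (H16.sx 0))).ker = 192 by omega]
    exact Nat.card_congr (Equiv.subtypeEquivRight fun g => by exact (H16.mem_ker_stabHom (g := g)).symm)
  · obtain ⟨N, h1, h2, h3⟩ := base
    refine ⟨N.map (H16.conjEquiv k _ _ h).toMonoidHom, h1.map _ (H16.conjEquiv k _ _ h).surjective,
      (Subgroup.card_map_of_injective (H16.conjEquiv k _ _ h).injective).trans h2, ?_⟩
    rintro _ ⟨x, hx, rfl⟩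
    rw [← map_mul, h3 x hx, map_one]

end Cfsg.Agent.S1551
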