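import Cfsg.Statements.S1552
import Cfsg.Agent.H16.M24f

set_option autoImplicit false
open scoped Pointwise
open Cfsg

namespace Cfsg.Agent.S1552
open H16 MulAction in
theorem base : OrbDec KS sextets [90, 240, 1440] {fam 6 (sx 0)} ∧ IsCoatom KS := by
  refine ⟨?_, tabSext.isCoatom (a := 0) (U := [568581921554817381902456188549306850, 293017054554662860298896535470754277,
    979204910761357057382074758315772065]) (by norm_num) ksG_inK (inK_top_of_allL (by decide +kernel)) (Q := fun _ => True)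
    (fun _ => true) (by simp) (fun g => ⟨M24_smul_mem_sextets g sx0_mem, trivial⟩)
    (fun e => by have := card_KS; rw [show KS = ⊤ from e, card_top_M24] at this; omega) (by decide +kernel)⟩
  have := tabSext.orbDec gen_ksG [(45, 90), (1, 240), (9, 1440)] (bit 0) (by decide +kernel)
  rwa [ptSet_bit _ (by norm_num)] at this

/-- A sextet stabiliser has four orbits on the 1771 sextets, of sizes 1, 90, 240, 1440; and the stabiliser is a maximal proper subgroup. -/
theorem result (S : Finset (Finset Cfsg.GolayPt)) (hS : S ∈ Cfsg.sextets) : ∃ X₁ ∈ Cfsg.sextets, ∃ X₂ ∈ Cfsg.sextets, ∃ X₃ ∈ Cfsg.sextets, (MulAction.orbit ↥(MulAction.stabilizer Cfsg.M24 S) X₁).ncard = 90 ∧ (MulAction.orbit ↥(MulAction.stabilizer Cfsg.M24 S) X₂).ncard = 240 ∧ (MulAction.orbit ↥(MulAction.stabilizer Cfsg.M24 S) X₃).ncard = 1440 ∧ Cfsg.sextets = {S} ∪ MulAction.orbit ↥(MulAction.stabilizer Cfsg.M24 S) X₁ ∪ MulAction.orbit ↥(MulAction.stabilizer Cfsg.M24 S) X₂ ∪ MulAction.orbit ↥(MulAction.stabilizer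 Cfsg.M24 S) X₃ ∧ IsCoatom (MulAction.stabilizer Cfsg.M24 S) := by
  obtain ⟨k, rfl⟩ := H16.M24_sextet H16.sx0_mem hS
  have h := H16.conj_mem_stabilizer k (a := H16.fam 6 (H16.sx 0))
  have := base.1.conj h
  rw [H16.smul_sextets, Set.smul_set_singleton] at this
  obtain ⟨x1, h1, e1, x2, h2, e2, x3, h3, e3, e⟩ := this
  exact ⟨x1, h1, x2, h2, x3, h3, e1, e2, e3, e, H16.isCoatom_conj h base.2⟩

end Cfsg.Agent.S1552
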