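import Cfsg.Statements.S1554
import Cfsg.Agent.H16.M24h

set_option autoImplicit false
open scoped Pointwise
open Cfsg

namespace Cfsg.Agent.S1554
open H16 MulAction in
theorem card_stab {o : Finset GolayPt} (ho : o ∈ octads) {p : GolayPt} (hp : p ∉ o) :
    Nat.card (stabilizer M24 o ⊓ stabilizer M24 p : Subgroup M24) = 20160 := by
  have h1 := card_eq_orbit_mul (stabilizer M24 o) p
  have : orbit (stabilizer M24 o) p = ((oᶜ : Finset GolayPt) : Set GolayPt) := by
    ext x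
    rw [Finset.mem_coe, Finset.mem_compl]
    constructor
    · rintro ⟨g, rfl⟩
      exact fun h => hp ((smul_mem_of_stab g p).mp h)
    · intro hx
      obtain ⟨g, hg, rfl⟩ := fix_oct_trans ho hp hx
      exact ⟨⟨g, smul_eq_of_perm (e := 1) fun t => (mem_fixingSubgroup_iff M24).mp hg t t.2⟩, rfl⟩
  rw [this, Set.ncard_coe_finset, Finset.card_compl, ho.2, card_stab_octad ho, show Fintype.card GolayPt = 24 from rfl] at h1
  omega

open H16 MulAction in
theorem eq_one {o : Finset GolayPt} (ho : o ∈ octads) {p : GolayPt} (hp : p ∉ o) {g : M24}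
    (h : g ∈ fixingSubgroup M24 (o : Set GolayPt)) (h' : g • p = p) : g = 1 := by
  have h1 := card_eq_orbit_mul (fixingSubgroup M24 (o : Set GolayPt)) p
  have : ((oᶜ : Finset GolayPt) : Set GolayPt) ⊆ orbit (fixingSubgroup M24 (o : Set GolayPt)) p := fun x hx => by
    obtain ⟨g, hg, rfl⟩ := fix_oct_trans ho hp (Finset.mem_compl.mp hx)
    exact ⟨⟨g, hg⟩, rfl⟩
  have h2 := Set.ncard_le_ncard this
  rw [Set.ncard_coe_finset, Finset.card_compl, ho.2, show Fintype.card GolayPt = 24 from rfl] at h2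
  rw [card_fix_octad ho] at h1
  have h3 : Nat.card (fixingSubgroup M24 (o : Set GolayPt) ⊓ stabilizer M24 p : Subgroup M24) = 1 := by
    have : 0 < Nat.card (fixingSubgroup M24 (o : Set GolayPt) ⊓ stabilizer M24 p : Subgroup M24) := Nat.card_pos
    nlinarith
  exact (Subgroup.mem_bot).mp (Subgroup.eq_bot_of_card_eq _ h3 ▸ (show g ∈ _ ⊓ _ from ⟨h, h'⟩))


/-- An octad stabiliser is a split extension: the joint stabiliser of the octad and a point outside it is a complement to the pointwise stabiliser of the octad, and is isomorphic to the alternating group of degree 8. -/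
theorem result (o : Finset Cfsg.GolayPt) (ho : o ∈ Cfsg.octads) (p : Cfsg.GolayPt) (hp : p ∉ o) : (Cfsg.M24 ⊓ fixingSubgroup (Equiv.Perm Cfsg.GolayPt) (o : Set Cfsg.GolayPt)) ⊓ (Cfsg.M24 ⊓ MulAction.stabilizer (Equiv.Perm Cfsg.GolayPt) o ⊓ MulAction.stabilizer (Equiv.Perm Cfsg.GolayPt) p) = ⊥ ∧ (Cfsg.M24 ⊓ fixingSubgroup (Equiv.Perm Cfsg.GolayPt) (o : Set Cfsg.GolayPt)) ⊔ (Cfsg.M24 ⊓ MulAction.stabilizer (Equiv.Perm Cfsg.GolayPt) o ⊓ MulAction.stabilizer (Equiv.Perm Cfsg.GolayPt) p) = (Cfsg.M24 ⊓ MulAction.stabilizer (Equiv.Perm Cfsg.GolayPt) o) ∧ Nonempty (↥(Cfsg.M24 ⊓ MulAction.stabilizer (Equiv.Perm Cfsg.GolayPt) o ⊓ MulAction.stabilizer (Equiv.Perm Cfsg.GolayPt) p) ≃* alternatingGroup (Fin 8)) := by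
  have hf : ∀ g : M24, g ∈ fixingSubgroup M24 (o : Set GolayPt) ↔
      (g : Equiv.Perm GolayPt) ∈ fixingSubgroup (Equiv.Perm GolayPt) (o : Set GolayPt) := fun g =>
    (mem_fixingSubgroup_iff M24).trans (mem_fixingSubgroup_iff (Equiv.Perm GolayPt)).symm
  have hs : ∀ g ∈ fixingSubgroup M24 (o : Set GolayPt), g • o = o := fun g hg =>
    H16.smul_eq_of_perm (e := 1) fun t => (mem_fixingSubgroup_iff M24).mp hg t t.2
  refine ⟨eq_bot_iff.mpr fun g hg => ?_, le_antisymm (sup_le (fun g hg => ⟨hg.1, hs ⟨g, hg.1⟩ ((hf _).mpr hg.2)⟩)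
    inf_le_left) fun g hg => ?_, ?_⟩
  · exact congrArg Subtype.val (eq_one ho hp (g := ⟨g, hg.1.1⟩) ((hf _).mpr hg.1.2) hg.2.2)
  · obtain ⟨a, ha, e⟩ := H16.fix_oct_trans ho hp (y := g • p) fun h => hp ((H16.smul_mem_of_stab ⟨g, hg.2⟩ p).mp h)
    rw [← mul_inv_cancel_left (a : Equiv.Perm GolayPt) g]
    refine Subgroup.mul_mem_sup ⟨a.2, (hf _).mp ha⟩ ⟨Subgroup.mul_mem _ (Subgroup.inv_mem _ ⟨a.2, hs a ha⟩) hg, ?_⟩
    change ((a : Equiv.Perm GolayPt)⁻¹ * g) • p = p
    rw [mul_smul, ← e]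
    exact inv_smul_smul a p
  · let φ : (MulAction.stabilizer M24 o ⊓ MulAction.stabilizer M24 p : Subgroup M24) →* alternatingGroup o :=
      ((H16.stabHom M24 o).comp (Subgroup.inclusion inf_le_left)).codRestrict _ fun g =>
        H16.range_stabHom_octad ho ▸ ⟨_, rfl⟩
    have hi : Function.Injective φ := (injective_iff_map_eq_one φ).mpr fun g hg => Subtype.ext (eq_one ho hp
      ((mem_fixingSubgroup_iff M24).mpr (H16.mem_ker_stabHom.mp (congrArg Subtype.val hg))) g.2.2)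
    have hc : Fintype.card o = 8 := by rw [Fintype.card_coe, ho.2]
    have : Nontrivial o := Fintype.one_lt_card_iff_nontrivial.mp (by omega)
    have hb : Function.Bijective φ := hi.bijective_of_nat_card_le (by
      rw [card_stab ho hp, nat_card_alternatingGroup, Nat.card_eq_fintype_card, hc]; rfl)
    exact ⟨(H16.equivOfMap (MulAction.stabilizer M24 o ⊓ MulAction.stabilizer M24 p) _
      (inf_le_left.trans inf_le_left) fun g => ⟨fun h => ⟨⟨g.2, h.1⟩, h.2⟩, fun h => ⟨h.1.2, h.2⟩⟩).symm.trans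
      ((MulEquiv.ofBijective φ hb).trans (Fintype.equivFinOfCardEq hc).altCongrHom)⟩

end Cfsg.Agent.S1554
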