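import Cfsg.Statements.S1555
import Cfsg.Agent.H16.M24f

set_option autoImplicit false
open scoped Pointwise
open Cfsg

namespace Cfsg.Agent.S1555
open H16 in
theorem base {c : ℕ} (hc : c < 2 ^ 24) : {o | o ∈ octads ∧ toSet oct0 ∩ o = toSet c}.ncard =
    codeCnt fun m => andB (Nat.beq (pc24 m) 8) (Nat.beq (Nat.land oct0 m) c) :=
  ncard_octads_filter _ fun m hm => by
    rw [← toSet_and, toSet_eq_iff (Nat.and_lt_two_pow _ hm) hc, Nat.beq_eq]; rfl

/-- Bottom row of the Leech triangle: an octad is met in a prescribed pair of its points by exactly 16 octads and in a prescribed 4-subset by exactly 4 octads. -/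
theorem result (o : Finset Cfsg.GolayPt) (ho : o ∈ Cfsg.octads) (s : Finset Cfsg.GolayPt) (hs : s ⊆ o) : (s.card = 2 → {o' : Finset Cfsg.GolayPt | o' ∈ Cfsg.octads ∧ o ∩ o' = s}.ncard = 16) ∧ (s.card = 4 → {o' : Finset Cfsg.GolayPt | o' ∈ Cfsg.octads ∧ o ∩ o' = s}.ncard = 4) := by
  refine ⟨fun h => ?_, fun h => ?_⟩
  · obtain ⟨k, rfl, rfl⟩ := H16.flag_oct_subset (s := H16.toSet 3) ho (by decide +kernel) hs
      (by rw [h]; decide +kernel) (by decide +kernel)
    exact (H16.ncard_transfer k fun x => by
      simp only [H16.smul_mem_octads, ← Finset.smul_finset_inter, smul_left_cancel_iff]).trans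
      ((base (c := 3) (by norm_num)).trans (by decide +kernel))
  · obtain ⟨k, rfl, rfl⟩ := H16.flag_oct_subset (s := H16.toSet 15) ho (by decide +kernel) hs
      (by rw [h]; decide +kernel) (by decide +kernel)
    exact (H16.ncard_transfer k fun x => by
      simp only [H16.smul_mem_octads, ← Finset.smul_finset_inter, smul_left_cancel_iff]).trans
      ((base (c := 15) (by norm_num)).trans (by decide +kernel))

end Cfsg.Agent.S1555
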