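import Cfsg.Statements.S1558
import Cfsg.Agent.H16.M24h

set_option autoImplicit false
open scoped Pointwise
open Cfsg

namespace Cfsg.Agent.S1558
instance fact2 : Fact (Nat.Prime 2) := ⟨by norm_num⟩

open H16 MulAction in
theorem base : ∃ φ : KT →* GL (Fin 3) (ZMod 2) × Equiv.Perm (Fin 3), Function.Surjective φ ∧ Nat.card φ.ker = 64 ∧
    ∀ x ∈ φ.ker, x * x = 1 := by
  have hc : Nat.card (GL (Fin 3) (ZMod 2) × Equiv.Perm (Fin 3)) = 1008 := by
    rw [Nat.card_prod, H12.card_GL_fin (ZMod.card 2), Nat.card_perm, Fin.prod_univ_three, Nat.card_fin]; rfl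
  have i2 := inj12 (inj_vecPt (inj_zmod 2) 3) (inj_finPt 3)
  have f2 : Faith (pt12 (vecPt (Nat.cast : ℕ → ZMod 2) 2 3) (2 ^ 3) (finPt 3)) (2 ^ 3 + 3)
      (⊤ : Subgroup (GL (Fin 3) (ZMod 2) × Equiv.Perm (Fin 3))) :=
    by
    rw [← Subgroup.top_prod_top]; exact faith12 (faith_GL (surj_zmod 2) 3 ⊤) (faith_finPt 3 ⊤)
  have g2 := gen_top (w := 4) (by norm_num) i2 hc
    [((⟨!![0, 1, 0; 1, 1, 0; 0, 0, 1], !![1, 1, 0; 1, 0, 0; 0, 0, 1], by decide +kernel, by decide +kernel⟩, Equiv.swap 0 2),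
        comb 3 8 2 3 4 12534480 6),
     ((⟨!![1, 1, 1; 0, 1, 1; 1, 0, 1], !![1, 1, 0; 1, 0, 1; 1, 1, 1], by decide +kernel, by decide +kernel⟩,
        Equiv.swap 0 1 * Equiv.swap 0 2), comb 3 8 2 3 4 3243240 18)]
    (by
      simp only [List.forall_mem_cons]
      exact ⟨(rep12_iff (by decide)).mpr (by decide +kernel), (rep12_iff (by decide)).mpr (by decide +kernel), by simp⟩)
    [[1, 1, 1, 0, 1], [2, 2], [1, 2, 2, 0, 1], [2, 4, 2, 3, 3, 4], [5, 5, 0, 0, 0], [4, 4, 3, 5, 4, 2]] [1, 2, 4, 8, 9]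
    (by decide) (by decide +kernel)
  obtain ⟨φ, h, hE⟩ := exists_surj (w := 6) gpt_inj i2 (by decide) (faith_M24 KT) f2
    (ktG.zip [comb 3 8 2 3 4 12534480 6, comb 3 8 2 3 4 3243240 18])
    ([978241746458226444833005867658250464, 971700361611140356443901154824849856, 957028651706772161000819827381930688,
      444289337313316553456043766274168875, 195258226846177725766757484904688678, 29182921867771703228355785177273399].map
      fun p => (p, pid 4 11)) gen_ktG g2
    [[1, 0, 0, 1, 1], [2, 0, 0, 2, 1, 2, 1, 1], [3, 2, 3, 2, 2], [0, 0, 0, 4, 2], [4, 3, 4, 3, 2, 5, 5], [4, 6, 4, 4, 6, 4]]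
    [0, 1, 2, 4, 5] (by decide) (by decide +kernel)
  have hk : Nat.card φ.ker = 64 := by
    have := card_ker_mul φ h
    rw [card_KT, Subgroup.card_top, hc] at this
    omega
  have g3 : Gen gpt 24 5 (φ.ker.map KT.subtype) [978241746458226444833005867658250464, 971700361611140356443901154824849856,
      957028651706772161000819827381930688, 444289337313316553456043766274168875, 195258226846177725766757484904688678,
      29182921867771703228355785177273399] :=
    Gen.of_card gpt_inj [1, 0] (by decide) _ (fun p hp => by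
      obtain ⟨g, h1, h2⟩ := hE (p, pid 4 11) (List.mem_append_right _ (List.mem_map_of_mem hp))
      exact ⟨g, ⟨g, Subtype.ext (Rep.eq_of_faith f2 trivial trivial h2 (Rep.pid (by norm_num))), rfl⟩, h1⟩)
      (by rw [Subgroup.card_subtype, hk]; exact Nat.le_of_ble_eq_true (by decide +kernel))
  have h3 := g3.comm_pow five_le (faith_M24 _) (k := 2) (by decide +kernel)
  have e : ((Subgroup.topEquiv (G := GL (Fin 3) (ZMod 2) × Equiv.Perm (Fin 3))).toMonoidHom.comp φ).ker = φ.ker := MonoidHom.ker_comp_of_injective _ _ Subgroup.topEquiv.injective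
  exact ⟨(Subgroup.topEquiv (G := GL (Fin 3) (ZMod 2) × Equiv.Perm (Fin 3))).toMonoidHom.comp φ, Subgroup.topEquiv.surjective.comp h, e ▸ hk,
    fun x hx => Subtype.ext (by rw [← sq]; exact h3.2 x ⟨x, e ▸ hx, rfl⟩)⟩

theorem tr {A A' B : Type*} [Group A] [Group A'] [Group B] (e : A ≃* A') (φ : A →* B)
    (h : Function.Surjective φ) {m : ℕ} (hc : Nat.card φ.ker = m) (h2 : ∀ x ∈ φ.ker, x * x = 1) :
    ∃ (N : Subgroup A') (_ : N.Normal), Nat.card N = m ∧ (∀ x ∈ N, x * x = 1) ∧ Nonempty (A' ⧸ N ≃* B) := by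
  have hs : Function.Surjective (φ.comp e.symm.toMonoidHom) := h.comp e.symm.surjective
  refine ⟨_, inferInstance, ?_, fun x hx => e.symm.injective (by rw [map_mul, map_one]; exact h2 _ hx),
    ⟨QuotientGroup.quotientKerEquivOfSurjective _ hs⟩⟩
  rw [← hc]
  exact Nat.card_congr (e.symm.toEquiv.subtypeEquiv fun _ => Iff.rfl)


/-- Structure of a trio stabiliser: every permutation of the three octads is induced, and there is a normal subgroup of order 64 of elements squaring to the identity whose quotient is isomorphic to the product of GL(3, 2) with the symmetric group of degree 3. -/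
theorem result (T : Finset (Finset Cfsg.GolayPt)) (hT : T ∈ Cfsg.trios) : (∀ e : Equiv.Perm ↥T, ∃ g ∈ MulAction.stabilizer Cfsg.M24 T, ∀ o : ↥T, (g : Equiv.Perm Cfsg.GolayPt) • (o : Finset Cfsg.GolayPt) = ((e o : ↥T) : Finset Cfsg.GolayPt)) ∧ ∃ (N : Subgroup ↥(MulAction.stabilizer Cfsg.M24 T)) (_ : N.Normal), Nat.card N = 64 ∧ (∀ x ∈ N, x * x = 1) ∧ Nonempty (↥(MulAction.stabilizer Cfsg.M24 T) ⧸ N ≃* GL (Fin 3) (ZMod 2) × Equiv.Perm (Fin 3)) := by
  obtain ⟨k, rfl⟩ := H16.M24_trio H16.tr0_mem hT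
  have h := H16.conj_mem_stabilizer k (a := H16.fam 3 (H16.tr 0))
  obtain ⟨φ, h1, h2, h3⟩ := base
  exact ⟨H16.perm_of_tuple hT.1 (H16.tuple_conj h (H16.fam_tuple (by norm_num) H16.ktG_inK
    [] [2, 0, 1] (by decide) rfl (by decide +kernel))), tr (H16.conjEquiv k _ _ h) φ h1 h2 h3⟩

end Cfsg.Agent.S1558
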