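import Cfsg.Statements.S1559
import Cfsg.Agent.H16.M24f

set_option autoImplicit false
open scoped Pointwise
open Cfsg

namespace Cfsg.Agent.S1559
open H16 MulAction in
theorem base1 : OrbDec KT trios [42, 56, 1008, 2688] {fam 3 (tr 0)} := by
  have := tabTrio.orbDec gen_ktG [(1, 42), (16, 56), (17, 1008), (30, 2688)] (bit 0) (by decide +kernel)
  rwa [ptSet_bit _ (by norm_num)] at this

open H16 MulAction in
theorem base2 : IsCoatom KT :=
  tabTrio.isCoatom (a := 0) (U := [443554173076151051267191145042580582, 916731612998958392320283838163263501,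
    980146346685164894700590265626012677, 967736338991213295928397963319215725]) (by norm_num) ktG_inK
    (inK_top_of_allL (by decide +kernel)) (Q := fun _ => True)
    (fun _ => true) (by simp) (fun g => ⟨M24_smul_mem_trios g tr0_mem, trivial⟩)
    (fun e => by have := card_KT; rw [show KT = ⊤ from e, card_top_M24] at this; omega) (by decide +kernel)

/-- A trio stabiliser has five orbits on the 3795 trios, of sizes 1, 42, 56, 1008, 2688; and the stabiliser is a maximal proper subgroup. -/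
theorem result (T : Finset (Finset Cfsg.GolayPt)) (hT : T ∈ Cfsg.trios) : ∃ X₁ ∈ Cfsg.trios, ∃ X₂ ∈ Cfsg.trios, ∃ X₃ ∈ Cfsg.trios, ∃ X₄ ∈ Cfsg.trios, (MulAction.orbit ↥(MulAction.stabilizer Cfsg.M24 T) X₁).ncard = 42 ∧ (MulAction.orbit ↥(MulAction.stabilizer Cfsg.M24 T) X₂).ncard = 56 ∧ (MulAction.orbit ↥(MulAction.stabilizer Cfsg.M24 T) X₃).ncard = 1008 ∧ (MulAction.orbit ↥(MulAction.stabilizer Cfsg.M24 T) X₄).ncard = 2688 ∧ Cfsg.trios = {T} ∪ MulAction.orbit ↥(MulAction.stabilizer Cfsg.M24 T) X₁ ∪ MulAction.orbit ↥(MulAction.stabilizer Cfsg.M24 T) X₂ ∪ MulAction.orbit ↥(MulAction.stabilizer Cfsg.M24 T) X₃ ∪ MulAction.orbit ↥(MulAction.stabilizer Cfsg.M24 T) X₄ ∧ IsCoatom (MulAction.stabilizer Cfsg.M24 T) := by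
  obtain ⟨k, rfl⟩ := H16.M24_trio H16.tr0_mem hT
  have h := H16.conj_mem_stabilizer k (a := H16.fam 3 (H16.tr 0))
  have := base1.conj h
  rw [H16.smul_trios, Set.smul_set_singleton] at this
  obtain ⟨x1, h1, e1, x2, h2, e2, x3, h3, e3, x4, h4, e4, e⟩ := this
  exact ⟨x1, h1, x2, h2, x3, h3, x4, h4, e1, e2, e3, e4, e, H16.isCoatom_conj h base2⟩

end Cfsg.Agent.S1559
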