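import Cfsg.Statements.S1560
import Cfsg.Agent.H16.M24f

set_option autoImplicit false
open scoped Pointwise
open Cfsg

namespace Cfsg.Agent.S1560
open H16 in
theorem base (c : ℕ) : {o | o ∈ dodecads ∧ (toSet sqD ∩ o).card = c}.ncard =
    codeCnt fun m => andB (Nat.beq (pc24 m) 12) (Nat.beq (pc24 (Nat.land sqD m)) c) :=
  ncard_dodecads_filter _ fun m _ => by rw [card_inter_toSet, Nat.beq_eq]

open H16 in
theorem base2 {d : Finset GolayPt} (hd : d ∈ dodecads) : d ≠ toSet sqD → (toSet sqD ∩ d).card = 0 ∨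
    (toSet sqD ∩ d).card = 4 ∨ (toSet sqD ∩ d).card = 6 ∨ (toSet sqD ∩ d).card = 8 :=
  forall_wt (Q := fun d => d ≠ toSet sqD → (toSet sqD ∩ d).card = 0 ∨
    (toSet sqD ∩ d).card = 4 ∨ (toSet sqD ∩ d).card = 6 ∨ (toSet sqD ∩ d).card = 8)
    (fun m => orB (Nat.beq m sqD) (force (pc24 (Nat.land sqD m)) fun c =>
      orB (Nat.beq c 0) (orB (Nat.beq c 4) (orB (Nat.beq c 6) (Nat.beq c 8)))))
    (fun m _ h hne => by
      simp only [orB_iff, force_eq, Nat.beq_eq, ← card_inter_toSet] at h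
      exact h.resolve_left fun e => hne (by rw [e])) (by decide +kernel) hd

/-- Intersection numbers of dodecads: a dodecad meets every other dodecad in 0, 4, 6 or 8 points, meeting 495 of them in 4 points, 1584 in 6 points and 495 in 8 points. -/
theorem result (d : Finset Cfsg.GolayPt) (hd : d ∈ Cfsg.dodecads) : (∀ d' ∈ Cfsg.dodecads, d' ≠ d → (d ∩ d').card = 0 ∨ (d ∩ d').card = 4 ∨ (d ∩ d').card = 6 ∨ (d ∩ d').card = 8) ∧ {d' : Finset Cfsg.GolayPt | d' ∈ Cfsg.dodecads ∧ (d ∩ d').card = 4}.ncard = 495 ∧ {d' : Finset Cfsg.GolayPt | d' ∈ Cfsg.dodecads ∧ (d ∩ d').card = 6}.ncard = 1584 ∧ {d' : Finset Cfsg.GolayPt | d' ∈ Cfsg.dodecads ∧ (d ∩ d').card = 8}.ncard = 495 := by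
  obtain ⟨k, rfl⟩ := H16.M24_dodecad H16.sqD_mem hd
  refine ⟨fun d' hd' hne => ?_, ?_, ?_, ?_⟩
  · obtain ⟨d', rfl⟩ := MulAction.surjective k d'
    simp only [H16.card_smul_inter]
    exact base2 ((H16.smul_mem_dodecads _ _).mp hd') fun e => hne (by rw [e])
  all_goals
  exact (H16.ncard_transfer k fun x => by simp only [H16.smul_mem_dodecads, H16.card_smul_inter] <;> rfl).trans
    ((base _).trans (by decide +kernel))

end Cfsg.Agent.S1560
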