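import Cfsg.Statements.S1561
import Cfsg.Agent.H16.M24f

set_option autoImplicit false
open scoped Pointwise
open Cfsg

namespace Cfsg.Agent.S1561

/-- Two dodecads meeting a fixed dodecad in equally many points lie in one orbit of its stabiliser. -/
theorem result (d d' d'' : Finset Cfsg.GolayPt) (hd : d ∈ Cfsg.dodecads) (hd' : d' ∈ Cfsg.dodecads) (hd'' : d'' ∈ Cfsg.dodecads) (h : (d ∩ d').card = (d ∩ d'').card) : ∃ g : Equiv.Perm Cfsg.GolayPt, g ∈ Cfsg.M24 ∧ g • d = d ∧ g • d' = d'' := by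
  obtain ⟨k, rfl⟩ := H16.M24_dodecad H16.sqD_mem hd
  obtain ⟨d', rfl⟩ := MulAction.surjective k d'
  obtain ⟨d'', rfl⟩ := MulAction.surjective k d''
  simp only [H16.smul_mem_dodecads, H16.card_smul_inter] at hd' hd'' h
  obtain ⟨g, h1, h2⟩ := H16.wt_trans H16.k12G_inK (Q := fun _ => True) (fun _ => true) (fun _ _ _ => rfl) H16.sqD
    [863, 3232, 31, 34, 13] (by decide +kernel) hd' trivial hd'' trivial h
  exact ⟨(k * g * k⁻¹ : M24), Subtype.property _, H16.cj k h1, H16.cj k h2⟩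

end Cfsg.Agent.S1561
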