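import Cfsg.Statements.S1562
import Cfsg.Agent.H16.M24f

set_option autoImplicit false
open scoped Pointwise
open Cfsg

namespace Cfsg.Agent.S1562
open H16 in
theorem base : (∀ e ∈ [(15, 210), (9, 1120)], {x | (x ∈ {t : Finset GolayPt | t.card = 3} ∧ Disjoint (toSet 8388611) x) ∧
      (∃ o ∈ octads, toSet 8388611 ∪ x ⊆ o) = (∃ o ∈ octads, toSet 8388611 ∪ toSet (p3 e.1) ⊆ o)}.ncard = e.2) ∧
    (∀ x ∈ {t : Finset GolayPt | t.card = 3}, Disjoint (toSet 8388611) x → ∀ y ∈ {t : Finset GolayPt | t.card = 3},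
      Disjoint (toSet 8388611) y → (∃ o ∈ octads, toSet 8388611 ∪ x ⊆ o) = (∃ o ∈ octads, toSet 8388611 ∪ y ⊆ o) →
      ∃ g ∈ L21, g • x = y) := by
  have h1 : ∃ o ∈ octads, toSet 8388611 ∪ toSet (p3 15) ⊆ o := by
    rw [← toSet_or, inOct_iff (by decide +kernel)]; decide +kernel
  have h2 : ¬ ∃ o ∈ octads, toSet 8388611 ∪ toSet (p3 9) ⊆ o := by
    rw [← toSet_or, inOct_iff (by decide +kernel)]; decide +kernel
  have := tabP3.classes l21G_inK (Q := fun x => Disjoint (toSet 8388611) x)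
    (fun i => Nat.beq (pc24 (Nat.land 8388611 (p3 i))) 0) (fun i _ => by rw [disjoint_toSet, Nat.beq_eq])
    (fun g hg x h => by rwa [← show g • toSet 8388611 = _ from hg, disjoint_smul_iff]) [(15, 210), (9, 1120)]
    (by decide +kernel) (fun x => ∃ o ∈ octads, toSet 8388611 ∪ x ⊆ o) (fun g hg x => by
      rw [exists_octad_smul g]
      conv_lhs => rw [← show g • toSet 8388611 = _ from hg]
      simp only [← Finset.smul_finset_union, Finset.smul_finset_subset_smul_finset_iff]) (by simp only [List.forall_mem_cons, h1, h2]; simp)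
  exact ⟨this.1, this.2.1⟩

open H16 in
theorem base1 : {U : Finset GolayPt | U.card = 3 ∧ Disjoint (toSet 8388611) U ∧
    (∃ o ∈ octads, toSet 8388611 ∪ U ⊆ o)}.ncard = 210 := by
  have h1 : ∃ o ∈ octads, toSet 8388611 ∪ toSet (p3 15) ⊆ o := by
    rw [← toSet_or, inOct_iff (by decide +kernel)]; decide +kernel
  have := base.1 (15, 210) (by simp)
  simpa only [h1, eq_iff_iff, iff_true, and_assoc, Set.mem_ofPred_eq] using this

open H16 in
theorem base2 : {U : Finset GolayPt | U.card = 3 ∧ Disjoint (toSet 8388611) U ∧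
    ¬ (∃ o ∈ octads, toSet 8388611 ∪ U ⊆ o)}.ncard = 1120 := by
  have h2 : ¬ ∃ o ∈ octads, toSet 8388611 ∪ toSet (p3 9) ⊆ o := by
    rw [← toSet_or, inOct_iff (by decide +kernel)]; decide +kernel
  have := base.1 (9, 1120) (by simp)
  simpa only [h2, eq_iff_iff, iff_false, and_assoc, Set.mem_ofPred_eq] using this

/-- Orbits of a triad stabiliser on the triads disjoint from it: the 210 triads inside a common octad with it form one orbit and the remaining 1120 another. -/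
theorem result (T : Finset Cfsg.GolayPt) (hT : T.card = 3) : {U : Finset Cfsg.GolayPt | U.card = 3 ∧ Disjoint T U ∧ (∃ o ∈ Cfsg.octads, T ∪ U ⊆ o)}.ncard = 210 ∧ {U : Finset Cfsg.GolayPt | U.card = 3 ∧ Disjoint T U ∧ ¬ (∃ o ∈ Cfsg.octads, T ∪ U ⊆ o)}.ncard = 1120 ∧ ∀ U U' : Finset Cfsg.GolayPt, U.card = 3 → U'.card = 3 → Disjoint T U → Disjoint T U' → ((∃ o ∈ Cfsg.octads, T ∪ U ⊆ o) ↔ (∃ o ∈ Cfsg.octads, T ∪ U' ⊆ o)) → ∃ g : Equiv.Perm Cfsg.GolayPt, g ∈ Cfsg.M24 ∧ g • T = T ∧ g • U = U' := by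
  obtain ⟨k, rfl⟩ := H16.M24_subset (H16.card_triple0.trans hT.symm) (by rw [H16.card_triple0]; norm_num)
  have e : ∀ x, (∃ o ∈ octads, k • H16.toSet 8388611 ∪ k • x ⊆ o) ↔ ∃ o ∈ octads, H16.toSet 8388611 ∪ x ⊆ o := fun x => by
    rw [H16.exists_octad_smul k]
    simp only [← Finset.smul_finset_union, Finset.smul_finset_subset_smul_finset_iff]
  refine ⟨(H16.ncard_transfer k fun x => ?_).trans base1, (H16.ncard_transfer k fun x => ?_).trans base2,
    fun U U' h1 h2 h3 h4 h => ?_⟩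
  iterate 2 simp only [e, Finset.card_smul_finset, H16.disjoint_smul_iff]
  obtain ⟨U, rfl⟩ := MulAction.surjective k U
  obtain ⟨U', rfl⟩ := MulAction.surjective k U'
  simp only [e, Finset.card_smul_finset, H16.disjoint_smul_iff] at h1 h2 h3 h4 h
  obtain ⟨g, h5, h6⟩ := base.2 U h1 h3 U' h2 h4 (propext h)
  exact ⟨(k * g * k⁻¹ : M24), Subtype.property _, H16.cj k h5, H16.cj k h6⟩

end Cfsg.Agent.S1562
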