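import Cfsg.Statements.S1563
import Cfsg.Agent.H16.M24f

set_option autoImplicit false
open scoped Pointwise
open Cfsg

namespace Cfsg.Agent.S1563
open H16 MulAction in
theorem base : IsCoatom L22 := by
  have e : p2 253 = 8388609 := by decide +kernel
  have := tabP2.isCoatom (a := 253) (S := l22G)
    (U := [71492056680133066869724754691572096, 113072304910174064711471962407945633])
    (by norm_num) (by simp only [e]; exact l22G_inK) (inK_top_of_allL (by decide +kernel)) (Q := fun _ => True)
    (fun _ => true) (by simp) (fun g => ⟨by simp only [e, Set.mem_ofPred_eq, Finset.card_smul_finset, card_pair0], trivial⟩)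
    (fun e' => by
      have := card_L22
      simp only [e] at e'
      rw [show L22 = ⊤ from e', card_top_M24] at this; omega) (by decide +kernel)
  simpa only [e] using this

/-- The stabiliser of a pair of points (setwise) is a maximal proper subgroup of the group of the length-24 code. -/
theorem result (s : Finset Cfsg.GolayPt) (hs : s.card = 2) : IsCoatom (MulAction.stabilizer Cfsg.M24 s) := by
  obtain ⟨k, rfl⟩ := H16.M24_subset (H16.card_pair0.trans hs.symm) (by rw [H16.card_pair0]; norm_num)
  exact H16.isCoatom_conj (H16.conj_mem_stabilizer k (a := _)) base

end Cfsg.Agent.S1563
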