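import Cfsg.Statements.S1564
import Cfsg.Agent.H16.M24f

set_option autoImplicit false
open scoped Pointwise
open Cfsg

namespace Cfsg.Agent.S1564
open H16 MulAction in
theorem base : IsCoatom L21 := by
  have e : p3 1771 = 8388611 := by decide +kernel
  have := tabP3.isCoatom (a := 1771) (S := l21G)
    (U := [26136954100604221678627938012446754, 97848327441099748800540102030376037, 21644791593907394750148404909383747,
      111893598989926479226434971600701540])
    (by norm_num) (by simp only [e]; exact l21G_inK) (inK_top_of_allL (by decide +kernel)) (Q := fun _ => True)
    (fun _ => true) (by simp) (fun g => ⟨by simp only [e, Set.mem_ofPred_eq, Finset.card_smul_finset, card_triple0], trivial⟩)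
    (fun e' => by
      have := card_L21
      simp only [e] at e'
      rw [show L21 = ⊤ from e', card_top_M24] at this; omega) (by decide +kernel)
  simpa only [e] using this

/-- The stabiliser of a set of three points (setwise) is a maximal proper subgroup of the group of the length-24 code. -/
theorem result (s : Finset Cfsg.GolayPt) (hs : s.card = 3) : IsCoatom (MulAction.stabilizer Cfsg.M24 s) := by
  obtain ⟨k, rfl⟩ := H16.M24_subset (H16.card_triple0.trans hs.symm) (by rw [H16.card_triple0]; norm_num)
  exact H16.isCoatom_conj (H16.conj_mem_stabilizer k (a := _)) base

end Cfsg.Agent.S1564
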