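import Cfsg.Statements.S1566
import Cfsg.Agent.H16.M24f

set_option autoImplicit false
open scoped Pointwise
open Cfsg

namespace Cfsg.Agent.S1566
open H16 MulAction in
theorem base : IsCoatom L12 := by
  have e : fam 2 (du 1264) = {toSet sqD, (toSet sqD)ᶜ} := by
    rw [fam_two, show get 24 (du 1264) 0 = sqD by decide +kernel,
      show get 24 (du 1264) 1 = sqD ^^^ 16777215 by decide +kernel, toSet_compl]
  have := tabDuad.isCoatom (a := 1264) (S := l12G)
    (U := [955962343276704696657191542220888178, 957302290853100781205680494263934099])
    (by norm_num) (by simp only [e]; exact l12G_inK) (inK_top_of_allL (by decide +kernel)) (Q := fun _ => True)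
    (fun _ => true) (by simp) (fun g => ⟨⟨_, M24_smul_mem_dodecads g sqD_mem, by simp only [e, smul_duad]⟩, trivial⟩)
    (fun e' => by
      have := card_L12
      simp only [e] at e'
      rw [show L12 = ⊤ from e', card_top_M24] at this; omega) (by decide +kernel)
  simpa only [e] using this

/-- The setwise stabiliser of a dodecad together with its complement is a maximal proper subgroup of the group of the length-24 code. -/
theorem result (d : Finset Cfsg.GolayPt) (hd : d ∈ Cfsg.dodecads) : IsCoatom (MulAction.stabilizer Cfsg.M24 ({d, dᶜ} : Finset (Finset Cfsg.GolayPt))) := by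
  obtain ⟨k, rfl⟩ := H16.M24_dodecad H16.sqD_mem hd
  rw [← H16.smul_duad]
  exact H16.isCoatom_conj (H16.conj_mem_stabilizer k (a := _)) base

end Cfsg.Agent.S1566
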