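import Cfsg.Statements.S1568
import Cfsg.Agent.H21.Leech3

set_option autoImplicit false
set_option linter.style.haveILetI false
open Cfsg

namespace Cfsg.Agent.S1568

open Cfsg.Agent.LL Cfsg.Agent.H16

theorem key (p Q : ℕ → Bool) (R : V → Prop)
    (h : ∀ x : V, (∀ i, -8 ≤ x i) → (R x ↔ Q (Finset.univ.filter fun i => p (x i + 8).toNat = true).card = true)) :
    {x : V | x ∈ leechLattice ∧ sqNorm x = 48 ∧ R x}.ncard = cntL p Q 48 := by
  rw [← count_leech p Q 48 (by norm_num)]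
  refine congrArg Set.ncard ?_
  ext x
  refine and_congr_right fun _ => and_congr_right fun hn => h x fun i => ?_
  have := sq_le_sqNorm x i
  rw [hn] at this
  nlinarith

theorem mem_abs (x : V) (hx : ∀ i, -8 ≤ x i) (a : ℕ) (ha : a ≤ 8) (i : GolayPt) :
    i ∈ (Finset.univ.filter fun i => orB (Nat.beq (x i + 8).toNat (8 + a)) (Nat.beq (x i + 8).toNat (8 - a)) = true) ↔
      |x i| = a := by
  have := hx i
  simp only [Finset.mem_filter, Finset.mem_univ, true_and, orB_iff, Nat.beq_eq, abs_eq (Int.natCast_nonneg a)]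
  omega

/-- Shape census of the lattice vectors of sum of squares 48 (customary norm 6): the four families (2^12, 0^12), (±3^3, ±1^21), (±4, ±2^8, 0^15) and (±5, ±1^23) have 5275648, 8290304, 3108864 and 98304 members. -/
theorem result : {x : Cfsg.GolayPt → ℤ | x ∈ Cfsg.leechLattice ∧ Cfsg.sqNorm x = 48 ∧ ∀ i, x i = 0 ∨ x i = 2 ∨ x i = -2}.ncard = 5275648 ∧ {x : Cfsg.GolayPt → ℤ | x ∈ Cfsg.leechLattice ∧ Cfsg.sqNorm x = 48 ∧ ∃ i j k, i ≠ j ∧ j ≠ k ∧ i ≠ k ∧ |x i| = 3 ∧ |x j| = 3 ∧ |x k| = 3}.ncard = 8290304 ∧ {x : Cfsg.GolayPt → ℤ | x ∈ Cfsg.leechLattice ∧ Cfsg.sqNorm x = 48 ∧ ∃ i, |x i| = 4}.ncard = 3108864 ∧ {x : Cfsg.GolayPt → ℤ | x ∈ Cfsg.leechLattice ∧ Cfsg.sqNorm x = 48 ∧ ∃ i, |x i| = 5}.ncard = 98304 := by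
  refine ⟨?_, ?_, ?_, ?_⟩
  · refine (key (fun k => notB (orB (Nat.beq k 8) (orB (Nat.beq k 10) (Nat.beq k 6)))) (fun j => Nat.beq j 0) _
      fun x hx => ?_).trans (by decide +kernel)
    simp only [Nat.beq_eq, Finset.card_eq_zero, Finset.filter_eq_empty_iff, Finset.mem_univ, true_imp_iff,
      notB_iff, orB_iff, not_not]
    refine forall_congr' fun i => ?_
    have := hx i
    omega
  · refine (key (fun k => orB (Nat.beq k (8 + 3)) (Nat.beq k (8 - 3))) (fun j => Nat.blt 2 j) _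
      fun x hx => ?_).trans (by decide +kernel)
    simp only [Nat.blt_eq, Finset.two_lt_card_iff, mem_abs x hx 3 (by norm_num)]
    constructor
    · rintro ⟨i, j, k, h1, h2, h3, h4, h5, h6⟩
      exact ⟨i, j, k, h4, h5, h6, h1, h3, h2⟩
    · rintro ⟨i, j, k, h4, h5, h6, h1, h3, h2⟩
      exact ⟨i, j, k, h1, h2, h3, h4, h5, h6⟩
  · refine (key (fun k => orB (Nat.beq k (8 + 4)) (Nat.beq k (8 - 4))) (fun j => Nat.blt 0 j) _
      fun x hx => ?_).trans (by decide +kernel)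
    simp only [Nat.blt_eq, Finset.card_pos, Finset.Nonempty, mem_abs x hx 4 (by norm_num)]
    rfl
  · refine (key (fun k => orB (Nat.beq k (8 + 5)) (Nat.beq k (8 - 5))) (fun j => Nat.blt 0 j) _
      fun x hx => ?_).trans (by decide +kernel)
    simp only [Nat.blt_eq, Finset.card_pos, Finset.Nonempty, mem_abs x hx 5 (by norm_num)]
    rfl

end Cfsg.Agent.S1568
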