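import Cfsg.Statements.S1573
import Cfsg.Agent.H21.Leech10

set_option autoImplicit false
set_option linter.style.haveILetI false
open Cfsg

namespace Cfsg.Agent.S1573

open Cfsg.Agent.LL Cfsg.Agent.H16

/-- Census of minimal vectors by inner product with a fixed minimal vector: 4600 have customary inner product −2, 47104 have −1, and 93150 are orthogonal. -/
theorem result (v : Cfsg.GolayPt → ℤ) (hv : v ∈ Cfsg.leechLattice) (hvn : Cfsg.sqNorm v = 32) : {w : Cfsg.GolayPt → ℤ | w ∈ Cfsg.leechLattice ∧ Cfsg.sqNorm w = 32 ∧ Cfsg.dotInt v w = -16}.ncard = 4600 ∧ {w : Cfsg.GolayPt → ℤ | w ∈ Cfsg.leechLattice ∧ Cfsg.sqNorm w = 32 ∧ Cfsg.dotInt v w = -8}.ncard = 47104 ∧ {w : Cfsg.GolayPt → ℤ | w ∈ Cfsg.leechLattice ∧ Cfsg.sqNorm w = 32 ∧ Cfsg.dotInt v w = 0}.ncard = 93150 := by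
  obtain ⟨g, e⟩ := from_U (x := ⟨v, hv⟩) hvn
  obtain rfl : ((g • U : L) : V) = v := congrArg Subtype.val e
  have key : ∀ d, {w : V | w ∈ leechLattice ∧ sqNorm w = 32 ∧ dotInt ((g • U : L) : V) w = d}.ncard = (XA U d).ncard :=
    fun d => (ncard_coe fun w => sqNorm w = 32 ∧ dotInt _ w = d).symm.trans
      (ncard_transfer g fun x => by rw [sqNorm_co, dot_co])
  rw [key, key, key]
  exact ⟨ncard4600, ncard47104, ncard93150⟩

end Cfsg.Agent.S1573
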