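import Cfsg.Statements.S1574
import Cfsg.Agent.H21.Co2

set_option autoImplicit false
set_option linter.style.haveILetI false
open Cfsg

namespace Cfsg.Agent.S1574

open Cfsg.Agent.LL Cfsg.Agent.H16 MulAction

/-- The stabiliser of a minimal vector is transitive on the minimal vectors of customary inner product −2 with it. -/
theorem result (v w w' : ↥Cfsg.leechLattice) (hv : Cfsg.sqNorm (v : Cfsg.GolayPt → ℤ) = 32) (hw : Cfsg.sqNorm (w : Cfsg.GolayPt → ℤ) = 32) (hw' : Cfsg.sqNorm (w' : Cfsg.GolayPt → ℤ) = 32) (hd : Cfsg.dotInt (v : Cfsg.GolayPt → ℤ) (w : Cfsg.GolayPt → ℤ) = -16) (hd' : Cfsg.dotInt (v : Cfsg.GolayPt → ℤ) (w' : Cfsg.GolayPt → ℤ) = -16) : ∃ g : ↥Cfsg.Co0, g • v = v ∧ g • w = w' := by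
  obtain ⟨g, rfl⟩ := from_U hv
  obtain ⟨w, rfl⟩ := MulAction.surjective g w
  obtain ⟨w', rfl⟩ := MulAction.surjective g w'
  rw [sqNorm_co] at hw hw'
  rw [dot_co] at hd hd'
  obtain ⟨h, h1, e⟩ := trans4600 ⟨hw, hd⟩ ⟨hw', hd'⟩
  exact ⟨_, cj g h1, cj g e⟩

end Cfsg.Agent.S1574
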