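import Cfsg.Statements.S1575
import Cfsg.Agent.H21.Leech10

set_option autoImplicit false
set_option linter.style.haveILetI false
open Cfsg

namespace Cfsg.Agent.S1575

open Cfsg.Agent.LL Cfsg.Agent.H16

/-- The stabiliser of a minimal vector is transitive on the minimal vectors of customary inner product −1 with it. -/
theorem result (v w w' : ↥Cfsg.leechLattice) (hv : Cfsg.sqNorm (v : Cfsg.GolayPt → ℤ) = 32) (hw : Cfsg.sqNorm (w : Cfsg.GolayPt → ℤ) = 32) (hw' : Cfsg.sqNorm (w' : Cfsg.GolayPt → ℤ) = 32) (hd : Cfsg.dotInt (v : Cfsg.GolayPt → ℤ) (w : Cfsg.GolayPt → ℤ) = -8) (hd' : Cfsg.dotInt (v : Cfsg.GolayPt → ℤ) (w' : Cfsg.GolayPt → ℤ) = -8) : ∃ g : ↥Cfsg.Co0, g • v = v ∧ g • w = w' := by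
  obtain ⟨g, rfl, rfl⟩ := std_M hv hw hd
  obtain ⟨h, e1, e2⟩ := std_M hv hw' hd'
  exact ⟨h * g⁻¹, by rw [mul_smul, inv_smul_smul, e1], by rw [mul_smul, inv_smul_smul, e2]⟩

end Cfsg.Agent.S1575
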