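import Cfsg.Statements.S1577
import Cfsg.Agent.H21.U62

set_option autoImplicit false
set_option linter.style.haveILetI false
open Cfsg

namespace Cfsg.Agent.S1577

open Cfsg.Agent.LL Cfsg.Agent.H16 MulAction

/-- The joint stabiliser of two minimal vectors of customary inner product −2 is isomorphic to PSU(6, 2). -/
theorem result (v w : ↥Cfsg.leechLattice) (hv : Cfsg.sqNorm (v : Cfsg.GolayPt → ℤ) = 32) (hw : Cfsg.sqNorm (w : Cfsg.GolayPt → ℤ) = 32) (hd : Cfsg.dotInt (v : Cfsg.GolayPt → ℤ) (w : Cfsg.GolayPt → ℤ) = -16) (F : Type) [Field F] [Fintype F] (hF : Fintype.card F = 4) : Nonempty (↥(MulAction.stabilizer ↥Cfsg.Co0 v ⊓ MulAction.stabilizer ↥Cfsg.Co0 w) ≃* Cfsg.PSU 6 F 2) := by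
  obtain ⟨g, rfl⟩ := from_U hv
  obtain ⟨w, rfl⟩ := MulAction.surjective g w
  beta_reduce at hw hd ⊢
  rw [sqNorm_co] at hw
  rw [dot_co] at hd
  obtain ⟨k, hk, rfl⟩ := trans4600 (tab4600.pt_mem (i := 0) (by norm_num)) ⟨hw, hd⟩
  rw [show g • U = (g * k) • U by rw [mul_smul, hk], ← mul_smul]
  obtain ⟨e⟩ := equivU62
  obtain ⟨f⟩ := H12.nonempty_ringEquiv_of_natCard_eq (F := H17.F4) (K := F)
    (by rw [Nat.card_eq_fintype_card, Nat.card_eq_fintype_card, hF, H17.card_F4])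
  exact ⟨(conjEquiv _ _ _ (conj2 (g * k) _ _)).symm.trans (e.trans (H12.psuCongr 6 2 f))⟩

end Cfsg.Agent.S1577
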