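import Cfsg.Statements.S1578
import Cfsg.Agent.H21.Leech10

set_option autoImplicit false
set_option linter.style.haveILetI false
open Cfsg

namespace Cfsg.Agent.S1578

open Cfsg.Agent.LL Cfsg.Agent.H16

/-- A lattice vector of customary norm 6 is the sum of an unordered pair of minimal vectors in exactly 276 ways (552 ordered summands). -/
theorem result (u : ↥Cfsg.leechLattice) (hu : Cfsg.sqNorm (u : Cfsg.GolayPt → ℤ) = 48) : {v : ↥Cfsg.leechLattice | Cfsg.sqNorm (v : Cfsg.GolayPt → ℤ) = 32 ∧ Cfsg.sqNorm ((u - v) : Cfsg.GolayPt → ℤ) = 32}.ncard = 552 := by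
  obtain ⟨g, rfl⟩ := trans_of_to (x := -Vv) (to_V (by rw [AddSubgroup.coe_neg, sqNorm_neg, norm_V])) (to_V hu)
  refine (ncard_transfer g fun x => ?_).trans ncard552
  rw [sqNorm_sub, sqNorm_co, sqNorm_co, dot_co, AddSubgroup.coe_neg, sqNorm_neg, norm_V, dot_neg_left]
  exact and_congr_right fun h => by omega

end Cfsg.Agent.S1578
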