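import Cfsg.Statements.S1580
import Cfsg.Agent.H21.McL
import Cfsg.Agent.H21.Leech13

set_option autoImplicit false
set_option linter.style.haveILetI false
open Cfsg

namespace Cfsg.Agent.S1580

open Cfsg.Agent.LL Cfsg.Agent.H16 MulAction

/-- The McLaughlin configuration: for u of customary norm 6 and v minimal with u − v minimal, there are 275 further such summands x of customary inner product 2 with v, permuted transitively by the stabiliser of u and v. -/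
theorem result (u v : ↥Cfsg.leechLattice) (hu : Cfsg.sqNorm (u : Cfsg.GolayPt → ℤ) = 48) (hv : Cfsg.sqNorm (v : Cfsg.GolayPt → ℤ) = 32 ∧ Cfsg.sqNorm ((u - v) : Cfsg.GolayPt → ℤ) = 32) : {x : ↥Cfsg.leechLattice | Cfsg.sqNorm (x : Cfsg.GolayPt → ℤ) = 32 ∧ Cfsg.sqNorm ((u - x) : Cfsg.GolayPt → ℤ) = 32 ∧ Cfsg.dotInt (v : Cfsg.GolayPt → ℤ) (x : Cfsg.GolayPt → ℤ) = 16}.ncard = 275 ∧ ∀ x ∈ {x : ↥Cfsg.leechLattice | Cfsg.sqNorm (x : Cfsg.GolayPt → ℤ) = 32 ∧ Cfsg.sqNorm ((u - x) : Cfsg.GolayPt → ℤ) = 32 ∧ Cfsg.dotInt (v : Cfsg.GolayPt → ℤ) (x : Cfsg.GolayPt → ℤ) = 16}, ∀ x' ∈ {x : ↥Cfsg.leechLattice | Cfsg.sqNorm (x : Cfsg.GolayPt → ℤ) = 32 ∧ Cfsg.sqNorm ((u - x) : Cfsg.GolayPt → ℤ) = 32 ∧ Cfsg.dotInt (v : Cfsg.GolayPt → ℤ) (x : Cfsg.GolayPt → ℤ) = 16}, ∃ g : ↥Cfsg.Co0, g • u = u ∧ g • v = v ∧ g • x = x' := by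
  obtain ⟨g, rfl, rfl⟩ := std_M' hu hv
  refine ⟨(ncard_transfer g (key275 g)).trans countsB.1, fun x hx y hy => ?_⟩
  obtain ⟨x, rfl⟩ := MulAction.surjective g x
  obtain ⟨y, rfl⟩ := MulAction.surjective g y
  obtain ⟨h, hh, e⟩ := tab275.trans genM.1 (by norm_num) (by decide +kernel) ((key275 g x).mp hx) ((key275 g y).mp hy)
  rw [KM_eq'] at hh
  exact ⟨_, cj g hh.1, cj g hh.2, cj g e⟩

end Cfsg.Agent.S1580
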