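import Cfsg.Statements.S1581
import Cfsg.Agent.H21.McL
import Cfsg.Agent.H21.Leech13

set_option autoImplicit false
set_option linter.style.haveILetI false
open Cfsg

namespace Cfsg.Agent.S1581

open Cfsg.Agent.LL Cfsg.Agent.H16 MulAction

def a0 : ℕ := nat_lit 0xa42108421084210842108421085210

theorem coe0 : (ptM 0 : V) = vec a0 := tab275.ptIs (by norm_num) (by decide +kernel)

/-- The McLaughlin group acts with rank 3 and subdegrees 1, 112, 162 on its 275 points: the point stabiliser has two orbits on the remaining points, distinguished by customary inner product 1 or 2 with the fixed point. -/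
theorem result (u v x : ↥Cfsg.leechLattice) (hu : Cfsg.sqNorm (u : Cfsg.GolayPt → ℤ) = 48) (hv : Cfsg.sqNorm (v : Cfsg.GolayPt → ℤ) = 32 ∧ Cfsg.sqNorm ((u - v) : Cfsg.GolayPt → ℤ) = 32) (hx : x ∈ {x : ↥Cfsg.leechLattice | Cfsg.sqNorm (x : Cfsg.GolayPt → ℤ) = 32 ∧ Cfsg.sqNorm ((u - x) : Cfsg.GolayPt → ℤ) = 32 ∧ Cfsg.dotInt (v : Cfsg.GolayPt → ℤ) (x : Cfsg.GolayPt → ℤ) = 16}) : {y : ↥Cfsg.leechLattice | y ∈ {x : ↥Cfsg.leechLattice | Cfsg.sqNorm (x : Cfsg.GolayPt → ℤ) = 32 ∧ Cfsg.sqNorm ((u - x) : Cfsg.GolayPt → ℤ) = 32 ∧ Cfsg.dotInt (v : Cfsg.GolayPt → ℤ) (x : Cfsg.GolayPt → ℤ) = 16} ∧ Cfsg.dotInt (x : Cfsg.GolayPt → ℤ) (y : Cfsg.GolayPt → ℤ) = 8}.ncard = 112 ∧ {y : ↥Cfsg.leechLattice | y ∈ {x : ↥Cfsg.leechLattice | Cfsg.sqNorm (x : Cfsg.GolayPt → ℤ) = 32 ∧ Cfsg.sqNorm ((u - x) : Cfsg.GolayPt → ℤ) = 32 ∧ Cfsg.dotInt (v : Cfsg.GolayPt → ℤ) (x : Cfsg.GolayPt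 → ℤ) = 16} ∧ y ≠ x ∧ Cfsg.dotInt (x : Cfsg.GolayPt → ℤ) (y : Cfsg.GolayPt → ℤ) = 16}.ncard = 162 ∧ ∀ y ∈ {x : ↥Cfsg.leechLattice | Cfsg.sqNorm (x : Cfsg.GolayPt → ℤ) = 32 ∧ Cfsg.sqNorm ((u - x) : Cfsg.GolayPt → ℤ) = 32 ∧ Cfsg.dotInt (v : Cfsg.GolayPt → ℤ) (x : Cfsg.GolayPt → ℤ) = 16}, ∀ y' ∈ {x : ↥Cfsg.leechLattice | Cfsg.sqNorm (x : Cfsg.GolayPt → ℤ) = 32 ∧ Cfsg.sqNorm ((u - x) : Cfsg.GolayPt → ℤ) = 32 ∧ Cfsg.dotInt (v : Cfsg.GolayPt → ℤ) (x : Cfsg.GolayPt → ℤ) = 16}, y ≠ x → y' ≠ x → Cfsg.dotInt (x : Cfsg.GolayPt → ℤ) (y : Cfsg.GolayPt → ℤ) = Cfsg.dotInt (x : Cfsg.GolayPt → ℤ) (y' : Cfsg.GolayPt → ℤ) → ∃ g : ↥Cfsg.Co0, g • u = u ∧ g • v = v ∧ g • x = x ∧ g • y = y' := by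
  obtain ⟨g, rfl, rfl⟩ := std_M' hu hv
  obtain ⟨x, rfl⟩ := MulAction.surjective g x
  have h0 := tab275.pt_mem (i := 0) (by norm_num)
  obtain ⟨k, hk, rfl⟩ := tab275.trans genM.1 (by norm_num) (by decide +kernel) h0 ((key275 g x).mp hx)
  rw [KM_eq'] at hk
  rw [← show k • -Vv = -Vv from hk.1, ← show k • U = U from hk.2]
  simp only [← mul_smul]
  generalize g * k = g
  refine ⟨(ncard_transfer g (P := fun y => y ∈ XB Vv (-24) U 16 ∧ dotInt (vec a0) y = 8) fun y => ?_).trans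
    ((tab275.ncard_dot a0 16392 fun y => and_congr_right fun _ => by omega).trans (by decide +kernel)),
    (ncard_transfer g (P := fun y => y ∈ XB Vv (-24) U 16 ∧ dotInt (vec a0) y = 16) fun y => ?_).trans
    ((tab275.ncard_dot a0 16400 fun y => and_congr_right fun _ => by omega).trans (by decide +kernel)),
    fun y hy y' hy' _ _ e => ?_⟩
  · rw [Set.mem_ofPred_eq, key275, dot_co, coe0]
  · rw [Set.mem_ofPred_eq, key275, dot_co, coe0]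
    refine and_congr_right fun _ => and_iff_right_of_imp fun h e => ?_
    rw [MulAction.injective g e, ← coe0, ← sqNorm_eq_dot, h0.1] at h
    omega
  · obtain ⟨y, rfl⟩ := MulAction.surjective g y
    obtain ⟨y', rfl⟩ := MulAction.surjective g y'
    rw [dot_co, dot_co, coe0] at e
    obtain ⟨h, ⟨hh, h1⟩, e⟩ := tab275.trans_dot (inK_filt sgenM.1 (b := 0) (by norm_num)) (bs := [0, 14, 1])
      (by decide +kernel) ((key275 g y).mp hy) ((key275 g y').mp hy') e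
    rw [KM_eq'] at hh
    exact ⟨_, cj g hh.1, cj g hh.2, cj g h1, cj g e⟩

end Cfsg.Agent.S1581
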