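import Cfsg.Statements.S1582
import Cfsg.Agent.H21.U43

set_option autoImplicit false
set_option linter.style.haveILetI false
open Cfsg

namespace Cfsg.Agent.S1582

open Cfsg.Agent.LL Cfsg.Agent.H16 MulAction

/-- The point stabiliser in the rank-3 action of the McLaughlin group on 275 points is isomorphic to PSU(4, 3). -/
theorem result (u v x : ↥Cfsg.leechLattice) (hu : Cfsg.sqNorm (u : Cfsg.GolayPt → ℤ) = 48) (hv : Cfsg.sqNorm (v : Cfsg.GolayPt → ℤ) = 32 ∧ Cfsg.sqNorm ((u - v) : Cfsg.GolayPt → ℤ) = 32) (hx : x ∈ {x : ↥Cfsg.leechLattice | Cfsg.sqNorm (x : Cfsg.GolayPt → ℤ) = 32 ∧ Cfsg.sqNorm ((u - x) : Cfsg.GolayPt → ℤ) = 32 ∧ Cfsg.dotInt (v : Cfsg.GolayPt → ℤ) (x : Cfsg.GolayPt → ℤ) = 16}) (F : Type) [Field F] [Fintype F] (hF : Fintype.card F = 9) : Nonempty (↥(MulAction.stabilizer ↥Cfsg.Co0 u ⊓ MulAction.stabilizer ↥Cfsg.Co0 v ⊓ MulAction.stabilizer ↥Cfsg.Co0 x) ≃* Cfsg.PSU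 4 F 3) := by
  obtain ⟨g, rfl, rfl⟩ := std_M' hu hv
  obtain ⟨x, rfl⟩ := MulAction.surjective g x
  obtain ⟨k, hk, rfl⟩ := trans275 (tab275.pt_mem (i := 0) (by norm_num)) ((key275 g x).mp hx)
  rw [KM_eq'] at hk
  beta_reduce
  rw [show g • U = (g * k) • U by rw [mul_smul, hk.2], show g • -Vv = (g * k) • -Vv by rw [mul_smul, hk.1],
    ← mul_smul g k (tpt T275 0)]
  obtain ⟨e⟩ := equivU43
  obtain ⟨f⟩ := H12.nonempty_ringEquiv_of_natCard_eq (F := FQ 3 2) (K := F)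
    (by rw [Nat.card_eq_fintype_card, Nat.card_eq_fintype_card, hF, card_FQ]; rfl)
  exact ⟨(conjEquiv _ _ _ (conj3 (g * k) _ _ _)).symm.trans ((MulEquiv.subgroupCongr (by rw [← KM_eq'])).trans
    (e.trans (H12.psuCongr 4 3 f)))⟩

end Cfsg.Agent.S1582
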