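import Cfsg.Statements.S1583
import Cfsg.Agent.H21.Leech10

set_option autoImplicit false
set_option linter.style.haveILetI false
open Cfsg

namespace Cfsg.Agent.S1583

open Cfsg.Agent.LL Cfsg.Agent.H16

/-- The Higman–Sims configuration: for two vectors of customary norm 6 with inner product −4, exactly 100 minimal vectors have customary inner products 3 and −3 with them, and the joint stabiliser permutes these transitively. -/
theorem result (v w : ↥Cfsg.leechLattice) (hv : Cfsg.sqNorm (v : Cfsg.GolayPt → ℤ) = 48) (hw : Cfsg.sqNorm (w : Cfsg.GolayPt → ℤ) = 48) (hvw : Cfsg.dotInt (v : Cfsg.GolayPt → ℤ) (w : Cfsg.GolayPt → ℤ) = -32) : {x : ↥Cfsg.leechLattice | Cfsg.sqNorm (x : Cfsg.GolayPt → ℤ) = 32 ∧ Cfsg.dotInt (v : Cfsg.GolayPt → ℤ) (x : Cfsg.GolayPt → ℤ) = 24 ∧ Cfsg.dotInt (w : Cfsg.GolayPt → ℤ) (x : Cfsg.GolayPt → ℤ) = -24}.ncard = 100 ∧ ∀ x ∈ {x : ↥Cfsg.leechLattice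 | Cfsg.sqNorm (x : Cfsg.GolayPt → ℤ) = 32 ∧ Cfsg.dotInt (v : Cfsg.GolayPt → ℤ) (x : Cfsg.GolayPt → ℤ) = 24 ∧ Cfsg.dotInt (w : Cfsg.GolayPt → ℤ) (x : Cfsg.GolayPt → ℤ) = -24}, ∀ x' ∈ {x : ↥Cfsg.leechLattice | Cfsg.sqNorm (x : Cfsg.GolayPt → ℤ) = 32 ∧ Cfsg.dotInt (v : Cfsg.GolayPt → ℤ) (x : Cfsg.GolayPt → ℤ) = 24 ∧ Cfsg.dotInt (w : Cfsg.GolayPt → ℤ) (x : Cfsg.GolayPt → ℤ) = -24}, ∃ g : ↥Cfsg.Co0, g • v = v ∧ g • w = w ∧ g • x = x' := by
  obtain ⟨g, rfl, rfl⟩ := std_H hv hw hvw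
  have key : ∀ x : L, (sqNorm ((g • x : L) : V) = 32 ∧ dotInt ((g • -Vv : L) : V) (g • x : L) = 24 ∧
      dotInt ((g • (Vv + U') : L) : V) (g • x : L) = -24) ↔ x ∈ XB Vv (-24) U' 0 := fun x => by
    rw [sqNorm_co, dot_co, dot_co, AddSubgroup.coe_neg, dot_neg_left, AddSubgroup.coe_add, dot_add_left]
    exact and_congr_right fun _ => by omega
  refine ⟨(ncard_transfer g key).trans countsB.2.2.1, fun x hx y hy => ?_⟩
  obtain ⟨x, rfl⟩ := MulAction.surjective g x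
  obtain ⟨y, rfl⟩ := MulAction.surjective g y
  obtain ⟨h, ⟨h1, h2⟩, e⟩ := exists_of_orbit KH_facts.2.1 ((key x).mp hx) ((key y).mp hy)
  exact ⟨_, cj g (by rw [smul_neg, show h • Vv = Vv from h1]),
    cj g (by rw [smul_add, show h • Vv = Vv from h1, show h • U' = U' from h2]), cj g e⟩

end Cfsg.Agent.S1583
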