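import Cfsg.Statements.S1584
import Cfsg.Agent.H21.HS
import Cfsg.Agent.H21.Leech13

set_option autoImplicit false
set_option linter.style.haveILetI false
open Cfsg

namespace Cfsg.Agent.S1584

open Cfsg.Agent.LL Cfsg.Agent.H16 MulAction

theorem coe1 : (ptH 1 : V) = vec aU := tab100.ptIs (by norm_num) (by decide +kernel)

theorem vals : ∀ y ∈ XB Vv (-24) U' 0, y = ptH 1 ∨ dotInt (vec aU) y = 8 ∨ dotInt (vec aU) y = 16 :=
  (tab100.isTab 7).forall_mem (fun i => orB (Nat.beq i 1) (orB (Nat.beq (H16.get 96 (dots 100 T100 aU) i) 16392)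
    (Nat.beq (H16.get 96 (dots 100 T100 aU) i) 16400))) (fun i hi h => by
      simp only [orB_iff, Nat.beq_eq] at h
      have := tab100.dots aU hi
      rcases h with rfl | h | h
      · exact Or.inl rfl
      · right; omega
      · right; omega) (by decide +kernel)

/-- The Higman–Sims group acts with rank 3 and subdegrees 1, 22, 77 on its 100 points, the orbits of a point stabiliser being distinguished by customary inner product 1 with the fixed point. -/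
theorem result (v w x : ↥Cfsg.leechLattice) (hv : Cfsg.sqNorm (v : Cfsg.GolayPt → ℤ) = 48) (hw : Cfsg.sqNorm (w : Cfsg.GolayPt → ℤ) = 48) (hvw : Cfsg.dotInt (v : Cfsg.GolayPt → ℤ) (w : Cfsg.GolayPt → ℤ) = -32) (hx : x ∈ {x : ↥Cfsg.leechLattice | Cfsg.sqNorm (x : Cfsg.GolayPt → ℤ) = 32 ∧ Cfsg.dotInt (v : Cfsg.GolayPt → ℤ) (x : Cfsg.GolayPt → ℤ) = 24 ∧ Cfsg.dotInt (w : Cfsg.GolayPt → ℤ) (x : Cfsg.GolayPt → ℤ) = -24}) : {y : ↥Cfsg.leechLattice | y ∈ {x : ↥Cfsg.leechLattice | Cfsg.sqNorm (x : Cfsg.GolayPt → ℤ) = 32 ∧ Cfsg.dotInt (v : Cfsg.GolayPt → ℤ) (x : Cfsg.GolayPt → ℤ) = 24 ∧ Cfsg.dotInt (w : Cfsg.GolayPt → ℤ) (x : Cfsg.GolayPt → ℤ) = -24} ∧ Cfsg.dotInt (x : Cfsg.GolayPt → ℤ) (y : Cfsg.GolayPt → ℤ) = 8}.ncard = 22 ∧ {y : ↥Cfsg.leechLattice | y ∈ {x : ↥Cfsg.leechLattice | Cfsg.sqNorm (x : Cfsg.GolayPt → ℤ) = 32 ∧ Cfsg.dotInt (v : Cfsg.GolayPt → ℤ) (x : Cfsg.GolayPt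 → ℤ) = 24 ∧ Cfsg.dotInt (w : Cfsg.GolayPt → ℤ) (x : Cfsg.GolayPt → ℤ) = -24} ∧ y ≠ x ∧ Cfsg.dotInt (x : Cfsg.GolayPt → ℤ) (y : Cfsg.GolayPt → ℤ) ≠ 8}.ncard = 77 ∧ ∀ y ∈ {x : ↥Cfsg.leechLattice | Cfsg.sqNorm (x : Cfsg.GolayPt → ℤ) = 32 ∧ Cfsg.dotInt (v : Cfsg.GolayPt → ℤ) (x : Cfsg.GolayPt → ℤ) = 24 ∧ Cfsg.dotInt (w : Cfsg.GolayPt → ℤ) (x : Cfsg.GolayPt → ℤ) = -24}, ∀ y' ∈ {x : ↥Cfsg.leechLattice | Cfsg.sqNorm (x : Cfsg.GolayPt → ℤ) = 32 ∧ Cfsg.dotInt (v : Cfsg.GolayPt → ℤ) (x : Cfsg.GolayPt → ℤ) = 24 ∧ Cfsg.dotInt (w : Cfsg.GolayPt → ℤ) (x : Cfsg.GolayPt → ℤ) = -24}, y ≠ x → y' ≠ x → (Cfsg.dotInt (x : Cfsg.GolayPt → ℤ) (y : Cfsg.GolayPt → ℤ) = 8 ↔ Cfsg.dotInt (x : Cfsg.GolayPt → ℤ) (y' : Cfsg.GolayPt → ℤ) = 8) → ∃ g : ↥Cfsg.Co0, g • v = v ∧ g • w = w ∧ g • x = x ∧ g • y = y' := by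
  obtain ⟨g, rfl, rfl⟩ := std_H hv hw hvw
  obtain ⟨x, rfl⟩ := MulAction.surjective g x
  have h0 := tab100.pt_mem (i := 1) (by norm_num)
  obtain ⟨k, hk, rfl⟩ := exists_of_orbit KH_facts.2.1 h0 ((keyH g 24 (-24) x).mp hx)
  rw [KH_eq] at hk
  rw [← show k • -Vv = -Vv from hk.1, ← show k • (Vv + U') = Vv + U' from hk.2]
  simp only [← mul_smul]
  generalize g * k = g
  have key : ∀ x, _ ↔ x ∈ XB Vv (-24) U' 0 := keyH g 24 (-24)
  refine ⟨(ncard_transfer g (P := fun y => y ∈ XB Vv (-24) U' 0 ∧ dotInt (vec aU) y = 8) fun y => ?_).trans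
    ((tab100.ncard_dot aU 16392 fun y => and_congr_right fun _ => by omega).trans (by decide +kernel)),
    (ncard_transfer g (P := fun y => y ∈ XB Vv (-24) U' 0 ∧ dotInt (vec aU) y = 16) fun y => ?_).trans
    ((tab100.ncard_dot aU 16400 fun y => and_congr_right fun _ => by omega).trans (by decide +kernel)),
    fun y hy y' hy' n n' e => ?_⟩
  · rw [Set.mem_ofPred_eq, key, dot_co, coe1]
  · rw [Set.mem_ofPred_eq, key, dot_co, coe1, (MulAction.injective g).ne_iff]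
    refine and_congr_right fun hy => ⟨fun ⟨a, b⟩ => ((vals y hy).resolve_left a).resolve_left b,
      fun h => ⟨fun e => ?_, by omega⟩⟩
    rw [e, ← coe1, ← sqNorm_eq_dot, h0.1] at h
    omega
  · obtain ⟨y, rfl⟩ := MulAction.surjective g y
    obtain ⟨y', rfl⟩ := MulAction.surjective g y'
    rw [dot_co, dot_co, coe1] at e
    rw [(MulAction.injective g).ne_iff] at n n'
    have a := (vals y ((key y).mp hy)).resolve_left n
    have b := (vals y' ((key y').mp hy')).resolve_left n'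
    obtain ⟨h, ⟨hh, h1⟩, e⟩ := tab100.trans_dot (inK_filt sgenH.1 (b := 1) (by norm_num)) (a := aU) (bs := [1, 33, 0])
      (by decide +kernel) ((key y).mp hy) ((key y').mp hy') (by omega)
    rw [KH_eq] at hh
    exact ⟨_, cj g hh.1, cj g hh.2, cj g h1, cj g e⟩

end Cfsg.Agent.S1584
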