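import Cfsg.Statements.S1587
import Cfsg.Agent.H21.Leech4

set_option autoImplicit false
set_option linter.style.haveILetI false
open Matrix
open Cfsg

namespace Cfsg.Agent.S1587

open Cfsg.Agent.LL Cfsg.Agent.H16

/-- First step of the characterisation of the rank-24 lattice: in an even lattice without roots, norm-8 vectors congruent modulo 2 are equal, opposite or orthogonal. -/
theorem result (B : Matrix (Fin 24) (Fin 24) ℤ) (hsymm : B.IsSymm) (hpos : ∀ x : Fin 24 → ℤ, x ≠ 0 → 0 < x ⬝ᵥ (B *ᵥ x)) (heven : ∀ x : Fin 24 → ℤ, (2 : ℤ) ∣ x ⬝ᵥ (B *ᵥ x)) (h2 : ∀ x : Fin 24 → ℤ, x ⬝ᵥ (B *ᵥ x) ≠ 2) (x y : Fin 24 → ℤ) (hx : x ⬝ᵥ (B *ᵥ x) = 8) (hy : y ⬝ᵥ (B *ᵥ y) = 8) (hc : ∀ i, (2 : ℤ) ∣ (x - y) i) : y = x ∨ y = -x ∨ x ⬝ᵥ (B *ᵥ y) = 0 := by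
  by_cases h1 : x = y
  · exact Or.inl h1.symm
  by_cases h3 : x = -y
  · exact Or.inr (Or.inl (by rw [h3, neg_neg]))
  have := cong_short (s := 1) (gram_symm hsymm) (gram_min hpos heven h2) h1 h3
    (by rw [Matrix.toBilin'_apply', hx]; norm_num) (by rw [Matrix.toBilin'_apply', hy]; norm_num) (two_dvd_iff.mp hc)
  rw [Matrix.toBilin'_apply' _ x y] at this
  exact Or.inr (Or.inr this.2.2)

end Cfsg.Agent.S1587
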