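import Cfsg.Statements.S1589
import Cfsg.Agent.H6.MSubB
-- import your own Cfsg.Agent.* helpers here

set_option autoImplicit false
open scoped Pointwise
open Cfsg

namespace Cfsg.Agent.S1589

open Cfsg.Agent.H6.MSub Cfsg.Agent.H16


/-- Subgroups of the group of the length-24 code of index 759, 276 and 1771 are exactly the octad, duad and sextet stabilisers, and no subgroup has index 253. -/
theorem result : (∀ H : Subgroup ↥Cfsg.M24, H.index = 759 → ∃ o ∈ Cfsg.octads, H = MulAction.stabilizer Cfsg.M24 o) ∧ (∀ H : Subgroup ↥Cfsg.M24, H.index = 276 → ∃ s : Finset Cfsg.GolayPt, s.card = 2 ∧ H = MulAction.stabilizer Cfsg.M24 s) ∧ (∀ H : Subgroup ↥Cfsg.M24, H.index = 1771 → ∃ S ∈ Cfsg.sextets, H = MulAction.stabilizer Cfsg.M24 S) ∧ ∀ H : Subgroup ↥Cfsg.M24, H.index ≠ 253 := by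
  refine ⟨fun H h => ?_, fun H h => ?_, fun H h => ?_, fun H h => ?_⟩
  · have h1 := card_of_index card_M24 h (m := 322560) (by norm_num) (by norm_num)
    obtain ⟨c, hc⟩ := exT (H := H) (by rw [h1]; norm_num)
    exact ⟨_, M24_smul_mem_octads c⁻¹ oct0_mem, eq_stab_of_cj (c759 ((card_cj c H).trans h1) hc)⟩
  · have h1 := card_of_index card_M24 h (m := 887040) (by norm_num) (by norm_num)
    obtain ⟨c, -, hc⟩ := exists_mem_cj (K := ⊤) (H := H) le_top (x := xa) trivial (by norm_num) oa (m := 22256640)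
      card_top_M24 (by norm_num) (by rw [h1]; norm_num)
    exact ⟨_, (Finset.card_smul_finset c⁻¹ _).trans card_pair0, eq_stab_of_cj (c276 ((card_cj c H).trans h1) hc)⟩
  · have h1 := card_of_index card_M24 h (m := 138240) (by norm_num) (by norm_num)
    obtain ⟨c, hc⟩ := exT (H := H) (by rw [h1]; norm_num)
    exact ⟨_, M24_smul_mem_sextets c⁻¹ sxc_mem, eq_stab_of_cj (c1771 ((card_cj c H).trans h1) hc)⟩
  · have h1 := card_of_index card_M24 h (m := 967680) (by norm_num) (by norm_num)
    obtain ⟨c, hc⟩ := exT (H := H) (by rw [h1]; norm_num)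
    exact c253 ((card_cj c H).trans h1) hc

end Cfsg.Agent.S1589
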