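import Cfsg.Statements.S1597
import Cfsg.Agent.H16.M24h

set_option autoImplicit false
open scoped Pointwise
open Cfsg

namespace Cfsg.Agent.S1597

/-- A dodecad has 220 quartets and its stabiliser is transitive on them. -/
theorem result (d : Finset Cfsg.GolayPt) (hd : d ∈ Cfsg.dodecads) : (Cfsg.quartets d).ncard = 220 ∧ ∀ Q ∈ Cfsg.quartets d, ∀ Q' ∈ Cfsg.quartets d, ∃ g : Equiv.Perm Cfsg.GolayPt, g ∈ Cfsg.M24 ∧ g • d = d ∧ g • Q = Q' := by
  refine ⟨?_, fun Q hQ Q' hQ' => ?_⟩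
  · obtain ⟨k, rfl⟩ := H16.M24_dodecad H16.sqD_mem hd
    rw [← H16.smul_quartets, H16.ncard_smul, H16.tabQuart.ncard_eq]
  · obtain ⟨a, h1, rfl⟩ := H16.flag_quartet hd hQ
    obtain ⟨b, h2, rfl⟩ := H16.flag_quartet hd hQ'
    refine ⟨(b * a⁻¹ : M24), Subtype.property _, ?_, ?_⟩
    · change (b * a⁻¹) • d = d
      rw [mul_smul, ← h1, inv_smul_smul, h2, h1]
    · change (b * a⁻¹) • a • H16.fam 4 (H16.qt 0) = _
      rw [mul_smul, inv_smul_smul]

end Cfsg.Agent.S1597
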