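import Cfsg.Statements.S1598
import Cfsg.Agent.H16.M24h

set_option autoImplicit false
open scoped Pointwise
open Cfsg

namespace Cfsg.Agent.S1598
instance fact3 : Fact (Nat.Prime 3) := ⟨by norm_num⟩

theorem quot_of_surj {A A' B : Type*} [Group A] [Group A'] [Group B] (e : A ≃* A') (φ : A →* B)
    (h : Function.Surjective φ) {m : ℕ} (hc : Nat.card A = m * Nat.card B) (hB : 0 < Nat.card B) :
    ∃ (N : Subgroup A') (_ : N.Normal), Nat.card N = m ∧ Nonempty (A' ⧸ N ≃* B) := by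
  have hs : Function.Surjective (φ.comp e.symm.toMonoidHom) := h.comp e.symm.surjective
  have := H16.card_ker_mul _ hs
  rw [← Nat.card_congr e.toEquiv, hc] at this
  exact ⟨_, inferInstance, Nat.eq_of_mul_eq_mul_right hB this, ⟨QuotientGroup.quotientKerEquivOfSurjective _ hs⟩⟩

open H16 Matrix MulAction in
theorem base : ∃ φ : KQ →* GL (Fin 2) (ZMod 3), Function.Surjective φ := by
  have g2 := gen_top (G := GL (Fin 2) (ZMod 3)) (pt := vecPt Nat.cast 3 2) (w := 4) (by norm_num)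
    (inj_vecPt (inj_zmod 3) 2) (H12.card_GL2 (ZMod.card 3))
    [(⟨!![2, 0; 1, 2], !![2, 0; 2, 2], by decide +kernel, by decide +kernel⟩, 6497134416),
     (⟨!![1, 1; 0, 2], !![1, 1; 0, 2], by decide +kernel, by decide +kernel⟩, 18075906576)]
    (by decide +kernel) [[0, 1, 0, 0]] [1, 3] (by decide) (by decide +kernel)
  obtain ⟨φ, h, -⟩ := exists_surj (w := 6) gpt_inj (inj_vecPt (inj_zmod 3) 2) (by decide) (faith_M24 _)
    (faith_GL (surj_zmod 3) 2 ⊤)
    [(484775359343700979357516953627832425, 6497134416), (479825337221488717083107615119099976, 18075906576)] []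
    KQ_facts.2 g2 [[0, 1, 1, 1, 0, 0], [2, 2], [2, 0, 0, 0], [2, 1, 4, 0]] [0, 1, 2, 3] (by decide) (by decide +kernel)
  exact ⟨(Subgroup.topEquiv (G := GL (Fin 2) (ZMod 3))).toMonoidHom.comp φ, Subgroup.topEquiv.surjective.comp h⟩


/-- A quartet stabiliser inside the dodecad stabiliser has order 432, a normal subgroup of order 9 with quotient GL(2, 3), and is transitive on the dodecad. -/
theorem result (d : Finset Cfsg.GolayPt) (hd : d ∈ Cfsg.dodecads) (Q : Finset (Finset Cfsg.GolayPt)) (hQ : Q ∈ Cfsg.quartets d) : Nat.card ↥(MulAction.stabilizer Cfsg.M24 d ⊓ MulAction.stabilizer Cfsg.M24 Q) = 432 ∧ (∃ (N : Subgroup ↥(MulAction.stabilizer Cfsg.M24 d ⊓ MulAction.stabilizer Cfsg.M24 Q)) (_ : N.Normal), Nat.card N = 9 ∧ Nonempty (↥(MulAction.stabilizer Cfsg.M24 d ⊓ MulAction.stabilizer Cfsg.M24 Q) ⧸ N ≃* GL (Fin 2) (ZMod 3))) ∧ ∀ p ∈ d, ∀ q ∈ d, ∃ g ∈ (MulAction.stabilizer Cfsg.M24 d ⊓ MulAction.stabilizer Cfsg.M24 Q),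 ((g : ↥Cfsg.M24) : Equiv.Perm Cfsg.GolayPt) p = q := by
  obtain ⟨k, rfl, rfl⟩ := H16.flag_quartet hd hQ
  have h := H16.conj_mem_inf (H16.conj_mem_stabilizer k (a := H16.toSet H16.sqD))
    (H16.conj_mem_stabilizer k (a := H16.fam 4 (H16.qt 0)))
  have hc := (H16.card_conj h).trans H16.KQ_facts.1
  refine ⟨hc, ?_, fun x hx y hy => ?_⟩
  · obtain ⟨φ, hφ⟩ := base
    exact quot_of_surj (H16.conjEquiv k _ _ h) φ hφ (by rw [H16.KQ_facts.1, H12.card_GL2 (ZMod.card 3)]; rfl) Nat.card_pos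
  obtain ⟨x, rfl⟩ := MulAction.surjective k x
  obtain ⟨y, rfl⟩ := MulAction.surjective k y
  rw [Finset.smul_mem_smul_finset_iff] at hx hy
  obtain ⟨a, ha, rfl⟩ := H16.pt_trans H16.KQ_facts.2.1 (b := 0) (by norm_num) (by decide +kernel) hx
  obtain ⟨b, hb, rfl⟩ := H16.pt_trans H16.KQ_facts.2.1 (b := 0) (by norm_num) (by decide +kernel) hy
  exact ⟨_, (h _).mp (H16.KQ.mul_mem hb (H16.KQ.inv_mem ha)), H16.cj k (by rw [mul_smul, inv_smul_smul])⟩

end Cfsg.Agent.S1598
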