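import Cfsg.Statements.S1599
import Cfsg.Agent.H16.M24h

set_option autoImplicit false
open scoped Pointwise
open Cfsg

namespace Cfsg.Agent.S1599
open H16 MulAction in
theorem base : OrbDec KQ (quartets (toSet sqD)) [12, 27, 72, 108] {fam 4 (qt 0)} := by
  have := tabQuart.orbDec KQ_facts.2 [(1, 12), (5, 27), (4, 72), (7, 108)] (bit 0) (by decide +kernel)
  rwa [ptSet_bit _ (by norm_num)] at this


/-- A quartet stabiliser has five orbits on the quartets of its dodecad, of sizes 1, 12, 27, 72, 108. -/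
theorem result (d : Finset Cfsg.GolayPt) (hd : d ∈ Cfsg.dodecads) (Q : Finset (Finset Cfsg.GolayPt)) (hQ : Q ∈ Cfsg.quartets d) : ∃ X₁ ∈ Cfsg.quartets d, ∃ X₂ ∈ Cfsg.quartets d, ∃ X₃ ∈ Cfsg.quartets d, ∃ X₄ ∈ Cfsg.quartets d, (MulAction.orbit ↥(MulAction.stabilizer Cfsg.M24 d ⊓ MulAction.stabilizer Cfsg.M24 Q) X₁).ncard = 12 ∧ (MulAction.orbit ↥(MulAction.stabilizer Cfsg.M24 d ⊓ MulAction.stabilizer Cfsg.M24 Q) X₂).ncard = 27 ∧ (MulAction.orbit ↥(MulAction.stabilizer Cfsg.M24 d ⊓ MulAction.stabilizer Cfsg.M24 Q) X₃).ncard = 72 ∧ (MulAction.orbit ↥(MulAction.stabilizer Cfsg.M24 d ⊓ MulAction.stabilizer Cfsg.M24 Q) X₄).ncard = 108 ∧ Cfsg.quartets d = {Q} ∪ MulAction.orbit ↥(MulAction.stabilizer Cfsg.M24 d ⊓ MulAction.stabilizer Cfsg.M24 Q) X₁ ∪ MulAction.orbit ↥(MulAction.stabilizer Cfsg.M24 d ⊓ MulAction.stabilizer Cfsg.M24 Q) X₂ ∪ MulAction.orbit ↥(MulAction.stabilizer Cfsg.M24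 d ⊓ MulAction.stabilizer Cfsg.M24 Q) X₃ ∪ MulAction.orbit ↥(MulAction.stabilizer Cfsg.M24 d ⊓ MulAction.stabilizer Cfsg.M24 Q) X₄ := by
  obtain ⟨k, rfl, rfl⟩ := H16.flag_quartet hd hQ
  have := base.conj (H16.conj_mem_inf (H16.conj_mem_stabilizer k (a := _)) (H16.conj_mem_stabilizer k (a := _)))
  rw [H16.smul_quartets, Set.smul_set_singleton] at this
  obtain ⟨x1, h1, e1, x2, h2, e2, x3, h3, e3, x4, h4, e4, e⟩ := this
  exact ⟨x1, h1, x2, h2, x3, h3, x4, h4, e1, e2, e3, e4, e⟩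

end Cfsg.Agent.S1599
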