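import Cfsg.Statements.S1600
import Cfsg.Agent.H16.M24h

set_option autoImplicit false
open scoped Pointwise
open Cfsg

namespace Cfsg.Agent.S1600

/-- The pointwise stabiliser of three points of a dodecad inside the dodecad stabiliser (order 72) is transitive on the complementary dodecad. -/
theorem result (d : Finset Cfsg.GolayPt) (hd : d ∈ Cfsg.dodecads) (p q r : Cfsg.GolayPt) (hp : p ∈ d) (hq : q ∈ d) (hr : r ∈ d) (hpq : p ≠ q) (hpr : p ≠ r) (hqr : q ≠ r) : Nat.card ↥(MulAction.stabilizer Cfsg.M24 d ⊓ MulAction.stabilizer Cfsg.M24 p ⊓ MulAction.stabilizer Cfsg.M24 q ⊓ MulAction.stabilizer Cfsg.M24 r) = 72 ∧ ∀ x ∉ d, ∀ y ∉ d, ∃ g ∈ (MulAction.stabilizer Cfsg.M24 d ⊓ MulAction.stabilizer Cfsg.M24 p ⊓ MulAction.stabilizer Cfsg.M24 q ⊓ MulAction.stabilizer Cfsg.M24 r), ((g : ↥Cfsg.M24) : Equiv.Perm Cfsg.GolayPt) x = y := by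
  obtain ⟨k, rfl, rfl, rfl, rfl⟩ := H16.flag_dod_three hd hp hq hr hpq hpr hqr
  refine ⟨(H16.card_conj (H16.conj_K9 k)).trans H16.K9_facts.1, fun x hx y hy => ?_⟩
  obtain ⟨x, rfl⟩ := MulAction.surjective k x
  obtain ⟨y, rfl⟩ := MulAction.surjective k y
  rw [Finset.smul_mem_smul_finset_iff, ← Finset.mem_compl, ← H16.toSet_compl] at hx hy
  obtain ⟨a, ha, rfl⟩ := H16.pt_trans H16.K9_facts.2.1 (b := 5) (by norm_num) (by decide +kernel) hx
  obtain ⟨b, hb, rfl⟩ := H16.pt_trans H16.K9_facts.2.1 (b := 5) (by norm_num) (by decide +kernel) hy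
  exact ⟨_, (H16.conj_K9 k _).mp (H16.K9.mul_mem hb (H16.K9.inv_mem ha)), H16.cj k (by rw [mul_smul, inv_smul_smul])⟩

end Cfsg.Agent.S1600
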