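import Cfsg.Statements.S1601
import Cfsg.Agent.H16.M24g

set_option autoImplicit false
open scoped Pointwise
open Cfsg

namespace Cfsg.Agent.S1601
instance fact11 : Fact (Nat.Prime 11) := ⟨by norm_num⟩

open H16 Matrix MulAction in
theorem base : Nonempty ((K11 ⊓ stabilizer M24 (gpt 23) : Subgroup M24) ≃* ProjectiveSpecialLinearGroup (Fin 2) (ZMod 11)) := by
  have hc : Nat.card (SpecialLinearGroup (Fin 2) (ZMod 11)) = 1320 := H12.card_SL2 (ZMod.card 11)
  have hz : Nat.card (Subgroup.center (SpecialLinearGroup (Fin 2) (ZMod 11))) = 2 := by
    rw [H12.card_center_SL, Nat.card_eq_fintype_card, ZMod.card]; rfl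
  have g1 := gen_top (G := SpecialLinearGroup (Fin 2) (ZMod 11)) (pt := vecPt Nat.cast 11 2) (w := 7) (by norm_num)
    (inj_vecPt (inj_zmod 11) 2) hc
    [(⟨!![3, 9; 4, 5], by decide +kernel⟩,
      240707794631889811425421135247516368352228916488554288033923657789334082504372152500397102713188789625664147433809667201741605388945175915374395855233588372376748751927208466721145139162942683455597914051950827205971247925673439605937373150193637073065856),
     (⟨!![1, 0; 1, 1], by decide +kernel⟩,
      804734215227213473253369726835640868816050164931004097507101926427153274099813249508570892491457232738033664126452204762963629683259089830321660715357407771807904434789066631019544596630509893267140233739938920017478142326504519583713894931185165381535232)]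
    (by decide +kernel) [[1, 0, 0]] [1, 11] (by decide) (by decide +kernel)
  obtain ⟨hk, g2⟩ := tabPt.stab_gen five_le gpt_inj card_K11 k11G_inK (a := 23) (by norm_num) rfl
    (S := [970377281146944549113037820257317440, 978349093839241987353157737978958112])
    (inK_of_fixAll (A := [sqD, bit 0, bit 23]) (by decide +kernel) fun _ h => ⟨⟨h _ (by simp),
        fix_bit h (by norm_num) (by simp)⟩, fix_bit h (by norm_num) (by simp)⟩)
    [[0, 0, 1, 0], [2, 2, 0, 1, 1, 1, 0], [2, 0, 1, 2, 0]] [1, 2, 3, 4] (by decide) (m := 12) (l := 660) rfl (by decide +kernel)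
  obtain ⟨φ, h, -⟩ := exists_surj (w := 8) (inj_vecPt (inj_zmod 11) 2) gpt_inj (by decide) (faith_SL (surj_zmod 11) 2 ⊤)
    (faith_M24 _)
    [(240707794631889811425421135247516368352228916488554288033923657789334082504372152500397102713188789625664147433809667201741605388945175915374395855233588372376748751927208466721145139162942683455597914051950827205971247925673439605937373150193637073065856,
      970377281146944549113037820257317440),
     (804734215227213473253369726835640868816050164931004097507101926427153274099813249508570892491457232738033664126452204762963629683259089830321660715357407771807904434789066631019544596630509893267140233739938920017478142326504519583713894931185165381535232,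
      978349093839241987353157737978958112)] [] g1 g2 [[1, 0, 0]] [1, 11] (by decide) (by decide +kernel)
  have : IsSimpleGroup (SpecialLinearGroup (Fin 2) (ZMod 11) ⧸ Subgroup.center _) :=
    H12.PSL_fin_simple 2 (by norm_num) (by simp)
  exact quot_center_equiv' (φ.comp (Subgroup.topEquiv (G := SpecialLinearGroup (Fin 2) (ZMod 11))).symm.toMonoidHom)
    (fun y => let ⟨x, hx⟩ := h y; ⟨x, hx⟩)
    (by rw [hc, hz, hk]) (by rw [hz, hk]; norm_num)

/-- In the 3-transitive action of the smallest Mathieu group on the complementary dodecad, a point stabiliser is isomorphic to PSL(2, 11). -/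
theorem result (d : Finset Cfsg.GolayPt) (hd : d ∈ Cfsg.dodecads) (p q : Cfsg.GolayPt) (hp : p ∈ d) (hq : q ∉ d) : Nonempty (↥(MulAction.stabilizer Cfsg.M24 d ⊓ MulAction.stabilizer Cfsg.M24 p ⊓ MulAction.stabilizer Cfsg.M24 q) ≃* Matrix.ProjectiveSpecialLinearGroup (Fin 2) (ZMod 11)) := by
  obtain ⟨k, rfl, rfl, h⟩ := H16.flag_dod_out (k := 1) (by norm_num) hd hp ![H16.gpt 23] ![q]
    (Function.injective_of_subsingleton _) (Function.injective_of_subsingleton _) (by decide) (by simpa using hq)
  obtain rfl : k • H16.gpt 23 = q := h 0
  obtain ⟨f⟩ := base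
  exact ⟨(H16.conjEquiv k _ _ (H16.conj_mem_inf (H16.conj_mem_inf (H16.conj_mem_stabilizer k (a := _))
    (H16.conj_mem_stabilizer k (a := _))) (H16.conj_mem_stabilizer k (a := _)))).symm.trans f⟩

end Cfsg.Agent.S1601
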