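import Cfsg.Statements.S1602
import Cfsg.Agent.H16.M24g

set_option autoImplicit false
open scoped Pointwise
open Cfsg

namespace Cfsg.Agent.S1602
open H16 MulAction in
theorem base : Nonempty ((K11 ⊓ stabilizer M24 ({gpt 23, gpt 5} : Finset GolayPt) : Subgroup M24) ≃* Equiv.Perm (Fin 5)) := by
  have e : toSet 8388640 = {gpt 23, gpt 5} := by decide +kernel
  obtain ⟨hk, g1⟩ := tabP2.stab_gen five_le gpt_inj card_K11 k11G_inK (a := 258) (by norm_num)
    (x := {gpt 23, gpt 5}) (by decide +kernel)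
    (S := [220981463544619061413411678827645440, 983427744463106577443698771870949664])
    (inK_of_fixAll (A := [sqD, bit 0, 8388640]) (by decide +kernel) fun _ h => ⟨⟨h _ (by simp),
        fix_bit h (by norm_num) (by simp)⟩, e ▸ h _ (by simp)⟩)
    [[0, 1, 1], [2, 0, 0, 1]] [1, 2, 4] (by decide) (m := 66) (l := 120) rfl (by decide +kernel)
  obtain ⟨f⟩ := exists_equiv (w := 5) gpt_inj (inj_finPt 5) (by decide) (faith_M24 _) (faith_finPt 5 ⊤)
    [(220981463544619061413411678827645440, 2201), (983427744463106577443698771870949664, 1802)] g1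
    (gen_perm (w := 3) (by norm_num) [[0, 1, 0, 1], [2, 0, 2, 1, 0], [3, 2, 0, 1, 1]] [0, 1, 2, 3] (by decide) (by decide +kernel))
    (by rw [hk, Subgroup.card_top, Nat.card_perm]; simp [Nat.factorial]) [[0, 1, 1], [2, 0, 0, 1]] [1, 2, 4] (by decide)
    (by decide +kernel)
  exact ⟨f.trans Subgroup.topEquiv⟩

/-- In the 12-point action of the smallest Mathieu group the setwise stabiliser of a pair is isomorphic to the symmetric group of degree 5. -/
theorem result (d : Finset Cfsg.GolayPt) (hd : d ∈ Cfsg.dodecads) (p q q' : Cfsg.GolayPt) (hp : p ∈ d) (hq : q ∉ d) (hq' : q' ∉ d) (hqq' : q ≠ q') : Nonempty (↥(MulAction.stabilizer Cfsg.M24 d ⊓ MulAction.stabilizer Cfsg.M24 p ⊓ MulAction.stabilizer Cfsg.M24 ({q, q'} : Finset Cfsg.GolayPt)) ≃* Equiv.Perm (Fin 5)) := by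
  obtain ⟨k, rfl, rfl, h⟩ := H16.flag_dod_out (k := 2) (by norm_num) hd hp ![H16.gpt 23, H16.gpt 5] ![q, q'] (by decide)
    (by intro i j; fin_cases i <;> fin_cases j <;> simp [hqq', hqq'.symm]) (by decide)
    (by intro i; fin_cases i <;> assumption)
  obtain rfl : k • H16.gpt 23 = q := h 0
  obtain rfl : k • H16.gpt 5 = q' := h 1
  rw [← Finset.smul_finset_singleton, ← Finset.smul_finset_insert]
  obtain ⟨f⟩ := base
  exact ⟨(H16.conjEquiv k _ _ (H16.conj_mem_inf (H16.conj_mem_inf (H16.conj_mem_stabilizer k (a := _))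
    (H16.conj_mem_stabilizer k (a := _))) (H16.conj_mem_stabilizer k (a := _)))).symm.trans f⟩

end Cfsg.Agent.S1602
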