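import Cfsg.Statements.S1604
import Cfsg.Agent.H16.M24f

set_option autoImplicit false
open scoped Pointwise
open Cfsg

namespace Cfsg.Agent.S1604
open H16 in
theorem base (c : ℕ) : {x | x ∈ octads ∧ gpt 23 ∈ x ∧ gpt 0 ∈ x ∧ (toSet oct0 ∩ x).card = c}.ncard =
    codeCnt fun m => andB (Nat.beq (pc24 m) 8) (andB (tb m 23) (andB (tb m 0) (Nat.beq (pc24 (Nat.land oct0 m)) c))) :=
  ncard_octads_filter _ fun m _ => by
    rw [card_inter_toSet, andB_iff, andB_iff, Nat.beq_eq, mem_tb (by norm_num), mem_tb (by norm_num)]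

/-- A hexad stabiliser in the two-point stabiliser has orbits of sizes 1, 16, 60 on the 77 hexads: the 16 hexads disjoint from it and the 60 meeting it in two points. -/
theorem result (p q : Cfsg.GolayPt) (hpq : p ≠ q) (o o' o'' : Finset Cfsg.GolayPt) (ho : o ∈ Cfsg.octads) (ho' : o' ∈ Cfsg.octads) (ho'' : o'' ∈ Cfsg.octads) (hp : p ∈ o ∧ p ∈ o' ∧ p ∈ o'') (hq : q ∈ o ∧ q ∈ o' ∧ q ∈ o'') (h : (o ∩ o').card = (o ∩ o'').card) : {x : Finset Cfsg.GolayPt | x ∈ Cfsg.octads ∧ p ∈ x ∧ q ∈ x ∧ (o ∩ x).card = 2}.ncard = 16 ∧ {x : Finset Cfsg.GolayPt | x ∈ Cfsg.octads ∧ p ∈ x ∧ q ∈ x ∧ (o ∩ x).card = 4}.ncard = 60 ∧ ∃ g : Equiv.Perm Cfsg.GolayPt, g ∈ Cfsg.M24 ∧ g p = p ∧ g q = q ∧ g • o = o ∧ g • o' = o'' := by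
  obtain ⟨k, rfl, rfl, rfl⟩ := H16.flag_oct_in2 ho hpq hp.1 hq.1
  refine ⟨?_, ?_, ?_⟩
  iterate 2
    exact (H16.ncard_transfer k fun x => by
      simp only [H16.smul_mem_octads, H16.card_smul_inter, Finset.smul_mem_smul_finset_iff] <;> rfl).trans
        ((base _).trans (by decide +kernel))
  obtain ⟨o', rfl⟩ := MulAction.surjective k o'
  obtain ⟨o'', rfl⟩ := MulAction.surjective k o''
  simp only [H16.smul_mem_octads, H16.card_smul_inter, Finset.smul_mem_smul_finset_iff] at ho' ho'' h hp hq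
  obtain ⟨g, h1, h2⟩ := H16.wt_trans (K := H16.KO ⊓ H16.K22)
    (S := [982122783013463138050968129513830432, 968862203417870814764681275062651968])
    (H16.inK_of_fixAll (A := [H16.oct0, H16.bit 23, H16.bit 0]) (by decide +kernel) fun _ h =>
      ⟨h _ (by simp), H16.fix_bit h (by norm_num) (by simp), H16.fix_bit h (by norm_num) (by simp)⟩)
    (Q := fun x => H16.gpt 23 ∈ x ∧ H16.gpt 0 ∈ x) (fun m => H16.andB (H16.tb m 23) (H16.tb m 0))
    (fun m _ h => by rwa [H16.andB_iff, ← H16.mem_tb (by norm_num), ← H16.mem_tb (by norm_num)]) H16.oct0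
    [47, 81, 1] (by decide +kernel) ho' ⟨hp.2.1, hq.2.1⟩ ho'' ⟨hp.2.2, hq.2.2⟩ h
  exact ⟨(k * g * k⁻¹ : M24), Subtype.property _, H16.cj k h1.2.1, H16.cj k h1.2.2, H16.cj k h1.1, H16.cj k h2⟩

end Cfsg.Agent.S1604
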