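import Cfsg.Statements.S1605
import Cfsg.Agent.H16.M24f

set_option autoImplicit false
open scoped Pointwise
open Cfsg

namespace Cfsg.Agent.S1605
open H16 in
theorem base0 : {x | x ∈ octads ∧ gpt 23 ∈ x ∧ gpt 0 ∉ x}.ncard =
    codeCnt fun m => andB (Nat.beq (pc24 m) 8) (andB (tb m 23) (notB (tb m 0))) :=
  ncard_octads_filter _ fun m _ => by
    rw [andB_iff, notB_iff, mem_tb (by norm_num), mem_tb (by norm_num)]

open H16 in
theorem base (c : ℕ) : {x | (x ∈ octads ∧ gpt 23 ∈ x ∧ gpt 0 ∉ x) ∧ (toSet 13938692 ∩ x).card = c}.ncard =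
    codeCnt fun m => andB (Nat.beq (pc24 m) 8) (andB (andB (tb m 23) (notB (tb m 0)))
      (Nat.beq (pc24 (Nat.land 13938692 m)) c)) := by
  rw [← ncard_octads_filter (Q := fun x => (gpt 23 ∈ x ∧ gpt 0 ∉ x) ∧ (toSet 13938692 ∩ x).card = c) _ fun m _ => by
    rw [card_inter_toSet, andB_iff, andB_iff, Nat.beq_eq, notB_iff, mem_tb (by norm_num), mem_tb (by norm_num)]]
  simp only [and_assoc]

open H16 in
theorem tr1 {o o' : Finset GolayPt} (h : o ∈ octads ∧ gpt 23 ∈ o ∧ gpt 0 ∉ o) (h' : o' ∈ octads ∧ gpt 23 ∈ o' ∧ gpt 0 ∉ o') :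
    ∃ g ∈ K22, g • o = o' :=
  wt_trans k22G_inK (Q := fun x => gpt 23 ∈ x ∧ gpt 0 ∉ x) (fun m => andB (tb m 23) (notB (tb m 0)))
    (fun m _ h => by rwa [andB_iff, notB_iff, ← mem_tb (by norm_num), ← mem_tb (by norm_num)]) 0
    [4] (by decide +kernel) h.1 h.2 h'.1 h'.2 (by simp [toSet_zero])

open H16 in
theorem tr2 {o o' : Finset GolayPt} (h : o ∈ octads ∧ gpt 23 ∈ o ∧ gpt 0 ∉ o) (h' : o' ∈ octads ∧ gpt 23 ∈ o' ∧ gpt 0 ∉ o')
    (e : (toSet 13938692 ∩ o).card = (toSet 13938692 ∩ o').card) :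
    ∃ g ∈ MulAction.stabilizer M24 (toSet 13938692) ⊓ K22, g • o = o' :=
  wt_trans (K := MulAction.stabilizer M24 (toSet 13938692) ⊓ K22) (S := [975282662424557806112829612584251840, 984524881918915051890478724060593664])
    (inK_of_fixAll (A := [13938692, bit 23, bit 0]) (by decide +kernel) fun _ h =>
      ⟨h _ (by simp), fix_bit h (by norm_num) (by simp), fix_bit h (by norm_num) (by simp)⟩)
    (Q := fun x => gpt 23 ∈ x ∧ gpt 0 ∉ x) (fun m => andB (tb m 23) (notB (tb m 0)))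
    (fun m _ h => by rwa [andB_iff, notB_iff, ← mem_tb (by norm_num), ← mem_tb (by norm_num)]) 13938692
    [4, 74, 6] (by decide +kernel) h.1 h.2 h'.1 h'.2 e

open H16 in
theorem flag {p q : GolayPt} (hpq : p ≠ q) {o : Finset GolayPt} (h : o ∈ octads ∧ p ∈ o ∧ q ∉ o) :
    ∃ k : M24, k • gpt 23 = p ∧ k • gpt 0 = q ∧ k • toSet 13938692 = o := by
  obtain ⟨k, rfl, rfl⟩ := M24_two (p := gpt 23) (q := gpt 0) (by decide) hpq
  obtain ⟨o, rfl⟩ := MulAction.surjective k o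
  simp only [smul_mem_octads, Finset.smul_mem_smul_finset_iff] at h
  obtain ⟨g, h1, rfl⟩ := tr1 (o := toSet 13938692) ⟨mem_octads_of (by decide +kernel), by decide, by decide⟩ h
  exact ⟨k * g, by rw [mul_smul, h1.1], by rw [mul_smul, h1.2], mul_smul _ _ _⟩

/-- The two-point stabiliser acts on the 176 octads through the first point avoiding the second with rank 3 and subdegrees 1, 70, 105 (intersections 8, 2, 4). -/
theorem result (p q : Cfsg.GolayPt) (hpq : p ≠ q) : {x : Finset Cfsg.GolayPt | (x ∈ Cfsg.octads ∧ p ∈ x ∧ q ∉ x)}.ncard = 176 ∧ (∀ o o' : Finset Cfsg.GolayPt, (o ∈ Cfsg.octads ∧ p ∈ o ∧ q ∉ o) → (o' ∈ Cfsg.octads ∧ p ∈ o' ∧ q ∉ o') → ∃ g : Equiv.Perm Cfsg.GolayPt, g ∈ Cfsg.M24 ∧ g p = p ∧ g q = q ∧ g • o = o') ∧ ∀ o : Finset Cfsg.GolayPt, (o ∈ Cfsg.octads ∧ p ∈ o ∧ q ∉ o) → {x : Finset Cfsg.GolayPt | (x ∈ Cfsg.octads ∧ p ∈ x ∧ q ∉ x) ∧ (o ∩ x).card = 2}.ncard = 70 ∧ {x : Finset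 Cfsg.GolayPt | (x ∈ Cfsg.octads ∧ p ∈ x ∧ q ∉ x) ∧ (o ∩ x).card = 4}.ncard = 105 ∧ ∀ o' o'' : Finset Cfsg.GolayPt, (o' ∈ Cfsg.octads ∧ p ∈ o' ∧ q ∉ o') → (o'' ∈ Cfsg.octads ∧ p ∈ o'' ∧ q ∉ o'') → (o ∩ o').card = (o ∩ o'').card → ∃ g : Equiv.Perm Cfsg.GolayPt, g ∈ Cfsg.M24 ∧ g p = p ∧ g q = q ∧ g • o = o ∧ g • o' = o'' := by
  refine ⟨?_, fun o o' h h' => ?_, fun o h => ?_⟩
  · obtain ⟨k, rfl, rfl⟩ := H16.M24_two (p := H16.gpt 23) (q := H16.gpt 0) (by decide) hpq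
    exact (H16.ncard_transfer k fun x => by
      simp only [H16.smul_mem_octads, Finset.smul_mem_smul_finset_iff] <;> rfl).trans (base0.trans (by decide +kernel))
  · obtain ⟨k, rfl, rfl⟩ := H16.M24_two (p := H16.gpt 23) (q := H16.gpt 0) (by decide) hpq
    obtain ⟨o, rfl⟩ := MulAction.surjective k o
    obtain ⟨o', rfl⟩ := MulAction.surjective k o'
    simp only [H16.smul_mem_octads, Finset.smul_mem_smul_finset_iff] at h h'
    obtain ⟨g, h1, h2⟩ := tr1 h h'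
    exact ⟨(k * g * k⁻¹ : M24), Subtype.property _, H16.cj k h1.1, H16.cj k h1.2, H16.cj k h2⟩
  obtain ⟨k, rfl, rfl, rfl⟩ := flag hpq h
  refine ⟨?_, ?_, fun o o' h h' e => ?_⟩
  iterate 2
    exact (H16.ncard_transfer k fun x => by
      simp only [H16.smul_mem_octads, H16.card_smul_inter, Finset.smul_mem_smul_finset_iff] <;> rfl).trans
        ((base _).trans (by decide +kernel))
  obtain ⟨o, rfl⟩ := MulAction.surjective k o
  obtain ⟨o', rfl⟩ := MulAction.surjective k o'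
  simp only [H16.smul_mem_octads, H16.card_smul_inter, Finset.smul_mem_smul_finset_iff] at h h' e
  obtain ⟨g, h1, h2⟩ := tr2 h h' e
  exact ⟨(k * g * k⁻¹ : M24), Subtype.property _, H16.cj k h1.2.1, H16.cj k h1.2.2, H16.cj k h1.1, H16.cj k h2⟩

end Cfsg.Agent.S1605
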