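import Cfsg.Statements.S1606
import Cfsg.Agent.H6.MSubB
-- import your own Cfsg.Agent.* helpers here

set_option autoImplicit false
open scoped Pointwise
open Cfsg

namespace Cfsg.Agent.S1606

open Cfsg.Agent.H6.MSub Cfsg.Agent.H16


/-- The stabiliser of two points in the group of the length-24 code has no subgroups of index 56 or 210. -/
theorem result (p q : Cfsg.GolayPt) (hpq : p ≠ q) (H : Subgroup ↥(MulAction.stabilizer Cfsg.M24 p ⊓ MulAction.stabilizer Cfsg.M24 q)) : H.index ≠ 56 ∧ H.index ≠ 210 := by
  obtain ⟨φ⟩ := equiv_K22 hpq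
  have hc : Nat.card ((H.map φ.symm.toMonoidHom).map K22.subtype) = Nat.card H := by
    rw [Subgroup.card_map_of_injective K22.subtype_injective, Subgroup.card_map_of_injective φ.symm.injective]
  have hG := (Nat.card_congr φ.toEquiv).symm.trans card_K22
  have := no22 (Subgroup.map_subtype_le (H.map φ.symm.toMonoidHom))
  rw [hc] at this
  exact ⟨fun h => this.1 (card_of_index hG h (by norm_num) (by norm_num)),
    fun h => this.2.1 (card_of_index hG h (by norm_num) (by norm_num))⟩

end Cfsg.Agent.S1606
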