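import Cfsg.Statements.S1607
import Cfsg.Agent.H16.M24f

set_option autoImplicit false
open scoped Pointwise
open Cfsg

namespace Cfsg.Agent.S1607
open H16 in
theorem base (c : ℕ) : {x | x ∈ octads ∧ gpt 23 ∈ x ∧ (toSet oct0 ∩ x).card = c}.ncard =
    codeCnt fun m => andB (Nat.beq (pc24 m) 8) (andB (tb m 23) (Nat.beq (pc24 (Nat.land oct0 m)) c)) :=
  ncard_octads_filter _ fun m _ => by
    rw [card_inter_toSet, andB_iff, Nat.beq_eq, mem_tb (by norm_num)]

/-- The point stabiliser acts on the 253 heptads of its S(4, 7, 23) with rank 3 and subdegrees 1, 112, 140 (intersections 8, 2, 4). -/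
theorem result (x : Cfsg.GolayPt) (o : Finset Cfsg.GolayPt) (ho : o ∈ Cfsg.octads) (hx : x ∈ o) : {o' : Finset Cfsg.GolayPt | o' ∈ Cfsg.octads ∧ x ∈ o' ∧ (o ∩ o').card = 2}.ncard = 112 ∧ {o' : Finset Cfsg.GolayPt | o' ∈ Cfsg.octads ∧ x ∈ o' ∧ (o ∩ o').card = 4}.ncard = 140 ∧ ∀ o' o'' : Finset Cfsg.GolayPt, o' ∈ Cfsg.octads → o'' ∈ Cfsg.octads → x ∈ o' → x ∈ o'' → (o ∩ o').card = (o ∩ o'').card → ∃ g : Equiv.Perm Cfsg.GolayPt, g ∈ Cfsg.M24 ∧ g x = x ∧ g • o = o ∧ g • o' = o'' := by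
  obtain ⟨k, rfl, rfl⟩ := H16.flag_oct_in ho hx
  refine ⟨?_, ?_, fun o' o'' ho' ho'' hp hq h => ?_⟩
  iterate 2
    exact (H16.ncard_transfer k fun x => by
      simp only [H16.smul_mem_octads, H16.card_smul_inter, Finset.smul_mem_smul_finset_iff] <;> rfl).trans
        ((base _).trans (by decide +kernel))
  obtain ⟨o', rfl⟩ := MulAction.surjective k o'
  obtain ⟨o'', rfl⟩ := MulAction.surjective k o''
  simp only [H16.smul_mem_octads, H16.card_smul_inter, Finset.smul_mem_smul_finset_iff] at ho' ho'' h hp hq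
  obtain ⟨g, h1, h2⟩ := H16.wt_trans (K := H16.KO ⊓ H16.K23)
    (S := [967734068452134363286385334368242211, 984797567880658873511893612097536465])
    (H16.inK_of_fixAll (A := [H16.oct0, H16.bit 23]) (by decide +kernel) fun _ h =>
      ⟨h _ (by simp), H16.fix_bit h (by norm_num) (by simp)⟩)
    (Q := fun x => H16.gpt 23 ∈ x) (fun m => H16.tb m 23)
    (fun m _ h => by rwa [← H16.mem_tb (by norm_num)]) H16.oct0
    [47, 4, 1] (by decide +kernel) ho' hp ho'' hq h
  exact ⟨(k * g * k⁻¹ : M24), Subtype.property _, H16.cj k h1.2, H16.cj k h1.1, H16.cj k h2⟩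

end Cfsg.Agent.S1607
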