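import Cfsg.Statements.S1608
import Cfsg.Agent.H16.M24f

set_option autoImplicit false
open scoped Pointwise
open Cfsg

namespace Cfsg.Agent.S1608
open H16 in
theorem base (c : ℕ) : {x | x ∈ octads ∧ gpt 4 ∉ x ∧ (toSet oct0 ∩ x).card = c}.ncard =
    codeCnt fun m => andB (Nat.beq (pc24 m) 8) (andB (notB (tb m 4)) (Nat.beq (pc24 (Nat.land oct0 m)) c)) :=
  ncard_octads_filter _ fun m _ => by
    rw [card_inter_toSet, andB_iff, Nat.beq_eq, notB_iff, mem_tb (by norm_num)]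

/-- The point stabiliser acts on the 506 octads avoiding the point with rank 4 and subdegrees 1, 15, 210, 280, the suborbits being given by intersection size with the fixed octad. -/
theorem result (x : Cfsg.GolayPt) (o : Finset Cfsg.GolayPt) (ho : o ∈ Cfsg.octads) (hx : x ∉ o) : {o' : Finset Cfsg.GolayPt | o' ∈ Cfsg.octads ∧ x ∉ o' ∧ (o ∩ o').card = 0}.ncard = 15 ∧ {o' : Finset Cfsg.GolayPt | o' ∈ Cfsg.octads ∧ x ∉ o' ∧ (o ∩ o').card = 4}.ncard = 210 ∧ {o' : Finset Cfsg.GolayPt | o' ∈ Cfsg.octads ∧ x ∉ o' ∧ (o ∩ o').card = 2}.ncard = 280 ∧ ∀ o' o'' : Finset Cfsg.GolayPt, o' ∈ Cfsg.octads → o'' ∈ Cfsg.octads → x ∉ o' → x ∉ o'' → (o ∩ o').card = (o ∩ o'').card → ∃ g : Equiv.Perm Cfsg.GolayPt, g ∈ Cfsg.M24 ∧ g x = x ∧ g • o = o ∧ g • o' = o'' := by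
  obtain ⟨k, rfl, rfl⟩ := H16.flag_oct_out ho hx
  refine ⟨?_, ?_, ?_, fun o' o'' ho' ho'' hp hq h => ?_⟩
  iterate 3
    exact (H16.ncard_transfer k fun x => by
      simp only [H16.smul_mem_octads, H16.card_smul_inter, Finset.smul_mem_smul_finset_iff] <;> rfl).trans
        ((base _).trans (by decide +kernel))
  obtain ⟨o', rfl⟩ := MulAction.surjective k o'
  obtain ⟨o'', rfl⟩ := MulAction.surjective k o''
  simp only [H16.smul_mem_octads, H16.card_smul_inter, Finset.smul_mem_smul_finset_iff] at ho' ho'' h hp hq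
  obtain ⟨g, h1, h2⟩ := H16.wt_trans (K := H16.KO ⊓ MulAction.stabilizer M24 (H16.gpt 4))
    (S := [97708511593301684991130953075145441, 56482176919605565206212533498744273])
    (H16.inK_of_fixAll (A := [H16.oct0, H16.bit 4]) (by decide +kernel) fun _ h =>
      ⟨h _ (by simp), H16.fix_bit h (by norm_num) (by simp)⟩)
    (Q := fun x => H16.gpt 4 ∉ x) (fun m => H16.notB (H16.tb m 4))
    (fun m _ h => by rwa [H16.notB_iff, ← H16.mem_tb (by norm_num)]) H16.oct0
    [47, 256, 1, 2] (by decide +kernel) ho' hp ho'' hq h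
  exact ⟨(k * g * k⁻¹ : M24), Subtype.property _, H16.cj k h1.2, H16.cj k h1.1, H16.cj k h2⟩

end Cfsg.Agent.S1608
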