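import Cfsg.Statements.S1609
import Cfsg.Agent.H6.MSubB
-- import your own Cfsg.Agent.* helpers here

set_option autoImplicit false
open scoped Pointwise
open Cfsg

namespace Cfsg.Agent.S1609

open Cfsg.Agent.H6.MSub Cfsg.Agent.H16


/-- Subgroups of index 253 in the Mathieu group of degree 23 are exactly the duad stabilisers and the heptad stabilisers. -/
theorem result (x : Cfsg.GolayPt) (H : Subgroup ↥(MulAction.stabilizer Cfsg.M24 x)) (hH : H.index = 253) : (∃ s : Finset Cfsg.GolayPt, s.card = 2 ∧ x ∉ s ∧ H = (MulAction.stabilizer Cfsg.M24 s).subgroupOf (MulAction.stabilizer Cfsg.M24 x)) ∨ ∃ o ∈ Cfsg.octads, x ∈ o ∧ H = (MulAction.stabilizer Cfsg.M24 o).subgroupOf (MulAction.stabilizer Cfsg.M24 x) := by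
  obtain ⟨k, hk⟩ := M24_one x (gpt 23)
  obtain ⟨φ⟩ := equiv_K23 x
  have h1 := card_of_index ((Nat.card_congr φ.toEquiv).symm.trans card_K23) hH (m := 40320) (by norm_num) (by norm_num)
  have h2 : cj k (H.map (MulAction.stabilizer M24 x).subtype) ≤ K23 := fun g hg => by
    have := Subgroup.map_subtype_le H (mem_cj.mp hg)
    rw [MulAction.mem_stabilizer_iff, mul_smul, mul_smul, hk, inv_smul_eq_iff, hk] at this
    exact this
  obtain ⟨c, hc, h3⟩ := ex23 h2 (by rw [card_cj, Subgroup.card_map_of_injective (Subgroup.subtype_injective _), h1])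
  have hx : (c * k) • x = gpt 23 := by rw [mul_smul, hk]; exact hc
  have key : ∀ s : Finset GolayPt, cj c (cj k (H.map (MulAction.stabilizer M24 x).subtype)) =
      MulAction.stabilizer M24 s ⊓ K23 →
      H = (MulAction.stabilizer M24 ((c * k)⁻¹ • s)).subgroupOf (MulAction.stabilizer M24 x) := fun s e => by
    ext g
    have a1 : c * k * g * (c * k)⁻¹ ∈ cj c (cj k (H.map (MulAction.stabilizer M24 x).subtype)) ↔ g ∈ H := by
      rw [mem_cj, mem_cj, show k⁻¹ * (c⁻¹ * (c * k * g * (c * k)⁻¹) * c) * k = g by group]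
      exact Subgroup.mem_map_iff_mem (Subgroup.subtype_injective _)
    have a2 : c * k * g * (c * k)⁻¹ ∈ K23 := by
      rw [K23, ← hx, ← conj_mem_stabilizer]; exact g.2
    rw [← a1, e, Subgroup.mem_inf, Subgroup.mem_subgroupOf, conj_mem_stabilizer (c * k) g, smul_inv_smul]
    exact and_iff_left a2
  rcases h3 with e | e
  · refine Or.inr ⟨_, M24_smul_mem_octads _ oct0_mem, ?_, key _ e⟩
    rw [← mem_inv_smul, inv_inv, hx, mem_tb (by norm_num)]; decide +kernel
  · refine Or.inl ⟨_, (Finset.card_smul_finset _ _).trans card_6, ?_, key _ e⟩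
    rw [← mem_inv_smul, inv_inv, hx, mem_tb (by norm_num)]; decide +kernel

end Cfsg.Agent.S1609
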