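import Cfsg.Statements.S1610
import Cfsg.Agent.H14.Hexa

set_option autoImplicit false
open Cfsg

namespace Cfsg.Agent.S1610

/-- The hexacode has 64 words, minimum weight 4, and weight distribution 0^1 4^45 6^18. -/
theorem result (F : Type*) [Field F] [Fintype F] [DecidableEq F] (hF : Fintype.card F = 4) (ω : F) (hω : ω ^ 2 + ω + 1 = 0) : Nat.card ↥(Cfsg.hexacode F ω) = 64 ∧ (∀ x ∈ Cfsg.hexacode F ω, x ≠ 0 → (Finset.univ.filter fun i => x i ≠ 0).card = 4 ∨ (Finset.univ.filter fun i => x i ≠ 0).card = 6) ∧ {x : Fin 6 → F | x ∈ Cfsg.hexacode F ω ∧ (Finset.univ.filter fun i => x i ≠ 0).card = 4}.ncard = 45 ∧ {x : Fin 6 → F | x ∈ Cfsg.hexacode F ω ∧ (Finset.univ.filter fun i => x i ≠ 0).card = 6}.ncard = 18 := by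
  obtain ⟨φ, hφ⟩ := H14.Hexa.exists_equiv hF hω
  have h2 := H14.Hexa.two_eq hF
  refine ⟨?_, ?_, (H14.Hexa.ncard_wt h2 hω φ hφ 4).trans H14.Hexa.card_wt4,
    (H14.Hexa.ncard_wt h2 hω φ hφ 6).trans H14.Hexa.card_wt6⟩
  · have e : (F × F × F) ≃ Cfsg.hexacode F ω :=
      Equiv.ofBijective (fun t => ⟨H14.Hexa.word ω t,
        (H14.Hexa.mem_iff h2 hω _).2 (H14.Hexa.mem_word t)⟩)
        ⟨fun t u h => H14.Hexa.word_inj (congrArg Subtype.val h),
          fun x => ⟨_, Subtype.ext ((H14.Hexa.mem_iff h2 hω _).1 x.2).eq_word.symm⟩⟩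
    rw [← Nat.card_congr e, Nat.card_prod, Nat.card_prod, Nat.card_eq_fintype_card, hF]
  · intro x hx h0
    have e : (fun i => φ (H14.Hexa.word H14.Hexa.w (φ.symm (x 0), φ.symm (x 1), φ.symm (x 2)) i))
        = x := by
      rw [← H14.Hexa.word_comp φ hφ]
      simp only [RingEquiv.apply_symm_apply]
      exact ((H14.Hexa.mem_iff h2 hω _).1 hx).eq_word.symm
    have k := H14.Hexa.wt_word (φ.symm (x 0), φ.symm (x 1), φ.symm (x 2))
    rw [← H14.Hexa.wt_comp φ, e] at k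
    refine k.resolve_left fun h => h0 ?_
    rw [← e, h]
    funext i
    fin_cases i <;> simp [H14.Hexa.word]

end Cfsg.Agent.S1610
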