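import Cfsg.Statements.S1612
import Cfsg.Agent.H29.TT6

set_option autoImplicit false
open Cfsg

namespace Cfsg.Agent.S1612
open Cfsg.Agent.H29


/-- In a 3-transposition group (no solvable normal subgroup, perfect derived group), the normaliser of a commuting set of transpositions of maximum size contains a Sylow 2-subgroup and is doubly transitive on the set. -/
theorem result {G : Type*} [Group G] [Finite G] (hsol : ∀ N : Subgroup G, N.Normal → Group.IsSolvable ↥N → N = ⊥) (hperf : ⁅commutator G, commutator G⁆ = commutator G) {D : Set G} (hD : Cfsg.IsThreeTranspositionClass D) {E : Set G} (hE : E ⊆ D) (hc : ∀ a ∈ E, ∀ b ∈ E, Commute a b) (hmax : ∀ E' : Set G, E' ⊆ D → (∀ a ∈ E', ∀ b ∈ E', Commute a b) → E'.ncard ≤ E.ncard) : (∃ P : Sylow 2 G, (P : Subgroup G) ≤ Subgroup.normalizer E) ∧ ∀ a ∈ E, ∀ b ∈ E, ∀ c ∈ E, ∀ d ∈ E, a ≠ b → c ≠ d → ∃ g ∈ Subgroup.normalizer E, g * a * g⁻¹ = c ∧ g * b * g⁻¹ = d := by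
  have h := pw_of_fischer hsol hperf hD
  have hn : ∀ g : G, (∀ x ∈ E, g * x * g⁻¹ ∈ E) → g ∈ Subgroup.normalizer E := fun g hg n => by
    have : (fun x => g * x * g⁻¹) '' E = E := Set.eq_of_subset_of_ncard_le (by rintro _ ⟨x, hx, rfl⟩; exact hg x hx)
      (ncard_cj g E).ge (Set.toFinite _)
    refine ⟨hg n, fun h' => ?_⟩
    obtain ⟨x, hx, e⟩ := this.ge h'
    exact (cj_inj g).1 e ▸ hx
  constructor
  · obtain ⟨P, hP⟩ := (T3_two_group h.set hE hc).exists_le_sylow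
    have : E = {x | x ∈ D ∧ x ∈ P} := Set.eq_of_subset_of_ncard_le (fun x hx => ⟨hE hx, hP (Subgroup.subset_closure hx)⟩)
      (hmax _ (fun _ h => h.1) fun a ha b hb => T3sylow_comm h.set P.2 ha.1 hb.1 ha.2 hb.2) (Set.toFinite _)
    exact ⟨P, fun g hg => hn g fun x hx => this.ge ⟨h.tr.conj g x (hE hx),
      mul_mem (mul_mem hg (this.le hx).2) (inv_mem hg)⟩⟩
  · intro a ha b hb c hc' d hd hab hcd
    obtain ⟨g, h1, h2⟩ := h.pair_trans (hE ha) ⟨hE hb, hab.symm, hc a ha b hb⟩ (hE hc') ⟨hE hd, hcd.symm, hc c hc' d hd⟩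
    obtain ⟨k, hk, h3⟩ := exists_cj_max h.tr (E := (fun x => g * x * g⁻¹) '' E)
      (by rintro _ ⟨x, hx, rfl⟩; exact h.tr.conj g x (hE hx))
      (by rintro _ ⟨x, hx, rfl⟩ _ ⟨y, hy, rfl⟩; exact (commute_cj g).2 (hc x hx y hy)) hE hc hmax
      (C := Subgroup.centralizer {c, d}) (by
        rintro _ ⟨x, hx, rfl⟩ _ (rfl | rfl)
        · exact h1 ▸ (commute_cj g).2 (hc a ha x hx)
        · exact h2 ▸ (commute_cj g).2 (hc b hb x hx))
      (by rintro x hx _ (rfl | rfl); exacts [hc _ hc' x hx, hc _ hd x hx])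
    refine ⟨k * g, hn _ fun x hx => by rw [← cj_cj]; exact h3 _ ⟨x, hx, rfl⟩, ?_, ?_⟩
    · rw [← cj_cj, h1]; exact cj_of_commute (hk c (.inl rfl)).symm
    · rw [← cj_cj, h2]; exact cj_of_commute (hk d (.inr rfl)).symm

end Cfsg.Agent.S1612
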