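import Cfsg.Statements.S1618
import Cfsg.Agent.H29.TT2
import Cfsg.Agent.H1.Cores

set_option autoImplicit false
open Cfsg

namespace Cfsg.Agent.S1618
open Cfsg.Agent.H29


/-- A group generated by a class of involutions whose pairwise products (of distinct members) have p-power order for a fixed odd prime p has nilpotent derived subgroup. -/
theorem result {G : Type*} [Group G] [Finite G] (p : ℕ) (hp : p.Prime) (hodd : p ≠ 2) {D : Set G} (hinv : ∀ d ∈ D, orderOf d = 2) (hconj : ∃ d ∈ D, D = conjugatesOf d) (hgen : Subgroup.closure D = ⊤) (hprod : ∀ x ∈ D, ∀ y ∈ D, x ≠ y → ∃ k : ℕ, orderOf (x * y) = p ^ k) : Group.IsNilpotent ↥(commutator G) := by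
  haveI := Fact.mk hp
  obtain ⟨d, hd, hD⟩ := hconj
  have hm : ∀ g, g * d * g⁻¹ ∈ D := fun g => hD ▸ isConj_iff.2 ⟨g, rfl⟩
  have k := H29.prod_mem_pCore hp hodd (hinv d hd) fun g => by
    by_cases e : d = g * d * g⁻¹
    · exact ⟨0, by rw [← e, H29.mul_self_of_two (hinv d hd), one_pow]⟩
    · obtain ⟨k, hk⟩ := hprod d hd _ (hm g) e
      exact ⟨k, hk ▸ pow_orderOf_eq_one _⟩
  have k2 : ∀ g : G, (g : G ⧸ pCore p G) ∈ Subgroup.zpowers (d : G ⧸ pCore p G) := fun g => by
    have : Subgroup.closure D ≤ (Subgroup.zpowers (d : G ⧸ pCore p G)).comap (QuotientGroup.mk' _) :=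
      (Subgroup.closure_le _).2 fun x hx => by
        obtain ⟨g, rfl⟩ := isConj_iff.1 (hD ▸ hx : x ∈ conjugatesOf d)
        have : (d : G ⧸ pCore p G) = (g * d * g⁻¹ : G) :=
          QuotientGroup.eq.2 (by rw [H29.inv_of_two (hinv d hd)]; exact k g)
        exact this ▸ Subgroup.mem_zpowers _
    exact this (hgen ▸ Subgroup.mem_top g)
  have hle : commutator G ≤ pCore p G := by
    rw [commutator_def, Subgroup.commutator_le]
    intro a _ b _
    obtain ⟨m, hm⟩ := k2 a
    obtain ⟨n, hn⟩ := k2 b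
    rw [← QuotientGroup.eq_one_iff, ← QuotientGroup.mk'_apply, map_commutatorElement, commutatorElement_eq_one_iff_commute,
      QuotientGroup.mk'_apply, QuotientGroup.mk'_apply, ← hm, ← hn]
    exact (Commute.refl _).zpow_zpow m n
  exact ((H1.isPGroup_pCore p G).to_le hle).isNilpotent

end Cfsg.Agent.S1618
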