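import Cfsg.Statements.S1620
import Cfsg.Agent.H16.J2

set_option autoImplicit false
open Quaternion
open Cfsg

namespace Cfsg.Agent.S1620

/-- The Hall–Janko group is simple and non-abelian. -/
theorem result : IsSimpleGroup Cfsg.Spor.J2 ∧ ∃ a b : Cfsg.Spor.J2, a * b ≠ b * a := by
  obtain ⟨e⟩ := H16.J2.iso
  have := H16.J2.simple
  refine ⟨e.symm.isSimpleGroup, ?_⟩
  by_contra! h
  have h1 : Subgroup.center H16.J2.K = ⊤ := eq_top_iff.mpr fun x _ => Subgroup.mem_center_iff.mpr fun y =>
    e.injective (by rw [map_mul, map_mul, h])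
  exact bot_ne_top (H16.J2.center_bot.symm.trans h1)

end Cfsg.Agent.S1620
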