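import Cfsg.Statements.S1624
import Cfsg.Agent.H16.J2u

set_option autoImplicit false
open Quaternion
open Cfsg

namespace Cfsg.Agent.S1624

/-- The Hall–Janko group contains PSU(3, 3) with index 100 and acts on the 100 cosets with rank 3 and subdegrees 1, 36, 63. -/
theorem result : ∃ H : Subgroup Cfsg.Spor.J2, H.index = 100 ∧ (∃ (F : Type) (_ : Field F) (_ : Fintype F), Fintype.card F = 9 ∧ Nonempty (↥H ≃* Cfsg.PSU 3 F 3)) ∧ ∃ c₁ c₂ : Cfsg.Spor.J2 ⧸ H, (MulAction.orbit ↥H c₁).ncard = 36 ∧ (MulAction.orbit ↥H c₂).ncard = 63 := by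
  obtain ⟨e⟩ := H16.J2.iso
  obtain ⟨f⟩ := H16.J2.psu
  have hle : H16.J2.R ≤ H16.J2.K := H16.Mdl.clo_le H16.J2.hRS.inL
  have g := ((H16.J2.R.subgroupOf H16.J2.K).equivMapOfInjective e.toMonoidHom e.injective).symm.trans
    (Subgroup.subgroupOfEquivOfLe hle)
  have h1 := ((H16.J2.R.subgroupOf H16.J2.K).map e.toMonoidHom).card_mul_index
  rw [Nat.card_congr g.toEquiv, H16.J2.card_R, ← Nat.card_congr e.toEquiv, H16.J2.card] at h1
  obtain ⟨c1, h2⟩ := H16.J2.orb36 e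
  obtain ⟨c2, h3⟩ := H16.J2.orb63 e
  exact ⟨_, by omega, ⟨H16.G9, _, _, H16.card_G9, ⟨g.trans f⟩⟩, c1, c2, h2, h3⟩

end Cfsg.Agent.S1624
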