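import Cfsg.Statements.S1626
import Cfsg.Agent.H16.J3

set_option autoImplicit false
open scoped MatrixGroups
open Matrix
open Cfsg

namespace Cfsg.Agent.S1626

/-- Orbits of the triple cover of the third Janko group on lines of its 9-space over the field with 4 elements: the line through the first basis vector has exactly 23256 images, and the isotropic lines (nonzero v with Σ v_z³ = 0) form a single orbit. -/
theorem result (F : Type) [Field F] [Fintype F] (hF : Fintype.card F = 4) (ω : F) (hω : ω ^ 2 + ω + 1 = 0) : {L : Submodule F (Cfsg.Spor.F9 → F) | ∃ g ∈ Cfsg.Spor.threeJ3 F ω, L = F ∙ ((g : Matrix Cfsg.Spor.F9 Cfsg.Spor.F9 F) *ᵥ (Pi.single (0 : Cfsg.Spor.F9) (1 : F) : Cfsg.Spor.F9 → F))}.ncard = 23256 ∧ ∀ v w : Cfsg.Spor.F9 → F, v ≠ 0 → w ≠ 0 → ∑ z, (v z) ^ 3 = 0 → ∑ z, (w z) ^ 3 = 0 → ∃ g ∈ Cfsg.Spor.threeJ3 F ω, ∃ c : F, c ≠ 0 ∧ (g : Matrix Cfsg.Spor.F9 Cfsg.Spor.F9 F) *ᵥ v = c • w := by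
  have h := H16.J3.q4 hF hω
  refine ⟨?_, fun v w hv hw h1 h2 => ?_⟩
  · have e0 : H16.vec4 ω H16.J3.ix9 9 1 = Pi.single 0 1 := h.vec_two_pow 0
    have h0 : (Pi.single (0 : Spor.F9) (1 : F) : Spor.F9 → F) ≠ 0 := e0 ▸ h.vec_ne one_pos (by norm_num)
    rw [← (H16.J3.chK h).orbit_card (β := Projectivization.mk F _ h0) ⟨⟨one_pos, by decide +kernel⟩, by decide +kernel,
      (H16.lin4_eq h ⟨one_pos, by norm_num⟩).trans (by congr 1)⟩ |>.trans (show _ = 23256 from rfl),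
      ← Set.ncard_image_of_injective _ Projectivization.submodule_injective, ← H16.J3.map_eq h]
    congr 1
    ext L
    constructor
    · rintro ⟨g, hg, rfl⟩
      exact ⟨_, ⟨⟨_, g, hg, rfl⟩, rfl⟩, rfl⟩
    · rintro ⟨_, ⟨⟨_, g, hg, rfl⟩, rfl⟩, rfl⟩
      exact ⟨g, hg, rfl⟩
  · obtain ⟨g, hg, r⟩ := H16.J3.iso_trans h hv h1
    obtain ⟨g', hg', r'⟩ := H16.J3.iso_trans h hw h2
    obtain ⟨γ, hγ, e⟩ := (H16.J3.map_eq h).ge (Subgroup.mul_mem _ (Subgroup.inv_mem _ hg') hg)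
    have : γ • Projectivization.mk F v hv = Projectivization.mk F w hw := by
      have := congrArg (· • Projectivization.mk F v hv) e
      simp only [mul_smul, (H16.J3.M h).P_fun r r', inv_smul_smul] at this
      exact this
    rw [Projectivization.smul_mk, Projectivization.mk_eq_mk_iff] at this
    obtain ⟨c, hc⟩ := this
    exact ⟨γ, hγ, c, c.ne_zero, hc.symm⟩

end Cfsg.Agent.S1626
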