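import Cfsg.Statements.S1629
import Cfsg.Agent.H13.Refl3

set_option autoImplicit false
open scoped MatrixGroups
open Cfsg

namespace Cfsg.Agent.S1629

/-- The orthogonal transvections of the plus-type orthogonal group in dimension 2m ≥ 6 over the field with two elements form a generating conjugacy class of 3-transpositions. -/
theorem result (m : ℕ) (hm : 3 ≤ m) : Cfsg.IsThreeTranspositionClass {g : ↥(Cfsg.isometryGroup (ZMod 2) (Cfsg.quadFormPlus m (ZMod 2))) | (((g : GL (Fin m ⊕ Fin m) (ZMod 2)) : Matrix (Fin m ⊕ Fin m) (Fin m ⊕ Fin m) (ZMod 2)) - 1).rank = 1} := by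
  have : Nontrivial (Fin m ⊕ Fin m → ZMod 2) :=
    Module.nontrivial_of_finrank_pos (R := ZMod 2) (by simp; omega)
  have := H13.isThreeTranspositionClass_of_equiv (H13.toOG (H13.QPlus m (ZMod 2)))
    (H13.nd_QPlus.isThreeTranspositionClass_two (H13.good_of_five (by simp; omega)))
  simp only [Set.preimage_ofPred_eq, H13.rk_toOG] at this
  exact this

end Cfsg.Agent.S1629
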