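import Cfsg.Agent.H17.Tv3
import Cfsg.Statements.S1631

set_option autoImplicit false
open scoped MatrixGroups
open Cfsg

namespace Cfsg.Agent.S1631

/-- The unitary transvections of SU(n, 2), n ≥ 4, form a generating conjugacy class of 3-transpositions. -/
theorem result (F : Type) [Field F] [Fintype F] [DecidableEq F] (hF : Fintype.card F = 4) (n : ℕ) (hn : 4 ≤ n) : Cfsg.IsThreeTranspositionClass {g : ↥(Cfsg.SU n F 2) | (((g : Matrix.SpecialLinearGroup (Fin n) F) : Matrix (Fin n) (Fin n) F) - 1).rank = 1} := by
  have hF' : Fintype.card F = 2 ^ 2 := hF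
  have := H13.isThreeTranspositionClass_of_equiv (H12.suEquiv hF' n)
    (H17.tv_threeTr (H12.sd_uB hF' n) (fun c hc => by
      rw [H12.frobq_apply] at hc
      exact (mul_eq_zero.1 (by linear_combination hc : c * (c - 1) = 0)).imp_right sub_eq_zero.1)
      (H12.sd_uB hF' n).ns (H12.th_uB hF' (by omega)) (Or.inr (by simp; omega)) (by simp; omega))
  convert this using 1
  ext g
  exact Iff.of_eq (congrArg (· = 1) (H17.rank_sub_one _ _ fun v => by rfl))

end Cfsg.Agent.S1631
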