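import Cfsg.Statements.S1633
import Cfsg.Agent.H21.U35

set_option autoImplicit false
set_option linter.style.haveILetI false
open Cfsg

namespace Cfsg.Agent.S1633

open Cfsg.Agent.LL Cfsg.Agent.H16 MulAction

/-- The Higman–Sims group acts transitively on 352 vectors, a set closed under x ↦ −w − x, with vector stabiliser isomorphic to PSU(3, 5). -/
theorem result (v w : ↥Cfsg.leechLattice) (hv : Cfsg.sqNorm (v : Cfsg.GolayPt → ℤ) = 48) (hw : Cfsg.sqNorm (w : Cfsg.GolayPt → ℤ) = 48) (hvw : Cfsg.dotInt (v : Cfsg.GolayPt → ℤ) (w : Cfsg.GolayPt → ℤ) = -32) (F : Type) [Field F] [Fintype F] (hF : Fintype.card F = 25) : {x : ↥Cfsg.leechLattice | Cfsg.sqNorm (x : Cfsg.GolayPt → ℤ) = 32 ∧ Cfsg.dotInt (v : Cfsg.GolayPt → ℤ) (x : Cfsg.GolayPt → ℤ) = 16 ∧ Cfsg.dotInt (w : Cfsg.GolayPt → ℤ) (x : Cfsg.GolayPt → ℤ) = -24}.ncard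 = 352 ∧ (∀ x ∈ {x : ↥Cfsg.leechLattice | Cfsg.sqNorm (x : Cfsg.GolayPt → ℤ) = 32 ∧ Cfsg.dotInt (v : Cfsg.GolayPt → ℤ) (x : Cfsg.GolayPt → ℤ) = 16 ∧ Cfsg.dotInt (w : Cfsg.GolayPt → ℤ) (x : Cfsg.GolayPt → ℤ) = -24}, -w - x ∈ {x : ↥Cfsg.leechLattice | Cfsg.sqNorm (x : Cfsg.GolayPt → ℤ) = 32 ∧ Cfsg.dotInt (v : Cfsg.GolayPt → ℤ) (x : Cfsg.GolayPt → ℤ) = 16 ∧ Cfsg.dotInt (w : Cfsg.GolayPt → ℤ) (x : Cfsg.GolayPt → ℤ) = -24}) ∧ (∀ x ∈ {x : ↥Cfsg.leechLattice | Cfsg.sqNorm (x : Cfsg.GolayPt → ℤ) = 32 ∧ Cfsg.dotInt (v : Cfsg.GolayPt → ℤ) (x : Cfsg.GolayPt → ℤ) = 16 ∧ Cfsg.dotInt (w : Cfsg.GolayPt → ℤ) (x : Cfsg.GolayPt → ℤ) = -24}, ∀ x' ∈ {x : ↥Cfsg.leechLattice | Cfsg.sqNorm (x : Cfsg.GolayPt → ℤ) = 32 ∧ Cfsg.dotInt (v : Cfsg.GolayPt → ℤ) (x : Cfsg.GolayPt → ℤ) = 16 ∧ Cfsg.dotInt (w : Cfsg.GolayPt → ℤ) (x : Cfsg.GolayPt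 → ℤ) = -24}, ∃ g : ↥Cfsg.Co0, g • v = v ∧ g • w = w ∧ g • x = x') ∧ ∀ x ∈ {x : ↥Cfsg.leechLattice | Cfsg.sqNorm (x : Cfsg.GolayPt → ℤ) = 32 ∧ Cfsg.dotInt (v : Cfsg.GolayPt → ℤ) (x : Cfsg.GolayPt → ℤ) = 16 ∧ Cfsg.dotInt (w : Cfsg.GolayPt → ℤ) (x : Cfsg.GolayPt → ℤ) = -24}, Nonempty (↥(MulAction.stabilizer ↥Cfsg.Co0 v ⊓ MulAction.stabilizer ↥Cfsg.Co0 w ⊓ MulAction.stabilizer ↥Cfsg.Co0 x) ≃* Cfsg.PSU 3 F 5) := by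
  obtain ⟨g, rfl, rfl⟩ := std_H hv hw hvw
  have key : ∀ x, _ ↔ x ∈ XB Vv (-16) U' (-8) := keyH g 16 (-24)
  refine ⟨(ncard_transfer g key).trans countsB.2.2.2, fun x hx => ?_, fun x hx y hy => ?_, fun x hx => ?_⟩
  · obtain ⟨x, rfl⟩ := MulAction.surjective g x
    beta_reduce
    rw [← smul_neg, ← smul_sub]
    exact (key _).mpr (tab352.sub_mem coe_NW pair352 ((key x).mp hx))
  · obtain ⟨x, rfl⟩ := MulAction.surjective g x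
    obtain ⟨y, rfl⟩ := MulAction.surjective g y
    obtain ⟨h, hh, e⟩ := trans352 ((key x).mp hx) ((key y).mp hy)
    rw [KH_eq] at hh
    exact ⟨_, cj g hh.1, cj g hh.2, cj g e⟩
  · obtain ⟨x, rfl⟩ := MulAction.surjective g x
    obtain ⟨k, hk, rfl⟩ := trans352 (tab352.pt_mem (i := 0) (by norm_num)) ((key x).mp hx)
    rw [KH_eq] at hk
    beta_reduce
    rw [show g • (Vv + U') = (g * k) • (Vv + U') by rw [mul_smul, hk.2],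
      show g • -Vv = (g * k) • -Vv by rw [mul_smul, hk.1], ← mul_smul g k (tpt T352 0)]
    obtain ⟨e⟩ := equivU35
    obtain ⟨f⟩ := H12.nonempty_ringEquiv_of_natCard_eq (F := FQ 5 2) (K := F)
      (by rw [Nat.card_eq_fintype_card, Nat.card_eq_fintype_card, hF, card_FQ]; rfl)
    exact ⟨(conjEquiv _ _ _ (conj3 (g * k) _ _ _)).symm.trans ((MulEquiv.subgroupCongr (by rw [← KH_eq])).trans
      (e.trans (H12.psuCongr 3 5 f)))⟩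

end Cfsg.Agent.S1633
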