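import Cfsg.Statements.S1634
import Cfsg.Agent.H21.McL2

set_option autoImplicit false
set_option linter.style.haveILetI false
open Cfsg

namespace Cfsg.Agent.S1634

open Cfsg.Agent.LL Cfsg.Agent.H16 MulAction

theorem key (g : Co0) (x : L) : (sqNorm ((g • x : L) : V) = 32 ∧ dotInt ((g • U : L) : V) (g • x : L) = 0 ∧
    dotInt ((g • (-Vv - U) : L) : V) (g • x : L) = 16) ↔ x ∈ XB Vv (-16) U 0 := by
  rw [sqNorm_co, dot_co, dot_co, AddSubgroup.coe_sub, dot_sub_left, AddSubgroup.coe_neg, dot_neg_left]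
  exact and_congr_right fun _ => by omega

/-- The McLaughlin group acts on 2025 points (minimal vectors orthogonal to v with customary inner product 2 with w) transitively with rank 4 and subdegrees 1, 330, 462, 1232. -/
theorem result (v w : ↥Cfsg.leechLattice) (hv : Cfsg.sqNorm (v : Cfsg.GolayPt → ℤ) = 32) (hw : Cfsg.sqNorm (w : Cfsg.GolayPt → ℤ) = 32) (hvw : Cfsg.dotInt (v : Cfsg.GolayPt → ℤ) (w : Cfsg.GolayPt → ℤ) = -8) : {x : ↥Cfsg.leechLattice | Cfsg.sqNorm (x : Cfsg.GolayPt → ℤ) = 32 ∧ Cfsg.dotInt (v : Cfsg.GolayPt → ℤ) (x : Cfsg.GolayPt → ℤ) = 0 ∧ Cfsg.dotInt (w : Cfsg.GolayPt → ℤ) (x : Cfsg.GolayPt → ℤ) = 16}.ncard = 2025 ∧ (∀ x ∈ {x : ↥Cfsg.leechLattice | Cfsg.sqNorm (x : Cfsg.GolayPt → ℤ) = 32 ∧ Cfsg.dotInt (v : Cfsg.GolayPt → ℤ) (x : Cfsg.GolayPt → ℤ) = 0 ∧ Cfsg.dotInt (w : Cfsg.GolayPt → ℤ) (x : Cfsg.GolayPt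 → ℤ) = 16}, ∀ x' ∈ {x : ↥Cfsg.leechLattice | Cfsg.sqNorm (x : Cfsg.GolayPt → ℤ) = 32 ∧ Cfsg.dotInt (v : Cfsg.GolayPt → ℤ) (x : Cfsg.GolayPt → ℤ) = 0 ∧ Cfsg.dotInt (w : Cfsg.GolayPt → ℤ) (x : Cfsg.GolayPt → ℤ) = 16}, ∃ g : ↥Cfsg.Co0, g • v = v ∧ g • w = w ∧ g • x = x') ∧ ∀ x ∈ {x : ↥Cfsg.leechLattice | Cfsg.sqNorm (x : Cfsg.GolayPt → ℤ) = 32 ∧ Cfsg.dotInt (v : Cfsg.GolayPt → ℤ) (x : Cfsg.GolayPt → ℤ) = 0 ∧ Cfsg.dotInt (w : Cfsg.GolayPt → ℤ) (x : Cfsg.GolayPt → ℤ) = 16}, ∃ y₁ ∈ {x : ↥Cfsg.leechLattice | Cfsg.sqNorm (x : Cfsg.GolayPt → ℤ) = 32 ∧ Cfsg.dotInt (v : Cfsg.GolayPt → ℤ) (x : Cfsg.GolayPt → ℤ) = 0 ∧ Cfsg.dotInt (w : Cfsg.GolayPt → ℤ) (x : Cfsg.GolayPt → ℤ) = 16}, ∃ y₂ ∈ {x : ↥Cfsg.leechLattice | Cfsg.sqNorm (x : Cfsg.GolayPt → ℤ) = 32 ∧ Cfsg.dotInt (v : Cfsg.GolayPt → ℤ) (x : Cfsg.GolayPt → ℤ) = 0 ∧ Cfsg.dotInt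 (w : Cfsg.GolayPt → ℤ) (x : Cfsg.GolayPt → ℤ) = 16}, ∃ y₃ ∈ {x : ↥Cfsg.leechLattice | Cfsg.sqNorm (x : Cfsg.GolayPt → ℤ) = 32 ∧ Cfsg.dotInt (v : Cfsg.GolayPt → ℤ) (x : Cfsg.GolayPt → ℤ) = 0 ∧ Cfsg.dotInt (w : Cfsg.GolayPt → ℤ) (x : Cfsg.GolayPt → ℤ) = 16}, (MulAction.orbit ↥(MulAction.stabilizer ↥Cfsg.Co0 v ⊓ MulAction.stabilizer ↥Cfsg.Co0 w ⊓ MulAction.stabilizer ↥Cfsg.Co0 x) y₁).ncard = 330 ∧ (MulAction.orbit ↥(MulAction.stabilizer ↥Cfsg.Co0 v ⊓ MulAction.stabilizer ↥Cfsg.Co0 w ⊓ MulAction.stabilizer ↥Cfsg.Co0 x) y₂).ncard = 462 ∧ (MulAction.orbit ↥(MulAction.stabilizer ↥Cfsg.Co0 v ⊓ MulAction.stabilizer ↥Cfsg.Co0 w ⊓ MulAction.stabilizer ↥Cfsg.Co0 x) y₃).ncard = 1232 := by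
  obtain ⟨g, rfl, rfl⟩ := std_M hv hw hvw
  refine ⟨(ncard_transfer g (key g)).trans countsB.2.1, fun x hx y hy => ?_, fun x hx => ?_⟩
  · obtain ⟨x, rfl⟩ := MulAction.surjective g x
    obtain ⟨y, rfl⟩ := MulAction.surjective g y
    obtain ⟨h, hh, e⟩ := exists_of_orbit KM_facts.2.1 ((key g x).mp hx) ((key g y).mp hy)
    rw [KM_eq] at hh
    exact ⟨_, cj g hh.1, cj g hh.2, cj g e⟩
  · obtain ⟨x, rfl⟩ := MulAction.surjective g x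
    obtain ⟨k, hk, rfl⟩ := exists_of_orbit KM_facts.2.1 ⟨norm_U', dot_VU', dot_UU'⟩ ((key g x).mp hx)
    rw [KM_eq] at hk
    beta_reduce
    rw [show g • (-Vv - U) = (g * k) • (-Vv - U) by rw [mul_smul, hk.2],
      show g • U = (g * k) • U by rw [mul_smul, hk.1], ← mul_smul g k U']
    generalize g * k = g
    have h : ∀ y : L, (orbit ↥(stabilizer Co0 (g • U) ⊓ stabilizer Co0 (g • (-Vv - U)) ⊓ stabilizer Co0 (g • U'))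
        (g • y)).ncard = (orbit P22 y).ncard := fun y => by
      rw [orbit_conj (conj3 g U (-Vv - U) U'), ncard_smul, ← KM_eq, KM_inf]
    exact ⟨_, (key g _).mpr (orbits2025 (614, 330) (by simp)).1, _, (key g _).mpr (orbits2025 (1, 462) (by simp)).1,
      _, (key g _).mpr (orbits2025 (29, 1232) (by simp)).1, (h _).trans (orbits2025 (614, 330) (by simp)).2,
      (h _).trans (orbits2025 (1, 462) (by simp)).2, (h _).trans (orbits2025 (29, 1232) (by simp)).2⟩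

end Cfsg.Agent.S1634
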