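import Cfsg.Statements.S1638
import Cfsg.Agent.H16.M24f

set_option autoImplicit false
open scoped Pointwise
open Cfsg

namespace Cfsg.Agent.S1638
open H16 in
/-- the invariant -/
def v (t : Finset GolayPt) : ℕ × Prop :=
  ((toSet 6 ∩ t).card, ∃ o ∈ octads, gpt 23 ∈ o ∧ gpt 0 ∈ o ∧ toSet 6 ∪ t ⊆ o)

open H16 in
theorem v_eq {m : ℕ} (hm : m < 2 ^ 24) : v (toSet m) = (pc24 (Nat.land 6 m), inOct (8388615 ||| m) = true) := by
  rw [v, card_inter_toSet, ← inOct_iff (Nat.or_lt_two_pow (by norm_num) hm), toSet_or,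
    show toSet 8388615 = insert (gpt 23) (insert (gpt 0) (toSet 6)) by decide +kernel]
  simp only [Finset.insert_union, Finset.insert_subset_iff]

open H16 in
theorem vals : v (toSet (p2 2)) = (2, True) ∧ v (toSet (p2 13)) = (0, True) ∧ v (toSet (p2 4)) = (1, True) ∧
    v (toSet (p2 9)) = (0, False) := by
  refine ⟨?_, ?_, ?_, ?_⟩ <;> rw [v_eq (by decide +kernel), Prod.mk.injEq] <;>
    exact ⟨by decide +kernel, by first | exact eq_true (by decide +kernel) | exact eq_false (by decide +kernel)⟩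

open H16 in
theorem base : (∀ e ∈ [(2, 1), (13, 30), (4, 40), (9, 160)], {x | (x ∈ {t : Finset GolayPt | t.card = 2} ∧
      gpt 23 ∉ x ∧ gpt 0 ∉ x) ∧ v x = v (toSet (p2 e.1))}.ncard = e.2) ∧
    (∀ x ∈ {t : Finset GolayPt | t.card = 2}, (gpt 23 ∉ x ∧ gpt 0 ∉ x) → ∀ y ∈ {t : Finset GolayPt | t.card = 2},
      (gpt 23 ∉ y ∧ gpt 0 ∉ y) → v x = v y → ∃ g ∈ K22 ⊓ MulAction.stabilizer M24 (toSet 6), g • x = y) := by
  have := tabP2.classes (K := K22 ⊓ MulAction.stabilizer M24 (toSet 6))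
    (S := [972890551001212842198790794570204224, 971225217429278675044427981498352704])
    (inK_of_fixAll (A := [6, bit 23, bit 0]) (by decide +kernel) fun _ h =>
      ⟨⟨fix_bit h (by norm_num) (by simp), fix_bit h (by norm_num) (by simp)⟩, h _ (by simp)⟩)
    (Q := fun x => gpt 23 ∉ x ∧ gpt 0 ∉ x) (fun i => andB (notB (tb (p2 i) 23)) (notB (tb (p2 i) 0)))
    (fun i _ => by rw [andB_iff, notB_iff, notB_iff, mem_tb (by norm_num), mem_tb (by norm_num)])
    (fun g hg x h => by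
      rwa [← show g • gpt 23 = _ from hg.1.1, ← show g • gpt 0 = _ from hg.1.2, Finset.smul_mem_smul_finset_iff,
        Finset.smul_mem_smul_finset_iff]) [(2, 1), (13, 30), (4, 40), (9, 160)]
    (by decide +kernel) v (fun g hg x => by
      rw [v, v, exists_octad_smul g]
      conv_lhs => rw [← show g • toSet 6 = _ from hg.2, ← show g • gpt 23 = _ from hg.1.1,
        ← show g • gpt 0 = _ from hg.1.2]
      simp only [← Finset.smul_finset_union, Finset.smul_finset_subset_smul_finset_iff, card_smul_inter,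
        Finset.smul_mem_smul_finset_iff]) (by simp [vals])
  exact ⟨this.1, this.2.1⟩

open H16 in
theorem flag {p q : GolayPt} (hpq : p ≠ q) {s : Finset GolayPt} (hs : s.card = 2 ∧ p ∉ s ∧ q ∉ s) :
    ∃ k : M24, k • gpt 23 = p ∧ k • gpt 0 = q ∧ k • toSet 6 = s := by
  obtain ⟨h1, h2, h3⟩ := hs
  obtain ⟨a, b, hab, rfl⟩ := Finset.card_eq_two.mp h1
  simp only [Finset.mem_insert, Finset.mem_singleton, not_or] at h2 h3
  obtain ⟨g, hg⟩ := M24_tuple (k := 4) (by norm_num) ![gpt 23, gpt 0, gpt 1, gpt 2] ![p, q, a, b] (by decide)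
    (by intro i j; fin_cases i <;> fin_cases j <;>
      simp [hpq, hpq.symm, hab, hab.symm, h2.1, h2.2, h3.1, h3.2, Ne.symm h2.1, Ne.symm h2.2, Ne.symm h3.1, Ne.symm h3.2])
  refine ⟨g, hg 0, hg 1, ?_⟩
  rw [show toSet 6 = {gpt 1, gpt 2} by decide +kernel, Finset.smul_finset_insert, Finset.smul_finset_singleton]
  exact congrArg₂ (fun x y => ({x, y} : Finset GolayPt)) (hg 2) (hg 3)

/-- Fix two points p ≠ q and a pair s of two further points. Among the pairs avoiding p, q and disjoint from s, exactly 30 lie in an octad together with p, q and s and exactly 160 do not; and any two pairs other than s that meet s in equally many points and agree on that octad property are carried to one another by an element of the group of the length-24 code fixing p, q and s. -/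
theorem result (p q : Cfsg.GolayPt) (hpq : p ≠ q) (s : Finset Cfsg.GolayPt) (hs : (s.card = 2 ∧ p ∉ s ∧ q ∉ s)) : {t : Finset Cfsg.GolayPt | (t.card = 2 ∧ p ∉ t ∧ q ∉ t) ∧ Disjoint s t ∧ (∃ o ∈ Cfsg.octads, p ∈ o ∧ q ∈ o ∧ s ∪ t ⊆ o)}.ncard = 30 ∧ {t : Finset Cfsg.GolayPt | (t.card = 2 ∧ p ∉ t ∧ q ∉ t) ∧ Disjoint s t ∧ ¬ (∃ o ∈ Cfsg.octads, p ∈ o ∧ q ∈ o ∧ s ∪ t ⊆ o)}.ncard = 160 ∧ ∀ t t' : Finset Cfsg.GolayPt, (t.card = 2 ∧ p ∉ t ∧ q ∉ t) → (t'.card = 2 ∧ p ∉ t' ∧ q ∉ t') → t ≠ s → t' ≠ s → (s ∩ t).card = (s ∩ t').card → ((∃ o ∈ Cfsg.octads, p ∈ o ∧ q ∈ o ∧ s ∪ t ⊆ o) ↔ (∃ o ∈ Cfsg.octads, p ∈ o ∧ q ∈ o ∧ s ∪ t' ⊆ o)) → ∃ g : Equiv.Perm Cfsg.GolayPt, g ∈ Cfsg.M24 ∧ g p = p ∧ g q = q ∧ g • s = s ∧ g • t = t' := by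
  obtain ⟨k, rfl, rfl, rfl⟩ := flag hpq hs
  have e : ∀ x, (∃ o ∈ octads, k • H16.gpt 23 ∈ o ∧ k • H16.gpt 0 ∈ o ∧ k • H16.toSet 6 ∪ k • x ⊆ o) ↔
      ∃ o ∈ octads, H16.gpt 23 ∈ o ∧ H16.gpt 0 ∈ o ∧ H16.toSet 6 ∪ x ⊆ o := fun x => by
    rw [H16.exists_octad_smul k]
    simp only [← Finset.smul_finset_union, Finset.smul_finset_subset_smul_finset_iff, Finset.smul_mem_smul_finset_iff]
  refine ⟨(H16.ncard_transfer k fun x => ?_).trans (base.1 (13, 30) (by simp)),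
    (H16.ncard_transfer k fun x => ?_).trans (base.1 (9, 160) (by simp)), fun U U' h1 h2 _ _ h3 h => ?_⟩
  iterate 2
    simp only [vals]
    simp only [e, Finset.card_smul_finset, H16.disjoint_smul_iff, Finset.smul_mem_smul_finset_iff, v, Prod.mk.injEq,
      Finset.card_eq_zero, ← Finset.disjoint_iff_inter_eq_empty, eq_iff_iff, iff_true, iff_false, Set.mem_ofPred_eq]
  obtain ⟨U, rfl⟩ := MulAction.surjective k U
  obtain ⟨U', rfl⟩ := MulAction.surjective k U'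
  simp only [e, Finset.card_smul_finset, H16.card_smul_inter, Finset.smul_mem_smul_finset_iff] at h1 h2 h3 h
  obtain ⟨g, h5, h6⟩ := base.2 U h1.1 h1.2 U' h2.1 h2.2 (Prod.ext h3 (propext h))
  exact ⟨(k * g * k⁻¹ : M24), Subtype.property _, H16.cj k h5.1.1, H16.cj k h5.1.2, H16.cj k h5.2, H16.cj k h6⟩

end Cfsg.Agent.S1638
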