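import Cfsg.Statements.S1639
import Cfsg.Agent.H16.M24f

set_option autoImplicit false
open scoped Pointwise
open Cfsg

namespace Cfsg.Agent.S1639
open H16 in
theorem base (c : ℕ) : {x | x ∈ dodecads ∧ gpt 0 ∈ x ∧ (toSet sqD ∩ x).card = c}.ncard =
    codeCnt fun m => andB (Nat.beq (pc24 m) 12) (andB (tb m 0) (Nat.beq (pc24 (Nat.land sqD m)) c)) :=
  ncard_dodecads_filter _ fun m _ => by
    rw [card_inter_toSet, andB_iff, Nat.beq_eq, mem_tb (by norm_num)]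

/-- The point stabiliser acts on the 1288 dodecads through the point with rank 4 and subdegrees 1, 165, 330, 792, distinguished by intersection 4, 8, 6 with the fixed dodecad. -/
theorem result (x : Cfsg.GolayPt) (d : Finset Cfsg.GolayPt) (hd : d ∈ Cfsg.dodecads) (hx : x ∈ d) : {d' : Finset Cfsg.GolayPt | d' ∈ Cfsg.dodecads ∧ x ∈ d' ∧ (d ∩ d').card = 4}.ncard = 165 ∧ {d' : Finset Cfsg.GolayPt | d' ∈ Cfsg.dodecads ∧ x ∈ d' ∧ (d ∩ d').card = 8}.ncard = 330 ∧ {d' : Finset Cfsg.GolayPt | d' ∈ Cfsg.dodecads ∧ x ∈ d' ∧ (d ∩ d').card = 6}.ncard = 792 ∧ ∀ d' d'' : Finset Cfsg.GolayPt, d' ∈ Cfsg.dodecads → d'' ∈ Cfsg.dodecads → x ∈ d' → x ∈ d'' → (d ∩ d').card = (d ∩ d'').card → ∃ g : Equiv.Perm Cfsg.GolayPt, g ∈ Cfsg.M24 ∧ g x = x ∧ g • d = d ∧ g • d' = d'' := by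
  obtain ⟨k, rfl, rfl⟩ := H16.M24_dodecad_point hd hx
  refine ⟨?_, ?_, ?_, fun o' o'' ho' ho'' hp hq h => ?_⟩
  iterate 3
    exact (H16.ncard_transfer k fun x => by
      simp only [H16.smul_mem_dodecads, H16.card_smul_inter, Finset.smul_mem_smul_finset_iff] <;> rfl).trans
        ((base _).trans (by decide +kernel))
  obtain ⟨o', rfl⟩ := MulAction.surjective k o'
  obtain ⟨o'', rfl⟩ := MulAction.surjective k o''
  simp only [H16.smul_mem_dodecads, H16.card_smul_inter, Finset.smul_mem_smul_finset_iff] at ho' ho'' h hp hq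
  obtain ⟨g, h1, h2⟩ := H16.wt_trans H16.k11G_inK (Q := fun x => H16.gpt 0 ∈ x) (fun m => H16.tb m 0)
    (fun m _ h => by rwa [← H16.mem_tb (by norm_num)]) H16.sqD
    [863, 105, 31, 13] (by decide +kernel) ho' hp ho'' hq h
  exact ⟨(k * g * k⁻¹ : M24), Subtype.property _, H16.cj k h1.2, H16.cj k h1.1, H16.cj k h2⟩

end Cfsg.Agent.S1639
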