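import Cfsg.Statements.S1641
import Cfsg.Agent.H21.Co3b

set_option autoImplicit false
set_option linter.style.haveILetI false
open Cfsg

namespace Cfsg.Agent.S1641

open Cfsg.Agent.LL Cfsg.Agent.H16 MulAction
open scoped Pointwise

/-- The third Conway group acts on the 11178 cosets of the Higman–Sims group with rank 5 and subdegrees 1, 352, 1100, 4125, 5600. -/
theorem result (u x : ↥Cfsg.leechLattice) (hu : Cfsg.sqNorm (u : Cfsg.GolayPt → ℤ) = 48) (hx : x ∈ {x : ↥Cfsg.leechLattice | Cfsg.sqNorm (x : Cfsg.GolayPt → ℤ) = 32 ∧ Cfsg.dotInt (u : Cfsg.GolayPt → ℤ) (x : Cfsg.GolayPt → ℤ) = -16}) : ∃ y₁ ∈ {x : ↥Cfsg.leechLattice | Cfsg.sqNorm (x : Cfsg.GolayPt → ℤ) = 32 ∧ Cfsg.dotInt (u : Cfsg.GolayPt → ℤ) (x : Cfsg.GolayPt → ℤ) = -16}, ∃ y₂ ∈ {x : ↥Cfsg.leechLattice | Cfsg.sqNorm (x : Cfsg.GolayPt → ℤ) = 32 ∧ Cfsg.dotInt (u : Cfsg.GolayPt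 → ℤ) (x : Cfsg.GolayPt → ℤ) = -16}, ∃ y₃ ∈ {x : ↥Cfsg.leechLattice | Cfsg.sqNorm (x : Cfsg.GolayPt → ℤ) = 32 ∧ Cfsg.dotInt (u : Cfsg.GolayPt → ℤ) (x : Cfsg.GolayPt → ℤ) = -16}, ∃ y₄ ∈ {x : ↥Cfsg.leechLattice | Cfsg.sqNorm (x : Cfsg.GolayPt → ℤ) = 32 ∧ Cfsg.dotInt (u : Cfsg.GolayPt → ℤ) (x : Cfsg.GolayPt → ℤ) = -16}, (MulAction.orbit ↥(MulAction.stabilizer ↥Cfsg.Co0 u ⊓ MulAction.stabilizer ↥Cfsg.Co0 x) y₁).ncard = 352 ∧ (MulAction.orbit ↥(MulAction.stabilizer ↥Cfsg.Co0 u ⊓ MulAction.stabilizer ↥Cfsg.Co0 x) y₂).ncard = 1100 ∧ (MulAction.orbit ↥(MulAction.stabilizer ↥Cfsg.Co0 u ⊓ MulAction.stabilizer ↥Cfsg.Co0 x) y₃).ncard = 4125 ∧ (MulAction.orbit ↥(MulAction.stabilizer ↥Cfsg.Co0 u ⊓ MulAction.stabilizer ↥Cfsg.Co0 x) y₄).ncard = 5600 ∧ {x : ↥Cfsg.leechLattice | Cfsg.sqNorm (x : Cfsg.GolayPt → ℤ) = 32 ∧ Cfsg.dotInt (u : Cfsg.GolayPt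 → ℤ) (x : Cfsg.GolayPt → ℤ) = -16} = {x} ∪ MulAction.orbit ↥(MulAction.stabilizer ↥Cfsg.Co0 u ⊓ MulAction.stabilizer ↥Cfsg.Co0 x) y₁ ∪ MulAction.orbit ↥(MulAction.stabilizer ↥Cfsg.Co0 u ⊓ MulAction.stabilizer ↥Cfsg.Co0 x) y₂ ∪ MulAction.orbit ↥(MulAction.stabilizer ↥Cfsg.Co0 u ⊓ MulAction.stabilizer ↥Cfsg.Co0 x) y₃ ∪ MulAction.orbit ↥(MulAction.stabilizer ↥Cfsg.Co0 u ⊓ MulAction.stabilizer ↥Cfsg.Co0 x) y₄ := by
  obtain ⟨g, e1, e2⟩ := pairVU' hu hx.1 hx.2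
  obtain rfl : u = g⁻¹ • Vv := by rw [← e1, inv_smul_smul]
  obtain rfl : x = g⁻¹ • U' := by rw [← e2, inv_smul_smul]
  clear e1 e2 hu hx
  generalize g⁻¹ = g
  have key : ∀ x : L, g • x ∈ {x : L | sqNorm (x : V) = 32 ∧ dotInt ((g • Vv : L) : V) x = -16} ↔ x ∈ XA Vv (-16) :=
    fun x => by rw [Set.mem_ofPred_eq, sqNorm_co, dot_co]; rfl
  have h : ∀ y : L, orbit ↥(stabilizer Co0 (g • Vv) ⊓ stabilizer Co0 (g • U')) (g • y) = g • orbit KH y :=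
    orbit_conj (conj2 g Vv U')
  have a1 := orbits11178.1 (1657, 352) (by simp)
  have a2 := orbits11178.1 (0, 1100) (by simp)
  have a3 := orbits11178.1 (22, 4125) (by simp)
  have a4 := orbits11178.1 (1, 5600) (by simp)
  refine ⟨_, (key _).mpr a1.1, _, (key _).mpr a2.1, _, (key _).mpr a3.1, _, (key _).mpr a4.1,
    by rw [h, ncard_smul, a1.2.1], by rw [h, ncard_smul, a2.2.1], by rw [h, ncard_smul, a3.2.1],
    by rw [h, ncard_smul, a4.2.1], ?_⟩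
  ext y
  obtain ⟨y, rfl⟩ := MulAction.surjective g y
  simp only [key, h, Set.mem_union, Set.smul_mem_smul_set_iff, Set.mem_singleton_iff, smul_left_cancel_iff]
  constructor
  · intro hy
    obtain ⟨e, he, hy⟩ := orbits11178.2 y hy
    simp only [List.mem_cons, List.not_mem_nil, or_false] at he
    rcases he with rfl | rfl | rfl | rfl | rfl
    · obtain ⟨k, rfl⟩ := hy
      rw [pt11178]
      exact Or.inl (Or.inl (Or.inl (Or.inl k.2.2)))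
    all_goals simp only [hy, true_or, or_true]
  · rintro ((((rfl | hy) | hy) | hy) | hy)
    exacts [⟨norm_U', dot_VU'⟩, a1.2.2 hy, a2.2.2 hy, a3.2.2 hy, a4.2.2 hy]

end Cfsg.Agent.S1641
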