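import Cfsg.Statements.S1642
import Cfsg.Agent.H21.HS
import Cfsg.Agent.H21.Leech13

set_option autoImplicit false
set_option linter.style.haveILetI false
open Cfsg

namespace Cfsg.Agent.S1642

open Cfsg.Agent.LL Cfsg.Agent.H16 MulAction

/-- Some involution of the Higman–Sims group acts without fixed points on its 100 points. -/
theorem result (v w : ↥Cfsg.leechLattice) (hv : Cfsg.sqNorm (v : Cfsg.GolayPt → ℤ) = 48) (hw : Cfsg.sqNorm (w : Cfsg.GolayPt → ℤ) = 48) (hvw : Cfsg.dotInt (v : Cfsg.GolayPt → ℤ) (w : Cfsg.GolayPt → ℤ) = -32) : ∃ g : ↥Cfsg.Co0, g • v = v ∧ g • w = w ∧ orderOf g = 2 ∧ ∀ x ∈ {x : ↥Cfsg.leechLattice | Cfsg.sqNorm (x : Cfsg.GolayPt → ℤ) = 32 ∧ Cfsg.dotInt (v : Cfsg.GolayPt → ℤ) (x : Cfsg.GolayPt → ℤ) = 24 ∧ Cfsg.dotInt (w : Cfsg.GolayPt → ℤ) (x : Cfsg.GolayPt → ℤ) = -24}, g • x ≠ x := by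
  obtain ⟨g, rfl, rfl⟩ := std_H hv hw hvw
  have key : ∀ x, _ ↔ x ∈ XB Vv (-24) U' 0 := keyH g 24 (-24)
  obtain ⟨h, hh, hr⟩ := InK.evalW (w := 7) (by norm_num) genH.1 [0, 0, 1, 1, 0, 0, 1, 1, 0, 0, 1, 1, 0, 0, 1, 1, 0, 0, 1, 1]
  have ho := hr.orderOf_eq (by norm_num) injH faithH hh Nat.prime_two (by decide +kernel)
  rw [KH_eq] at hh
  refine ⟨_, cj g hh.1, cj g hh.2, (MulAut.conj g).orderOf_eq h ▸ ho, fun x hx => ?_⟩
  obtain ⟨x, rfl⟩ := MulAction.surjective g x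
  rw [Ne, conj_smul_iff]
  intro e
  have := (tab100.isTab 7).ncard_fixed hr (c := 0) (by decide +kernel)
  rw [Set.ncard_eq_zero ((XB.finite _ _ _ _).subset fun _ h => h.1)] at this
  exact this.subset ⟨(key x).mp hx, e⟩

end Cfsg.Agent.S1642
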