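import Cfsg.Statements.S1646
import Cfsg.Agent.H21.JaS

set_option autoImplicit false
set_option linter.style.haveILetI false
open Cfsg

namespace Cfsg.Agent.S1646

open Cfsg.Agent.LL Cfsg.Agent.LL.U6 Cfsg.Agent.H3 Cfsg.Agent.H10 Subgroup
open scoped Pointwise commutatorElement

theorem aut_q {H B : Type*} [Group H] [Finite H] [Group B] [IsSimpleGroup B] {N M : Subgroup H} [N.Normal] [M.Normal]
    (hNM : N ≤ M) (hM : M.index = 2) (hout : ∀ c : H, (∀ m ∈ M, c * m * c⁻¹ * m⁻¹ ∈ N) → c ∈ M)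
    (e : M ⧸ N.subgroupOf M ≃* B) (hp : ¬ (Nat.card B).Prime) (hA : Nat.card (MulAut B) = 2 * Nat.card B) :
    Nonempty (H ⧸ N ≃* MulAut B) := by
  let π := QuotientGroup.mk' N
  haveI : (M.map π).Normal := Normal.map inferInstance π (QuotientGroup.mk'_surjective N)
  have hk : (π.subgroupMap M).ker = N.subgroupOf M := Subgroup.ext fun a =>
    Subtype.ext_iff.trans (QuotientGroup.eq_one_iff _)
  let u : M.map π ≃* B := ((QuotientGroup.quotientKerEquivOfSurjective _ (π.subgroupMap_surjective M)).symm.trans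
    (QuotientGroup.quotientMulEquivOfEq hk)).trans e
  haveI := u.isSimpleGroup
  have hz := H16.center_eq_bot_of_simple (B := M.map π) (by rwa [Nat.card_congr u.toEquiv])
  haveI := Finite.of_equiv _ u.toEquiv
  refine ⟨(MulEquiv.ofBijective (MulAut.conjNormal (H := M.map π)) ((Nat.bijective_iff_injective_and_card _).mpr
    ⟨(injective_iff_map_eq_one _).mpr fun c hc => ?_, ?_⟩)).trans (MulAut.congr u)⟩
  · obtain ⟨c, rfl⟩ := QuotientGroup.mk'_surjective N c
    have k : ∀ m : M.map π, π c * m * (π c)⁻¹ = m := fun m => congrArg (fun f : MulAut (M.map π) => (f m : H ⧸ N)) hc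
    have cM := hout c fun m hm => (QuotientGroup.eq_one_iff _).mp (by
      have := k ⟨_, m, hm, rfl⟩
      simpa [π, ← mul_inv_eq_one (a := _ * _ * _)] using this)
    exact congrArg Subtype.val (hz.le (mem_center_iff.mpr fun g => Subtype.ext
      (mul_inv_eq_iff_eq_mul.mp (k g)).symm : (⟨_, c, cM, rfl⟩ : M.map π) ∈ center _))
  · rw [Nat.card_congr (MulAut.congr u).toEquiv, hA, ← Nat.card_congr e.toEquiv, ← hM, mul_comm]
    exact (relIndex_mul_index hNM).symm

theorem le_of {H : Type*} [Group H] {Q N M K : Subgroup H} [N.Normal] [IsSimpleGroup (M ⧸ N.subgroupOf M)] (hNM : N ≤ M)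
    (hcent : ⁅M, N⁆ ≤ Q) (hperf : M ≤ ⁅M, M⁆ ⊔ Q) {y : H} (yM : y ∈ M) (yN : y ∉ N)
    (hK : ∀ a ∈ M, ∀ k ∈ K, a * k * a⁻¹ ∈ K) (hQ : Q ≤ K) (yK : y ∈ K) : M ≤ K := by
  haveI : (K.subgroupOf M).Normal := ⟨fun k hk a => hK a a.2 k hk⟩
  have h := ((Normal.map this _ (QuotientGroup.mk'_surjective (N.subgroupOf M))).eq_bot_or_eq_top).resolve_left fun e =>
    yN ((QuotientGroup.eq_one_iff (N := N.subgroupOf M) (⟨y, yM⟩ : M)).mp (e.le ⟨⟨y, yM⟩, yK, rfl⟩))
  refine hperf.trans (sup_le (commutator_le.mpr fun a ha b hb => ?_) hQ)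
  obtain ⟨k, hk, e⟩ := h.ge (mem_top (QuotientGroup.mk (⟨a, ha⟩ : M)))
  have hn : (k : H)⁻¹ * a ∈ N := (QuotientGroup.eq (s := N.subgroupOf M)).mp e
  have := mul_mem (mul_mem (show (k : H) ∈ K from hk) (hQ (hcent (commutator_comm M N ▸ commutator_mem_commutator hn hb)))) (hK b hb _ (inv_mem (show (k : H) ∈ K from hk)))
  convert this using 1
  simp only [commutatorElement_def]
  group

/-- The fourth Janko group from an involution centraliser: suppose a finite simple group has an involution t whose centraliser C has normal subgroups Q ≤ N ≤ M with M of index 2 and every element of C that centralises M / N lying in M, Q extraspecial of order 2 ^ 13 and containing its centraliser in C, containing an elementary abelian subgroup of order 2 ^ 7, N / Q of order 3 and central in M / Q, M / Q perfect, and M / N isomorphic to the Mathieu group M₂₂. Then the group has exactly two conjugacy classes of involutions and order 2^21·3^3·5·7·11^3·23·29·31·37·43.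 -/
theorem result {G : Type*} [Group G] [Finite G] [IsSimpleGroup G] (t : G) (ht : orderOf t = 2) (Q N M : Subgroup (Subgroup.centralizer ({t} : Set G))) [Q.Normal] [N.Normal] [M.Normal] (hQN : Q ≤ N) (hNM : N ≤ M) (hM : M.index = 2) (hQ : Cfsg.IsExtraspecial 2 Q) (hcard : Nat.card Q = 2 ^ 13) (hplus : ∃ E : Subgroup Q, Cfsg.IsElementaryAbelian 2 E ∧ Nat.card E = 2 ^ 7) (hN : Nat.card N = 3 * Nat.card Q) (hcent : ⁅M, N⁆ ≤ Q) (hperf : M ≤ ⁅M, M⁆ ⊔ Q) (h2c : Subgroup.centralizer (Q : Set (Subgroup.centralizer ({t} : Set G))) ≤ Q) (hout : ∀ c : Subgroup.centralizer ({t} : Set G), (∀ m ∈ M, c * m * c⁻¹ * m⁻¹ ∈ N) → c ∈ M) (hM22 : Cfsg.Spor.IsoM22 (M ⧸ N.subgroupOf M)) : Cfsg.IsJ4 G ∧ ∃ x y : G, orderOf x = 2 ∧ orderOf y = 2 ∧ ¬ IsConj x y ∧ ∀ z : G, orderOf z = 2 → IsConj z x ∨ IsConj z y := by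
  have t1 : t ≠ 1 := fun e => by simp [e] at ht
  have eq := Q.equivMapOfInjective _ (centralizer ({t} : Set G)).subtype_injective
  have tC : t ∈ centralizer ({t} : Set G) := mem_centralizer_singleton_iff.mpr rfl
  have q2 : ∀ q ∈ Q.map (centralizer ({t} : Set G)).subtype, q * t = t * q := fun q hq =>
    mem_centralizer_singleton_iff.mp (map_subtype_le _ hq)
  have zQ : t ∈ Q.map (centralizer ({t} : Set G)).subtype :=
    ⟨⟨t, tC⟩, h2c fun q _ => Subtype.ext (mem_centralizer_singleton_iff.mp q.2), rfl⟩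
  have xs := xs_of_isExtraspecial (H26.isExtraspecial_congr hQ eq) t1 zQ q2
  have hl : LX (Q.map (centralizer ({t} : Set G)).subtype) t := ⟨xs, fun c hc => xs.zc c
    ⟨⟨c, mem_centralizer_singleton_iff.mpr (hc t zQ).symm⟩, h2c fun q hq => Subtype.ext (hc q ⟨q, hq, rfl⟩), rfl⟩ hc,
    fun c hc => mem_normalizer_of_conj_mem (by
      rintro _ ⟨q, hq, rfl⟩; exact ⟨_, Normal.conj_mem inferInstance q hq ⟨c, hc⟩, rfl⟩)⟩
  have hc := (Nat.card_congr eq.toEquiv).symm.trans hcard
  have hs : (Q.map (centralizer ({t} : Set G)).subtype).subgroupOf _ = Q :=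
    comap_map_eq_self_of_injective (subtype_injective _) Q
  obtain ⟨e⟩ := hM22
  haveI := H16.simple_K22
  haveI := H16.sporM22.symm.isSimpleGroup
  haveI := e.isSimpleGroup
  have c22 : Nat.card Spor.M22 = 443520 := (Nat.card_congr H16.sporM22.toEquiv).symm.trans H16.card_K22
  obtain ⟨v⟩ := autM22
  obtain ⟨u⟩ := aut_q hNM hM hout e (by rw [c22]; norm_num) (by rw [c22, Nat.card_congr v.toEquiv, H16.card_L22])
  obtain ⟨⟨x, hx⟩, x1⟩ := exists_prime_orderOf_dvd_card' (G := N) 3 (by rw [hN]; exact Dvd.intro _ rfl)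
  replace x1 : orderOf x = 3 := (orderOf_coe _).trans x1
  haveI : Fact (Nat.Prime 7) := ⟨by norm_num⟩
  obtain ⟨⟨y, hy⟩, y1⟩ := exists_prime_orderOf_dvd_card' (G := M) 7 (by
    refine Dvd.dvd.trans ?_ (card_quotient_dvd_card (N.subgroupOf M)); rw [Nat.card_congr e.toEquiv, c22]; norm_num)
  replace y1 : orderOf y = 7 := (orderOf_coe _).trans y1
  have x3 : x ^ 3 = 1 := x1 ▸ pow_orderOf_eq_one x
  obtain ⟨ρ, p, m, j⟩ := exists_JF' hl hc (N := N) (hs.trans_le hQN) (by rw [hN, hc, hcard]) u hx x3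
    (fpf3 hl hc x3 (y1 ▸ pow_orderOf_eq_one y) (fun h => by
      have := orderOf_dvd_natCard (⟨x, hs.le h⟩ : Q)
      rw [Subgroup.orderOf_mk, x1, hcard] at this; norm_num at this) hy
      (fun a ha => ⟨_, hcent (commutator_mem_commutator ha hx), rfl⟩) fun K h1 h2 h3 => le_of hNM hcent hperf hy (fun h => by
      have := orderOf_dvd_natCard (⟨y, h⟩ : N)
      rw [Subgroup.orderOf_mk, y1, hN, hcard] at this; norm_num at this) h1 (hs ▸ h2) h3 (hNM hx))
  have hG : ¬ IsMulCommutative G := fun h => let ⟨a, ha, n⟩ := xs.na; n (xs.zc a ha fun q _ => h.is_comm.comm q a)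
  obtain ⟨b, d, s, Φ, k⟩ := j.exists_jc hG
  exact ⟨⟨inferInstance, k.ord hG⟩, t, s Du, ht, orderOf_eq_prime (by rw [pow_two, k.t2.1]) k.t2.2, k.ntz, fun z hz =>
    (k.inv2 (by rw [← pow_two, ← hz, pow_orderOf_eq_one]) fun e => by simp [e] at hz).imp IsConj.symm IsConj.symm⟩

end Cfsg.Agent.S1646
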