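import Cfsg.Agent.H17.SuzT
import Cfsg.Statements.S1680

set_option autoImplicit false
open Cfsg

namespace Cfsg.Agent.S1680

/-- In the presented sporadic Suzuki group, let H be the subgroup generated by the images of a, …, f. Then H has index 1782, H has orbits of sizes 416 and 1365 on the cosets of H other than H itself (with the index 1782 this makes the action rank 3). -/
theorem result : (((Subgroup.closure ({Cfsg.Spor.Suz.a, Cfsg.Spor.Suz.b, Cfsg.Spor.Suz.c, Cfsg.Spor.Suz.d, Cfsg.Spor.Suz.e, Cfsg.Spor.Suz.f} : Set (FreeGroup Cfsg.Spor.Suz.Gen))).map (PresentedGroup.mk (Cfsg.Spor.coxRelators Cfsg.Spor.Suz.edges ∪ {r | r ∈ Cfsg.Spor.Suz.extra})))).index = 1782 ∧ ∃ q₁ q₂ : Cfsg.Spor.Suz ⧸ (((Subgroup.closure ({Cfsg.Spor.Suz.a, Cfsg.Spor.Suz.b, Cfsg.Spor.Suz.c, Cfsg.Spor.Suz.d, Cfsg.Spor.Suz.e, Cfsg.Spor.Suz.f} : Set (FreeGroup Cfsg.Spor.Suz.Gen))).map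 (PresentedGroup.mk (Cfsg.Spor.coxRelators Cfsg.Spor.Suz.edges ∪ {r | r ∈ Cfsg.Spor.Suz.extra})))), (MulAction.orbit (((Subgroup.closure ({Cfsg.Spor.Suz.a, Cfsg.Spor.Suz.b, Cfsg.Spor.Suz.c, Cfsg.Spor.Suz.d, Cfsg.Spor.Suz.e, Cfsg.Spor.Suz.f} : Set (FreeGroup Cfsg.Spor.Suz.Gen))).map (PresentedGroup.mk (Cfsg.Spor.coxRelators Cfsg.Spor.Suz.edges ∪ {r | r ∈ Cfsg.Spor.Suz.extra})))) q₁).ncard = 416 ∧ (MulAction.orbit (((Subgroup.closure ({Cfsg.Spor.Suz.a, Cfsg.Spor.Suz.b, Cfsg.Spor.Suz.c, Cfsg.Spor.Suz.d, Cfsg.Spor.Suz.e, Cfsg.Spor.Suz.f} : Set (FreeGroup Cfsg.Spor.Suz.Gen))).map (PresentedGroup.mk (Cfsg.Spor.coxRelators Cfsg.Spor.Suz.edges ∪ {r | r ∈ Cfsg.Spor.Suz.extra})))) q₂).ncard = 1365 := by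
  rw [H17.map_closure_list (g := H17.Suz.g) _ H17.Suz.mk_eq [Spor.Suz.a, Spor.Suz.b, Spor.Suz.c, Spor.Suz.d, Spor.Suz.e, Spor.Suz.f] (W := H17.SuzT.W)
    (by ext; simp) (by decide +kernel)]
  obtain ⟨q0, h0⟩ := H17.SuzT.coset.exists_pt (j := 135) (by norm_num)
  have c0 : H17.SuzT.D.orbEqB 6 H17.SuzT.W 5 135 416 = true := by decide +kernel
  obtain ⟨q1, h1⟩ := H17.SuzT.coset.exists_pt (j := 1) (by norm_num)
  have c1 : H17.SuzT.D.orbEqB 6 H17.SuzT.W 5 1 1365 = true := by decide +kernel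
  refine ⟨H17.SuzT.coset.index_eq, q0, q1, ?_, ?_⟩
  · rw [H17.SuzT.coset.ncard_orbit, H17.SuzT.rep.map_wgrp, h0]
    exact H17.TD.orbEqB_sound H17.SuzT.good.toShape c0
  · rw [H17.SuzT.coset.ncard_orbit, H17.SuzT.rep.map_wgrp, h1]
    exact H17.TD.orbEqB_sound H17.SuzT.good.toShape c1

end Cfsg.Agent.S1680
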