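import Cfsg.Agent.H17.HeT
import Cfsg.Statements.S1683

set_option autoImplicit false
open Cfsg

namespace Cfsg.Agent.S1683

/-- In the presented Held group, let H be the subgroup generated by the images of a, c, d, e, f, (ab)^2 and (bcde)^7. Then H has index 2058, there are four distinct H-orbits on the cosets of H other than H itself, of sizes 136, 136, 425 and 1360. -/
theorem result : (((Subgroup.closure ({Cfsg.Spor.He.a, Cfsg.Spor.He.c, Cfsg.Spor.He.d, Cfsg.Spor.He.e, Cfsg.Spor.He.f, (Cfsg.Spor.He.a * Cfsg.Spor.He.b) ^ 2, (Cfsg.Spor.He.b * Cfsg.Spor.He.c * Cfsg.Spor.He.d * Cfsg.Spor.He.e) ^ 7} : Set (FreeGroup Cfsg.Spor.He.Gen))).map (PresentedGroup.mk (Cfsg.Spor.coxRelators Cfsg.Spor.He.edges ∪ {r | r ∈ Cfsg.Spor.He.extra})))).index = 2058 ∧ ∃ q₁ q₂ q₃ q₄ : Cfsg.Spor.He ⧸ (((Subgroup.closure ({Cfsg.Spor.He.a, Cfsg.Spor.He.c,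 Cfsg.Spor.He.d, Cfsg.Spor.He.e, Cfsg.Spor.He.f, (Cfsg.Spor.He.a * Cfsg.Spor.He.b) ^ 2, (Cfsg.Spor.He.b * Cfsg.Spor.He.c * Cfsg.Spor.He.d * Cfsg.Spor.He.e) ^ 7} : Set (FreeGroup Cfsg.Spor.He.Gen))).map (PresentedGroup.mk (Cfsg.Spor.coxRelators Cfsg.Spor.He.edges ∪ {r | r ∈ Cfsg.Spor.He.extra})))), MulAction.orbit (((Subgroup.closure ({Cfsg.Spor.He.a, Cfsg.Spor.He.c, Cfsg.Spor.He.d, Cfsg.Spor.He.e, Cfsg.Spor.He.f, (Cfsg.Spor.He.a * Cfsg.Spor.He.b) ^ 2, (Cfsg.Spor.He.b * Cfsg.Spor.He.c * Cfsg.Spor.He.d * Cfsg.Spor.He.e) ^ 7} : Set (FreeGroup Cfsg.Spor.He.Gen))).map (PresentedGroup.mk (Cfsg.Spor.coxRelators Cfsg.Spor.He.edges ∪ {r | r ∈ Cfsg.Spor.He.extra})))) q₁ ≠ MulAction.orbit (((Subgroup.closure ({Cfsg.Spor.He.a, Cfsg.Spor.He.c, Cfsg.Spor.He.d, Cfsg.Spor.He.e, Cfsg.Spor.He.f, (Cfsg.Spor.He.a * Cfsg.Spor.He.b) ^ 2, (Cfsg.Spor.He.b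 * Cfsg.Spor.He.c * Cfsg.Spor.He.d * Cfsg.Spor.He.e) ^ 7} : Set (FreeGroup Cfsg.Spor.He.Gen))).map (PresentedGroup.mk (Cfsg.Spor.coxRelators Cfsg.Spor.He.edges ∪ {r | r ∈ Cfsg.Spor.He.extra})))) q₂ ∧ (MulAction.orbit (((Subgroup.closure ({Cfsg.Spor.He.a, Cfsg.Spor.He.c, Cfsg.Spor.He.d, Cfsg.Spor.He.e, Cfsg.Spor.He.f, (Cfsg.Spor.He.a * Cfsg.Spor.He.b) ^ 2, (Cfsg.Spor.He.b * Cfsg.Spor.He.c * Cfsg.Spor.He.d * Cfsg.Spor.He.e) ^ 7} : Set (FreeGroup Cfsg.Spor.He.Gen))).map (PresentedGroup.mk (Cfsg.Spor.coxRelators Cfsg.Spor.He.edges ∪ {r | r ∈ Cfsg.Spor.He.extra})))) q₁).ncard = 136 ∧ (MulAction.orbit (((Subgroup.closure ({Cfsg.Spor.He.a, Cfsg.Spor.He.c, Cfsg.Spor.He.d, Cfsg.Spor.He.e, Cfsg.Spor.He.f, (Cfsg.Spor.He.a * Cfsg.Spor.He.b) ^ 2, (Cfsg.Spor.He.b * Cfsg.Spor.He.c * Cfsg.Spor.He.d * Cfsg.Spor.He.e) ^ 7} : Set (FreeGroup Cfsg.Spor.He.Gen))).map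 (PresentedGroup.mk (Cfsg.Spor.coxRelators Cfsg.Spor.He.edges ∪ {r | r ∈ Cfsg.Spor.He.extra})))) q₂).ncard = 136 ∧ (MulAction.orbit (((Subgroup.closure ({Cfsg.Spor.He.a, Cfsg.Spor.He.c, Cfsg.Spor.He.d, Cfsg.Spor.He.e, Cfsg.Spor.He.f, (Cfsg.Spor.He.a * Cfsg.Spor.He.b) ^ 2, (Cfsg.Spor.He.b * Cfsg.Spor.He.c * Cfsg.Spor.He.d * Cfsg.Spor.He.e) ^ 7} : Set (FreeGroup Cfsg.Spor.He.Gen))).map (PresentedGroup.mk (Cfsg.Spor.coxRelators Cfsg.Spor.He.edges ∪ {r | r ∈ Cfsg.Spor.He.extra})))) q₃).ncard = 425 ∧ (MulAction.orbit (((Subgroup.closure ({Cfsg.Spor.He.a, Cfsg.Spor.He.c, Cfsg.Spor.He.d, Cfsg.Spor.He.e, Cfsg.Spor.He.f, (Cfsg.Spor.He.a * Cfsg.Spor.He.b) ^ 2, (Cfsg.Spor.He.b * Cfsg.Spor.He.c * Cfsg.Spor.He.d * Cfsg.Spor.He.e) ^ 7} : Set (FreeGroup Cfsg.Spor.He.Gen))).map (PresentedGroup.mk (Cfsg.Spor.coxRelators Cfsg.Spor.He.edges ∪ {r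 | r ∈ Cfsg.Spor.He.extra})))) q₄).ncard = 1360 := by
  rw [H17.map_closure_list (g := H17.He.g) _ H17.He.mk_eq [Spor.He.a, Spor.He.c, Spor.He.d, Spor.He.e, Spor.He.f, (Spor.He.a * Spor.He.b) ^ 2, (Spor.He.b * Spor.He.c * Spor.He.d * Spor.He.e) ^ 7] (W := H17.HeT.W)
    (by ext; simp) (by decide +kernel)]
  obtain ⟨q0, h0⟩ := H17.HeT.coset.exists_pt (j := 58) (by norm_num)
  have c0 : H17.HeT.D.orbEqB 7 H17.HeT.W 4 58 136 = true := by decide +kernel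
  obtain ⟨q1, h1⟩ := H17.HeT.coset.exists_pt (j := 314) (by norm_num)
  have c1 : H17.HeT.D.orbEqB 7 H17.HeT.W 3 314 136 = true := by decide +kernel
  obtain ⟨q2, h2⟩ := H17.HeT.coset.exists_pt (j := 5) (by norm_num)
  have c2 : H17.HeT.D.orbEqB 7 H17.HeT.W 4 5 425 = true := by decide +kernel
  obtain ⟨q3, h3⟩ := H17.HeT.coset.exists_pt (j := 1) (by norm_num)
  have c3 : H17.HeT.D.orbEqB 7 H17.HeT.W 5 1 1360 = true := by decide +kernel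
  refine ⟨H17.HeT.coset.index_eq, q0, q1, q2, q3, ?_, ?_, ?_, ?_, ?_⟩
  · intro e
    have e2 := congrArg (fun s => H17.HeT.coset.pt '' s) e
    simp only [H17.HeT.coset.image_orbit, h0, h1] at e2
    rw [H17.HeT.rep.map_wgrp] at e2
    have e3 := MulAction.mem_orbit_self (M := H17.HeT.D.grp H17.HeT.W) 314
    rw [← e2, H17.TD.orbit_eq_of_orbEqB H17.HeT.good.toShape c0] at e3
    exact absurd (show Nat.testBit _ _ = true from e3) (by decide +kernel)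
  · rw [H17.HeT.coset.ncard_orbit, H17.HeT.rep.map_wgrp, h0]
    exact H17.TD.orbEqB_sound H17.HeT.good.toShape c0
  · rw [H17.HeT.coset.ncard_orbit, H17.HeT.rep.map_wgrp, h1]
    exact H17.TD.orbEqB_sound H17.HeT.good.toShape c1
  · rw [H17.HeT.coset.ncard_orbit, H17.HeT.rep.map_wgrp, h2]
    exact H17.TD.orbEqB_sound H17.HeT.good.toShape c2
  · rw [H17.HeT.coset.ncard_orbit, H17.HeT.rep.map_wgrp, h3]
    exact H17.TD.orbEqB_sound H17.HeT.good.toShape c3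

end Cfsg.Agent.S1683
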