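import Cfsg.Agent.H17.Fi22O7
import Cfsg.Statements.S1686

set_option autoImplicit false
open Cfsg

namespace Cfsg.Agent.S1686

/-- In the presented Fischer group Fi₂₂, the subgroup generated by the images of b, …, i is isomorphic to PΩ(7, 3), the commutator subgroup of the isometry group of the quadratic form x₀² + x₁y₁ + x₂y₂ + x₃y₃ over the integers mod 3, modulo its centre. -/
theorem result : Nonempty ((((Subgroup.closure ({Cfsg.Spor.Fi22.b, Cfsg.Spor.Fi22.c, Cfsg.Spor.Fi22.d, Cfsg.Spor.Fi22.e, Cfsg.Spor.Fi22.f, Cfsg.Spor.Fi22.g, Cfsg.Spor.Fi22.h, Cfsg.Spor.Fi22.i} : Set (FreeGroup Cfsg.Spor.Fi22.Gen))).map (PresentedGroup.mk (Cfsg.Spor.coxRelators Cfsg.Spor.Fi22.edges ∪ {r | r ∈ Cfsg.Spor.Fi22.extra})))) ≃* Cfsg.POmega (ZMod 3) (Cfsg.quadFormOdd 3 (ZMod 3))) := by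
  rw [H17.map_closure_list (g := H17.Fi22.g) _ H17.Fi22.mk_eq [Spor.Fi22.b, Spor.Fi22.c, Spor.Fi22.d, Spor.Fi22.e, Spor.Fi22.f, Spor.Fi22.g, Spor.Fi22.h, Spor.Fi22.i] (W := H17.Fi22aT.W)
    (by ext; simp) (by decide +kernel)]
  exact H17.Fi22.isoO7

end Cfsg.Agent.S1686
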