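import Cfsg.Agent.H17.Fi23T
import Cfsg.Statements.S1689

set_option autoImplicit false
open Cfsg

namespace Cfsg.Agent.S1689

/-- In the presented Fischer group Fi₂₃, let H be the subgroup generated by the images of a, …, i. Then H has index 31671, H has orbits of sizes 3510 and 28160 on the cosets of H other than H itself. -/
theorem result : (((Subgroup.closure ({Cfsg.Spor.Fi23.a, Cfsg.Spor.Fi23.b, Cfsg.Spor.Fi23.c, Cfsg.Spor.Fi23.d, Cfsg.Spor.Fi23.e, Cfsg.Spor.Fi23.f, Cfsg.Spor.Fi23.g, Cfsg.Spor.Fi23.h, Cfsg.Spor.Fi23.i} : Set (FreeGroup Cfsg.Spor.Fi23.Gen))).map (PresentedGroup.mk (Cfsg.Spor.coxRelators Cfsg.Spor.Fi23.edges ∪ {r | r ∈ Cfsg.Spor.Fi23.extra})))).index = 31671 ∧ ∃ q₁ q₂ : Cfsg.Spor.Fi23 ⧸ (((Subgroup.closure ({Cfsg.Spor.Fi23.a, Cfsg.Spor.Fi23.b, Cfsg.Spor.Fi23.c, Cfsg.Spor.Fi23.d, Cfsg.Spor.Fi23.e,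 Cfsg.Spor.Fi23.f, Cfsg.Spor.Fi23.g, Cfsg.Spor.Fi23.h, Cfsg.Spor.Fi23.i} : Set (FreeGroup Cfsg.Spor.Fi23.Gen))).map (PresentedGroup.mk (Cfsg.Spor.coxRelators Cfsg.Spor.Fi23.edges ∪ {r | r ∈ Cfsg.Spor.Fi23.extra})))), (MulAction.orbit (((Subgroup.closure ({Cfsg.Spor.Fi23.a, Cfsg.Spor.Fi23.b, Cfsg.Spor.Fi23.c, Cfsg.Spor.Fi23.d, Cfsg.Spor.Fi23.e, Cfsg.Spor.Fi23.f, Cfsg.Spor.Fi23.g, Cfsg.Spor.Fi23.h, Cfsg.Spor.Fi23.i} : Set (FreeGroup Cfsg.Spor.Fi23.Gen))).map (PresentedGroup.mk (Cfsg.Spor.coxRelators Cfsg.Spor.Fi23.edges ∪ {r | r ∈ Cfsg.Spor.Fi23.extra})))) q₁).ncard = 3510 ∧ (MulAction.orbit (((Subgroup.closure ({Cfsg.Spor.Fi23.a, Cfsg.Spor.Fi23.b, Cfsg.Spor.Fi23.c, Cfsg.Spor.Fi23.d, Cfsg.Spor.Fi23.e, Cfsg.Spor.Fi23.f, Cfsg.Spor.Fi23.g, Cfsg.Spor.Fi23.h, Cfsg.Spor.Fi23.i} : Set (FreeGroup Cfsg.Spor.Fi23.Gen))).map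 (PresentedGroup.mk (Cfsg.Spor.coxRelators Cfsg.Spor.Fi23.edges ∪ {r | r ∈ Cfsg.Spor.Fi23.extra})))) q₂).ncard = 28160 := by
  rw [H17.map_closure_list (g := H17.Fi23.g) _ H17.Fi23.mk_eq [Spor.Fi23.a, Spor.Fi23.b, Spor.Fi23.c, Spor.Fi23.d, Spor.Fi23.e, Spor.Fi23.f, Spor.Fi23.g, Spor.Fi23.h, Spor.Fi23.i] (W := H17.Fi23T.W)
    (by ext; simp) (by decide +kernel)]
  obtain ⟨q0, h0⟩ := H17.Fi23T.coset.exists_pt (j := 279) (by norm_num)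
  have c0 : H17.Fi23T.D.orbEqB 10 H17.Fi23T.W 6 279 3510 = true := by decide +kernel
  obtain ⟨q1, h1⟩ := H17.Fi23T.coset.exists_pt (j := 1) (by norm_num)
  have c1 : H17.Fi23T.D.orbEqB 10 H17.Fi23T.W 12 1 28160 = true := by decide +kernel
  refine ⟨H17.Fi23T.coset.index_eq, q0, q1, ?_, ?_⟩
  · rw [H17.Fi23T.coset.ncard_orbit, H17.Fi23T.rep.map_wgrp, h0]
    exact H17.TD.orbEqB_sound H17.Fi23T.good.toShape c0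
  · rw [H17.Fi23T.coset.ncard_orbit, H17.Fi23T.rep.map_wgrp, h1]
    exact H17.TD.orbEqB_sound H17.Fi23T.good.toShape c1

end Cfsg.Agent.S1689
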