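import Cfsg.Agent.H17.He
import Cfsg.Statements.S1695

set_option autoImplicit false
open Cfsg

namespace Cfsg.Agent.S1695

/-- The presented Held group is simple of the expected order (that is, it is a simple group of the order of the Held group). -/
theorem result : Cfsg.IsHe Cfsg.Spor.He := by
  exact ⟨H17.He.simple, H17.He.faith.card⟩

end Cfsg.Agent.S1695
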