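import Cfsg.Statements.S1711
import Cfsg.Agent.H16.J4F3
import Cfsg.Agent.H16.J4M

set_option autoImplicit false
open Cfsg

namespace Cfsg.Agent.S1711

/-- In the presented fourth Janko group (generators x, y, t), the subgroup generated by the images of x and y is isomorphic to the Mathieu group M₂₄. -/
theorem result : Nonempty ((((Subgroup.closure ({Cfsg.Spor.J4.x, Cfsg.Spor.J4.y} : Set (FreeGroup Cfsg.Spor.J4.Gen))).map (PresentedGroup.mk (Cfsg.Spor.coxRelators Cfsg.Spor.J4.edges ∪ {r | r ∈ Cfsg.Spor.J4.extra})))) ≃* Cfsg.M24) := by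
  open Cfsg.Agent.H16 Cfsg.Agent.H17 in
  have hI : Inv 1 (sub [[0], [2], [3]] J4M.g) := inv_sub J4M.pres.inv rfl (by decide) (by decide +kernel)
  open Cfsg.Agent.H16 Cfsg.Agent.H17 in
  obtain ⟨ψ, hψ⟩ := J4F.pres.lift _ (sub [[0], [2], [3]] J4M.g) hI (fun x hx => sub_triv _ hx)
    (sat_sub (J4M.pres.sat.mono (subsetB_sound (by decide +kernel))))
  open Cfsg.Agent.H16 Cfsg.Agent.H17 in
  have hinj : Function.Injective ψ := by
    have := J4F.simpleF
    rw [← MonoidHom.ker_eq_bot_iff]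
    refine (ψ.normal_ker.eq_bot_or_eq_top).resolve_right fun e => J4M.x_ne ?_
    have h : ψ (J4F.g 0) = 1 := (e.ge (Subgroup.mem_top _) :)
    rw [hψ] at h
    simpa [sub, H17.nth_zero] using h
  open Cfsg.Agent.H16 Cfsg.Agent.H17 in
  have e : ψ.range = (Subgroup.closure ({Cfsg.Spor.J4.x, Cfsg.Spor.J4.y} : Set (FreeGroup Cfsg.Spor.J4.Gen))).map
      (PresentedGroup.mk (Cfsg.Spor.coxRelators Cfsg.Spor.J4.edges ∪ {r | r ∈ Cfsg.Spor.J4.extra})) := by
    rw [J4F.pres.toGens.range_eq ψ hψ (W := [[0], [1], [2]]) (by decide), wgrp_sub,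
      show substL [[0], [2], [3]] [[0], [1], [2]] = [[0], [2], [3]] by decide +kernel]
    refine (le_antisymm ?_ ?_).trans (map_closure_list (k := 2) (enc := J4M.enc) (g := J4M.g) _
      (mk_eq_ev J4M.mem_gens J4M.letsOK) [Cfsg.Spor.J4.x, Cfsg.Spor.J4.y]
      (S := {Cfsg.Spor.J4.x, Cfsg.Spor.J4.y}) (by ext; simp) (W := [[0], [2]]) (by decide +kernel)).symm
    · refine wgrp_le fun u hu => ?_
      simp only [List.mem_cons, List.not_mem_nil, or_false] at hu
      rcases hu with rfl | rfl | rfl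
      · exact mem_wgrp _ (by simp)
      · exact mem_wgrp _ (by simp)
      · have := Subgroup.inv_mem _ (mem_wgrp J4M.g (W := [[0], [2]]) (u := [2]) (by simp))
        simp only [ev_cons, ev_nil, mul_one] at this ⊢
        rwa [← J4M.pres.inv 2] at this
    · exact wgrp_le_of_subsetB _ (by decide +kernel)
  exact ⟨(MulEquiv.subgroupCongr e.symm).trans ((MonoidHom.ofInjective hinj).symm.trans Cfsg.Agent.H16.J4F.iso)⟩

end Cfsg.Agent.S1711
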