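import Cfsg.Agent.H17.Cent5
import Cfsg.Statements.S1717

set_option autoImplicit false
open Cfsg

namespace Cfsg.Agent.S1717

/-- Let G be a finite group with an involution z whose centraliser C is isomorphic to the centraliser of a transvection of SL(5, 2). Then a Sylow 2-subgroup of C, viewed in G, is a Sylow 2-subgroup of G (its index in G is odd). -/
theorem result {G : Type*} [Group G] [Finite G] (s : Matrix.SpecialLinearGroup (Fin 5) (ZMod 2)) (hs : (s : Matrix (Fin 5) (Fin 5) (ZMod 2)) = Matrix.transvection 0 1 1) (z : G) (hz : orderOf z = 2) (e : (Subgroup.centralizer ({z} : Set G)) ≃* Subgroup.centralizer ({s} : Set (Matrix.SpecialLinearGroup (Fin 5) (ZMod 2)))) (T : Sylow 2 (Subgroup.centralizer ({z} : Set G))) : ¬ 2 ∣ ((T : Subgroup (Subgroup.centralizer ({z} : Set G))).map (Subgroup.subtype (Subgroup.centralizer ({z} : Set G)))).index := by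
  have key : ∀ x ∈ (T : Subgroup (Subgroup.centralizer ({z} : Set G))), (∀ y ∈ (T : Subgroup _),
      x * y = y * x) → (e x).1 = 1 ∨ (e x).1 = s := fun x _ h =>
    H17.eq_of_commute_ker_ρ5 hs fun y hy => by
      have h1 : ((H17.ρ5 hs).ker.comap e.toMonoidHom) ≤ T :=
        ((H17.isPGroup_ker_ρ5 hs).comap_of_injective _ e.injective).le_sylow_of_normal T
      obtain ⟨y, rfl⟩ := e.surjective y
      rw [← map_mul, ← map_mul, h y (h1 hy)]
  let z' : Subgroup.centralizer ({z} : Set G) := ⟨z, Subgroup.mem_centralizer_singleton_iff.2 rfl⟩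
  have hz' : (e z').1 = s := by
    refine (H17.eq_of_commute_ker_ρ5 hs fun y _ => ?_).resolve_left fun h => ?_
    · obtain ⟨y, rfl⟩ := e.surjective y
      rw [← map_mul, ← map_mul]
      exact congrArg e (Subtype.ext (Subgroup.mem_centralizer_singleton_iff.1 y.2).symm)
    · have := congrArg Subtype.val (e.map_eq_one_iff.1 (Subtype.ext h))
      simp [show z = 1 from this] at hz
  have := (H17.sylowIn_top_of_center hz (H3.sylowIn_map_subtype T) (by
    rintro _ ⟨x, hx, rfl⟩ h
    rcases key x hx fun y hy => Subtype.ext (h _ ⟨y, hy, rfl⟩) with h1 | h1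
    · exact Or.inl (congrArg Subtype.val (e.map_eq_one_iff.1 (Subtype.ext h1)))
    · exact Or.inr (congrArg Subtype.val (e.injective (Subtype.ext (h1.trans hz'.symm)))))).not_dvd
  rwa [Subgroup.relIndex_top_right] at this

end Cfsg.Agent.S1717
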