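import Cfsg.Statements.S1743
import Cfsg.Agent.GT.F2
import Cfsg.Agent.GT.SY
import Cfsg.Agent.GT.MD
import Cfsg.Agent.GT.TH

set_option autoImplicit false
open Cfsg

namespace Cfsg.Agent.S1743

/-- Let G be a finite simple group whose Sylow 2-subgroups are isomorphic to a Sylow 2-subgroup of the Chevalley group of type G₂ over a finite field of odd order, and let S be a Sylow 2-subgroup of G. Then either all involutions of G are conjugate, or S has order 64 and the involutions of G form exactly two conjugacy classes. -/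
theorem result {G : Type*} [Group G] [Finite G] [IsSimpleGroup G]
    {F : Type*} [Field F] [Fintype F] (hF : Odd (Fintype.card F)) (S : Sylow 2 G) (P : Sylow 2 ↥(Cfsg.Lie.chevG2.group F))
    (hS : Nonempty (↥(S : Subgroup G) ≃* ↥(P : Subgroup ↥(Cfsg.Lie.chevG2.group F)))) :
    (∀ x y : G, orderOf x = 2 → orderOf y = 2 → IsConj x y) ∨
      (Nat.card ↥(S : Subgroup G) = 64 ∧ ∃ x y : G, orderOf x = 2 ∧ orderOf y = 2 ∧ ¬ IsConj x y ∧
        ∀ z : G, orderOf z = 2 → IsConj z x ∨ IsConj z y) := by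
  obtain ⟨Θ, hΘ⟩ := GT.th hF
  obtain ⟨n, a, b, u, v, h, hn⟩ := GT.md hF Θ hΘ
  haveI : Finite ↥(Cfsg.Lie.chevG2.group F) := Nat.finite_of_card_ne_zero fun e => by
    have := GT.cardG2 hF
    rw [e, hn] at this
    simp at this
  obtain ⟨a', b', u', v', h', g, hc⟩ := GT.sy S P hS.some h (by rw [GT.cardG2 hF, hn]; ring)
  rcases GT.main h' S g with e | ⟨rfl, e⟩
  · exact Or.inl e
  · exact Or.inr ⟨hc, e⟩

end Cfsg.Agent.S1743
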