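import Cfsg.Statements.S1753
import Cfsg.Agent.H10.Basic

set_option autoImplicit false
universe u
open Cfsg

namespace Cfsg.Agent.S1753

/-- Let K be any property of groups. (1) If G is a minimal counterexample relative to K — a finite non-abelian simple group not satisfying K such that every finite non-abelian simple group of smaller order satisfies K — then every proper subgroup of G is a K-group (all its non-abelian simple sections satisfy K), since such sections have smaller order than G. (2) Consequently (induction on the order), if every finite non-abelian simple group all of whose proper subgroups are K-groups satisfies K, then every finite non-abelian simple group satisfies K. -/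
theorem result (K : ∀ (X : Type u) [Group X], Prop) :
    (∀ (G : Type u) [Group G], Cfsg.IsMinCounterexampleWith K G → Cfsg.IsKProperWith K G) ∧
      ((∀ (X : Type u) [Group X] [Finite X], IsSimpleGroup X → ¬ IsMulCommutative X → Cfsg.IsKProperWith K X → K X) →
        ∀ (G : Type u) [Group G] [Finite G], IsSimpleGroup G → ¬ IsMulCommutative G → K G) := by
  open Subgroup Cfsg.Agent.H10 in
  have h1 : ∀ (G : Type u) [Group G] [Finite G], (∀ (X : Type u) [Group X] [Finite X],
      IsSimpleGroup X → ¬ IsMulCommutative X → Nat.card X < Nat.card G → K X) →
      IsKProperWith K G := by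
    intro G _ _ h H hH L N _ hs hc
    refine h _ hs hc (lt_of_le_of_lt ?_ (card_lt_card_of_ne_top hH))
    exact (Nat.le_of_dvd Nat.card_pos (card_quotient_dvd_card N)).trans
      (Nat.le_of_dvd Nat.card_pos (card_subgroup_dvd_card L))
  refine ⟨fun G _ ⟨_, _, _, _, h⟩ => h1 G h, fun h G _ _ hs hc => ?_⟩
  have key : ∀ (n : ℕ) (G : Type u) [Group G] [Finite G], Nat.card G = n → IsSimpleGroup G →
      ¬ IsMulCommutative G → K G := by
    intro n
    induction n using Nat.strong_induction_on with
    | _ n ih =>
    intro G _ _ hn hs hc
    exact h G hs hc (h1 G fun X _ _ hs' hc' hlt => ih _ (hn ▸ hlt) X rfl hs' hc')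
  exact key _ G rfl hs hc

end Cfsg.Agent.S1753
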