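import Cfsg.Statements.S1754
import Cfsg.Agent.H10.Local2

set_option autoImplicit false
open Cfsg

namespace Cfsg.Agent.S1754

/-- Let A be a standard subgroup of the finite group G (A quasisimple, C_G(A) tightly embedded of even order, A commuting elementwise with no other conjugate of itself, and N_G(A) = N_G(C_G(A))), and let t be an involution of G centralizing A. Then the centralizer of t lies in the normalizer of A; in particular A, viewed inside C_G(t), is a component of C_G(t). -/
theorem result {G : Type*} [Group G] [Finite G]
    (A : Subgroup G) (hA : Cfsg.IsStandardSubgroup A) (t : G) (ht : orderOf t = 2) (htA : t ∈ Subgroup.centralizer (A : Set G)) :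
    Subgroup.centralizer ({t} : Set G) ≤ Subgroup.normalizer (A : Set G) ∧
      Cfsg.IsComponent (A.subgroupOf (Subgroup.centralizer ({t} : Set G))) := by
  open Subgroup Cfsg.Agent.H10 in
  have h1 : Subgroup.centralizer ({t} : Set G) ≤ Subgroup.normalizer (A : Set G) := by
    intro g hg
    rw [hA.2.2.2]
    by_contra hn
    refine Nat.not_even_iff_odd.2 (hA.2.1.2 g hn) (even_iff_two_dvd.2 (dvd_card_of_orderOf
      (x := t) ⟨htA, ?_⟩ ht))
    have := conj_mem_conj g htA
    rwa [mem_centralizer_singleton_iff.1 hg, mul_inv_cancel_right] at this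
  exact ⟨h1, (compOf_iff.1 ⟨.of_normal (le_centralizer_singleton_iff.2 htA) h1, hA.1⟩).2⟩

end Cfsg.Agent.S1754
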