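import Cfsg.Statements.S1755
import Cfsg.Agent.H10.Xsp5

set_option autoImplicit false
open Cfsg

namespace Cfsg.Agent.S1755

/-- Let G be a finite group and let z be an involution of G such that Q, the generalized Fitting subgroup of the centralizer C of z, is a 2-group of symplectic type (every characteristic abelian subgroup of Q is cyclic). Let B be a characteristic abelian subgroup of Q, viewed as a subgroup of G. Then for every g in G, the conjugate of B by g either equals B or meets B trivially. -/
theorem result {G : Type*} [Group G] [Finite G] (z : G) (hz : orderOf z = 2) (hQ : Cfsg.IsOfSymplecticType ↥(Cfsg.generalizedFittingSubgroup ↥(Subgroup.centralizer ({z} : Set G))))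
    (B : Subgroup ↥(Cfsg.generalizedFittingSubgroup ↥(Subgroup.centralizer ({z} : Set G)))) (hBc : B.Characteristic) (hBa : IsMulCommutative ↥B) (g : G) :
    ((B.map (Cfsg.generalizedFittingSubgroup ↥(Subgroup.centralizer ({z} : Set G))).subtype).map (Subgroup.centralizer ({z} : Set G)).subtype).map (MulAut.conj g).toMonoidHom =
        (B.map (Cfsg.generalizedFittingSubgroup ↥(Subgroup.centralizer ({z} : Set G))).subtype).map (Subgroup.centralizer ({z} : Set G)).subtype ∨
      ((B.map (Cfsg.generalizedFittingSubgroup ↥(Subgroup.centralizer ({z} : Set G))).subtype).map (Subgroup.centralizer ({z} : Set G)).subtype).map (MulAut.conj g).toMonoidHom ⊓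
        (B.map (Cfsg.generalizedFittingSubgroup ↥(Subgroup.centralizer ({z} : Set G))).subtype).map (Subgroup.centralizer ({z} : Set G)).subtype = ⊥ := by
  open Subgroup Cfsg.Agent.H10 in
  have : Fact (Nat.Prime 2) := ⟨Nat.prime_two⟩
  set B' := (B.map (Subgroup.subtype _)).map (Subgroup.subtype _) with hB'
  have ho : ∀ x : generalizedFittingSubgroup (centralizer ({z} : Set G)),
      orderOf x = orderOf (x : G) := fun x => by simp
  by_cases hb : B'.map (MulAut.conj g).toMonoidHom ⊓ B' = ⊥
  · exact Or.inr hb
  left
  have hB2 : IsPGroup 2 B' := ((hQ.1.to_subgroup B).map _).map _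
  obtain ⟨z1, hz1, e1⟩ := mem_FstarOf_centralizer z
  have key : ∀ x ∈ B', orderOf x = 2 → x = z := by
    rintro _ ⟨_, ⟨x, hx, rfl⟩, rfl⟩ h2
    have h3 : orderOf x = 2 := (ho x).trans h2
    have := (eq_of_symplectic hQ (z := ⟨z1, hz1⟩) ((ho _).trans ((congrArg orderOf e1).trans hz)) (mem_center_iff.mpr fun q => Subtype.ext (Subtype.ext (by
          have := mem_centralizer_singleton_iff.mp q.1.2
          simpa [← e1] using this))) hBa hx (H11.mul_self_of_orderOf_two h3)).resolve_left
      (H11.ne_one_of_orderOf_two h3)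
    rw [this]; exact e1
  obtain ⟨x, hx, hp⟩ := H1.exists_prime_orderOf_mem hb
  obtain ⟨k, hk⟩ := IsPGroup.iff_orderOf.mp hB2 ⟨x, hx.2⟩
  rw [Subgroup.orderOf_mk] at hk
  have h2 : orderOf x = 2 := (Nat.prime_dvd_prime_iff_eq hp Nat.prime_two).mp (hp.dvd_of_dvd_pow hk.dvd)
  have h3 := key _ (mem_conj_iff.mp hx.1) (by simpa [h2] using H11.orderOf_conj g⁻¹ x)
  rw [key x hx.2 h2] at h3
  have h4 : g ∈ centralizer ({z} : Set G) := mem_centralizer_singleton_iff.mpr (by
    calc g * z = g * (g⁻¹ * z * g) := by rw [h3]
      _ = _ := by group)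
  have hn : (B.map (Subgroup.subtype _)).Normal := ConjAct.normal_of_characteristic_of_normal
  exact mem_normalizer_iff_conj_eq.mp (le_normalizer_map_subtype (B.map (Subgroup.subtype _)) h4)

end Cfsg.Agent.S1755
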