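import Cfsg.Statements.S1756
import Cfsg.Agent.H26.ES3

set_option autoImplicit false
open Cfsg

namespace Cfsg.Agent.S1756

theorem aux {E : Type*} [Group E] [Finite E] (hE : IsExtraspecial 2 E) (α : MulAut E)
    (h2 : ∀ x, α (α x) = x) (C : Subgroup E) (hC : ∀ x, x ∈ C ↔ α x = x) (hi : C.index ≤ 2) :
    ∃ g, ∀ x, α x = g * x * g⁻¹ := by
  obtain ⟨n, c, hc⟩ := H26.exists_ES_of_isExtraspecial hE
  have := c.nontrivial_of_isExtraspecial hE
  by_cases h1 : C.index = 1
  · rw [Subgroup.index_eq_one] at h1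
    exact ⟨1, fun x => by simpa using (hC x).mp (h1 ▸ Subgroup.mem_top x)⟩
  have h3 : C.index = 2 := by
    have := C.index_ne_zero_of_finite
    omega
  have hQ : ∀ x, c.Q (c.π (α x)) = c.Q (c.π x) := fun x => by rw [← hc.autHom_π, hc.Q_autHom]
  have hB : ∀ x y, c.B (c.π (α x)) (c.π (α y)) = c.B (c.π x) (c.π y) := fun x y => by
    rw [← c.polar_Q, ← c.polar_Q, QuadraticMap.polar, QuadraticMap.polar, ← c.π_mul, ← c.π_mul,
      ← map_mul, hQ, hQ, hQ]
  have h4 : ∀ x, c.π (α.toMonoidHom x) = c.π x := fun x => by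
    by_cases hx : x ∈ C
    · exact congrArg c.π ((hC x).mp hx)
    have h5 : x⁻¹ * α x ∈ C := by
      rw [Subgroup.mul_mem_iff_of_index_two h3, inv_mem_iff, hC, hC, h2, eq_comm]
    set y := x⁻¹ * α x with hy
    have h6 : α x = x * y := by rw [hy, mul_inv_cancel_left]
    have h7 : y ^ 2 = 1 := by
      have := h2 x
      rw [h6, map_mul, h6, (hC y).mp h5, mul_assoc, mul_eq_left] at this
      rwa [sq]
    have h8 : c.B (c.π x) (c.π y) = 0 := by
      have := hQ x
      rw [h6, c.π_mul, c.Q_apply, c.pw_add_two, ← c.Q_apply (c.π y), c.sq_eq_one_iff.mp h7, c.Q_apply,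
        add_zero, add_eq_left] at this
      exact this
    have h9 : ∀ w ∈ C, c.B (c.π w) (c.π y) = 0 := fun w hw => by
      have := hB w x
      rwa [(hC w).mp hw, h6, c.π_mul, map_add, add_eq_left] at this
    have h10 : c.π y = 0 := hc _ fun v => by
      obtain ⟨w, rfl⟩ := c.surj v
      rw [c.B_swap, neg_eq_zero]
      by_cases hw : w ∈ C
      · exact h9 w hw
      · have := h9 (x⁻¹ * w) (by rw [Subgroup.mul_mem_iff_of_index_two h3, inv_mem_iff]; tauto)
        rwa [c.π_mul, c.π_inv, map_add, map_neg, LinearMap.add_apply, LinearMap.neg_apply, h8,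
          neg_zero, zero_add] at this
    change c.π (α x) = _
    rw [h6, c.π_mul, h10, add_zero]
  exact hc.exists_conj _ h4 (hc.map_ζ_of_π _ fun x y => by rw [h4, h4])

/-- Let Q be an extraspecial 2-subgroup of the finite group G (special with centre of order 2) and t an involution of G normalizing Q such that the centralizer of t in Q has index at most 2 in Q. Then t lies in the product of Q with the centralizer of Q. -/
theorem result {G : Type*} [Group G] [Finite G] (Q : Subgroup G)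
    (hQ : Cfsg.IsExtraspecial 2 ↥Q) (t : G) (ht : orderOf t = 2) (htN : t ∈ Subgroup.normalizer (Q : Set G))
    (hi : (Subgroup.centralizer ({t} : Set G) ⊓ Q).relIndex Q ≤ 2) :
    t ∈ Q ⊔ Subgroup.centralizer (Q : Set G) := by
  have h1 : t * t = 1 := by rw [← sq, ← ht, pow_orderOf_eq_one]
  obtain ⟨y, hy⟩ := aux hQ (Q.normalizerMonoidHom ⟨t, htN⟩) (fun x => by
      rw [← MulAut.mul_apply, ← map_mul, show (⟨t, htN⟩ * ⟨t, htN⟩ : Subgroup.normalizer (Q : Set G)) = 1
        from Subtype.ext h1, map_one, MulAut.one_apply])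
    ((Subgroup.centralizer ({t} : Set G) ⊓ Q).subgroupOf Q) (fun x => by
      rw [Subgroup.mem_subgroupOf, Subgroup.mem_inf, Subgroup.mem_centralizer_singleton_iff,
        Subtype.ext_iff, and_iff_left x.2]
      exact ⟨fun h => mul_inv_eq_iff_eq_mul.mpr h.symm, fun h => (mul_inv_eq_iff_eq_mul.mp h).symm⟩) hi
  rw [show t = y * ((y : G)⁻¹ * t) by group]
  refine mul_mem (Subgroup.mem_sup_left y.2) (Subgroup.mem_sup_right fun x hx => ?_)
  have h5 : t * x * t⁻¹ = y * x * (y : G)⁻¹ := congrArg Subtype.val (hy ⟨x, hx⟩)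
  calc x * ((y : G)⁻¹ * t) = (y : G)⁻¹ * (y * x * (y : G)⁻¹) * t := by group
    _ = _ := by rw [← h5]; group

end Cfsg.Agent.S1756
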