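import Cfsg.Statements.S1774
import Cfsg.Agent.H10.Xsp5

set_option autoImplicit false
open Cfsg

namespace Cfsg.Agent.S1774

/-- Let G be a finite group and let z be an involution of G such that Q, the generalized Fitting subgroup of the centralizer C of z, is a 2-group of symplectic type (every characteristic abelian subgroup of Q is cyclic); suppose every element of Q has order dividing 4. Let g ∈ G with z' = g z g⁻¹ ≠ z and z' ∈ Q. Then z lies in the conjugate g Q g⁻¹, and the subgroup X generated by Q and g Q g⁻¹ induces every automorphism of the four-group generated by z and z': for any two distinct non-identity elements u, v of that four-group there is x ∈ X with x z x⁻¹ = u and x z' x⁻¹ = v. -/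
theorem result {G : Type*} [Group G] [Finite G] (z : G) (hz : orderOf z = 2) (hQ : Cfsg.IsOfSymplecticType ↥(Cfsg.generalizedFittingSubgroup ↥(Subgroup.centralizer ({z} : Set G))))
    (h4 : ∀ q ∈ (Cfsg.generalizedFittingSubgroup ↥(Subgroup.centralizer ({z} : Set G))).map (Subgroup.centralizer ({z} : Set G)).subtype, q ^ 4 = 1) (g : G) (hne : g * z * g⁻¹ ≠ z) (hin : g * z * g⁻¹ ∈ (Cfsg.generalizedFittingSubgroup ↥(Subgroup.centralizer ({z} : Set G))).map (Subgroup.centralizer ({z} : Set G)).subtype) :
    z ∈ ((Cfsg.generalizedFittingSubgroup ↥(Subgroup.centralizer ({z} : Set G))).map (Subgroup.centralizer ({z} : Set G)).subtype).map (MulAut.conj g).toMonoidHom ∧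
      ∀ u ∈ Subgroup.closure ({z, g * z * g⁻¹} : Set G), ∀ v ∈ Subgroup.closure ({z, g * z * g⁻¹} : Set G),
        u ≠ 1 → v ≠ 1 → u ≠ v →
          ∃ x ∈ (Cfsg.generalizedFittingSubgroup ↥(Subgroup.centralizer ({z} : Set G))).map (Subgroup.centralizer ({z} : Set G)).subtype ⊔ ((Cfsg.generalizedFittingSubgroup ↥(Subgroup.centralizer ({z} : Set G))).map (Subgroup.centralizer ({z} : Set G)).subtype).map (MulAut.conj g).toMonoidHom, x * z * x⁻¹ = u ∧ x * (g * z * g⁻¹) * x⁻¹ = v := by
  open Subgroup Cfsg.Agent.H10 in
  obtain ⟨z1, hz1, e1⟩ := mem_FstarOf_centralizer z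
  have h0 := (symT_top_of_symplectic hQ (z := ⟨z1, hz1⟩) (fun q => Subtype.ext (Subtype.ext (by
      simpa using h4 q ⟨q, q.2, rfl⟩))) ((by simp : _ = orderOf (z1 : G)).trans ((congrArg orderOf e1).trans hz))
    (mem_center_iff.mpr fun q => Subtype.ext (Subtype.ext (by
      have := mem_centralizer_singleton_iff.mp q.1.2
      simpa [← e1] using this)))).map (f := (Subgroup.subtype _).comp (Subgroup.subtype _))
    ((Subgroup.subtype_injective _).comp (Subgroup.subtype_injective _))
  have h : SymT (FstarOf (centralizer ({z} : Set G))) z := by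
    convert h0 using 1
    · rw [← Subgroup.map_map, ← MonoidHom.range_eq_map, range_subtype]; rfl
    · exact e1.symm
  have h1 := h.mem_conj (le_normalizer_FstarOf le_normalizer) h.hF_of_fstar hin hne
  exact ⟨h1, fun u hu v hv => (Pr.mk h (h.conj g) hin h1 hne).trans u hu v hv⟩

end Cfsg.Agent.S1774
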