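import Cfsg.Statements.S1775
import Cfsg.Agent.H10.Term

set_option autoImplicit false
open Cfsg

namespace Cfsg.Agent.S1775

/-- Let G be a finite group whose generalized Fitting subgroup is a non-abelian simple group and in which every proper section (every quotient H/N of a proper subgroup H, or of G by a nontrivial normal subgroup) has the B-property. Let x, y be commuting involutions, let D be the intersection of the 2-layer of C_G(x) with C_G(y), and let J be a 2-component of D. Write Q for the quotient of C_G(y) by its largest normal odd-order subgroup. Then (i) the image of J in Q is a component of the centralizer in Q of the image of x; and (ii) for every J-invariant subgroup E of odd order of C_G(x) ∩ C_G(y), the commutator subgroup [J, E] lies in the largest normal odd-order subgroup of C_G(y). -/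
theorem result {G : Type*} [Group G] [Finite G]
    (hF : IsSimpleGroup ↥(Cfsg.generalizedFittingSubgroup G)) (hF' : ¬ IsMulCommutative ↥(Cfsg.generalizedFittingSubgroup G))
    (hsec : ∀ (H : Subgroup G) (N : Subgroup ↥H) [N.Normal], (H ≠ ⊤ ∨ N ≠ ⊥) → Cfsg.HasBProperty (↥H ⧸ N))
    (x y : G) (hx : orderOf x = 2) (hy : orderOf y = 2) (hxy : x * y = y * x)
    (J : Subgroup ↥((Cfsg.pLayer 2 ↥(Subgroup.centralizer ({x} : Set G))).map (Subgroup.centralizer ({x} : Set G)).subtype ⊓ Subgroup.centralizer ({y} : Set G)))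
    (hJ : Cfsg.IsPComponent 2 J) :
    Cfsg.IsComponent
        ((((J.map (Subgroup.subtype _)).subgroupOf (Subgroup.centralizer ({y} : Set G))).map (QuotientGroup.mk' (Cfsg.oddCore ↥(Subgroup.centralizer ({y} : Set G))))).subgroupOf
          (Subgroup.centralizer ({(QuotientGroup.mk' (Cfsg.oddCore ↥(Subgroup.centralizer ({y} : Set G))) ⟨x, Subgroup.mem_centralizer_singleton_iff.mpr hxy⟩ : ↥(Subgroup.centralizer ({y} : Set G)) ⧸ Cfsg.oddCore ↥(Subgroup.centralizer ({y} : Set G)))} : Set _))) ∧
      ∀ E : Subgroup G, E ≤ Subgroup.centralizer ({x} : Set G) ⊓ Subgroup.centralizer ({y} : Set G) → Odd (Nat.card ↥E) →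
        (∀ j ∈ J.map (Subgroup.subtype _), ∀ e ∈ E, j * e * j⁻¹ ∈ E) →
          ⁅J.map (Subgroup.subtype _), E⁆ ≤ (Cfsg.oddCore ↥(Subgroup.centralizer ({y} : Set G))).map (Subgroup.centralizer ({y} : Set G)).subtype := by
  open Subgroup Cfsg.Agent.H10 in
  haveI : Fact (Nat.Prime 2) := ⟨Nat.prime_two⟩
  have hxC : x ∈ centralizer ({y} : Set G) := mem_centralizer_singleton_iff.mpr hxy
  have hC : centralizer ({y} : Set G) ≠ ⊤ := fun e => by
    have h1 : zpowers y ≤ center G := zpowers_le.2 (mem_center_iff.2 fun g =>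
      mem_centralizer_singleton_iff.1 (e ▸ mem_top g))
    haveI : (zpowers y).Normal := ⟨fun n hn g => by
      rwa [mem_center_iff.1 (h1 hn) g, mul_inv_cancel_right]⟩
    have h2 : zpowers y ≤ generalizedFittingSubgroup G :=
      (le_pCore (isPGroup_zpowers hy)).trans ((pCore_le_fitting 2).trans le_sup_right)
    rcases hF.eq_bot_or_eq_top_of_normal ((zpowers y).subgroupOf _) inferInstance with h | h
    · rw [subgroupOf_eq_bot, disjoint_iff, inf_eq_left.2 h2, zpowers_eq_bot] at h
      exact ne_one_of_orderOf hy h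
    · rw [subgroupOf_eq_top] at h
      exact hF' (isMulCommutative_of_forall fun a ha b _ => (mem_center_iff.1 (h1 (h ha)) b).symm)
  have hB := hsec _ (oddCore _) (Or.inl hC)
  let f := QuotientGroup.mk' (pPrimeCore 2 (centralizer ({y} : Set G)))
  have hf : Function.Surjective f := QuotientGroup.mk'_surjective _
  have hk : kr f = OqOf 2 (centralizer ({y} : Set G)) := kr_mk'_pPrimeCore
  have hc : ∀ U : Subgroup G, (Nat.card ↥(U ⊓ kr f)).Coprime 2 := fun U =>
    coprime_card_of_le inf_le_right (hk ▸ OqOf_coprime)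
  have h1 : PCompOf 2 (J.map (Subgroup.subtype _))
      (centralizer ({y} : Set G) ⊓ centralizer ({x} : Set G)) := by
    rw [inf_comm (centralizer ({y} : Set G))]
    exact (pcompOf_map_subtype_iff.2 hJ).trans (PLayOf_subnormalIn.inf_right _)
  have h2 := h1.im (f := f) inf_le_left (hc _)
  have h3 : im f (centralizer ({y} : Set G) ⊓ centralizer ({x} : Set G)) =
      centralizer ({f ⟨x, hxC⟩} : Set _) := by
    rw [← centralizer_zpowers x, im_centralizer_of_isPGroup hf (zpowers_le.2 hxC)
      (isPGroup_zpowers hx) (hk ▸ OqOf_coprime), im_zpowers hxC, centralizer_zpowers]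
  rw [h3] at h2
  have hx' : orderOf (f ⟨x, hxC⟩) = 2 := orderOf_eq_of_pow (by
    rw [← map_pow, ← map_one f]; congr 1; exact Subtype.ext (hx ▸ pow_orderOf_eq_one x)) fun e =>
      not_dvd_of_coprime (hk ▸ OqOf_coprime) (dvd_card_of_orderOf ((mem_kr hxC).2 e) hx)
  have h4 := hB _ hx'
  rw [map_commutator] at h4
  have h5 : CompOf _ _ := h2.compOf_iff.2 (commutator_eq_bot_comm (commutator_eq_bot_mono
    (eq_bot_iff.2 (h4.trans (pPrimeCore_quotient_pPrimeCore 2 _).le)) h2.le_PLayOf
    h2.subnormalIn.OqOf_le))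
  refine ⟨(compOf_iff.1 h5).2, fun E hE hodd hn => ?_⟩
  have hEC : E ≤ centralizer ({y} : Set G) := hE.trans inf_le_right
  refine le_trans ?_ hk.le
  rw [← commutator_im_eq_bot_iff (h1.le.trans inf_le_left) hEC]
  refine (h5.le_or_of_normalizes (h3 ▸ im_mono (by rwa [inf_comm])) (im_le_normalizer
    fun j hj => mem_normalizer_of_conj_le (hn j hj))).resolve_left
    (h2.pqs.not_le_coprime (coprime_im hEC (Nat.coprime_two_right.2 hodd)))

end Cfsg.Agent.S1775
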