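import Cfsg.Statements.S1780
import Cfsg.Agent.H10.TI
import Cfsg.Agent.H21.Hol

set_option autoImplicit false
open Cfsg

namespace Cfsg.Agent.S1780

/-- Let A be a finite abelian 2-group and t an automorphism of A whose order is a power of 2. If every element of A fixed by t² is fixed by t, then t fixes every element of A. -/
theorem result {A : Type*} [CommGroup A] [Finite A]
    (hA : IsPGroup 2 A) (t : MulAut A) (ht : ∃ k : ℕ, orderOf t = 2 ^ k) (hC : ∀ a : A, t (t a) = a → t a = a) :
    ∀ a : A, t a = a := by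
  open Subgroup Cfsg.Agent.H10 in
  open Cfsg.Agent.H21 in
  set φ := MonoidHom.id (MulAut A) with hφ
  have h := cent_of_cent_sq (B := (⊤ : Subgroup A).map (Hol.l φ)) (a := Hol.r φ t)
    ((hA.to_subgroup ⊤).map _) (map_le_centralizer_map (le_centralizer _) _) (by
      obtain ⟨k, hk⟩ := ht
      refine IsPGroup.of_card (n := k) ?_
      rw [Nat.card_zpowers, orderOf_injective _ (Hol.r_inj φ), hk])
    (Hol.le_norm_top ⊤ ⟨t, mem_top _, rfl⟩) (by
      rintro _ ⟨b, -, rfl⟩ hb
      rw [← map_mul] at hb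
      exact ((Hol.comm_iff φ).mpr (hC b ((Hol.comm_iff φ).mp hb.symm))).symm)
  exact fun a => (Hol.comm_iff φ).mp (h _ ⟨a, mem_top _, rfl⟩)

end Cfsg.Agent.S1780
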