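import Cfsg.Statements.S1781
import Cfsg.Agent.H10.TI

set_option autoImplicit false
open Cfsg

namespace Cfsg.Agent.S1781

/-- Let A be an abelian 2-subgroup of the finite group G such that every conjugate of A equals A or meets A trivially, and let g ∈ G with g A g⁻¹ ≠ A. Then either the subgroup of those elements of A that normalize g A g⁻¹ is an elementary abelian 2-group, or A and g A g⁻¹ commute elementwise. -/
theorem result {G : Type*} [Group G] [Finite G] (A : Subgroup G)
    (hA2 : IsPGroup 2 ↥A) (hAa : IsMulCommutative ↥A)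
    (hti : ∀ h : G, A.map (MulAut.conj h).toMonoidHom = A ∨ A.map (MulAut.conj h).toMonoidHom ⊓ A = ⊥)
    (g : G) (hg : A.map (MulAut.conj g).toMonoidHom ≠ A) :
    Cfsg.IsElementaryAbelian 2 (A ⊓ Subgroup.normalizer ((A.map (MulAut.conj g).toMonoidHom : Subgroup G) : Set G)) ∨
      ⁅A, A.map (MulAut.conj g).toMonoidHom⁆ = ⊥ := by
  open Subgroup Cfsg.Agent.H10 in
  set B := A.map (MulAut.conj g).toMonoidHom with hB
  have hBA : B ⊓ A = ⊥ := (hti g).resolve_left hg
  have hB2 : IsPGroup 2 B := hA2.map _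
  by_cases h : ∀ a ∈ A ⊓ normalizer (B : Set G), a ^ 2 = 1
  · exact Or.inl ⟨⟨⟨fun a b => Subtype.ext (setLike_mul_comm a.2.1 b.2.1)⟩⟩, h⟩
  right
  push Not at h
  obtain ⟨a, ha, ha2⟩ := h
  replace ha := mem_inf.mp ha
  have ha1 : a ≠ 1 := fun e => ha2 (by rw [e, one_pow])
  have h1 : a ∈ centralizer (B : Set G) := by
    refine cent_of_cent_sq hB2 (le_centralizer B) (hA2.to_le (zpowers_le.mpr ha.1)) ha.2
      fun b hb hab => ?_
    have h2 : b ∈ normalizer (A : Set G) := TIAt.mem_normalizer_of_comm (hti b) (mul_mem ha.1 ha.1)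
      (by rwa [← pow_two]) hab.symm
    have h3 : a * b * a⁻¹ * b⁻¹ ∈ B ⊓ A := by
      refine mem_inf.mpr ⟨mul_mem ((mem_normalizer_iff.mp ha.2 b).mp hb) (inv_mem hb), ?_⟩
      have := mul_mem ha.1 ((mem_normalizer_iff.mp h2 a⁻¹).mp (inv_mem ha.1))
      simpa only [mul_assoc] using this
    rwa [hBA, mem_bot, mul_inv_eq_one, mul_inv_eq_iff_eq_mul] at h3
  refine ti_commutator_eq_bot hA2 hB2 (fun x _ => ?_) (card_conj A g).ge (by rwa [inf_comm])
    fun b hb => TIAt.mem_normalizer_of_comm (hti b) ha.1 ha1 (h1 b hb)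
  rcases hti (g⁻¹ * x * g) with e | e
  · left
    rw [hB, conj_conj, show x * g = g * (g⁻¹ * x * g) by group, ← conj_conj, e]
  · right
    rw [hB, conj_conj, show x * g = g * (g⁻¹ * x * g) by group, ← conj_conj,
      ← Subgroup.map_inf _ _ _ (conj_injective g), e, Subgroup.map_bot]

end Cfsg.Agent.S1781
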