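import Cfsg.Statements.S1782
import Cfsg.Agent.H10.TI
import Cfsg.Agent.H9.Stab
import Cfsg.Agent.H11.Klein

set_option autoImplicit false
open Cfsg

namespace Cfsg.Agent.S1782

/-- Let S be a finite 2-group and Δ a set of subgroups of S closed under conjugation by S, all of the same order, each with nontrivial Frattini subgroup, and such that two distinct members of Δ meet trivially. Then any two distinct members of Δ commute elementwise. -/
theorem result {S : Type*} [Group S] [Finite S] (hS : IsPGroup 2 S)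
    (Δ : Set (Subgroup S)) (hinv : ∀ s : S, ∀ R ∈ Δ, R.map (MulAut.conj s).toMonoidHom ∈ Δ)
    (hΦ : ∀ R ∈ Δ, frattini ↥R ≠ ⊥) (hord : ∀ R ∈ Δ, ∀ T ∈ Δ, Nat.card ↥R = Nat.card ↥T)
    (hti : ∀ R ∈ Δ, ∀ T ∈ Δ, R = T ∨ R ⊓ T = ⊥) :
    ∀ R ∈ Δ, ∀ T ∈ Δ, R ≠ T → ⁅R, T⁆ = ⊥ := by
  open Subgroup Cfsg.Agent.H10 in
  intro R hR T hT hne
  refine ti_family_comm (S := ⊤) (hS.to_subgroup ⊤) (fun s _ => hinv s) (fun U hU => ?_) hord hti
    hR hT le_top le_top hne
  by_contra h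
  push Not at h
  have h1 : IsElementaryAbelian 2 U :=
    ⟨⟨⟨fun a b => Subtype.ext (H11.comm_of_sq_eq_one h a.2 b.2)⟩⟩,
      fun a ha => by rw [pow_two]; exact h a ha⟩
  have h2 := H9.isEA_iff_phiOf_eq_bot.mp h1
  rw [H9.phiOf_eq_frattini (hS.to_subgroup U),
    Subgroup.map_eq_bot_iff_of_injective _ U.subtype_injective] at h2
  exact hΦ U hU h2

end Cfsg.Agent.S1782
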