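import Cfsg.Statements.S1783
import Cfsg.Agent.H10.Xsp5
import Cfsg.Agent.H10.TI

set_option autoImplicit false
open Cfsg

namespace Cfsg.Agent.S1783

/-- Let X be a finite group whose generalized Fitting subgroup equals its largest normal 2-subgroup Q, and let A be an abelian 2-subgroup of X such that every conjugate of A equals A or meets A trivially. Let B be the subgroup generated by the squares of the elements of A. Then B lies in Q, and if B is not an elementary abelian 2-group then the normal closure of B in X is commutative. -/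
theorem result {X : Type*} [Group X] [Finite X]
    (hX : Cfsg.generalizedFittingSubgroup X = Cfsg.pCore 2 X) (A : Subgroup X) (hA2 : IsPGroup 2 ↥A) (hAa : IsMulCommutative ↥A)
    (hti : ∀ h : X, A.map (MulAut.conj h).toMonoidHom = A ∨ A.map (MulAut.conj h).toMonoidHom ⊓ A = ⊥) :
    Subgroup.closure ((fun a : X => a ^ 2) '' (A : Set X)) ≤ Cfsg.pCore 2 X ∧
      (¬ Cfsg.IsElementaryAbelian 2 (Subgroup.closure ((fun a : X => a ^ 2) '' (A : Set X))) →
        IsMulCommutative ↥(Subgroup.normalClosure ((fun a : X => a ^ 2) '' (A : Set X)))) := by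
  open Subgroup Cfsg.Agent.H10 in
  have : Fact (Nat.Prime 2) := ⟨Nat.prime_two⟩
  have hti' : ∀ g k : X, A.map (MulAut.conj g).toMonoidHom = A.map (MulAut.conj k).toMonoidHom ∨
      A.map (MulAut.conj g).toMonoidHom ⊓ A.map (MulAut.conj k).toMonoidHom = ⊥ := by
    intro g k
    rcases hti (k⁻¹ * g) with e | e
    · left
      rw [show g = k * (k⁻¹ * g) by group, ← conj_conj, e]
    · right
      rw [show g = k * (k⁻¹ * g) by group, ← conj_conj,
        ← Subgroup.map_inf _ _ _ (conj_injective k), e, Subgroup.map_bot]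
  have hF : FstarOf (⊤ : Subgroup X) = pCore 2 X := by rw [FstarOf_top, hX]
  have hQ2 := pCore_isPGroup' 2 X
  have h1 : closure ((fun a : X => a ^ 2) '' (A : Set X)) ≤ pCore 2 X := by
    refine (closure_le _).mpr ?_
    rintro _ ⟨a, ha, rfl⟩
    by_cases ha2 : a * a = 1
    · simp only [pow_two, ha2]; exact one_mem _
    have key : ∀ q ∈ pCore 2 X, ∀ x ∈ A, ∀ y ∈ A, x * (q * y * q⁻¹) = q * y * q⁻¹ * x := by
      intro q hq x hx y hy
      by_cases e : A = A.map (MulAut.conj q).toMonoidHom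
      · exact setLike_mul_comm hx (e ▸ conj_mem_conj q hy)
      have := ti_family_comm (Δ := {R | ∃ g, R = A.map (MulAut.conj g).toMonoidHom})
        (S := A ⊔ pCore 2 X) (IsPGroup.to_sup_of_normal_right hA2 hQ2)
        (by rintro s - _ ⟨g, rfl⟩; exact ⟨s * g, conj_conj _ _ _⟩)
        (by
          rintro _ ⟨g, rfl⟩
          refine ⟨_, conj_mem_conj g ha, fun e => ha2 ?_⟩
          rw [conj_mul] at e
          simpa using e)
        (by rintro _ ⟨g, rfl⟩ _ ⟨k, rfl⟩; rw [card_conj, card_conj])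
        (by rintro _ ⟨g, rfl⟩ _ ⟨k, rfl⟩; exact hti' g k)
        ⟨1, (conj_one A).symm⟩ ⟨q, rfl⟩ le_sup_left
        (conj_le_of_mem le_sup_left (le_normalizer (mem_sup_right hq))) e
      exact (commutator_eq_bot_iff_le_centralizer.mp this hx _ (conj_mem_conj q hy)).symm
    show a ^ 2 ∈ pCore 2 X
    rw [← hF]
    refine mem_FstarOf_of_frattini (p := 2) (hF ▸ hQ2) (mem_top _) fun q hq => ?_
    have e1 : a ^ 2 * q * (a ^ 2)⁻¹ * q⁻¹ = (a * q * a⁻¹ * q⁻¹) ^ 2 := by
      have := key q (hF ▸ hq) a ha a⁻¹ (inv_mem ha)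
      calc _ = a * (a * (q * a⁻¹ * q⁻¹)) * (q * a⁻¹ * q⁻¹) := by rw [pow_two]; group
        _ = _ := by rw [this, pow_two]; group
    rw [commutatorElement_def, e1]
    refine H1.pow_mem_map_frattini (hF ▸ hQ2) (mul_mem ?_ (inv_mem hq))
    rw [hF] at hq ⊢
    exact Subgroup.Normal.conj_mem inferInstance q hq a
  refine ⟨h1, fun hB => ?_⟩
  set B := closure ((fun a : X => a ^ 2) '' (A : Set X)) with hBd
  have hBA : B ≤ A := (closure_le _).mpr (by rintro _ ⟨a, ha, rfl⟩; exact pow_mem ha 2)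
  have hBc : IsMulCommutative B := ⟨⟨fun a b => Subtype.ext (setLike_mul_comm (hBA a.2) (hBA b.2))⟩⟩
  obtain ⟨b, hb, hb2⟩ : ∃ b ∈ B, b * b ≠ 1 := by
    by_contra hc
    push Not at hc
    exact hB ⟨hBc, fun b hb => by rw [pow_two, hc b hb]⟩
  have hAB : ∀ g : X, A.map (MulAut.conj g).toMonoidHom = A → B.map (MulAut.conj g).toMonoidHom = B := by
    intro g hg
    refine mem_normalizer_iff_conj_eq.mp (mem_normalizer_of_conj_le fun x hx => ?_)
    have : B.map (MulAut.conj g).toMonoidHom ≤ B := by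
      rw [hBd, MonoidHom.map_closure]
      refine closure_mono ?_
      rintro _ ⟨_, ⟨a, ha, rfl⟩, rfl⟩
      exact ⟨g * a * g⁻¹, hg ▸ conj_mem_conj g ha, by simp⟩
    exact this (conj_mem_conj g hx)
  have key : ∀ g k : X, ∀ x ∈ B, ∀ y ∈ B, g * x * g⁻¹ * (k * y * k⁻¹) = k * y * k⁻¹ * (g * x * g⁻¹) := by
    intro g k x hx y hy
    by_cases e : B.map (MulAut.conj g).toMonoidHom = B.map (MulAut.conj k).toMonoidHom
    · exact setLike_mul_comm (e ▸ conj_mem_conj g hx) (conj_mem_conj k hy)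
    have := ti_family_comm (Δ := {R | ∃ g, R = B.map (MulAut.conj g).toMonoidHom})
      (S := pCore 2 X) hQ2
      (by rintro s - _ ⟨g, rfl⟩; exact ⟨s * g, conj_conj _ _ _⟩)
      (by
        rintro _ ⟨g, rfl⟩
        refine ⟨_, conj_mem_conj g hb, fun e => hb2 ?_⟩
        rw [conj_mul] at e
        simpa using e)
      (by rintro _ ⟨g, rfl⟩ _ ⟨k, rfl⟩; rw [card_conj, card_conj])
      (by
        rintro _ ⟨g, rfl⟩ _ ⟨k, rfl⟩
        rcases hti (k⁻¹ * g) with e | e
        · left
          rw [show g = k * (k⁻¹ * g) by group, ← conj_conj, hAB _ e]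
        · right
          have e' : B.map (MulAut.conj (k⁻¹ * g)).toMonoidHom ⊓ B = ⊥ :=
            eq_bot_iff.mpr (e ▸ inf_le_inf (map_mono hBA) hBA)
          rw [show g = k * (k⁻¹ * g) by group, ← conj_conj,
            ← Subgroup.map_inf _ _ _ (conj_injective k), e', Subgroup.map_bot])
      ⟨g, rfl⟩ ⟨k, rfl⟩ (conj_le_of_mem h1 (by rw [normalizer_eq_top]; trivial))
      (conj_le_of_mem h1 (by rw [normalizer_eq_top]; trivial)) e
    exact (commutator_eq_bot_iff_le_centralizer.mp this (conj_mem_conj g hx) _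
      (conj_mem_conj k hy)).symm
  refine isMulCommutative_closure fun x hx y hy => ?_
  obtain ⟨a, ha, e1⟩ := Group.mem_conjugatesOfSet_iff.mp hx
  obtain ⟨c, hc, e2⟩ := Group.mem_conjugatesOfSet_iff.mp hy
  obtain ⟨g, rfl⟩ := isConj_iff.mp e1
  obtain ⟨k, rfl⟩ := isConj_iff.mp e2
  exact key g k a (subset_closure ha) c (subset_closure hc)

end Cfsg.Agent.S1783
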