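import Cfsg.Statements.S1784
import Cfsg.Agent.H10.Xsp4

set_option autoImplicit false
open Cfsg

namespace Cfsg.Agent.S1784

section
open Subgroup Cfsg.Agent.H10
open scoped commutatorElement Pointwise

theorem aux {G : Type*} [Group G] [Finite G] {Q : Subgroup G} {z α : G} (h : LX Q z)
    (hα : α * α = 1) (hc : α * z = z * α) (hαQ : α ∉ Q) (Q₀ : Subgroup G)
    (hQ₀ : ∀ q : G, q ∈ Q₀ ↔ (q ∈ Q ∧ α * q * α⁻¹ * q⁻¹ ∈ zpowers z)) :
    closure ((fun q : G => α * q * α⁻¹ * q⁻¹) '' (Q : Set G)) = (center ↥Q₀).map Q₀.subtype ∧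
      (¬ Q₀ ≤ (Q ⊓ centralizer ({α} : Set G)) ⊔ zpowers z → ∃ q ∈ Q, q * α * q⁻¹ = α * z) := by
  have hi : α⁻¹ = α := inv_eq_of_mul_eq_one_right hα
  constructor
  · set K := closure ((fun q : G => α * q * α⁻¹ * q⁻¹) '' (Q : Set G)) with hK
    have hKQ : K ≤ Q := (closure_le _).mpr (by rintro _ ⟨p, hp, rfl⟩; exact h.comm_mem' hc hp)
    have h0 : Q₀ = Q ⊓ centralizer (K : Set G) := by
      ext u
      rw [hQ₀, mem_inf, hK, centralizer_closure]
      refine and_congr_right fun hu => ⟨fun e => ?_, fun e => h.zc _ (h.comm_mem' hc hu) fun p hp => ?_⟩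
      · rintro _ ⟨p, hp, rfl⟩
        refine ((h.cent_comm_iff (h.mem_normalizer hc) hu hp).mpr ?_).symm
        rw [hi]
        exact h.comm_of_mem_z e (h.cent p hp)
      · have := (h.cent_comm_iff (h.mem_normalizer hc) hu hp).mp (e _ ⟨p, hp, rfl⟩).symm
        rwa [hi] at this
    have hK0 : K ≤ Q₀ := (closure_le _).mpr (by
      rintro _ ⟨p, hp, rfl⟩
      have e1 := h.comm_mem' hc hp
      refine (hQ₀ _).mpr ⟨e1, ?_⟩
      have : α * (α * p * α⁻¹ * p⁻¹) * α⁻¹ = (α * p * α⁻¹ * p⁻¹)⁻¹ := by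
        simp only [hi, mul_inv_rev, inv_inv, ← mul_assoc, hα, one_mul]
      rw [this, ← mul_inv_rev]
      exact inv_mem (h.sq _ e1))
    have hzK : z ∈ K := by
      obtain ⟨p, hp, hpz⟩ : ∃ p ∈ Q, ⁅α, p⁆ ∉ zpowers z := by
        by_contra e
        push Not at e
        exact hαQ (h.hF α hc e)
      obtain ⟨q, hq, e⟩ := h.exists_ne_comm (h.comm_mem' hc hp) hpz
      have e1 := h.conj_eq_of_ne hq (h.comm_mem' hc hp) e
      have e2 : z = ⁅α, q⁆⁻¹ * ⁅α, q * p⁆ * ⁅α, p⁆⁻¹ := by
        rw [eq_mul_inv_iff_mul_eq, ← e1]; simp only [commutatorElement_def]; group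
      rw [e2]
      exact mul_mem (mul_mem (inv_mem (subset_closure ⟨q, hq, rfl⟩))
        (subset_closure ⟨_, mul_mem hq hp, rfl⟩)) (inv_mem (subset_closure ⟨p, hp, rfl⟩))
    rw [center_map_subtype]
    refine le_antisymm (le_inf hK0 (le_centralizer_iff.mp (h0 ▸ inf_le_right))) ?_
    rw [h0]
    exact (inf_le_inf_right _ inf_le_left).trans ((h.dc' hKQ).trans
      (sup_le le_rfl (Subgroup.zpowers_le.mpr hzK)))
  · intro hn
    obtain ⟨q, hq, hq'⟩ := SetLike.not_le_iff_exists.mp hn
    obtain ⟨h1, h2⟩ := (hQ₀ q).mp hq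
    refine ⟨q, h1, ?_⟩
    rcases h.mem_z.mp h2 with e | e
    · exact (hq' (mem_sup_left ⟨h1, mem_centralizer_singleton_iff.mpr
        (commutatorElement_eq_one_iff_mul_comm.mp e).symm⟩)).elim
    · rw [← e, hi, ← mul_assoc, ← mul_assoc, ← mul_assoc, hα, one_mul]

end

/-- Let G be a finite group and let z be an involution of G such that Q, the generalized Fitting subgroup of the centralizer C of z, is a 2-group of symplectic type (every characteristic abelian subgroup of Q is cyclic); suppose Q is extraspecial, and view Q inside G. Let α be an involution of C that is not in Q, and let Q₀ be the subgroup of those q ∈ Q whose commutator with α lies in the subgroup generated by z. Then (a) the subgroup generated by the commutators α q α⁻¹ q⁻¹, q ∈ Q, equals the centre of Q₀; and (b) if Q₀ is not contained in the product of the centralizer of α in Q with the subgroup generated by z, then some element of Q conjugates α to α z. -/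
theorem result {G : Type*} [Group G] [Finite G] (z : G) (hz : orderOf z = 2) (hQ : Cfsg.IsOfSymplecticType ↥(Cfsg.generalizedFittingSubgroup ↥(Subgroup.centralizer ({z} : Set G)))) (hE : Cfsg.IsExtraspecial 2 ↥(Cfsg.generalizedFittingSubgroup ↥(Subgroup.centralizer ({z} : Set G))))
    (α : G) (hα : orderOf α = 2) (hαC : α ∈ Subgroup.centralizer ({z} : Set G)) (hαQ : α ∉ (Cfsg.generalizedFittingSubgroup ↥(Subgroup.centralizer ({z} : Set G))).map (Subgroup.centralizer ({z} : Set G)).subtype)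
    (Q₀ : Subgroup G) (hQ₀ : ∀ q : G, q ∈ Q₀ ↔ (q ∈ (Cfsg.generalizedFittingSubgroup ↥(Subgroup.centralizer ({z} : Set G))).map (Subgroup.centralizer ({z} : Set G)).subtype ∧ α * q * α⁻¹ * q⁻¹ ∈ Subgroup.zpowers z)) :
    Subgroup.closure ((fun q : G => α * q * α⁻¹ * q⁻¹) '' ((Cfsg.generalizedFittingSubgroup ↥(Subgroup.centralizer ({z} : Set G))).map (Subgroup.centralizer ({z} : Set G)).subtype : Set G)) = (Subgroup.center ↥Q₀).map Q₀.subtype ∧
      (¬ Q₀ ≤ ((Cfsg.generalizedFittingSubgroup ↥(Subgroup.centralizer ({z} : Set G))).map (Subgroup.centralizer ({z} : Set G)).subtype ⊓ Subgroup.centralizer ({α} : Set G)) ⊔ Subgroup.zpowers z →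
        ∃ q ∈ (Cfsg.generalizedFittingSubgroup ↥(Subgroup.centralizer ({z} : Set G))).map (Subgroup.centralizer ({z} : Set G)).subtype, q * α * q⁻¹ = α * z) := by
  open Subgroup Cfsg.Agent.H10 in
  exact aux (lx_of_fstar hz rfl (by
    rw [FstarOf_def]
    obtain ⟨y, hy, -⟩ := exists_xs (G := centralizer ({z} : Set G)) hE
    exact (hy.map (Subgroup.subtype_injective _)).isExtraspecial))
    (H11.mul_self_of_orderOf_two hα) (mem_centralizer_singleton_iff.mp hαC) hαQ Q₀ hQ₀

end Cfsg.Agent.S1784
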