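import Cfsg.Statements.S1785
import Cfsg.Agent.H10.Xsp5
import Cfsg.Agent.H10.Dih
import Cfsg.Agent.H11.Sig

set_option autoImplicit false
open Cfsg

namespace Cfsg.Agent.S1785

section
open Subgroup Cfsg.Agent.H10
open scoped commutatorElement Pointwise

theorem card_le_pow {X : Type*} [Group X] [Finite X] {A : Subgroup X}
    (hA : IsElementaryAbelian 2 A) (j : ℕ) : ∀ E A0 : Subgroup X, (∀ e ∈ E, e * e = 1) →
      A ≤ normalizer (E : Set X) → A0 ≤ A → A0 ≤ centralizer (E : Set X) →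
      Nat.card A = Nat.card A0 * 2 ^ j →
      Nat.card E ≤ Nat.card ↥(E ⊓ centralizer (A : Set X)) ^ 2 ^ j := by
  have : Fact (Nat.Prime 2) := ⟨Nat.prime_two⟩
  induction j with
  | zero =>
    intro E A0 _ _ h1 h2 h3
    rw [eq_of_le_of_card_le h1 (by simp [h3])] at h2
    rw [inf_eq_left.mpr (le_centralizer_iff.mp h2)]
    simp
  | succ j ih =>
    intro E A0 hE hn h1 h2 h3
    obtain ⟨t, ht, ht0⟩ : ∃ t ∈ A, t ∉ A0 := by
      by_contra hc
      push Not at hc
      have := card_le_of_le (show A ≤ A0 from hc)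
      have h4 : 0 < Nat.card A0 := Nat.card_pos
      have h5 : 1 < 2 ^ (j + 1) := Nat.one_lt_two_pow (by omega)
      rw [h3] at this
      nlinarith
    have hAt : A ≤ centralizer ({t} : Set X) := fun a ha =>
      mem_centralizer_singleton_iff.mpr (ea2_comm hA ha ht)
    have h4 := ih (E ⊓ centralizer {t}) (A0 ⊔ zpowers t) (fun e he => hE e he.1)
      (le_normalizer_inf hn (hAt.trans le_normalizer))
      (sup_le h1 (Subgroup.zpowers_le.mpr ht))
      (sup_le (h2.trans (centralizer_anti inf_le_left)) (Subgroup.zpowers_le.mpr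
        fun e he => mem_centralizer_singleton_iff.mp he.2)) (by
        rw [H3.card_sup_zpowers (p := 2) (centralizer_le_normalizer _
          fun a ha => ea2_comm hA (h1 ha) ht) ht0 (by rw [hA.2 t ht]; exact one_mem _), h3]
        ring)
    have h5 : E ⊓ centralizer {t} ⊓ centralizer (A : Set X) = E ⊓ centralizer (A : Set X) := by
      rw [inf_assoc, inf_eq_right.mpr (centralizer_le (by simpa using ht))]
    rw [h5] at h4
    refine (H11.card_le_sq_of_invol hE (ea2_mul_self hA ht) (hn ht)).trans ?_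
    rw [pow_succ 2 j, pow_mul]
    exact Nat.pow_le_pow_left h4 2

theorem exists_new {X : Type*} [Group X] [Finite X] {E A : Subgroup X} [E.Normal]
    (hE : IsElementaryAbelian 2 E) (h32 : 32 ≤ Nat.card E) (hA : IsElementaryAbelian 2 A)
    (h8 : Nat.card A ∣ 2 ^ 3) : ∃ e ∈ E, e ∈ centralizer (A : Set X) ∧ e ∉ A := by
  by_contra hc
  push Not at hc
  obtain ⟨n, hn, e1⟩ := (Nat.dvd_prime_pow Nat.prime_two).mp h8
  obtain ⟨i, hi, e2⟩ := (Nat.dvd_prime_pow Nat.prime_two).mp
    (e1 ▸ card_dvd_of_le (inf_le_left : A ⊓ E ≤ A))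
  have h1 := card_le_pow hA (n - i) E (A ⊓ E) (fun e he => ea2_mul_self hE he)
    (by rw [normalizer_eq_top]; exact le_top) inf_le_left
    (fun a ha e he => ea2_comm hE he ha.2) (by rw [e1, e2, ← pow_add]; congr 1; omega)
  have h2 : Nat.card ↥(E ⊓ centralizer (A : Set X)) ≤ 2 ^ i :=
    e2 ▸ card_le_of_le fun x hx => ⟨hc x hx.1 hx.2, hx.1⟩
  have h3 := h32.trans (h1.trans (Nat.pow_le_pow_left h2 _))
  interval_cases n <;> interval_cases i <;> simp at h3

theorem ea_sup {X : Type*} [Group X] [Finite X] {A : Subgroup X} {e : X}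
    (hA : IsElementaryAbelian 2 A) (h1 : e * e = 1) (h2 : e ∈ centralizer (A : Set X))
    (h3 : e ∉ A) :
    IsElementaryAbelian 2 (A ⊔ zpowers e) ∧ Nat.card ↥(A ⊔ zpowers e) = 2 * Nat.card A := by
  have : Fact (Nat.Prime 2) := ⟨Nat.prime_two⟩
  have hn := centralizer_le_normalizer _ h2
  refine ⟨H11.isElementaryAbelian_of_sq fun x hx => ?_,
    H3.card_sup_zpowers hn h3 (by rw [pow_two, h1]; exact one_mem _)⟩
  obtain ⟨a, ha, k, rfl⟩ := (H3.mem_sup_zpowers_iff hn).mp hx
  have : Commute a (e ^ k) := Commute.zpow_right (h2 a ha) k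
  rw [mul_assoc, ← mul_assoc (e ^ k), ← this.eq, mul_assoc, ← mul_assoc, ea2_mul_self hA ha,
    ← (Commute.refl e).mul_zpow, h1]
  simp

end

/-- Let X be a finite 2-group having a normal elementary abelian subgroup of order at least 32. Then (a) for any two elementary abelian subgroups A, B of X of order 8 there is a chain A = A₁, A₂, …, Aₙ = B of elementary abelian subgroups of order 8 in which consecutive members commute elementwise; and (b) every elementary abelian subgroup of X of order 4 is contained in an elementary abelian subgroup of order 8. -/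
theorem result {X : Type*} [Group X] [Finite X]
    (hX : IsPGroup 2 X) (E : Subgroup X) [E.Normal] (hE : Cfsg.IsElementaryAbelian 2 E) (hE32 : 32 ≤ Nat.card ↥E) :
    (∀ A B : Subgroup X, Cfsg.IsElementaryAbelian 2 A → Nat.card ↥A = 8 → Cfsg.IsElementaryAbelian 2 B → Nat.card ↥B = 8 →
        Relation.ReflTransGen
          (fun C D : Subgroup X => Cfsg.IsElementaryAbelian 2 C ∧ Nat.card ↥C = 8 ∧ Cfsg.IsElementaryAbelian 2 D ∧ Nat.card ↥D = 8 ∧ ⁅C, D⁆ = ⊥)
          A B) ∧
      (∀ V : Subgroup X, Cfsg.IsElementaryAbelian 2 V → Nat.card ↥V = 4 →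
        ∃ A : Subgroup X, V ≤ A ∧ Cfsg.IsElementaryAbelian 2 A ∧ Nat.card ↥A = 8) := by
  open Subgroup Cfsg.Agent.H10 in
  have : Fact (Nat.Prime 2) := ⟨Nat.prime_two⟩
  refine ⟨?_, fun V hV h4 => ?_⟩
  swap
  · obtain ⟨e, he, h1, h2⟩ := exists_new hE hE32 hV (by rw [h4]; norm_num)
    obtain ⟨h3, h5⟩ := ea_sup hV (ea2_mul_self hE he) h1 h2
    exact ⟨_, le_sup_left, h3, by rw [h5, h4]⟩
  set r := fun C D : Subgroup X => IsElementaryAbelian 2 C ∧ Nat.card ↥C = 8 ∧
    IsElementaryAbelian 2 D ∧ Nat.card ↥D = 8 ∧ ⁅C, D⁆ = ⊥ with hr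
  have key : ∀ n, ∀ A : Subgroup X, IsElementaryAbelian 2 A → Nat.card A = 8 →
      8 - Nat.card ↥(A ⊓ E) = n → ∃ D, IsElementaryAbelian 2 D ∧ Nat.card D = 8 ∧ D ≤ E ∧
        Relation.ReflTransGen r A D := by
    intro n
    induction n using Nat.strong_induction_on with
    | _ n ih =>
    intro A hA h8 hn
    by_cases hAE : A ≤ E
    · exact ⟨A, hA, h8, hAE, .refl⟩
    obtain ⟨e, he, h1, h2⟩ := exists_new hE hE32 hA (by rw [h8]; norm_num)
    have hlt : Nat.card ↥(A ⊓ E) < 8 :=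
      h8 ▸ card_lt_of_lt (lt_of_le_of_ne inf_le_left fun e => hAE (inf_eq_left.mp e))
    obtain ⟨i, hi, e2⟩ := (Nat.dvd_prime_pow Nat.prime_two (m := 3)).mp
      ((card_dvd_of_le (inf_le_left : A ⊓ E ≤ A)).trans h8.dvd)
    have hi2 : i ≤ 2 := by
      by_contra hc
      rw [e2, show i = 3 by omega] at hlt
      omega
    obtain ⟨K, hK, hK'⟩ := Sylow.exists_subgroup_card_pow_prime_le (G := A) 2 (n := i) (m := 2)
      (by rw [h8]; norm_num) ((A ⊓ E).subgroupOf A) (by rw [card_subgroupOf_of_le inf_le_left, e2]) hi2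
    have hKA : K.map A.subtype ≤ A := map_subtype_le K
    have hK1 : IsElementaryAbelian 2 (K.map A.subtype) :=
      H11.isElementaryAbelian_of_sq fun x hx => ea2_mul_self hA (hKA hx)
    obtain ⟨h3, h5⟩ := ea_sup hK1 (ea2_mul_self hE he) (centralizer_anti hKA h1) fun e => h2 (hKA e)
    rw [card_map_subtype, hK] at h5
    have h6 : A ⊓ E < (K.map A.subtype ⊔ zpowers e) ⊓ E := by
      refine lt_of_le_of_ne (le_inf (le_trans ?_ le_sup_left) inf_le_right) fun e' => h2 ?_
      · exact fun x hx => ⟨⟨x, hx.1⟩, hK' hx, rfl⟩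
      · have : e ∈ A ⊓ E := e' ▸ ⟨mem_sup_right (mem_zpowers e), he⟩
        exact this.1
    have h7 := card_lt_of_lt h6
    obtain ⟨D, d1, d2, d3, d4⟩ := ih _ (by omega) _ h3 h5 rfl
    refine ⟨D, d1, d2, d3, .head ⟨hA, h8, h3, h5, ?_⟩ d4⟩
    rw [commutator_comm, commutator_eq_bot_iff_le_centralizer]
    exact sup_le (fun x hx a ha => ea2_comm hA ha (hKA hx)) (Subgroup.zpowers_le.mpr h1)
  intro A B hA hA8 hB hB8
  obtain ⟨C, c1, c2, c3, c4⟩ := key _ A hA hA8 rfl
  obtain ⟨D, d1, d2, d3, d4⟩ := key _ B hB hB8 rfl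
  have hs : ∀ C D, Relation.ReflTransGen r C D → Relation.ReflTransGen r D C := fun C D h => by
    induction h with
    | refl => exact .refl
    | tail _ h ih => exact .head ⟨h.2.2.1, h.2.2.2.1, h.1, h.2.1, commutator_eq_bot_comm h.2.2.2.2⟩ ih
  refine (c4.tail ⟨c1, c2, d1, d2, ?_⟩).trans (hs _ _ d4)
  exact commutator_eq_bot_iff_le_centralizer.mpr fun x hx y hy => ea2_comm hE (d3 hy) (c3 hx)

end Cfsg.Agent.S1785
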