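import Cfsg.Statements.S1850
import Cfsg.Agent.H10.Local2

set_option autoImplicit false
open Cfsg

namespace Cfsg.Agent.S1850

/-- Let G be a non-abelian finite simple QTKE-group and T a Sylow 2-subgroup of G. If U is a nontrivial 2-subgroup of G with U ∩ Z(T) ≠ 1, then F*(N_G(U)) = O₂(N_G(U)). -/
theorem result {G : Type*} [Group G] [Finite G] [IsSimpleGroup G]
    (hG : ¬ IsMulCommutative G) (hQ : Cfsg.IsQTKE G) (T : Sylow 2 G) (U : Subgroup G)
    (hU : IsPGroup 2 ↥U) (hZ : U ⊓ ((T : Subgroup G) ⊓ Subgroup.centralizer ((T : Subgroup G) : Set G)) ≠ ⊥) :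
    Subgroup.normalizer (U : Set G) ∈ Cfsg.calHe G := by
  open Subgroup Cfsg.Agent.H10 in
  obtain ⟨z, hz, e⟩ := exists_orderOf_eq_of_isPGroup hU.to_inf_left hZ
  have hP := isPGroup_zpowers e
  have h1 := hQ.2.2 (normalizer (zpowers z : Set G))
    ⟨_, hP, by rw [Ne, zpowers_eq_bot]; exact ne_one_of_orderOf e, rfl⟩
    ⟨T, le_normalizer_of_le_centralizer (le_centralizer_iff.1 (zpowers_le.2 hz.2.2))⟩
  have h2 := XOf_eq_bot_iff_char.2 h1
  refine XOf_eq_bot_iff_abs.1 ?_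
  rw [XOf_normalizer hP] at h2
  rw [XOf_normalizer hU]
  exact XOf_centralizer_eq_bot_of_le hU (zpowers_le.2 hz.1) h2

end Cfsg.Agent.S1850
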