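import Cfsg.Statements.S1851
import Cfsg.Agent.H10.Term2
import Cfsg.Agent.H24.Base4

set_option autoImplicit false
open Cfsg

namespace Cfsg.Agent.S1851

section
open Subgroup Cfsg.Agent.H10
open scoped commutatorElement Pointwise

theorem OpOf_le_normalizer_of_perfect {G : Type*} [Group G] [Finite G] {p : ℕ} [Fact p.Prime]
    {L H : Subgroup G} (h : SubnormalIn L H) (hL : ⁅L, L⁆ = L) :
    OpOf p H ≤ normalizer (L : Set G) := fun g hg => by
  have hn : L ≤ normalizer (OpOf p H : Set G) := le_normalizer_OpOf (le_normalizer_of_le h.le)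
  have hX : L.map (MulAut.conj g).toMonoidHom ≤ L ⊔ OpOf p H :=
    conj_le_of_mem le_sup_left (Subgroup.le_normalizer (mem_sup_right hg))
  have := (h.of_le le_sup_left (sup_le h.le OpOf_le)).induction
    (P := fun A => L ≤ A → L.map (MulAut.conj g).toMonoidHom ≤ A) (fun _ => hX)
    (fun A B hAB hB hn' _ ih hLA => le_of_perfect_of_le_sup_solvable (S := OpOf p H ⊓ B)
      (by rw [← map_commutator, hL]) (by
        refine (ih (hLA.trans hAB)).trans ((le_inf hB le_rfl).trans ?_)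
        rw [dedekind (hLA.trans hAB) (Or.inl hn)]
        exact sup_le_sup_right hLA _) (inf_le_right.trans hn')
      (H10.isSolvable_of_isPGroup (OpOf_isPGroup.to_le inf_le_left))) le_rfl
  exact mem_normalizer_of_conj_le fun x hx => this (conj_mem_conj g hx)

theorem commutator_OpOf_le {G : Type*} [Group G] [Finite G] {p : ℕ} [Fact p.Prime]
    {L H : Subgroup G} (h : SubnormalIn L H) (hL : ⁅L, L⁆ = L) : ⁅OpOf p H, L⁆ ≤ OpOf p L := by
  rw [h.OpOf_eq]
  exact le_inf (commutator_le_right_of_le_normalizer (OpOf_le_normalizer_of_perfect h hL))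
    (commutator_le_left_of_le_normalizer (le_normalizer_OpOf (le_normalizer_of_le h.le)))

theorem calL_facts {G : Type*} [Group G] [Finite G] {T L : Subgroup G} (h : L ∈ calL T) :
    SubnormalIn L (L ⊔ T) ∧ ⁅L, L⁆ = L ∧ L ≠ ⊥ ∧ OpOf 2 (L ⊔ T) ≠ ⊥ := by
  obtain ⟨⟨h1, h2, h3, -⟩, -, h4⟩ := h
  refine ⟨⟨le_sup_left, h3⟩, ?_, fun e => h1 (by rw [e, bot_subgroupOf]),
    fun e => h4 ((OpOf_eq_bot_iff _).1 e)⟩
  rw [← subgroupOf_commutator le_sup_left le_sup_left] at h2
  exact le_antisymm (commutator_le_of_le' le_rfl le_rfl)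
    ((subgroupOf_le_subgroupOf_iff le_sup_left).1 h2.ge)

end

/-- Let G be a non-abelian finite simple QTKE-group and T a Sylow 2-subgroup of G, and let L be a member of ℒ_f(G, T) (a member of ℒ(G, T) that lies in 𝒳 — L ≠ 1, L = O²(L), F*(L) = O₂(L) — and acts nontrivially on Ω₁(Z(O₂(L)))). Then (1) every member K of ℒ(G, T) containing L is again in ℒ_f(G, T) (a sharper form of (1) also compares the modules [Ω₁(Z(R)), L] and [Ω₁(Z(R')), K] for suitable 2-subgroups R, R'; that comparison is not included); and (2) if L is maximal under inclusion among the members of ℒ_f(G, T), then L is a maximal member of ℒ(G, T), hence a member of ℒ_f*(G, T). -/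
theorem result {G : Type*} [Group G] [Finite G] [IsSimpleGroup G]
    (hG : ¬ IsMulCommutative G) (hQ : Cfsg.IsQTKE G) (T : Sylow 2 G) (L : Subgroup G)
    (hL : L ∈ Cfsg.calLf (T : Subgroup G)) :
    (∀ K ∈ Cfsg.calL (T : Subgroup G), L ≤ K → K ∈ Cfsg.calLf (T : Subgroup G)) ∧
    ((∀ K ∈ Cfsg.calLf (T : Subgroup G), L ≤ K → K = L) → L ∈ Cfsg.calLfMax (T : Subgroup G)) := by
  open Subgroup Cfsg.Agent.H10 in
  haveI : Fact (Nat.Prime 2) := ⟨Nat.prime_two⟩
  have key : ∀ K ∈ calL (T : Subgroup G), L ≤ K → K ∈ calLf (T : Subgroup G) := by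
    intro K hK hLK
    obtain ⟨l1, l2, -, -⟩ := calL_facts hL.1
    obtain ⟨k1, k2, k3, k4⟩ := calL_facts hK
    obtain ⟨-, ⟨-, l5, -⟩, l6⟩ := hL
    set R := OpOf 2 (L ⊔ T) with hR
    set R2 := OpOf 2 (K ⊔ T) with hR2
    have hT : ∀ {U M : Subgroup G}, IsPGroup 2 U → (T : Subgroup G) ≤ M → U ≤ M →
        M ≤ normalizer (U : Set G) → U ≤ T := fun a b c d =>
      (H3.sylowIn_of_le T b).le_of_le_normalizer a c d
    have hM : K ⊔ T ≤ normalizer (R2 : Set G) := le_normalizer_OpOf Subgroup.le_normalizer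
    have hch := FstarOf_eq_OpOf_iff_centralizer.1 (XOf_eq_bot_iff.1 (XOf_eq_bot_iff_char.2
      (hQ.2.2 _ ⟨R2, OpOf_isPGroup, k4, rfl⟩ ⟨T, le_sup_right.trans hM⟩)))
    have h1 : OpOf 2 (normalizer (R2 : Set G)) ≤ R2 := OpOf_le_OpOf_of_le ((hT OpOf_isPGroup
      (le_sup_right.trans hM) OpOf_le (le_normalizer_OpOf Subgroup.le_normalizer)).trans
      le_sup_right) hM
    have h2 : (K ⊔ T) ⊓ centralizer (R2 : Set G) ≤ R2 :=
      (inf_le_inf hM (centralizer_anti h1)).trans (hch.trans h1)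
    have h3 : R2 ≤ R := le_OpOf ((hT OpOf_isPGroup le_sup_right OpOf_le hM).trans le_sup_right)
      ((sup_le_sup_right hLK _).trans hM) OpOf_isPGroup
    refine ⟨hK, ⟨k3, le_antisymm ((closure_le _).2 fun x hx => hx.1) (le_of_perfect_of_forall_coprime
      2 k2 fun x hx ho => subset_closure ⟨hx, Nat.coprime_two_right.1 ho⟩), XOf_eq_bot_iff_abs.1
      (k1.XOf_eq_bot (XOf_eq_bot_iff.2 (FstarOf_eq_OpOf_iff_centralizer.2 h2)))⟩, fun h0 => l6 ?_⟩
    change ⁅omegaOneCenter 2 (OpOf 2 K), K⁆ = ⊥ at h0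
    change ⁅omegaOneCenter 2 (OpOf 2 L), L⁆ = ⊥
    have h4 : ⁅omegaOneCenter 2 R2, K⁆ = ⊥ := by
      refine commutator_eq_bot_of_perfect k2 (commutator_eq_bot_mono h0 (fun v hv => ?_) le_rfl)
      have h5 := H24.mem_omegaOneCenter.1 (commutator_le_left_of_le_normalizer
        (H24.le_normalizer_omegaOneCenter (p := 2) (le_sup_left.trans hM)) hv)
      exact H24.mem_omegaOneCenter.2 ⟨commutator_OpOf_le k1 k2 (commutator_mono
        (H24.omegaOneCenter_le 2 R2) le_rfl hv), centralizer_anti k1.OpOf_le h5.2.1, h5.2.2⟩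
    set V := omegaOneCenter 2 (OpOf 2 L) with hV
    have hVL : L ≤ normalizer (V : Set G) :=
      H24.le_normalizer_omegaOneCenter (le_normalizer_OpOf Subgroup.le_normalizer)
    have hVR : R ≤ normalizer (V : Set G) := H24.le_normalizer_omegaOneCenter
      (le_normalizer_OpOf (OpOf_le_normalizer_of_perfect l1 l2))
    have hV2 : IsPGroup 2 V := OpOf_isPGroup.to_le (H24.omegaOneCenter_le _ _)
    haveI : IsMulCommutative V := (H24.isEA_omegaOneCenter 2 _).1
    rw [commutator_eq_bot_iff_le_centralizer, le_centralizer_iff, ← l5]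
    refine (closure_le _).2 fun a ha => ?_
    have haL : zpowers a ≤ L := zpowers_le.2 ha.1
    have hcop : (Nat.card (zpowers a)).Coprime (Nat.card V) := (coprime_card_of_isPGroup hV2 (by
      rw [Nat.card_zpowers]; exact Nat.coprime_two_right.2 ha.2)).symm
    refine le_centralizer_iff.1 (commutator_eq_bot_iff_le_centralizer.1 ?_) (mem_zpowers a)
    by_contra hne
    have hn : R ≤ normalizer ((⁅V, zpowers a⁆ : Subgroup G) : Set G) := fun r hr =>
      mem_normalizer_iff_conj_eq.2 (eq_of_le_of_card_le (by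
        rw [map_commutator, mem_normalizer_iff_conj_eq.1 (hVR hr), commutator_le]
        rintro v hv _ ⟨b, hb, rfl⟩
        have h5 := H24.le_centralizer_omegaOneCenter 2 _ (commutator_OpOf_le l1 l2
          (commutator_mem_commutator hr (haL hb)))
        have h6 := (show Commute _ _ from h5 v hv).eq
        have h7 := (show Commute _ _ from h5 _ ((mem_normalizer_iff.1 (hVL (haL hb)) _).1
          (inv_mem hv))).eq
        have h8 := commutator_mem_commutator hv hb
        convert h8 using 1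
        simp only [commutatorElement_def] at h6 h7 ⊢
        change v * (r * b * r⁻¹) * v⁻¹ * (r * b * r⁻¹)⁻¹ = _
        calc v * (r * b * r⁻¹) * v⁻¹ * (r * b * r⁻¹)⁻¹
            = v * (r * b * r⁻¹ * b⁻¹ * (b * v⁻¹ * b⁻¹)) * (r * b * r⁻¹ * b⁻¹)⁻¹ := by group
          _ = _ := by rw [← h7]; group) (card_conj _ r).ge)
    have hle : ⁅V, zpowers a⁆ ≤ V := commutator_le_left_of_le_normalizer (haL.trans hVL)
    obtain ⟨w, hw, hw2, hc⟩ := exists_central_orderOf (hV2.to_le hle) OpOf_isPGroup hn hne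
    have hw3 : w ∈ centralizer (R2 : Set G) := le_centralizer_singleton_iff.1 (h3.trans hc)
    have hw4 : w ∈ omegaOneCenter 2 R2 := H24.mem_omegaOneCenter.2 ⟨h2 ⟨mem_sup_left
      (hLK (OpOf_le (H24.omegaOneCenter_le _ _ (hle hw)))), hw3⟩, hw3, hw2 ▸ pow_orderOf_eq_one w⟩
    exact ne_one_of_orderOf hw2 (mem_bot.1 (H1.inf_centralizer_inf_commutator_eq_bot
      (haL.trans hVL) hcop ▸ mem_inf.mpr ⟨mem_inf.mpr ⟨hle hw, centralizer_anti (haL.trans hLK)
        (commutator_eq_bot_iff_le_centralizer.1 h4 hw4)⟩, hw⟩))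
  exact ⟨key, fun h => ⟨⟨hL.1, fun K hK hLK => h K (key K hK hLK) hLK⟩, hL.2⟩⟩

end Cfsg.Agent.S1851
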