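import Cfsg.Statements.S1966
import Cfsg.Agent.L0.Alperin

set_option autoImplicit false
open Cfsg

namespace Cfsg.Agent.S1966

open Subgroup Cfsg.Agent.H24 Cfsg.Agent.H3 Cfsg.Agent.L0


/-- Let p be a prime, G a finite group with Sylow p-subgroup S and 𝓕 a conjugation family for S in G. Then the members of 𝓕 containing O_p(G) still form a conjugation family for S in G. -/
theorem result {G : Type*} [Group G] [Finite G] {p : ℕ} [Fact p.Prime] (S : Sylow p G) (𝓕 : Set (Subgroup G)) (h : Cfsg.IsConjugationFamily 𝓕 (S : Subgroup G)) : Cfsg.IsConjugationFamily {T : Subgroup G | T ∈ 𝓕 ∧ Cfsg.pCore p G ≤ T} (S : Subgroup G) := by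
  obtain ⟨h1, h2⟩ := isConjugationFamily_iff.1 h
  refine isConjugationFamily_iff.2 ⟨fun T hT => h1 T hT.1, fun A g hA hg => ?_⟩
  have hO := H1.pCore_le_sylow S
  refine ((h2 (A ⊔ pCore p G) g (sup_le hA hO) ?_).restrict le_sup_right).mono le_sup_left
  rw [cj_sup, cj_eq_of_normal (H := pCore p G)]
  exact sup_le hg hO

end Cfsg.Agent.S1966
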