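import Cfsg.Statements.S1968
import Cfsg.Agent.L0.Fact

set_option autoImplicit false
open Cfsg

namespace Cfsg.Agent.S1968

open Subgroup Cfsg.Agent.H24 Cfsg.Agent.H3 Cfsg.Agent.L0


/-- Let p be a prime, G a finite group with Sylow p-subgroup S and W a conjugacy functor for p on G with Z(P) ≤ W(P) for every p-subgroup P. Let A be a subgroup of Z(S) normalized by N_G(W(S)) that is not weakly closed in S with respect to G. Then there is a subgroup T of S, well placed in S with respect to W, such that: A ≤ T; N_G(W(N_S(T))) normalizes A; N_S(T) is a Sylow p-subgroup of N_G(T); A ≤ Z(N_S(T)); and A is not weakly closed in N_S(T) with respect to N_G(T), that is, some N_G(T)-conjugate of A other than A lies in N_S(T). -/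
theorem result {G : Type*} [Group G] [Finite G] {p : ℕ} [Fact p.Prime] (S : Sylow p G) (W : Subgroup G → Subgroup G) (hW : Cfsg.IsConjugacyFunctor p W) (hWZ : ∀ P : Subgroup G, IsPGroup p ↥P → P ⊓ Subgroup.centralizer (P : Set G) ≤ W P) (A : Subgroup G) (hAZ : A ≤ (S : Subgroup G) ⊓ Subgroup.centralizer ((S : Subgroup G) : Set G)) (hAN : Subgroup.normalizer ((W (S : Subgroup G) : Subgroup G) : Set G) ≤ Subgroup.normalizer ((A : Subgroup G) : Set G)) (hnwc : ¬ Cfsg.IsWeaklyClosed A (S : Subgroup G)) : ∃ T : Subgroup G, Cfsg.IsWellPlaced p W (S : Subgroup G) T ∧ A ≤ T ∧ Subgroup.normalizer ((W ((S : Subgroup G) ⊓ Subgroup.normalizer ((T : Subgroup G) : Set G)) : Subgroup G) : Set G) ≤ Subgroup.normalizer ((A : Subgroup G) : Set G) ∧ ¬ p ∣ ((S : Subgroup G) ⊓ Subgroup.normalizer ((T : Subgroup G) : Set G)).relIndex (Subgroup.normalizer ((T : Subgroup G) : Set G)) ∧ A ≤ Subgroup.centralizer (((S : Subgroup G) ⊓ Subgroup.normalizer ((T : Subgroup G) : Set G) : Subgroup G) : Set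 G) ∧ ∃ g ∈ Subgroup.normalizer ((T : Subgroup G) : Set G), A.map (MulAut.conj g).toMonoidHom ≤ (S : Subgroup G) ⊓ Subgroup.normalizer ((T : Subgroup G) : Set G) ∧ A.map (MulAut.conj g).toMonoidHom ≠ A := by
  classical
  have hS := sylowIn_top S
  have hF := alpFam_wellPlaced hW hS
  have hAS : A ≤ S := hAZ.trans inf_le_left
  -- the set of well-placed `T` witnessing failure of weak closure
  let 𝓣 : Set (Subgroup G) := {T | IsWellPlaced p W (S : Subgroup G) T ∧ A ≤ T ∧
    ∃ g ∈ 𝐍[T], cj A g ≠ A}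
  have hne : 𝓣.Nonempty := by
    by_contra hemp
    refine hnwc ⟨hAS, fun g hg => ?_⟩
    have hch := hF.chain S.isPGroup' A g hAS hg
    have key : ∀ B h, L0.Chain {T | IsWellPlaced p W (S : Subgroup G) T} B h → B = A →
        cj A h = A := by
      intro B h hc
      induction hc with
      | one B => intro _; simp
      | @step B T x h hT hx hB _ ih =>
        rintro rfl
        have : cj B x = B := by
          by_contra hne
          exact hemp ⟨T, hT, hB, x, hx, hne⟩
        rw [← cj_cj, this]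
        exact ih this
    exact key A g hch rfl
  obtain ⟨T, ⟨hT1, hT2, g, hg, hg'⟩, hmax⟩ := Set.exists_max_image 𝓣
    (fun T => Nat.card ((S : Subgroup G) ⊓ 𝐍[T] : Subgroup G)) (Set.toFinite _) hne
  obtain ⟨hTS, hfn, hWT⟩ := (isWellPlaced_iff hW S.isPGroup').1 hT1
  have hTR : T ≤ (S : Subgroup G) ⊓ 𝐍[T] := le_inf hTS le_normalizer
  have hAC : A ≤ 𝐂[(S : Subgroup G) ⊓ 𝐍[T]] :=
    (hAZ.trans inf_le_right).trans (centralizer_anti inf_le_left)
  refine ⟨T, hT1, hT2, ?_, hfn.not_dvd, hAC, g, hg, (cj_le_of_mem_normalizer hT2 hg).trans hTR, hg'⟩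
  by_cases hR : (S : Subgroup G) ⊓ 𝐍[T] = S
  · rwa [hR]
  · intro x hx
    by_contra hne
    have hp' : IsPGroup p ((S : Subgroup G) ⊓ 𝐍[T] : Subgroup G) := S.isPGroup'.to_inf_left
    have := hmax _ ⟨hWT, (le_inf (hT2.trans hTR) hAC).trans (hWZ _ hp'), x, hx,
      fun h => hne (cj_eq_self_iff.1 h)⟩
    have h2 := card_lt_of_ne hW S.isPGroup' inf_le_left hR
    omega

end Cfsg.Agent.S1968
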