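import Cfsg.Statements.S1977
import Cfsg.Agent.L0.KSeq

set_option autoImplicit false
open Cfsg

namespace Cfsg.Agent.S1977

open Subgroup Cfsg.Agent.H24 Cfsg.Agent.H3 Cfsg.Agent.L0


/-- Let P be a finite p-group. A member B that is maximal under inclusion in any one of the families used to build the K-sequence of P — the class-two family, the lower-star family relative to an odd-indexed term, or the upper-star family relative to an even-indexed term — contains its centralizer: C_P(B) ≤ B. -/
theorem result {P : Type*} [Group P] [Finite P] {p : ℕ} [Fact p.Prime] (hP : IsPGroup p P) (B : Subgroup P) (𝒦 : Set (Subgroup P)) (h𝒦 : 𝒦 = Cfsg.classTwoSubgroups P ∨ (∃ n, 𝒦 = Cfsg.kLowerStarFamily (Cfsg.kSeqOdd P n)) ∨ ∃ n, 𝒦 = Cfsg.kUpperStarFamily (Cfsg.kSeqEven P n)) (hB : B ∈ 𝒦) (hmax : ∀ C ∈ 𝒦, B ≤ C → C = B) : Subgroup.centralizer (B : Set P) ≤ B := by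
  have hS : IsPGroup p (⊤ : Subgroup P) := hP.to_subgroup ⊤
  rw [← top_inf_eq (centralizer (B : Set P))]
  rcases h𝒦 with rfl | ⟨n, rfl⟩ | ⟨n, rfl⟩
  · exact max_classTwo hS le_top hB fun C _ => hmax C
  · exact max_lower hS le_top le_top hB fun C _ => hmax C
  · exact max_upper hS le_top le_top hB fun C _ => hmax C

end Cfsg.Agent.S1977
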