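import Cfsg.Statements.S1980
import Cfsg.Agent.L0.KSeq

set_option autoImplicit false
open Cfsg

namespace Cfsg.Agent.S1980

open Subgroup Cfsg.Agent.H24 Cfsg.Agent.H3 Cfsg.Agent.L0


/-- Let P be a finite p-group and A an abelian normal subgroup of P. Then A belongs to every family used to build the K-sequence of P: the class-two family, every lower-star family relative to an odd-indexed term, and every upper-star family relative to an even-indexed term. In particular A lies in every term of the K-sequence. -/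
theorem result {P : Type*} [Group P] [Finite P] {p : ℕ} [Fact p.Prime] (hP : IsPGroup p P) (A : Subgroup P) [A.Normal] (hA : IsMulCommutative ↥A) : A ∈ Cfsg.classTwoSubgroups P ∧ ∀ n : ℕ, A ∈ Cfsg.kLowerStarFamily (Cfsg.kSeqOdd P n) ∧ A ∈ Cfsg.kUpperStarFamily (Cfsg.kSeqEven P n) := by
  have h1 : A ≤ 𝐂[A] := isMulCommutative_iff_le_centralizer.1 hA
  have h3 : ∀ Q, ⁅A, Q⁆ ≤ A ⊓ 𝐂[A] := fun Q => by
    rw [inf_eq_left.2 h1]
    exact commutator_le_left _ _
  have h4 : ⁅A, A⁆ ≤ 𝐂[A] := (h3 A).trans inf_le_right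
  exact ⟨h4, fun n => ⟨mem_lower_of_commutator_le h4 (h3 _), mem_upper_of_commutator_le h4 (h3 _)⟩⟩

end Cfsg.Agent.S1980
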