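import Cfsg.Statements.S1981
import Cfsg.Agent.L0.KSeq

set_option autoImplicit false
open Cfsg

namespace Cfsg.Agent.S1981

open Subgroup Cfsg.Agent.H24 Cfsg.Agent.H3 Cfsg.Agent.L0


/-- Let P be a finite p-group generated by its abelian normal subgroups. Then both K-infinity subgroups of P equal P. -/
theorem result {P : Type*} [Group P] [Finite P] {p : ℕ} [Fact p.Prime] (hP : IsPGroup p P) (hgen : ⨆ A ∈ {A : Subgroup P | A.Normal ∧ IsMulCommutative ↥A}, A = ⊤) : Cfsg.kInfLower P = ⊤ ∧ Cfsg.kInfUpper P = ⊤ := by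
  have key : ∀ n, ⊤ ≤ kEven (⊤ : Subgroup P) n ∧ ⊤ ≤ kOdd (⊤ : Subgroup P) n := fun n => by
    refine ⟨hgen.ge.trans (iSup₂_le fun A hA => ?_), hgen.ge.trans (iSup₂_le fun A hA => ?_)⟩
    · exact (abelian_le_kSeq le_top (isMulCommutative_iff_le_centralizer.1 hA.2)
        (top_le_normalizer_iff.2 hA.1) n).1
    · exact (abelian_le_kSeq le_top (isMulCommutative_iff_le_centralizer.1 hA.2)
        (top_le_normalizer_iff.2 hA.1) n).2
  rw [kInfLower_eq, kInfUpper_eq]
  exact ⟨top_le_iff.1 ((key 0).1.trans (le_iSup _ 0)), top_le_iff.1 (le_iInf fun n => (key n).2)⟩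

end Cfsg.Agent.S1981
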