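import Cfsg.Statements.S1985
import Cfsg.Agent.L0.Trace

set_option autoImplicit false
universe u
open Cfsg

namespace Cfsg.Agent.S1985

open Subgroup Cfsg.Agent.H24 Cfsg.Agent.H3 Cfsg.Agent.L0


/-- Let p be an odd prime and G a finite group. Then the lower K-infinity subgroup controls weak closure of elements in G: the lower K-infinity subgroup of every p-subgroup P of G contains Z(P), and for some (equivalently, every) Sylow p-subgroup S of G, with K the lower K-infinity subgroup of S, every element of S commuting with all of N_G(K) is weakly closed in S with respect to G (every G-conjugate of it lying in S equals it). -/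
theorem result {G : Type u} [Group G] [Finite G] {p : ℕ} [Fact p.Prime] (hp : p ≠ 2) : Cfsg.ControlsWeakClosureOfElementsIn p (Cfsg.inducedFunctor (G := G) Cfsg.kInfLower) ⊤ := by
  obtain ⟨T, hT⟩ := exists_sylowIn p (⊤ : Subgroup G)
  have h2 : 2 ≤ p - 1 := by
    have := (Fact.out : p.Prime).two_le
    omega
  refine ⟨fun P _ => kinf_center_le (Or.inl rfl) P, T, hT.le, hT.isPGroup, hT.not_dvd,
    fun x hx h hh hc => cwc_of_engel (ind_isCF isCharPFunctor_kInfLower)
      (fun P _ => kinf_center_le (Or.inl rfl) P) (fun H T hT h0 => ?_) hT hx hh hc⟩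
  obtain ⟨g, h3, h4, h5⟩ := kinf_quadratic_in (Or.inl rfl) H T hT h0
  refine ⟨g, h3, h4, fun U V _ hU => le_trans ?_ bot_le⟩
  exact iter_le_of_le (le_norm_of_normal _ _) h2 ((iter_mono hU le_rfl 2).trans h5.le)

end Cfsg.Agent.S1985
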