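import Cfsg.Statements.S1988
import Cfsg.Agent.L0.PNil
import Cfsg.Agent.S2007

set_option autoImplicit false
universe u
open Cfsg

namespace Cfsg.Agent.S1988

open Subgroup Cfsg.Agent.H24 Cfsg.Agent.H3 Cfsg.Agent.L0


/-- Let p be an odd prime, G a finite group with Sylow p-subgroup S and K the lower K-infinity subgroup of S. If N_G(K) has a normal p-complement, or if N_G(K)/C_G(K) is a p-group (every element of N_G(K) of order prime to p centralizes K), then G has a normal p-complement. -/
theorem result {G : Type u} [Group G] [Finite G] {p : ℕ} [Fact p.Prime] (hp : p ≠ 2) (S : Sylow p G) (h : Cfsg.HasNormalPComplement p ↥(Subgroup.normalizer ((Cfsg.inducedFunctor Cfsg.kInfLower (S : Subgroup G) : Subgroup G) : Set G)) ∨ ∀ g ∈ Subgroup.normalizer ((Cfsg.inducedFunctor Cfsg.kInfLower (S : Subgroup G) : Subgroup G) : Set G), (orderOf g).Coprime p → g ∈ Subgroup.centralizer ((Cfsg.inducedFunctor Cfsg.kInfLower (S : Subgroup G) : Subgroup G) : Set G)) : Cfsg.HasNormalPComplement p G := by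
  have h2 : 2 ≤ p - 1 := by
    have := (Fact.out : p.Prime).two_le
    omega
  refine pnil_of_char isCharPFunctor_kInfLower (fun X _ _ _ h1 _ T hT h3 => ?_) (sylowIn_top S)
    (h.elim id fun h => S2007.result S _ (ind_le _ _) (le_normalizer.trans
      (cf_normalizer_le (ind_isCF isCharPFunctor_kInfLower) S.2)) ?_ h)
  · by_contra hn
    obtain ⟨g, a1, a2, -, -, a3⟩ := kinf_local' (Or.inl rfl) hT hn
    obtain ⟨U, V, a3, a4, a5, a6⟩ := a3 h1
    have := a3.2.2.1
    exact a6 ((commutator_mono le_rfl le_top).trans (commutator_le_of_engel_of_coatom hT h3 a1 a2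
      a3 ((H24.isPGroup_pCore p _).to_le a4) (iter_le_of_le (le_norm_of_normal _ _) h2 a5)))
  · rw [ind_kInfLower]
    exact (centralizer_kInf S.2).1

end Cfsg.Agent.S1988
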