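import Cfsg.Statements.S1992
import Cfsg.Agent.L0.PNil
import Cfsg.Agent.S1991
import Cfsg.Agent.S0144

set_option autoImplicit false
open Cfsg

namespace Cfsg.Agent.S1992

open Subgroup Cfsg.Agent.H24 Cfsg.Agent.H3 Cfsg.Agent.L0


/-- Let G be a finite group in which, for every prime q dividing the order of G, every Sylow q-subgroup is its own normalizer. Then the order of G is a power of a single prime (G is a q-group for some prime q; for G trivial any prime works). -/
theorem result {G : Type*} [Group G] [Finite G] (h : ∀ q : ℕ, q.Prime → q ∣ Nat.card G → ∀ Q : Sylow q G, Subgroup.normalizer ((Q : Subgroup G) : Set G) = Q) : ∃ q : ℕ, q.Prime ∧ IsPGroup q G := by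
  have key : ∀ r : ℕ, r.Prime → ∀ N : Subgroup G, N.Normal → N.index = r → IsPGroup r G := by
    intro r hr N hN hi
    have := Fact.mk hr
    refine IsPGroup.of_card (n := (Nat.card G).primeFactorsList.length)
      (Nat.eq_prime_pow_of_unique_prime_dvd Nat.card_pos.ne' fun {q} hq hd => ?_)
    by_contra hne
    have := Fact.mk hq
    let Q : Sylow q G := default
    have h1 : (Q : Subgroup G) ≤ N := le_of_not_dvd_relIndex Q.2 fun hh =>
      hne ((Nat.prime_dvd_prime_iff_eq hq hr).1 (hi ▸ hh.trans (relIndex_dvd_index_of_normal N _)))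
    have h2 : N = ⊤ := top_le_iff.1 fun g _ => by
      obtain ⟨n, hn, m, hm, rfl⟩ := ((sylowIn_top Q).of_le h1 le_top).frattini
        (top_le_normalizer N (mem_top g))
      rw [h q hq hd Q] at hm
      exact N.mul_mem hn (h1 hm)
    rw [h2, index_top] at hi
    exact hr.one_lt.ne hi
  by_cases h5 : ∃ p, p.Prime ∧ 5 ≤ p ∧ p ∣ Nat.card G
  · obtain ⟨p, hp, h5, hd⟩ := h5
    have := Fact.mk hp
    let S : Sylow p G := default
    obtain ⟨N, h1, h2⟩ := S1991.result h5 S (S.ne_bot_of_dvd_card hd) fun g hg hc => by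
      rw [h p hp hd S] at hg
      rw [mem_bot.1 ((pGrpMod_bot.2 S.2).mem_of_coprime hg hc)]
      exact one_mem _
    exact ⟨p, hp, key p hp N h1 h2⟩
  · have h1 : Nat.card G = 2 ^ (Nat.card G).factorization 2 * 3 ^ (Nat.card G).factorization 3 := by
      conv_lhs => rw [← Nat.prod_factorization_pow_eq_self (Nat.card_pos (α := G)).ne']
      rw [Finsupp.prod_of_support_subset _ (s := {2, 3}) _ _ (by simp), Finset.prod_pair (by decide)]
      intro q hq
      rw [Nat.support_factorization, Nat.mem_primeFactors] at hq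
      have h2 : ¬ 5 ≤ q := fun hh => h5 ⟨q, hq.1, hh, hq.2.1⟩
      have h3 := hq.1.two_le
      have h4 : q ≠ 4 := fun e => absurd (e ▸ hq.1) (by decide)
      simp only [Finset.coe_insert, Finset.coe_singleton, Finset.mem_insert, Finset.mem_singleton]
      omega
    have hs := S0144.result 2 3 _ _ Nat.prime_two Nat.prime_three h1
    rcases subsingleton_or_nontrivial G with _ | _
    · exact ⟨2, Nat.prime_two, fun g => ⟨0, Subsingleton.elim _ _⟩⟩
    · obtain ⟨p, hp, -, P, -, h2, h3⟩ := H1.exists_pSubgroup_not_le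
        (H1.commutator_lt_of_isSolvable (N := (⊤ : Subgroup G)) inferInstance top_ne_bot).not_ge
      have := Fact.mk hp
      obtain ⟨N, h4, h5⟩ := exists_normal_index_eq h2 h3
      exact ⟨p, hp, key p hp N h4 h5⟩

end Cfsg.Agent.S1992
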