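import Cfsg.Statements.S2009
import Cfsg.Agent.H1.Frobenius

set_option autoImplicit false
open Cfsg

namespace Cfsg.Agent.S2009

/-- Let H be a finite group and z an involution such that every proper normal subgroup of H meets the centralizer of z trivially, and suppose z lies in a Klein four-subgroup E of H all three of whose involutions are conjugate to z in H. Then H is simple. -/
theorem result {H : Type*} [Group H] [Finite H] (z : H) (hz : orderOf z = 2) (hN : ∀ N : Subgroup H, N.Normal → N ≠ ⊤ → N ⊓ Subgroup.centralizer ({z} : Set H) = ⊥) (E : Subgroup H) (hE : IsKleinFour ↥E) (hzE : z ∈ E) (hc : ∀ e ∈ E, e ≠ 1 → IsConj z e) : IsSimpleGroup H := by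
  have hz1 : z ≠ 1 := by
    rintro rfl
    simp at hz
  have : Nontrivial H := ⟨z, 1, hz1⟩
  refine ⟨fun N hn => or_iff_not_imp_right.mpr fun htop => by_contra fun hbot => ?_⟩
  have : IsMulCommutative E := ⟨⟨fun a b => mul_comm_of_exponent_two hE.exponent_two a b⟩⟩
  refine IsKleinFour.not_isCyclic (G := E) (H1.isCyclic_of_fpf hbot Subgroup.le_normalizer_of_normal
    fun e he he1 => eq_bot_iff.mpr fun x hx => ?_)
  obtain ⟨g, rfl⟩ := isConj_iff.mp (hc e he he1)
  have h1 := H1.eq_one_of_inf_centralizer_eq_bot (hN N hn htop) (hn.conj_mem' x hx.1 g) (by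
    calc g⁻¹ * x * g * z = g⁻¹ * (x * (g * z * g⁻¹)) * g := by group
      _ = z * (g⁻¹ * x * g) := by rw [Subgroup.mem_centralizer_singleton_iff.mp hx.2]; group)
  simpa [mul_assoc, inv_mul_eq_one] using h1

end Cfsg.Agent.S2009
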