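import Cfsg.Statements.S2034
import Cfsg.Agent.H27.TM11

set_option autoImplicit false
open Cfsg

namespace Cfsg.Agent.S2034

open H27.Tl in

/-- The Schur multiplier of the Mathieu group M₁₁ (the stabiliser of a dodecad and one of its points in the automorphism group of the length-24 binary code) is trivial; here the Schur multiplier is described through stem extensions, as in the definitions: surjective homomorphisms onto the group from a finite group, whose kernel is central in that finite group and contained in that finite group's commutator subgroup. -/
theorem result : Cfsg.HasCyclicSchurMultiplier ↥Cfsg.Spor.M11 1 := by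
  refine H27.hasSchur_congr (schur_one (sur_all H16.card_K11 [2, 3] (5 * 11) 100
    (by decide +kernel) ?_)) H16.sporM11
  simp only [List.forall_mem_cons, List.not_mem_nil, false_imp_iff, implies_true, and_true]
  exact ⟨⟨Nat.prime_two, H27.TM11.bnd2.sur0 Nat.prime_two⟩,
    Nat.prime_three, H27.TM11.bnd3.sur0 Nat.prime_three⟩

end Cfsg.Agent.S2034
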