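import Cfsg.Statements.S2036
import Cfsg.Agent.H27.CM22

set_option autoImplicit false
open Cfsg

namespace Cfsg.Agent.S2036

open H27.Tl H27.TM22 in

/-- The Schur multiplier of the Mathieu group M₂₂ (the permutations in the automorphism group of the length-24 binary code that fix each of two given points) is cyclic of order 12; here the Schur multiplier is described through stem extensions, as in the definitions: surjective homomorphisms onto the group from a finite group, whose kernel is central in that finite group and contained in that finite group's commutator subgroup. -/
theorem result : Cfsg.HasCyclicSchurMultiplier ↥Cfsg.Spor.M22 12 := by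
  refine H27.hasSchur_congr (schur_of_cov (sur_all H16.card_K22 [2, 3] (5 * 7 * 11) 100 (by decide +kernel) ?_)
    (by simpa using H27.CM22.cov)) H16.sporM22
  simp only [List.forall_mem_cons, List.not_mem_nil, false_imp_iff, implies_true, and_true]
  exact ⟨⟨Nat.prime_two, bnd2.sur1.zmod (by norm_num)⟩, Nat.prime_three, bnd3.sur1.zmod (by norm_num)⟩

end Cfsg.Agent.S2036
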