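import Cfsg.Statements.S2039
import Cfsg.Agent.H27.TJ1

set_option autoImplicit false
open Cfsg

namespace Cfsg.Agent.S2039

open H27.Tl H27.TJ1 in

/-- The Schur multiplier of the Janko group J₁ (the group generated by two explicit 7 × 7 matrices over the integers modulo 11) is trivial; here the Schur multiplier is described through stem extensions, as in the definitions: surjective homomorphisms onto the group from a finite group, whose kernel is central in that finite group and contained in that finite group's commutator subgroup. -/
theorem result : Cfsg.HasCyclicSchurMultiplier ↥Cfsg.Spor.J1 1 := by
  refine schur_one (sur_all H16.J1.card [2] (3 * 5 * 7 * 11 * 19) 200 (by decide +kernel) ?_)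
  simp only [List.forall_mem_cons, List.not_mem_nil, false_imp_iff, implies_true, and_true]
  exact ⟨Nat.prime_two, bnd2.sur0 Nat.prime_two⟩

end Cfsg.Agent.S2039
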