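import Cfsg.Statements.S2040
import Cfsg.Agent.H27.CJ2

set_option autoImplicit false
open Cfsg

namespace Cfsg.Agent.S2040

open H27.Tl H27.TJ2 in

/-- The Schur multiplier of the Hall–Janko group J₂ (the icosian reflection group modulo its centre) is cyclic of order 2; here the Schur multiplier is described through stem extensions, as in the definitions: surjective homomorphisms onto the group from a finite group, whose kernel is central in that finite group and contained in that finite group's commutator subgroup. -/
theorem result : Cfsg.HasCyclicSchurMultiplier Cfsg.Spor.J2 2 := by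
  refine H27.hasSchur_congr (schur_of_cov (sur_all H16.J2.card [2, 3, 5] 7 100 (by decide +kernel) ?_)
    (by simpa using H27.CJ2.cov)) H16.J2.iso.some
  simp only [List.forall_mem_cons, List.not_mem_nil, false_imp_iff, implies_true, and_true]
  exact ⟨⟨Nat.prime_two, bnd2.sur1⟩, ⟨Nat.prime_three, bnd3.sur0 Nat.prime_three⟩, Nat.prime_five,
    bnd5.sur0 Nat.prime_five⟩

end Cfsg.Agent.S2040
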