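import Cfsg.Statements.S2041
import Cfsg.Agent.H27.TJ3

set_option autoImplicit false
open Cfsg

namespace Cfsg.Agent.S2041

open H27.Tl H27.TJ3 H16.J3 in

/-- For any field with 4 elements and any element ω of it with ω² + ω + 1 = 0: the Schur multiplier of the Janko group J₃ (the group generated by explicit 9 × 9 matrices over that field built from ω, taken modulo its centre) is cyclic of order 3; here the Schur multiplier is described through stem extensions, as in the definitions: surjective homomorphisms onto the group from a finite group, whose kernel is central in that finite group and contained in that finite group's commutator subgroup. -/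
theorem result {F : Type*} [Field F] [Fintype F] (hF : Fintype.card F = 4) (ω : F) (hω : ω ^ 2 + ω + 1 = 0) : Cfsg.HasCyclicSchurMultiplier (Cfsg.Spor.J3 F ω) 3 := by
  have h := q4 hF hω
  obtain ⟨h1, ⟨e⟩⟩ := quot h le_rfl (T_map h)
  haveI := simple h
  haveI := e.isSimpleGroup
  have hq := (Nat.card_congr e.toEquiv).trans (card h)
  haveI : Finite (T h) := Nat.finite_of_card_ne_zero (by
    rw [Subgroup.card_eq_card_quotient_mul_card_subgroup (Subgroup.center _), h1, hq]; norm_num)
  have h2 : commutator (T h ⧸ Subgroup.center (T h)) = ⊤ := perfect_of_simple hq (by norm_num) (by norm_num)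
  have h3 : Nat.Coprime 19 (Nat.card (Subgroup.center (T h))) := by rw [h1]; norm_num
  have h4 : H16.allL (KS.map Prod.fst) (fun p => Nat.beq (H16.powM (H16.linOps mul18 mul18Ap mul18One (9 + 9)) p 19)
    mul18One) = true := by decide +kernel
  have hp : commutator (T h) = ⊤ := perfect_closure h2 h3 fun x ⟨p, hp, r⟩ =>
    (ML h).eq_of (H16.Mdl.R_pow r 19) (ML h).R_one (H16.allL_iff.1 h4 p hp)
  refine H27.hasSchur_congr (schur_of_cov (sur_all (card h) [2, 3] (5 * 17 * 19) 100 (by decide +kernel) ?_)
    (by simpa [h1] using (cov_center hp).congr e)) (equiv h).2.some.symm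
  simp only [List.forall_mem_cons, List.not_mem_nil, false_imp_iff, implies_true, and_true]
  exact ⟨⟨Nat.prime_two, bnd2.sur0 Nat.prime_two⟩, Nat.prime_three, bnd3.sur1⟩

end Cfsg.Agent.S2041
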