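import Cfsg.Statements.S2043
import Cfsg.Agent.H27.TCo1_2
import Cfsg.Agent.H27.TCo1_3
import Cfsg.Agent.H27.TCo1_5
import Cfsg.Agent.H27.TCo1_7

set_option autoImplicit false
open Cfsg

namespace Cfsg.Agent.S2043

open H27.Tl H27.TCo1 LL in

/-- The Schur multiplier of the Conway group Co₁ (the automorphism group of the rank-24 lattice modulo its centre) is cyclic of order 2; here the Schur multiplier is described through stem extensions, as in the definitions: surjective homomorphisms onto the group from a finite group, whose kernel is central in that finite group and contained in that finite group's commutator subgroup. -/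
theorem result : Cfsg.HasCyclicSchurMultiplier Cfsg.Spor.Co1 2 := by
  haveI := simple_Co1
  have hp : commutator Co0 = ⊤ := (normal_Co0 _).resolve_left fun h => by
    have h2 := perfect_of_simple card_Co1 (by norm_num) (by norm_num)
    rw [← Subgroup.map_top_of_surjective _ (QuotientGroup.mk'_surjective (Subgroup.center Co0)), commutator_def,
      ← Subgroup.map_top_of_surjective _ (QuotientGroup.mk'_surjective (Subgroup.center Co0)), ← Subgroup.map_commutator,
      ← commutator_def, (Subgroup.map_eq_bot_iff _).2 (by simpa using h),
      Subgroup.map_top_of_surjective _ (QuotientGroup.mk'_surjective _)] at h2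
    exact absurd h2 bot_ne_top
  refine schur_of_cov (sur_all card_Co1 [2, 3, 5, 7] (11 * 13 * 23) 100 (by decide +kernel) ?_)
    (by simpa [card_center] using cov_center hp)
  simp only [List.forall_mem_cons, List.not_mem_nil, false_imp_iff, implies_true, and_true]
  exact ⟨⟨Nat.prime_two, bnd2.sur1⟩, ⟨Nat.prime_three, bnd3.sur0 Nat.prime_three⟩, ⟨Nat.prime_five,
    bnd5.sur0 Nat.prime_five⟩, Nat.prime_seven, bnd7.sur0 Nat.prime_seven⟩

end Cfsg.Agent.S2043
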