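import Cfsg.Statements.S2045
import Cfsg.Agent.H27.TCo3

set_option autoImplicit false
open Cfsg

namespace Cfsg.Agent.S2045

open H27.Tl H27.TCo3 in

/-- The Schur multiplier of the Conway group Co₃ (the stabiliser of a vector of the second shortest length in the rank-24 lattice) is trivial; here the Schur multiplier is described through stem extensions, as in the definitions: surjective homomorphisms onto the group from a finite group, whose kernel is central in that finite group and contained in that finite group's commutator subgroup. -/
theorem result : Cfsg.HasCyclicSchurMultiplier ↥Cfsg.Spor.Co3 1 := by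
  refine H27.hasSchur_congr (schur_one (sur_all X.card [2, 3, 5] (7 * 11 * 23) 100
    (by decide +kernel) ?_)) LL.sporCo3.symm
  simp only [List.forall_mem_cons, List.not_mem_nil, false_imp_iff, implies_true, and_true]
  exact ⟨⟨Nat.prime_two, bnd2.sur0 Nat.prime_two⟩, ⟨Nat.prime_three, bnd3.sur0 Nat.prime_three⟩,
    Nat.prime_five, bnd5.sur0 Nat.prime_five⟩

end Cfsg.Agent.S2045
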