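import Cfsg.Statements.S2051
import Cfsg.Agent.H27.TRu_2
import Cfsg.Agent.H27.TRu_3
import Cfsg.Agent.H27.TRu_5

set_option autoImplicit false
open Cfsg

namespace Cfsg.Agent.S2051

open H27.Tl H27.Ru H27.RuH Subgroup in
theorem cov : Cov 2 Spor.Ru := by
  haveI := simple
  haveI := equiv.symm.isSimpleGroup
  refine cov_of_stem (stem_derived (QuotientGroup.mk'_surjective (center Spor.fourRu)) (QuotientGroup.ker_mk' _).le
    (perfect_of_simple ((Nat.card_congr equiv.toEquiv).symm.trans card) (by norm_num) (by norm_num))) ?_
  refine Finite.one_lt_card_iff_nontrivial.2 ⟨⟨⟨_, io_comm⟩, (QuotientGroup.eq_one_iff _).2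
    (io_center (pow_mem (mem_zpowers _) 2))⟩, 1, fun h => io_sq_ne (congrArg (·.1.1) h)⟩

open H27.Tl H27.TRu in

/-- The Schur multiplier of the Rudvalis group (the unitary automorphism group of the rank-28 Gaussian lattice modulo its centre) is cyclic of order 2; here the Schur multiplier is described through stem extensions, as in the definitions: surjective homomorphisms onto the group from a finite group, whose kernel is central in that finite group and contained in that finite group's commutator subgroup. -/
theorem result : Cfsg.HasCyclicSchurMultiplier Cfsg.Spor.Ru 2 := by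
  refine schur_of_cov (fun r hr => (sur_all X.card [2, 3, 5] (7 * 13 * 29) 100 (by decide +kernel) ?_ r hr).congr
    H27.RuH.equiv) (by simpa using cov)
  simp only [List.forall_mem_cons, List.not_mem_nil, false_imp_iff, implies_true, and_true]
  exact ⟨⟨Nat.prime_two, bnd2.sur1⟩, ⟨Nat.prime_three, bnd3.sur0 Nat.prime_three⟩,
    Nat.prime_five, bnd5.sur0 Nat.prime_five⟩

end Cfsg.Agent.S2051
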