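import Cfsg.Statements.S2088
import Cfsg.Agent.H27.CL34

set_option autoImplicit false
open Cfsg

namespace Cfsg.Agent.S2088

open H27.Tl H27.TL34 in

/-- Exceptional Schur multiplier: over the field with 4 elements, PSL₃ has Schur multiplier isomorphic to the product of cyclic groups of orders 3, 4 and 4 (order 48, not cyclic; here the Schur multiplier is described through stem extensions, as in the definitions). -/
theorem result {F : Type*} [Field F] [Fintype F] (hF : Fintype.card F = 4) : Cfsg.HasSchurMultiplier (Matrix.ProjectiveSpecialLinearGroup (Fin 3) F) (Multiplicative (ZMod 3 × ZMod 4 × ZMod 4)) := by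
  obtain ⟨e⟩ := exists_equiv (H17.F4) (H17.card_F4) hF
  refine H27.hasSchur_congr (schur_of_cov (sur_all X.card [2, 3] (5 * 7) 100 (by decide +kernel) ?_)
    (by simpa using H27.CL34.cov)) (Subgroup.topEquiv.trans (H12.pslCongr _ e))
  simp only [List.forall_mem_cons, List.not_mem_nil, false_imp_iff, implies_true, and_true]
  exact ⟨⟨Nat.prime_two, bnd2.sur2.snd⟩, Nat.prime_three, bnd3.sur1.fst⟩

end Cfsg.Agent.S2088
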