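import Cfsg.Statements.S2093
import Cfsg.Agent.H27.CS62

set_option autoImplicit false
open Cfsg

namespace Cfsg.Agent.S2093

open H27.Tl H27.TS62 in

/-- Exceptional Schur multiplier: over the field with 2 elements, PSp₆ has Schur multiplier cyclic of order 2 (here the Schur multiplier is described through stem extensions, as in the definitions). -/
theorem result {F : Type*} [Field F] [Fintype F] (hF : Fintype.card F = 2) : Cfsg.HasCyclicSchurMultiplier (Cfsg.PSp 3 F) 2 := by
  obtain ⟨e⟩ := exists_equiv (ZMod 2) (ZMod.card 2) hF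
  refine H27.hasSchur_congr (schur_of_cov (sur_all X.card [2, 3] (5 * 7) 100 (by decide +kernel) ?_)
    (by simpa using H27.CS62.cov)) (Subgroup.topEquiv.trans (H12.pspCongr 3 e))
  simp only [List.forall_mem_cons, List.not_mem_nil, false_imp_iff, implies_true, and_true]
  exact ⟨⟨Nat.prime_two, bnd2.sur1⟩, Nat.prime_three, bnd3.sur0 Nat.prime_three⟩

end Cfsg.Agent.S2093
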