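import Cfsg.Statements.S2095
import Cfsg.Agent.H27.CO73

set_option autoImplicit false
open Cfsg

namespace Cfsg.Agent.S2095

open H27.Tl H27.TO73 in

/-- Exceptional Schur multiplier: over the field with 3 elements, PΩ₇ (for the form x₀² + Σ xᵢyᵢ) has Schur multiplier cyclic of order 6 (the product of cyclic groups of orders 3 and 2; here the Schur multiplier is described through stem extensions, as in the definitions). -/
theorem result {F : Type*} [Field F] [Fintype F] (hF : Fintype.card F = 3) : Cfsg.HasCyclicSchurMultiplier (Cfsg.POmega F (Cfsg.quadFormOdd 3 F)) 6 := by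
  obtain ⟨e⟩ := exists_equiv (ZMod 3) (ZMod.card 3) hF
  refine H27.hasSchur_congr (schur_of_cov (sur_all X.card [2, 3] (5 * 7 * 13) 100 (by decide +kernel) ?_)
    (by simpa using H27.CO73.cov)) (Subgroup.topEquiv.trans (pomOddCongr 3 e))
  simp only [List.forall_mem_cons, List.not_mem_nil, false_imp_iff, implies_true, and_true]
  exact ⟨⟨Nat.prime_two, bnd2.sur1.zmod (by norm_num)⟩, Nat.prime_three, bnd3.sur1.zmod (by norm_num)⟩

end Cfsg.Agent.S2095
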