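import Cfsg.Statements.S2096
import Cfsg.Agent.H13.Spin

set_option autoImplicit false
open Cfsg

namespace Cfsg.Agent.S2096

/-- Schur multipliers of the even-dimensional orthogonal groups of plus type and odd rank: for odd l ≥ 5 and a field F with q elements, the Schur multiplier of PΩ⁺_2l(F) (for the form Σ xᵢyᵢ) is cyclic of order gcd(4, q^l − 1); here the Schur multiplier is described through stem extensions, as in the definitions. -/
theorem result {F : Type*} [Field F] [Fintype F] {q : ℕ} (hF : Fintype.card F = q) (l : ℕ) (hl : 5 ≤ l) (hodd : Odd l) : Cfsg.HasCyclicSchurMultiplier (Cfsg.POmega F (Cfsg.quadFormPlus l F)) (Nat.gcd 4 (q ^ l - 1)) := by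
  rw [← H13.coe_QPlus]
  have := (H13.of_QPlus (F := F) (m := l) (by omega)).schur (by simpa [H13.Fm.plus] using by omega)
    H13.nd_QPlus (by simp; omega) (by simp; omega) (by simp; omega) (by simp)
  subst hF
  have hq : 1 ≤ Fintype.card F ^ l := Nat.one_le_pow _ _ Fintype.card_pos
  rw [Nat.gcd_rec]
  by_cases h2 : (2 : F) = 0
  · have h := Nat.even_iff.1 ((H13.even_card_of_two_eq_zero h2).pow_of_ne_zero (n := l) (by omega))
    have h3 : (Fintype.card F ^ l - 1) % 4 = 1 ∨ (Fintype.card F ^ l - 1) % 4 = 3 := by omega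
    rcases h3 with h3 | h3 <;> rw [h3] <;> exact this.1 h2
  have ho := H13.odd_card_of_two_ne_zero h2
  have h4 : Fintype.card F ^ l % 2 = 1 := Nat.odd_iff.mp ho.pow
  have h5 : H13.negOne _ ∈ H13.Om (H13.QPlus l F) ↔ Fintype.card F ^ l % 4 = 1 := by
    rw [H13.nd_QPlus.negOne_mem_iff h2, H13.disc_QPlus, H13.sgn_neg_one_pow_eq_one_iff ho]; simp
  by_cases h6 : Fintype.card F ^ l % 4 = 1
  · rw [show (Fintype.card F ^ l - 1) % 4 = 0 by omega]
    exact ((this.2 h2).2 (h5.2 h6)).1 (by
      simpa [← two_mul, H13.even_choose_two] using hodd)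
  · rw [show (Fintype.card F ^ l - 1) % 4 = 2 by omega]
    exact (this.2 h2).1 (mt h5.1 h6)

end Cfsg.Agent.S2096
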