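import Cfsg.Statements.S2097
import Cfsg.Agent.H13.Spin

set_option autoImplicit false
open Cfsg

namespace Cfsg.Agent.S2097

/-- Schur multipliers of the even-dimensional orthogonal groups of plus type and even rank: for even l ≥ 4 and a field F with q elements, (l, q) ≠ (4, 2), the Schur multiplier of PΩ⁺_2l(F) (for the form Σ xᵢyᵢ) is the product of two cyclic groups of order gcd(2, q^l − 1) (so trivial for q even and a four-group for q odd; here the Schur multiplier is described through stem extensions, as in the definitions). -/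
theorem result {F : Type*} [Field F] [Fintype F] {q : ℕ} (hF : Fintype.card F = q) (l : ℕ) (hl : 4 ≤ l) (heven : Even l) (hexc : ¬ (l = 4 ∧ q = 2)) : Cfsg.HasSchurMultiplier (Cfsg.POmega F (Cfsg.quadFormPlus l F)) (Multiplicative (ZMod (Nat.gcd 2 (q ^ l - 1)) × ZMod (Nat.gcd 2 (q ^ l - 1)))) := by
  rw [← H13.coe_QPlus]
  have := (H13.of_QPlus (F := F) (m := l) (by omega)).schur (by simpa [H13.Fm.plus] using by omega)
    H13.nd_QPlus (by simp; omega) (by simp; omega) (by obtain ⟨k, rfl⟩ := heven; simp; omega) (by simp)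
  subst hF
  have hq : 1 ≤ Fintype.card F ^ l := Nat.one_le_pow _ _ Fintype.card_pos
  rw [Nat.gcd_rec]
  by_cases h2 : (2 : F) = 0
  · have h := Nat.even_iff.1 ((H13.even_card_of_two_eq_zero h2).pow_of_ne_zero (n := l) (by omega))
    rw [show (Fintype.card F ^ l - 1) % 2 = 1 by omega]
    have _ : Unique (ZMod 1 × ZMod 1) := ⟨⟨0⟩, by decide⟩
    exact H27.hasSchur_congr_right (this.1 h2)
      (MulEquiv.ofUnique (M := Multiplicative (ZMod 1)) (N := Multiplicative (ZMod 1 × ZMod 1)))
  have hodd := H13.odd_card_of_two_ne_zero h2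
  have h4 : Fintype.card F ^ l % 2 = 1 := Nat.odd_iff.mp hodd.pow
  rw [show (Fintype.card F ^ l - 1) % 2 = 0 by omega]
  refine ((this.2 h2).2 ?_).2 (by simpa [← two_mul, H13.even_choose_two] using heven)
  rw [H13.nd_QPlus.negOne_mem_iff h2, H13.disc_QPlus, Int.units_pow_eq_pow_mod_two, Nat.even_iff.1 heven]
  simp

end Cfsg.Agent.S2097
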