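import Cfsg.Statements.S2098
import Cfsg.Agent.H27.CO82

set_option autoImplicit false
open Cfsg

namespace Cfsg.Agent.S2098

open H27.Tl H27.TO82 in

/-- Exceptional Schur multiplier: over the field with 2 elements, PΩ⁺₈ (for the form Σ xᵢyᵢ) has Schur multiplier a four-group, the product of two cyclic groups of order 2 (here the Schur multiplier is described through stem extensions, as in the definitions). -/
theorem result {F : Type*} [Field F] [Fintype F] (hF : Fintype.card F = 2) : Cfsg.HasSchurMultiplier (Cfsg.POmega F (Cfsg.quadFormPlus 4 F)) (Multiplicative (ZMod 2 × ZMod 2)) := by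
  obtain ⟨e⟩ := exists_equiv (ZMod 2) (ZMod.card 2) hF
  refine H27.hasSchur_congr (schur_of_cov (sur_all X.card [2, 3, 5] 7 100 (by decide +kernel) ?_)
    (by simpa using H27.CO82.cov)) (Subgroup.topEquiv.trans (pomPlusCongr 4 e))
  simp only [List.forall_mem_cons, List.not_mem_nil, false_imp_iff, implies_true, and_true]
  exact ⟨⟨Nat.prime_two, bnd2.sur2⟩, ⟨Nat.prime_three, bnd3.sur0 Nat.prime_three⟩, Nat.prime_five, bnd5.sur0 Nat.prime_five⟩

end Cfsg.Agent.S2098
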