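import Cfsg.Statements.S2099
import Cfsg.Agent.H13.Spin

set_option autoImplicit false
open Cfsg

namespace Cfsg.Agent.S2099

/-- Schur multipliers of the even-dimensional orthogonal groups of minus type: for l ≥ 4 and a field F with q elements, the Schur multiplier of PΩ⁻_2l(F) (for the form Σ_{i<l−1} xᵢyᵢ + z₁² + a z₁z₂ + b z₂² with the binary part anisotropic) is cyclic of order gcd(4, q^l + 1); here the Schur multiplier is described through stem extensions, as in the definitions. -/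
theorem result {F : Type*} [Field F] [Fintype F] {q : ℕ} (hF : Fintype.card F = q) (l : ℕ) (hl : 4 ≤ l) (a b : F) (hab : ∀ z₁ z₂ : F, z₁ ^ 2 + a * z₁ * z₂ + b * z₂ ^ 2 = 0 → z₁ = 0 ∧ z₂ = 0) : Cfsg.HasCyclicSchurMultiplier (Cfsg.POmega F (Cfsg.quadFormMinus (l - 1) F a b)) (Nat.gcd 4 (q ^ l + 1)) := by
  obtain ⟨m, rfl⟩ : ∃ m, l = m + 1 := ⟨l - 1, by omega⟩
  rw [Nat.add_sub_cancel, ← H13.coe_QMinus]
  have := (H13.of_QMinus (m := m) (by omega) hab).schur
    (by simpa [H13.Fm.plus, H13.Fm.inl] using by omega) (H13.nd_QMinus hab) (by simp; omega)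
    (by simp; omega) (by simp [H13.Fm.plus, H13.Fm.inl]; omega) (by simp [Nat.even_add])
  subst hF
  rw [Nat.gcd_rec]
  by_cases h2 : (2 : F) = 0
  · have h := Nat.even_iff.1 ((H13.even_card_of_two_eq_zero h2).pow_of_ne_zero (n := m + 1) (by omega))
    have h3 : (Fintype.card F ^ (m + 1) + 1) % 4 = 1 ∨ (Fintype.card F ^ (m + 1) + 1) % 4 = 3 := by omega
    rcases h3 with h3 | h3 <;> rw [h3] <;> exact this.1 h2
  have hodd := H13.odd_card_of_two_ne_zero h2
  have h4 : Fintype.card F ^ (m + 1) % 2 = 1 := Nat.odd_iff.mp hodd.pow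
  have h5 : H13.negOne _ ∈ H13.Om (H13.QMinus m F a b) ↔ H13.sgn (-1 : F) ^ (m + 1) = -1 := by
    rw [(H13.nd_QMinus hab).negOne_mem_iff h2, H13.disc_QMinus h2 m hab, neg_eq_iff_eq_neg]
    simp [Nat.even_add]
  by_cases h6 : Fintype.card F ^ (m + 1) % 4 = 3
  · rw [show (Fintype.card F ^ (m + 1) + 1) % 4 = 0 by omega]
    rw [← H13.sgn_neg_one_pow_eq_neg_one_iff hodd] at h6
    refine ((this.2 h2).2 (h5.2 h6)).1 fun h => ?_
    rw [show Fintype.card _ = 2 * (m + 1) by simp; ring, H13.even_choose_two] at h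
    rw [Int.units_pow_eq_pow_mod_two, Nat.even_iff.1 h] at h6
    simp at h6
  · rw [show (Fintype.card F ^ (m + 1) + 1) % 4 = 2 by omega]
    exact (this.2 h2).1 (mt (fun h => (H13.sgn_neg_one_pow_eq_neg_one_iff hodd _).1 (h5.1 h)) h6)

end Cfsg.Agent.S2099
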