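import Cfsg.Statements.S2101
import Cfsg.Agent.H27.CG23

set_option autoImplicit false
open Cfsg

namespace Cfsg.Agent.S2101

open H27.Tl H27.TG23 in

/-- Exceptional Schur multiplier: over the field with 3 elements the Chevalley group of type G₂ has Schur multiplier cyclic of order 3 (here the Schur multiplier is described through stem extensions, as in the definitions). -/
theorem result {F : Type*} [Field F] [Fintype F] (hF : Fintype.card F = 3) : Cfsg.HasCyclicSchurMultiplier ↥(Cfsg.Lie.chevG2.group F) 3 := by
  obtain ⟨e⟩ := exists_equiv (ZMod 3) (ZMod.card 3) hF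
  refine H27.hasSchur_congr (schur_of_cov (sur_all X.card [2, 3] (7 * 13) 100 (by decide +kernel) ?_)
    (by simpa using H27.CG23.cov)) (Subgroup.topEquiv.trans (chevCongr _ e))
  simp only [List.forall_mem_cons, List.not_mem_nil, false_imp_iff, implies_true, and_true]
  exact ⟨⟨Nat.prime_two, bnd2.sur0 Nat.prime_two⟩, Nat.prime_three, bnd3.sur1⟩

end Cfsg.Agent.S2101
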