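import Cfsg.Statements.S2102
import Cfsg.Agent.H27.CG24

set_option autoImplicit false
open Cfsg

namespace Cfsg.Agent.S2102

open H27.Tl H27.TG24 in

/-- Exceptional Schur multiplier: over the field with 4 elements the Chevalley group of type G₂ has Schur multiplier cyclic of order 2 (here the Schur multiplier is described through stem extensions, as in the definitions). -/
theorem result {F : Type*} [Field F] [Fintype F] (hF : Fintype.card F = 4) : Cfsg.HasCyclicSchurMultiplier ↥(Cfsg.Lie.chevG2.group F) 2 := by
  obtain ⟨e⟩ := exists_equiv H17.F4 H17.card_F4 hF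
  refine H27.hasSchur_congr (schur_of_cov (sur_all X.card [2, 3, 5] (7 * 13) 100 (by decide +kernel) ?_)
    (by simpa using (H27.CG24.cov.congr Subgroup.topEquiv.symm).cov)) (Subgroup.topEquiv.trans (chevCongr _ e))
  simp only [List.forall_mem_cons, List.not_mem_nil, false_imp_iff, implies_true, and_true]
  exact ⟨⟨Nat.prime_two, bnd2.sur1⟩, ⟨Nat.prime_three, bnd3.sur0 Nat.prime_three⟩, Nat.prime_five, bnd5.sur0 Nat.prime_five⟩

end Cfsg.Agent.S2102
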