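import Cfsg.Statements.S2103
import Cfsg.Agent.H14.Lift4

set_option autoImplicit false
open Cfsg

namespace Cfsg.Agent.S2103

/-- Schur multipliers of the Chevalley groups of type F₄: over a finite field with more than 2 elements the Schur multiplier of F₄(q) is trivial (here the Schur multiplier is described through stem extensions, as in the definitions); q = 2 is exceptional. -/
theorem result {F : Type*} [Field F] [Fintype F] (hF : 3 ≤ Fintype.card F) : Cfsg.HasCyclicSchurMultiplier ↥(Cfsg.Lie.chevF4.group F) 1 := by
  classical
  obtain ⟨x, hx⟩ := Finset.exists_mem_notMem_of_card_lt_card (s := {0, 1}) (t := (Finset.univ : Finset F))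
    (Finset.card_le_two.trans_lt hF)
  exact (H14.liftP_F4 H14.goodF4 hF).schur (by simp) (fun _ => ⟨x, by simpa using hx.2⟩)
    (p := 2) (by simp [H14.center_St_eq_bot H14.goodF4 H14.stF4 (H14.centerF4 _)]) (one_dvd _)

end Cfsg.Agent.S2103
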