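import Cfsg.Statements.S2104
import Cfsg.Agent.H27.CF42
import Cfsg.Agent.H27.Cl
import Cfsg.Agent.H27.TF42_2
import Cfsg.Agent.H27.TF42_3
import Cfsg.Agent.H27.TF42_5
import Cfsg.Agent.H27.TF42_7

set_option autoImplicit false
open Cfsg

namespace Cfsg.Agent.S2104

open H27.Tl H27.TF42 in

/-- Exceptional Schur multiplier: over the field with 2 elements the Chevalley group of type F₄ has Schur multiplier cyclic of order 2 (here the Schur multiplier is described through stem extensions, as in the definitions). -/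
theorem result {F : Type*} [Field F] [Fintype F] (hF : Fintype.card F = 2) : Cfsg.HasCyclicSchurMultiplier ↥(Cfsg.Lie.chevF4.group F) 2 := by
  obtain ⟨e⟩ := exists_equiv (ZMod 2) (ZMod.card 2) hF
  refine H27.hasSchur_congr (schur_of_cov (sur_all card [2, 3, 5, 7] (13 * 17) 100 (by decide +kernel) ?_)
    (by simpa using H27.CF42.cov)) (chevCongr _ e)
  simp only [List.forall_mem_cons, List.not_mem_nil, false_imp_iff, implies_true, and_true]
  exact ⟨⟨Nat.prime_two, bnd2.sur1⟩, ⟨Nat.prime_three, bnd3.sur0 Nat.prime_three⟩, ⟨Nat.prime_five,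
    bnd5.sur0 Nat.prime_five⟩, Nat.prime_seven, bnd7.sur0 Nat.prime_seven⟩

end Cfsg.Agent.S2104
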