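import Cfsg.Statements.S2106
import Cfsg.Agent.H14.Lift4

set_option autoImplicit false
open Cfsg

namespace Cfsg.Agent.S2106

/-- Schur multipliers of the (adjoint, simple) Chevalley groups of type E₇: over a field with q elements the Schur multiplier is cyclic of order gcd(2, q − 1) (here the Schur multiplier is described through stem extensions, as in the definitions). -/
theorem result {F : Type*} [Field F] [Fintype F] {q : ℕ} (hF : Fintype.card F = q) : Cfsg.HasCyclicSchurMultiplier ↥(Cfsg.Lie.chevE7.group F) (Nat.gcd 2 (q - 1)) := by
  exact (H14.liftP_E7 H14.goodE7).schur (by simp) (by rintro (h | h) <;> cases congrArg (·.rank) h) (p := 2) (by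
    simp [H14.card_center_St H14.goodE7 H14.stE7 H14.torX_injective_E7 (H14.centerE7 _), hF]) (Nat.gcd_dvd_left _ _)

end Cfsg.Agent.S2106
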