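import Cfsg.Statements.S2115
import Cfsg.Agent.H27.TTits

set_option autoImplicit false
open Cfsg

namespace Cfsg.Agent.S2115

open H27.Tl H27.TTits in

/-- The Tits group, the commutator subgroup of ²F₄(2), has trivial Schur multiplier (here the Schur multiplier is described through stem extensions, as in the definitions). -/
theorem result : Cfsg.HasCyclicSchurMultiplier Cfsg.Lie.TitsGroup 1 := by
  refine H27.hasSchur_congr (schur_one (sur_all card [2, 3, 5] 13 100 (by decide +kernel) ?_)) equiv
  simp only [List.forall_mem_cons, List.not_mem_nil, false_imp_iff, implies_true, and_true]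
  exact ⟨⟨Nat.prime_two, bnd2.sur0 Nat.prime_two⟩, ⟨Nat.prime_three, bnd3.sur0 Nat.prime_three⟩, Nat.prime_five,
    bnd5.sur0 Nat.prime_five⟩

end Cfsg.Agent.S2115
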