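import Cfsg.Statements.S2142
import Cfsg.Agent.H26.MS2

set_option autoImplicit false
open Cfsg

namespace Cfsg.Agent.S2142


/-- Minimal index of a proper subgroup of the symplectic groups over the field with 2 elements: for m ≥ 3, every proper subgroup of Sp_2m(2) has index at least 2^(m−1)(2^m − 1), and that index is attained. -/
theorem result {F : Type*} [Field F] [Fintype F] (hF : Fintype.card F = 2) (m : ℕ) (hm : 3 ≤ m) : (∀ H : Subgroup (Cfsg.PSp m F), H ≠ ⊤ → 2 ^ (m - 1) * (2 ^ m - 1) ≤ H.index) ∧ (∃ H : Subgroup (Cfsg.PSp m F), H.index = 2 ^ (m - 1) * (2 ^ m - 1)) := by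
  have hC : H26.MS.SC (H12.spB (Fin m) F) := ⟨H12.sd_spB, by rw [H12.finrank_sp]; simp; omega⟩
  rw [← Nat.card_eq_fintype_card] at hF
  obtain ⟨k, rfl⟩ : ∃ k, m = k + 1 := ⟨m - 1, by omega⟩
  have h := H26.MS.minIdx2 (B := H12.spB (Fin (k + 1)) F) hF (r := 2 ^ k)
    (by rw [H12.finrank_sp, Fintype.card_fin, show 2 * (k + 1) - 1 = k + k + 1 by omega]; ring)
    (by rw [H12.finrank_sp]; simp; omega) (θ := fun v => ∑ i, v (Sum.inl i) * v (Sum.inr i)) fun u v => by
      simp only [H12.spB_apply', ← Finset.sum_add_distrib, Pi.add_apply]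
      exact Finset.sum_congr rfl fun i _ => by
        linear_combination H26.MS.two0 hF (u (Sum.inl i) * v (Sum.inr i))
  rw [show 2 * (2 ^ k * 2 ^ k) - 2 ^ k = 2 ^ (k + 1 - 1) * (2 ^ (k + 1) - 1) by
    rw [Nat.mul_sub_one, Nat.add_sub_cancel]; congr 1; ring] at h
  exact h.of_equiv (H12.centerQuotCongr (H12.spEquiv _ F)).symm

end Cfsg.Agent.S2142
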