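import Cfsg.Statements.S2143
import Cfsg.Agent.H26.MO9

set_option autoImplicit false
open Cfsg

namespace Cfsg.Agent.S2143

open Module H13 H26.MD in
theorem aux {F : Type*} [Field F] [Finite F] (hodd : Odd (Nat.card F)) (h5 : 5 ≤ Nat.card F) (m : ℕ)
    (hm : 3 ≤ m) : MinIdx (POm (QOdd m F)) ((Nat.card F ^ (2 * m) - 1) / (Nat.card F - 1)) := by
  have hn : finrank F (Unit ⊕ (Fin m ⊕ Fin m) → F) = 2 * m + 1 := by simp; omega
  have hC : OC (QOdd m F) := ⟨nd_QOdd (two_ne_of_odd hodd), by omega⟩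
  have hz := hC.nd.nz_odd hn
  have h : nz (QOdd m F) - 1 ≤ Nat.card F ^ (finrank F (Unit ⊕ (Fin m ⊕ Fin m) → F) - 1) +
      Nat.card F ^ (finrank F (Unit ⊕ (Fin m ⊕ Fin m) → F) - 3) := by
    rw [hz, hn, Nat.add_sub_cancel]; omega
  exact hz ▸ minIdx0 (by omega) (h1_of (by omega) h) (fun h => by omega) fun c _ => h4_of (by omega) h c

/-- Minimal index of a proper subgroup of the odd-dimensional orthogonal groups: for m ≥ 3 and a field F with q elements, q odd and q ≥ 5, every proper subgroup of PΩ_(2m+1)(F) (for the form x₀² + Σ xᵢyᵢ) has index at least (q^(2m) − 1)/(q − 1), and that index is attained. -/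
theorem result {F : Type*} [Field F] [Fintype F] {q : ℕ} (hF : Fintype.card F = q) (hodd : Odd q) (h5 : 5 ≤ q) (m : ℕ) (hm : 3 ≤ m) : (∀ H : Subgroup (Cfsg.POmega F (Cfsg.quadFormOdd m F)), H ≠ ⊤ → (q ^ (2 * m) - 1) / (q - 1) ≤ H.index) ∧ (∃ H : Subgroup (Cfsg.POmega F (Cfsg.quadFormOdd m F)), H.index = (q ^ (2 * m) - 1) / (q - 1)) := by
  subst hF
  rw [← Nat.card_eq_fintype_card] at *
  exact (aux hodd h5 m hm).of_equiv (H13.pomegaEquiv (H13.QOdd m F)).symm

end Cfsg.Agent.S2143
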