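import Cfsg.Statements.S2144
import Cfsg.Agent.H26.MO9

set_option autoImplicit false
open Cfsg

namespace Cfsg.Agent.S2144

open Module H13 H26.MD in
theorem Nc_odd {F : Type*} [Field F] [Fintype F] (m : ℕ) (c : F) :
    Nc (QOdd m F) c = ∑ x : F, Nc (QPlus m F) (c - x ^ 2) := by
  unfold Nc
  rw [← Nat.card_sigma]
  exact Nat.card_congr ⟨fun v => ⟨v.1 (.inl ()), fun i => v.1 (.inr i), by
      rw [eq_sub_iff_add_eq', QPlus_apply]; exact v.2⟩,
    fun v => ⟨Sum.elim (fun _ => v.1) v.2.1, by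
      have := v.2.2
      rw [QPlus_apply] at this
      simp [QOdd_apply, this]⟩,
    fun v => Subtype.ext (funext fun i => by rcases i with i | i <;> rfl), fun v => rfl⟩

open Module H13 H26.MD in
theorem aux {F : Type*} [Field F] [Fintype F] (h3 : Nat.card F = 3) (m : ℕ) (hm : 3 ≤ m) :
    MinIdx (POm (QOdd m F)) (3 ^ m * (3 ^ m - 1) / 2) := by
  have hn : finrank F (Unit ⊕ (Fin m ⊕ Fin m) → F) = 2 * m + 1 := by simp; omega
  have hn' : finrank F (Fin m ⊕ Fin m → F) = 2 * m := by simp; omega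
  have h2 : (2 : F) ≠ 0 := two_ne_of_odd (by rw [h3]; decide)
  have hC : OC (QOdd m F) := ⟨nd_QOdd h2, by omega⟩
  have hz := hC.nd.nz_odd hn
  have hp := (nd_QPlus (m := m) (F := F)).nz_plus (isPlus_QPlus m) (by omega) hn'
  obtain ⟨k, rfl⟩ : ∃ k, m = k + 1 := ⟨m - 1, by omega⟩
  have e1 : 3 ^ (2 * (k + 1) + 1 - 3) = 3 ^ k * 3 ^ k := by
    rw [show 2 * (k + 1) + 1 - 3 = k + k by omega]; ring
  have e2 : 3 ^ (k + 1) * (3 ^ (k + 1) - 1) = 9 * (3 ^ k * 3 ^ k) - 3 * 3 ^ k := by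
    rw [Nat.mul_sub]; congr 1 <;> ring
  have e3 : nz (QPlus (k + 1) F) = 3 * (3 ^ k * 3 ^ k) + 2 * 3 ^ k := by
    rw [hp, h3, show 2 * (k + 1) - 1 = k + k + 1 by omega, Nat.add_sub_cancel, Nat.sub_eq_of_eq_add]; ring
  have e5 : 3 ^ (2 * (k + 1)) = 9 * (3 ^ k * 3 ^ k) := by ring
  have e4 : ∀ c : F, c ≠ 0 → Nc (QPlus (k + 1) F) c = 3 * (3 ^ k * 3 ^ k) - 3 ^ k := fun c hc => by
    have := Nc_three h3 (nd_QPlus (m := k + 1)) (m := k) (by omega) hc
    rw [hn', e3, e5] at this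
    omega
  have h3' : Fintype.card F = 3 := by rwa [← Nat.card_eq_fintype_card]
  have e6 : ∀ c : F, 9 * (3 ^ k * 3 ^ k) - 3 * 3 ^ k ≤ Nc (QOdd (k + 1) F) c := fun c => by
    have : ∑ _x : F, (3 * (3 ^ k * 3 ^ k) - 3 ^ k) ≤ ∑ x : F, Nc (QPlus (k + 1) F) (c - x ^ 2) :=
      Finset.sum_le_sum fun x _ => by
        by_cases h : c - x ^ 2 = 0
        · rw [h, show Nc (QPlus (k + 1) F) 0 = _ from e3]; omega
        · rw [e4 _ h]
    rw [Finset.sum_const, Finset.card_univ, h3', ← Nc_odd, smul_eq_mul] at this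
    omega
  have e7 : Nc (QOdd (k + 1) F) (-1) = 9 * (3 ^ k * 3 ^ k) - 3 * 3 ^ k := by
    rw [Nc_odd, Finset.sum_congr rfl fun x _ => e4 _ fun h => ?_, Finset.sum_const, Finset.card_univ,
      h3', smul_eq_mul]
    · omega
    · by_cases hx : x = 0
      · simp [hx] at h
      · rw [eq_of_three h3 hx] at h; exact h2 (by linear_combination -h)
  obtain ⟨y, hy⟩ := hC.nd.exists_eq (by omega) (-1)
  have h1 : 1 ≤ 3 ^ k := Nat.one_le_pow _ _ (by norm_num)
  have e8 := index_Ls1 (Q := QOdd (k + 1) F) (y := y) (by omega) (by simp [hy])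
  rw [if_neg h2, hy, e7] at e8
  refine minIdx (y := y) (by omega) (by rw [h3, hn, e1, e2]; omega) (by rw [h3, e2, hz, h3, e5]; omega)
    (fun _ h _ _ _ => ?_) (fun c hc => by have := e6 c; rw [if_neg h2, e2]; omega) (by rw [e2]; omega)
  obtain rfl : k = 2 := by omega
  rw [hn, h3]; norm_num

/-- Minimal index of a proper subgroup of the odd-dimensional orthogonal groups over the field with 3 elements: for m ≥ 3, every proper subgroup of PΩ_(2m+1)(3) (for the form x₀² + Σ xᵢyᵢ) has index at least 3^m(3^m − 1)/2, and that index is attained. -/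
theorem result {F : Type*} [Field F] [Fintype F] (hF : Fintype.card F = 3) (m : ℕ) (hm : 3 ≤ m) : (∀ H : Subgroup (Cfsg.POmega F (Cfsg.quadFormOdd m F)), H ≠ ⊤ → 3 ^ m * (3 ^ m - 1) / 2 ≤ H.index) ∧ (∃ H : Subgroup (Cfsg.POmega F (Cfsg.quadFormOdd m F)), H.index = 3 ^ m * (3 ^ m - 1) / 2) := by
  rw [← Nat.card_eq_fintype_card] at *
  exact (aux hF m hm).of_equiv (H13.pomegaEquiv (H13.QOdd m F)).symm

end Cfsg.Agent.S2144
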