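import Cfsg.Statements.S2145
import Cfsg.Agent.H26.MO9

set_option autoImplicit false
open Cfsg

namespace Cfsg.Agent.S2145

open Module H13 H26.MD in
theorem aux {F : Type*} [Field F] [Finite F] (h4 : 4 ≤ Nat.card F) (m : ℕ) (hm : 4 ≤ m) :
    MinIdx (POm (QPlus m F)) ((Nat.card F ^ m - 1) * (Nat.card F ^ (m - 1) + 1) / (Nat.card F - 1)) := by
  have hn : finrank F (Fin m ⊕ Fin m → F) = 2 * m := by simp; omega
  have hC : OC (QPlus m F) := ⟨nd_QPlus, by omega⟩
  have hz := hC.nd.nz_plus (isPlus_QPlus m) (by omega) hn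
  have h : nz (QPlus m F) - 1 ≤ Nat.card F ^ (finrank F (Fin m ⊕ Fin m → F) - 1) +
      Nat.card F ^ (finrank F (Fin m ⊕ Fin m → F) - 3) := by
    have := Nat.pow_le_pow_right (n := Nat.card F) (by omega) (show m ≤ 2 * m - 3 by omega)
    rw [hz, hn]; omega
  have e : (Nat.card F ^ m - 1) * (Nat.card F ^ (m - 1) + 1) = nz (QPlus m F) - 1 := by
    obtain ⟨k, rfl⟩ : ∃ k, m = k + 1 := ⟨m - 1, by omega⟩
    rw [hz, show 2 * (k + 1) - 1 = k + 1 + k by omega, pow_add _ (k + 1) k, Nat.add_sub_cancel,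
      Nat.sub_mul, mul_add, mul_one, one_mul, Nat.sub_sub]
  exact e ▸ minIdx0 (by omega) (h1_of (by omega) h) (fun h => by omega) fun c _ => h4_of (by omega) h c

/-- Minimal index of a proper subgroup of the even-dimensional orthogonal groups of plus type: for m ≥ 4 and a field F with q ≥ 4 elements, every proper subgroup of PΩ⁺_2m(F) (for the form Σ xᵢyᵢ) has index at least (q^m − 1)(q^(m−1) + 1)/(q − 1), and that index is attained (the singular points). -/
theorem result {F : Type*} [Field F] [Fintype F] {q : ℕ} (hF : Fintype.card F = q) (hq : 4 ≤ q) (m : ℕ) (hm : 4 ≤ m) : (∀ H : Subgroup (Cfsg.POmega F (Cfsg.quadFormPlus m F)), H ≠ ⊤ → (q ^ m - 1) * (q ^ (m - 1) + 1) / (q - 1) ≤ H.index) ∧ (∃ H : Subgroup (Cfsg.POmega F (Cfsg.quadFormPlus m F)), H.index = (q ^ m - 1) * (q ^ (m - 1) + 1) / (q - 1)) := by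
  subst hF
  rw [← Nat.card_eq_fintype_card] at *
  exact (aux hq m hm).of_equiv (H13.pomegaEquiv (H13.QPlus m F)).symm

end Cfsg.Agent.S2145
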