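import Cfsg.Statements.S2146
import Cfsg.Agent.H26.MO9

set_option autoImplicit false
open Cfsg

namespace Cfsg.Agent.S2146

open Module H13 H26.MD in
theorem aux {F : Type*} [Field F] [Finite F] (h2 : Nat.card F = 2) (m : ℕ) (hm : 4 ≤ m) :
    MinIdx (POm (QPlus m F)) (2 ^ (m - 1) * (2 ^ m - 1)) := by
  have hn : finrank F (Fin m ⊕ Fin m → F) = 2 * m := by simp; omega
  have hC : OC (QPlus m F) := ⟨nd_QPlus, by omega⟩
  have hz := hC.nd.nz_plus (isPlus_QPlus m) (by omega) hn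
  have h0 : (2 : F) = 0 := by_contra fun h3 => by have := odd_q h3; omega
  obtain ⟨k, rfl⟩ : ∃ k, m = k + 2 := ⟨m - 2, by omega⟩
  have e1 : 2 ^ (2 * (k + 2) - 3) = 2 * (2 ^ k * 2 ^ k) := by
    rw [show 2 * (k + 2) - 3 = k + k + 1 by omega]; ring
  have e2 : 2 ^ (k + 2 - 1) * (2 ^ (k + 2) - 1) = 8 * (2 ^ k * 2 ^ k) - 2 * 2 ^ k := by
    rw [show k + 2 - 1 = k + 1 by omega, Nat.mul_sub]; congr 1 <;> ring
  have e3 : nz (QPlus (k + 2) F) = 8 * (2 ^ k * 2 ^ k) + 2 * 2 ^ k := by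
    rw [hz, h2, show 2 * (k + 2) - 1 = k + k + 3 by omega, show k + 2 - 1 = k + 1 by omega,
      Nat.sub_eq_of_eq_add]; ring
  have e4 : ∀ c : F, c ≠ 0 → Nc (QPlus (k + 2) F) c = 8 * (2 ^ k * 2 ^ k) - 2 * 2 ^ k := fun c hc => by
    have := Nc_two (Q := QPlus (k + 2) F) h2 hc
    rw [hn, e3, show 2 ^ (2 * (k + 2)) = 16 * (2 ^ k * 2 ^ k) by ring] at this
    omega
  obtain ⟨y, hy⟩ := hC.nd.exists_eq (by omega) 1
  have := Nat.one_le_two_pow (n := k)
  refine minIdx (y := y) (by omega) (by rw [h2, hn, e1, e2]; omega) (by rw [h2, e2, e3]; omega)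
    (fun _ h _ _ _ => ?_) (fun c hc => by rw [if_pos h0, e2, e4 c hc, one_mul]) ?_
  · obtain rfl : k = 2 := by omega
    rw [hn, h2]; norm_num
  · have := index_Ls1 (Q := QPlus (k + 2) F) (y := y) (by omega) (by simp [hy])
    rwa [if_pos h0, one_mul, hy, e4 1 one_ne_zero, ← e2] at this

/-- Minimal index of a proper subgroup of the even-dimensional orthogonal groups of plus type over the field with 2 elements: for m ≥ 4, every proper subgroup of Ω⁺_2m(2) (for the form Σ xᵢyᵢ) has index at least 2^(m−1)(2^m − 1), and that index is attained. -/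
theorem result {F : Type*} [Field F] [Fintype F] (hF : Fintype.card F = 2) (m : ℕ) (hm : 4 ≤ m) : (∀ H : Subgroup (Cfsg.POmega F (Cfsg.quadFormPlus m F)), H ≠ ⊤ → 2 ^ (m - 1) * (2 ^ m - 1) ≤ H.index) ∧ (∃ H : Subgroup (Cfsg.POmega F (Cfsg.quadFormPlus m F)), H.index = 2 ^ (m - 1) * (2 ^ m - 1)) := by
  rw [← Nat.card_eq_fintype_card] at *
  exact (aux hF m hm).of_equiv (H13.pomegaEquiv (H13.QPlus m F)).symm

end Cfsg.Agent.S2146
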