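import Cfsg.Statements.S2147
import Cfsg.Agent.H26.MO9

set_option autoImplicit false
open Cfsg

namespace Cfsg.Agent.S2147

open Module H13 H26.MD in
theorem aux {F : Type*} [Field F] [Finite F] (k : ℕ) (hm : 3 ≤ k) (a b : F)
    (hab : ∀ z₁ z₂ : F, z₁ ^ 2 + a * z₁ * z₂ + b * z₂ ^ 2 = 0 → z₁ = 0 ∧ z₂ = 0) :
    MinIdx (POm (QMinus k F a b))
      ((Nat.card F ^ (k + 1) + 1) * (Nat.card F ^ k - 1) / (Nat.card F - 1)) := by
  have hn : finrank F ((Fin k ⊕ Fin k) ⊕ Fin 2 → F) = 2 * (k + 1) := by simp; omega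
  have hC : OC (QMinus k F a b) := ⟨nd_QMinus hab, by omega⟩
  have hz := hC.nd.nz_minus (not_isPlus_QMinus hab) (by omega) hn
  have hq := two_le_q (F := F)
  have h0 := Nat.pow_le_pow_right (n := Nat.card F) (by omega) (show k ≤ k + 1 by omega)
  rw [Nat.add_sub_cancel] at hz
  have h' : nz (QMinus k F a b) ≤ Nat.card F ^ (2 * (k + 1) - 1) := by omega
  have h : nz (QMinus k F a b) - 1 ≤ Nat.card F ^ (finrank F ((Fin k ⊕ Fin k) ⊕ Fin 2 → F) - 1) +
      Nat.card F ^ (finrank F ((Fin k ⊕ Fin k) ⊕ Fin 2 → F) - 3) := by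
    rw [hn]; omega
  have e : (Nat.card F ^ (k + 1) + 1) * (Nat.card F ^ k - 1) = nz (QMinus k F a b) - 1 := by
    rw [hz, show 2 * (k + 1) - 1 = k + 1 + k by omega, pow_add _ (k + 1) k,
      Nat.mul_sub, add_mul, mul_one, one_mul, Nat.sub_sub]
  rw [e]
  refine minIdx0 (by omega) ?_ (fun _ h U hU => ?_) fun c hc => ?_
  · by_cases h3 : 3 ≤ Nat.card F
    · exact h1_of h3 h
    · rw [show Nat.card F = 2 by omega, show 2 * (k + 1) - 1 = 2 * (k + 1) - 3 + 2 by omega,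
        pow_add] at h'
      rw [show Nat.card F = 2 by omega, hn]; omega
  · have := finrank_le_of_singular_QMinus hab hU
    omega
  · obtain h2 | h2 | h2 : Nat.card F = 2 ∨ Nat.card F = 3 ∨ 4 ≤ Nat.card F := by omega
    · have := Nc_two (Q := QMinus k F a b) h2 hc
      rw [if_pos (by_contra fun h3 => by have := odd_q h3; omega), h2]
      rw [hn, show 2 * (k + 1) = 2 * (k + 1) - 1 + 1 by omega] at this
      rw [h2] at h'; omega
    · have := Nc_three h2 hC.nd (m := k) (by omega) hc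
      rw [hn, show 2 * (k + 1) = 2 * (k + 1) - 1 + 1 by omega] at this
      rw [h2] at h' ⊢; split_ifs <;> omega
    · exact h4_of h2 h c

/-- Minimal index of a proper subgroup of the even-dimensional orthogonal groups of minus type: for m ≥ 4 and a field F with q elements, every proper subgroup of PΩ⁻_2m(F) (for the form Σ_{i<m−1} xᵢyᵢ + z₁² + a z₁z₂ + b z₂² with anisotropic binary part) has index at least (q^m + 1)(q^(m−1) − 1)/(q − 1), and that index is attained. -/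
theorem result {F : Type*} [Field F] [Fintype F] {q : ℕ} (hF : Fintype.card F = q) (m : ℕ) (hm : 4 ≤ m) (a b : F) (hab : ∀ z₁ z₂ : F, z₁ ^ 2 + a * z₁ * z₂ + b * z₂ ^ 2 = 0 → z₁ = 0 ∧ z₂ = 0) : (∀ H : Subgroup (Cfsg.POmega F (Cfsg.quadFormMinus (m - 1) F a b)), H ≠ ⊤ → (q ^ m + 1) * (q ^ (m - 1) - 1) / (q - 1) ≤ H.index) ∧ (∃ H : Subgroup (Cfsg.POmega F (Cfsg.quadFormMinus (m - 1) F a b)), H.index = (q ^ m + 1) * (q ^ (m - 1) - 1) / (q - 1)) := by
  subst hF
  rw [← Nat.card_eq_fintype_card] at *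
  obtain ⟨k, rfl⟩ : ∃ k, m = k + 1 := ⟨m - 1, by omega⟩
  exact (aux k (by omega) a b hab).of_equiv (H13.pomegaEquiv (H13.QMinus k F a b)).symm

end Cfsg.Agent.S2147
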