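import Cfsg.Statements.S2148
import Cfsg.Agent.H13.U3f
import Cfsg.Agent.H12.Transport

set_option autoImplicit false
open Cfsg

namespace Cfsg.Agent.S2148

/-- Minimal index of a proper subgroup of the three-dimensional unitary groups: for a field F with q² elements, q ≥ 3 and q ≠ 5, every proper subgroup of PSU₃(q) has index at least q³ + 1, and that index is attained. -/
theorem result {F : Type*} [Field F] [Fintype F] (q : ℕ) (hF : Fintype.card F = q ^ 2) (hq : 3 ≤ q) (h5 : q ≠ 5) : (∀ H : Subgroup (Cfsg.PSU 3 F q), H ≠ ⊤ → q ^ 3 + 1 ≤ H.index) ∧ (∃ H : Subgroup (Cfsg.PSU 3 F q), H.index = q ^ 3 + 1) := by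
  open H12 H13.U3 in
  have hC : C3 (uB hF 3) := ⟨sd_uB hF 3, frobq_ne_id hF, by simp⟩
  have h1 := hC.sd.card_SUG_unitary hC.ne (by simp)
  have h2 : Nat.card (SUG (uB hF 3)) = q ^ 3 * ((q ^ 3 + 1) * (q ^ 2 - 1)) := Nat.eq_of_mul_eq_mul_left q.succ_pos (by
    simp [q0_frobq, guOrd, Finset.prod_range_succ, show ¬ Even 1 by decide] at h1
    rw [h1, Nat.succ_eq_add_one]; ring)
  let π := (QuotientGroup.mk' (Subgroup.center (SU 3 F q))).comp (suEquiv hF 3).symm.toMonoidHom
  have hπ : Function.Surjective π := (QuotientGroup.mk'_surjective _).comp (suEquiv hF 3).symm.surjective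
  have hk : π.ker = Subgroup.center _ := by
    ext g
    simp only [π, MonoidHom.mem_ker, MonoidHom.comp_apply, QuotientGroup.mk'_apply, QuotientGroup.eq_one_iff,
      Subgroup.mem_center_iff, (suEquiv hF 3).symm.surjective.forall, MulEquiv.coe_toMonoidHom, ← map_mul,
      EmbeddingLike.apply_eq_iff_eq]
  obtain ⟨p, j, hp, hch, -⟩ := exists_pow_of_card_eq_sq hF
  have := Fact.mk hp
  refine ⟨fun H hH => by_contra fun h => hH ?_, ?_⟩
  · have h3 := (H.comap π).index_mul_card
    rw [H.index_comap_of_surjective hπ, h2] at h3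
    have := le_of_card p (Subgroup.map_subtype_le (H.comap π)) (fun g hg => ⟨g, π.ker_le_comap _ (hk.ge hg), rfl⟩)
      (by rwa [q0_frobq]) (by rwa [q0_frobq]) (by
        rw [q0_frobq, Subgroup.card_map_of_injective (Subgroup.subtype_injective _)]
        exact Nat.le_of_mul_le_mul_left (h3.ge.trans (Nat.mul_le_mul_right _ (by omega))) (by positivity))
    rw [eq_top_iff]
    intro x _
    obtain ⟨g, rfl⟩ := hπ x
    obtain ⟨k, hk, h⟩ := this g.2
    exact Subtype.ext h ▸ hk
  · obtain ⟨x, hx⟩ := Set.nonempty_of_ncard_ne_zero (s := OL (uB hF 3) 0) (by simp [ncard_Om])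
    have h3 := (tra_of_card p le_rfl (by rw [q0_frobq, h2]; exact Nat.le_mul_of_pos_left _ (by positivity))).card (by simp) hx
    refine ⟨((MulAction.stabilizer _ x).subgroupOf (SUG (uB hF 3))).map π, ?_⟩
    rw [Subgroup.index_map_eq _ hπ fun g hg => ?_]
    · rw [ncard_Om, q0_frobq, ← card_subgroupOf_eq, ← ((MulAction.stabilizer _ x).subgroupOf (SUG (uB hF 3))).index_mul_card] at h3
      exact Nat.eq_of_mul_eq_mul_right Nat.card_pos h3
    · obtain ⟨a, ha⟩ := (hC.sd.mem_center_SUG_iff hC.sd.ns (by simp)).1 (hk.le hg)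
      induction x using Projectivization.ind with | h v hv => exact (smul_mk_eq _ _).2 ⟨a, ha v⟩

end Cfsg.Agent.S2148
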