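import Cfsg.Statements.S2150
import Cfsg.Agent.H26.MW5
import Cfsg.Agent.S0303

set_option autoImplicit false
open Cfsg

namespace Cfsg.Agent.S2150


/-- Minimal index of a proper subgroup of the four-dimensional unitary groups: for a field F with q² elements, every proper subgroup of PSU₄(q) has index at least (q + 1)(q³ + 1), and that index is attained. -/
theorem result {F : Type*} [Field F] [Fintype F] (q : ℕ) (hF : Fintype.card F = q ^ 2) (hq : 2 ≤ q) : (∀ H : Subgroup (Cfsg.PSU 4 F q), H ≠ ⊤ → (q + 1) * (q ^ 3 + 1) ≤ H.index) ∧ (∃ H : Subgroup (Cfsg.PSU 4 F q), H.index = (q + 1) * (q ^ 3 + 1)) := by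
  classical
  obtain ⟨p, j, hp, -, rfl⟩ := H12.exists_pow_of_card_eq_sq hF
  have := Fact.mk hp
  have hj : j ≠ 0 := by rintro rfl; simp at hq
  have := Fintype.ofFinite (GaloisField p j)
  have hK : Nat.card (GaloisField p j) = p ^ j := GaloisField.card p j hj
  obtain ⟨a, b, hab⟩ := H13.exists_anisotropic_binary (GaloisField p j)
  obtain ⟨e⟩ := Cfsg.Agent.S0303.result (Nat.card_eq_fintype_card.symm.trans hK) hF a b hab
  have hC : H26.MD.OC (H13.QMinus 2 _ a b) := ⟨H13.nd_QMinus hab, by simp⟩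
  have h6 : H26.MD.M6 (H13.QMinus 2 _ a b) := ⟨by simp, fun U hU => H13.finrank_le_of_singular_QMinus hab hU⟩
  exact hK ▸ (H26.MD.W.minIdx.of_equiv (H13.pomegaEquiv (H13.QMinus 2 _ a b)).symm).of_equiv e

end Cfsg.Agent.S2150
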