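import Cfsg.Statements.S2151
import Cfsg.Agent.H26.MU6

set_option autoImplicit false
open Cfsg

namespace Cfsg.Agent.S2151


/-- Minimal index of a proper subgroup of the unitary groups of odd dimension n ≥ 5: for a field F with q² elements, every proper subgroup of PSU_n(q) has index at least (q^n + 1)(q^(n−1) − 1)/(q² − 1), and that index is attained. -/
theorem result {F : Type*} [Field F] [Fintype F] (q : ℕ) (hF : Fintype.card F = q ^ 2) (hq : 2 ≤ q) (n : ℕ) (hn : 5 ≤ n) (hodd : Odd n) : (∀ H : Subgroup (Cfsg.PSU n F q), H ≠ ⊤ → (q ^ n + 1) * (q ^ (n - 1) - 1) / (q ^ 2 - 1) ≤ H.index) ∧ (∃ H : Subgroup (Cfsg.PSU n F q), H.index = (q ^ n + 1) * (q ^ (n - 1) - 1) / (q ^ 2 - 1)) := by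
  have := H26.MU.uu_uB hF hn
  have h := H26.MU.minIdx0 (H12.uB hF n)
  simp only [H12.q0_frobq, Module.finrank_fin_fun, H12.guIso, Nat.not_even_iff_odd.2 hodd, if_false] at h
  obtain ⟨k, rfl⟩ : ∃ k, n = k + 2 := ⟨n - 2, by omega⟩
  have h0 : 0 < q ^ (k + 1) := by positivity
  have h1 : (q ^ (k + 2) + 1) * (q ^ (k + 1) - 1) < q ^ 3 * (q ^ 2) ^ k := by
    have := Nat.pow_le_pow_right (n := q) (by omega) (show k + 1 ≤ k + 2 by omega)
    zify [h0] at *
    have e : (q : ℤ) ^ 3 * (q ^ 2) ^ k = q ^ (k + 2) * q ^ (k + 1) := by ring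
    nlinarith
  refine (h ?_ ?_).of_equiv (H12.centerQuotCongr (H12.suEquiv hF _)).symm
  · refine h1.le.trans ?_
    rw [Nat.add_sub_cancel, mul_right_comm]
    refine Nat.mul_le_mul_right _ ?_
    zify [show 1 ≤ q ^ 2 from Nat.one_le_pow _ _ (by omega)] at *
    nlinarith
  · have := Nat.mul_le_mul_right (q ^ 3 * (q ^ 2) ^ k) hq
    rw [show (q ^ 2) ^ (k + 2) = q * (q ^ 3 * (q ^ 2) ^ k) by ring, show k + 2 - 1 = k + 1 from rfl]
    omega

end Cfsg.Agent.S2151
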