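import Cfsg.Statements.S2153
import Cfsg.Agent.H26.MU6

set_option autoImplicit false
open Cfsg

namespace Cfsg.Agent.S2153


/-- Minimal index of a proper subgroup of the unitary groups PSU_n(2) with n divisible by 6, realised over the field with 4 elements: every proper subgroup has index at least 2^(n−1)(2^n − 1)/3, and that index is attained. -/
theorem result {F : Type*} [Field F] [Fintype F] (hF : Fintype.card F = 4) (n : ℕ) (hn : 6 ∣ n) (hpos : 6 ≤ n) : (∀ H : Subgroup (Cfsg.PSU n F 2), H ≠ ⊤ → 2 ^ (n - 1) * (2 ^ n - 1) / 3 ≤ H.index) ∧ (∃ H : Subgroup (Cfsg.PSU n F 2), H.index = 2 ^ (n - 1) * (2 ^ n - 1) / 3) := by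
  have hF' : Fintype.card F = 2 ^ 2 := hF
  have := H26.MU.uu_uB hF' (show 5 ≤ n by omega)
  have h := H26.MU.minIdx1 (H12.uB hF' n)
  simp only [H12.q0_frobq, Module.finrank_fin_fun, H12.guIso, show Even n from even_iff_two_dvd.2 (by omega),
    if_true] at h
  obtain ⟨k, rfl⟩ : ∃ k, n = k + 2 := ⟨n - 2, by omega⟩
  obtain ⟨b, hb⟩ : ∃ b, 2 ^ k = b + 1 := ⟨2 ^ k - 1, (Nat.sub_add_cancel Nat.one_le_two_pow).symm⟩
  have e1 : (2 ^ 2) ^ k = (b + 1) ^ 2 := by rw [← pow_mul, mul_comm, pow_mul, hb]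
  have e2 : (2 ^ 2) ^ (k + 2) = 16 * (b + 1) ^ 2 := by rw [pow_add, e1, mul_comm]; rfl
  have e3 : 2 ^ (k + 2) - 1 = 4 * b + 3 := by rw [pow_add, hb]; omega
  have e4 : 2 ^ (k + 2 - 1) = 2 * b + 2 := by rw [show k + 2 - 1 = k + 1 from rfl, pow_succ, hb]; omega
  rw [Nat.add_sub_cancel, e1, e2, e3, e4, show 16 * (b + 1) ^ 2 - ((4 * b + 3) * (2 * b + 2 + 1) + 1) =
    (2 * b + 2) * (4 * b + 3) from Nat.sub_eq_of_eq_add (by ring)] at h
  rw [e3, e4]
  exact (h (by norm_num; nlinarith) (by nlinarith)).of_equiv (H12.centerQuotCongr (H12.suEquiv hF' _)).symm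

end Cfsg.Agent.S2153
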