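import Cfsg.Statements.S2154
import Cfsg.Agent.H14.StbD

set_option autoImplicit false
open Cfsg

namespace Cfsg.Agent.S2154

/-- The Borel–Tits property of the finite Chevalley groups of types G₂, B₂, D₄, F₄, E₆, E₇, E₈ over a finite field of characteristic p: for every non-trivial p-subgroup U of the group G there are an element g of G and a proper set J of fundamental roots such that the normaliser of U in G lies in the conjugate by g of the standard parabolic subgroup P_J and U lies in the conjugate by g of its unipotent radical U_J. -/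
theorem result {F : Type*} [Field F] [Fintype F] (p : ℕ) [Fact p.Prime] [CharP F p] (D : Cfsg.Lie.ChevalleyDatum) (hD : D ∈ [Cfsg.Lie.chevG2, Cfsg.Lie.chevB2, Cfsg.Lie.chevD4, Cfsg.Lie.chevF4, Cfsg.Lie.chevE6, Cfsg.Lie.chevE7, Cfsg.Lie.chevE8]) (U : Subgroup (GL D.Idx F)) (hUG : U ≤ D.group F) (hU : IsPGroup p ↥U) (hne : U ≠ ⊥) : ∃ g ∈ D.group F, ∃ J : Set ℕ, (∃ i, i < D.rank ∧ i ∉ J) ∧ Subgroup.normalizer (U : Set (GL D.Idx F)) ⊓ D.group F ≤ (D.parabolicSubgroup F J).map (MulAut.conj g).toMonoidHom ∧ U ≤ (D.unipotentRadical F J).map (MulAut.conj g).toMonoidHom := by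
  obtain ⟨G⟩ := H14.exists_good hD
  set X := G.rgD F
  obtain ⟨a, -, ha⟩ := X.exists_conj_U (G.rgD_top F) (G.rgD_hmul F) p le_top le_top (hU.comap_subtype (K := D.group F))
  obtain ⟨g, -, J, h1, h2⟩ := X.borelTits (Y := (fun y => a * y * a⁻¹) '' (U.subgroupOf (D.group F)))
    (by rintro _ ⟨y, hy, rfl⟩; exact ha y hy)
  have e : J = Fin.val ⁻¹' (Fin.val '' J) := (Set.preimage_image_eq _ Fin.val_injective).symm
  refine ⟨(a⁻¹ * g : D.group F), (a⁻¹ * g).2, Fin.val '' J, ?_, fun n hn => ?_, fun y hy => ?_⟩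
  · by_contra! h
    refine hne (eq_bot_iff.2 fun y hy => ?_)
    have := h1 _ ⟨⟨y, hUG hy⟩, hy, rfl⟩
    rw [show J = Set.univ from Set.eq_univ_of_forall fun i => e ▸ h i i.2, H14.RG.UJ_univ, Subgroup.mem_bot] at this
    have h3 : (⟨y, hUG hy⟩ : D.group F) = 1 := by
      rw [show (⟨y, hUG hy⟩ : D.group F) = a⁻¹ * g * (g⁻¹ * (a * ⟨y, hUG hy⟩ * a⁻¹) * g) * g⁻¹ * a by group, this]; group
    exact congrArg Subtype.val h3
  · have := h2 (a * ⟨n, hn.2⟩ * a⁻¹) (G.rgD_top F ▸ trivial) (by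
      rintro _ ⟨y, hy, rfl⟩
      refine ⟨(⟨n, hn.2⟩ : D.group F)⁻¹ * y * ⟨n, hn.2⟩, ?_, by group⟩
      simpa [Subgroup.mem_subgroupOf] using (Subgroup.mem_normalizer_iff.1 (inv_mem hn.1) y).1 hy)
    rw [e, G.rgD_P] at this
    exact ⟨_, this, by simp [mul_assoc]⟩
  · have := h1 _ ⟨⟨y, hUG hy⟩, hy, rfl⟩
    rw [e, G.rgD_UJ] at this
    exact ⟨_, this, by simp [mul_assoc]⟩

end Cfsg.Agent.S2154
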