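import Cfsg.Statements.S2155
import Cfsg.Agent.H14.GrpD
import Cfsg.Agent.H10.Comp

set_option autoImplicit false
open Cfsg

namespace Cfsg.Agent.S2155

/-- In a Chevalley group of type G₂, B₂, D₄, F₄, E₆, E₇ or E₈ over a finite field of characteristic p (for types G₂ and B₂ the field is assumed to have at least 3 elements, so that the group is simple), the generalized Fitting subgroup of every proper standard parabolic subgroup P_J is a p-group (P_J is p-constrained with trivial largest normal subgroup of order prime to p). -/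
theorem result {F : Type*} [Field F] [Fintype F] (p : ℕ) [Fact p.Prime] [CharP F p] (D : Cfsg.Lie.ChevalleyDatum) (hD : D ∈ [Cfsg.Lie.chevG2, Cfsg.Lie.chevB2, Cfsg.Lie.chevD4, Cfsg.Lie.chevF4, Cfsg.Lie.chevE6, Cfsg.Lie.chevE7, Cfsg.Lie.chevE8]) (hq : (D = Cfsg.Lie.chevG2 ∨ D = Cfsg.Lie.chevB2) → 3 ≤ Fintype.card F) (J : Set ℕ) (hJ : ∃ i, i < D.rank ∧ i ∉ J) : IsPGroup p ↥(Cfsg.generalizedFittingSubgroup ↥(D.parabolicSubgroup F J)) := by
  obtain ⟨G⟩ := H14.exists_good hD
  obtain ⟨i, hi, hJ⟩ := hJ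
  rw [G.P_eq]
  set X := G.rg F
  set J' : Set (Fin D.rank) := Fin.val ⁻¹' J
  have hN : ((X.UJ J').subgroupOf (X.P J')).Normal :=
    Subgroup.normal_subgroupOf_of_le_normalizer (X.P_le_normalizer J')
  have hle : (X.UJ J').subgroupOf (X.P J') ≤ pCore p (X.P J') :=
    H10.le_pCore ((X.isPGroup_UJ p J').comap_of_injective _ (Subgroup.subtype_injective _))
  rw [H10.fstar_eq_pCore_iff.2 fun g hg => hle ?_]
  · exact H10.pCore_isPGroup' _ _
  obtain ⟨u, hu, y, hy, h, e⟩ := X.centralizer_UJ (H14.conn_of_mem hD G).1 (J := J') ⟨⟨i, hi⟩, hJ⟩ (X.P_le_grp J' g.2)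
    fun y hy => mul_inv_eq_iff_eq_mul.2 (congrArg Subtype.val (hg ⟨y, X.B_le_P J' (X.U_le_B (X.UJ_le_U J' hy))⟩
      (hle hy))).symm
  rw [Subgroup.mem_subgroupOf, e, G.eq_one_of_central F hy fun r => h r 1, mul_one]
  exact hu

end Cfsg.Agent.S2155
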