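import Cfsg.Statements.S2158
import Cfsg.Agent.H14.GrpD

set_option autoImplicit false
open Cfsg

namespace Cfsg.Agent.S2158

/-- In a Chevalley group of type G₂, B₂, D₄, F₄, E₆, E₇ or E₈ over any field, an element of the group whose matrix is the diagonal matrix `ĥ(χ)` of a character `χ` of the root lattice already lies in the diagonal subgroup H (the non-trivial inclusion of the statement that the group meets the group of all such diagonal matrices in H). -/
theorem result {F : Type*} [Field F] (D : Cfsg.Lie.ChevalleyDatum) (hD : D ∈ [Cfsg.Lie.chevG2, Cfsg.Lie.chevB2, Cfsg.Lie.chevD4, Cfsg.Lie.chevF4, Cfsg.Lie.chevE6, Cfsg.Lie.chevE7, Cfsg.Lie.chevE8]) (χ : ℕ → Fˣ) (hχ : D.IsRootCharacter χ) (g : GL D.Idx F) (hg : g ∈ D.group F)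
    (hgχ : (g : Matrix D.Idx D.Idx F) = D.charDiag F χ) : g ∈ D.diagonalSubgroup F := by
  obtain ⟨G⟩ := H14.exists_good hD
  obtain ⟨χ', h⟩ := G.exists_hom_of_isRootCharacter hχ
  obtain rfl : g = G.dgG F χ' := Units.ext (hgχ.trans (G.charDiag_eq h))
  have key : ∀ S, G.dgG F χ' ∈ Subgroup.normalizer ((G.rg F).gen S : Set (GL D.Idx F)) := fun S => by
    refine (G.rg F).mem_normalizer_gen (fun s hs u => ?_) fun s hs u => ?_
    · rw [G.dgG_conj]; exact (G.rg F).x_mem_gen hs _
    · rw [← inv_inv (G.dgG F χ'), inv_inv (G.dgG F χ')⁻¹, ← (G.dgG F).map_inv, G.dgG_conj]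
      exact (G.rg F).x_mem_gen hs _
  rw [G.H_eq]
  exact (G.rg F).mem_H_of_normalizes (G.grp_eq F ▸ hg) (key _) (key _)

end Cfsg.Agent.S2158
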