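import Cfsg.Statements.S2159
import Cfsg.Agent.H14.AutE

set_option autoImplicit false
open Cfsg

namespace Cfsg.Agent.S2159

/-- Structure of the outer automorphism group of the Chevalley group `G` of type G₂, B₂, D₄, F₄, E₆, E₇ or E₈ over a finite field. Let `D̄` be the image in `Out(G)` of the subgroup generated by the diagonal automorphisms and `F̄` the image of the subgroup generated by the field automorphisms. Then `D̄` is a normal abelian subgroup of `Out(G)`, `F̄` is cyclic, `D̄F̄` is a normal subgroup, and the quotient of `Out(G)` by `D̄F̄` is trivial, of order 2, or non-abelian of order 6 (so isomorphic to the symmetric group on three letters): its index is 1 or 2, or it is 6 with the commutator subgroup of `Out(G)` not inside `D̄F̄`. -/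
theorem result {F : Type*} [Field F] [Finite F] (D : Cfsg.Lie.ChevalleyDatum) (hD : D ∈ [Cfsg.Lie.chevG2, Cfsg.Lie.chevB2, Cfsg.Lie.chevD4, Cfsg.Lie.chevF4, Cfsg.Lie.chevE6, Cfsg.Lie.chevE7, Cfsg.Lie.chevE8])
    (Dbar Fbar : Subgroup (Cfsg.Out ↥(D.group F)))
    (hDbar : Dbar = (Subgroup.closure {φ : MulAut ↥(D.group F) | D.IsDiagonalAut φ}).map (QuotientGroup.mk' (Cfsg.Inn ↥(D.group F))))
    (hFbar : Fbar = (Subgroup.closure {φ : MulAut ↥(D.group F) | D.IsFieldAut φ}).map (QuotientGroup.mk' (Cfsg.Inn ↥(D.group F)))) :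
    Dbar.Normal ∧ IsMulCommutative ↥Dbar ∧ IsCyclic ↥Fbar ∧ (Dbar ⊔ Fbar).Normal ∧
      ((Dbar ⊔ Fbar).index = 1 ∨ (Dbar ⊔ Fbar).index = 2 ∨
        ((Dbar ⊔ Fbar).index = 6 ∧ ¬ commutator (Cfsg.Out ↥(D.group F)) ≤ Dbar ⊔ Fbar)) := by
  obtain ⟨G⟩ := H14.exists_good hD
  obtain ⟨h1, h2⟩ := H14.conn_of_mem hD G
  obtain ⟨a1, a2, a3, ν, a4, a5⟩ := G.out_structure h1 hDbar hFbar
  refine ⟨a1, a2, a3, a4 ▸ inferInstance, ?_⟩
  rw [← a4, Subgroup.index_ker, a5]
  have h3 : 0 < Nat.card (G.nodeHom F).range := Nat.card_pos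
  simp only [List.mem_cons, List.not_mem_nil, or_false] at hD
  rcases hD with rfl | rfl | rfl | rfl | rfl | rfl | rfl
  · have := G.card_node_le (F := F) H14.symG2; simp only [List.length] at this; omega
  · have := G.card_node_le (F := F) H14.symB2; simp only [List.length] at this; omega
  · obtain ⟨b1, a, ha, b, hb, b2⟩ := H14.card_node_D4 (F := F) G
    rw [← a5] at ha hb
    obtain ⟨a, rfl⟩ := ha
    obtain ⟨b, rfl⟩ := hb
    refine Or.inr (Or.inr ⟨b1, fun h => b2 ?_⟩)
    have := h (Subgroup.commutator_mem_commutator (Subgroup.mem_top a) (Subgroup.mem_top b))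
    rwa [MonoidHom.mem_ker, map_commutatorElement, commutatorElement_eq_one_iff_mul_comm] at this
  · have := G.card_node_le (F := F) H14.symF4; simp only [List.length] at this; omega
  · exact Or.inr (Or.inl (H14.card_node_E6 G))
  · exact Or.inl (H14.card_node_E7 G)
  · exact Or.inl (H14.card_node_E8 G)

end Cfsg.Agent.S2159
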