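import Cfsg.Statements.S2161
import Cfsg.Agent.H14.GrpD

set_option autoImplicit false
open Cfsg

namespace Cfsg.Agent.S2161

/-- For the Chevalley groups of types D₄ and E₆ (one root length) over any field: if `π` is a symmetry of the Dynkin diagram and `φ` is an automorphism sending `x_{p_i}(t)` to `x_{p_{π i}}(t)` and `x_{-p_i}(t)` to `x_{-p_{π i}}(t)` for every fundamental root `p_i`, then for every root `r` there is a sign `ε = ±1` with `φ(x_r(t)) = x_{π·r}(ε t)` for all `t`, where `π·r` is the root whose coefficients are those of `r` permuted by `π`. -/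
theorem result {F : Type*} [Field F] (D : Cfsg.Lie.ChevalleyDatum) (hD : D ∈ [Cfsg.Lie.chevD4, Cfsg.Lie.chevE6])
    (π : Equiv.Perm (Fin D.rank)) (hπ : D.IsDiagramSymmetry π) (φ : ↥(D.group F) ≃* ↥(D.group F))
    (hφ : ∀ (g : ↥(D.group F)) (i : Fin D.rank) (t : F),
      (((g : GL D.Idx F) : Matrix D.Idx D.Idx F) = D.x F (D.simple i) t →
        ((φ g : GL D.Idx F) : Matrix D.Idx D.Idx F) = D.x F (D.simple (π i)) t) ∧
      (((g : GL D.Idx F) : Matrix D.Idx D.Idx F) = D.x F (D.neg (D.simple i)) t →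
        ((φ g : GL D.Idx F) : Matrix D.Idx D.Idx F) = D.x F (D.neg (D.simple (π i))) t))
    (r : ℕ) (hr : r < D.nroots) :
    ∃ ε : F, (ε = 1 ∨ ε = -1) ∧ ∀ (g : ↥(D.group F)) (t : F),
      ((g : GL D.Idx F) : Matrix D.Idx D.Idx F) = D.x F r t →
        ((φ g : GL D.Idx F) : Matrix D.Idx D.Idx F) = D.x F (D.permRoot π r) (ε * t) := by
  have hD' : D ∈ [Lie.chevG2, Lie.chevB2, Lie.chevD4, Lie.chevF4, Lie.chevE6, Lie.chevE7, Lie.chevE8] := by
    simp only [List.mem_cons] at hD ⊢; tauto
  obtain ⟨G⟩ := H14.exists_good hD'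
  have hl : ∀ r s, G.R.len r = G.R.len s := by
    simp only [List.mem_cons, List.not_mem_nil, or_false] at hD
    rcases hD with rfl | rfl
    exacts [H14.slD4 G, H14.slE6 G]
  have hs : ∀ i j, G.R.car i j = G.R.car j i := fun i j =>
    mul_left_cancel₀ (G.R.len_pos (G.R.simple i)).ne' (by rw [G.R.car_symm, hl])
  have hc : ∀ i j, G.R.car (π i) (π j) = G.R.car i j := fun i j => by
    by_cases h : i = j
    · simp [h]
    have := hπ i j h
    rw [G.bonds_eq, G.bonds_eq, hs (π j), hs j] at this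
    have h1 := G.R.car_nonpos h
    have h2 := G.R.car_nonpos (π.injective.ne h)
    nlinarith
  lift r to Fin D.nroots using hr
  set X := G.rgD F
  simp only [← G.simple_eq, ← G.neg_eq, G.val_eq_x_iff] at hφ
  have hn : ∀ i, φ (X.n (G.R.simple i) 1) = X.n (G.R.simple (π i)) 1 := fun i => by
    simp only [H14.RG0.n, map_mul]
    rw [(hφ _ i _).1 rfl, (hφ _ i _).2 rfl]
  have key : ∃ r', (∀ i, G.R.cov r' (π i) = G.R.cov r i) ∧ ∃ ε : F, (ε = 1 ∨ ε = -1) ∧ ∀ t, φ (X.x r t) = X.x r' (ε * t) := by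
    induction r using G.R.root_induction with
    | h0 i => exact ⟨G.R.simple (π i), fun j => by simp [G.R.cov_simple, Pi.single_apply], 1, Or.inl rfl,
        fun t => by rw [one_mul]; exact (hφ _ i _).1 rfl⟩
    | h1 i r ih =>
      obtain ⟨r', h1, ε, h2, h3⟩ := ih
      refine ⟨G.R.srefl (π i) r', fun j => ?_, X.η (G.R.simple (π i)) r' * ε * X.η (G.R.simple i) r, ?_, fun t => ?_⟩
      · have : G.R.pair r' (G.R.simple (π i)) = G.R.pair r (G.R.simple i) := by
          simp only [H14.RS.pair_def, H14.RS.pairv_apply, G.R.vec_simple, G.R.ap_single]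
          rw [← Equiv.sum_comp π]; simp [h1, hc]
        simp [G.R.cov_srefl, h1, this, Pi.single_apply]
      · rcases h2 with rfl | rfl <;> rcases X.η_sq (G.R.simple (π i)) r' with a | a <;>
          rcases X.η_sq (G.R.simple i) r with b | b <;> simp [a, b]
      · have a1 := X.n_conj (G.R.simple i) r 1 one_ne_zero (X.η (G.R.simple i) r * t)
        rw [one_zpow, mul_one, ← mul_assoc, X.η_cast_mul_self, one_mul, G.R.refl_simple] at a1
        rw [← a1, map_mul, map_mul, map_inv, hn, h3, X.n_conj _ _ _ one_ne_zero, G.R.refl_simple]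
        simp [mul_assoc]
  obtain ⟨r', h1, ε, h2, h3⟩ := key
  have h4 : D.permRoot π r = r' := by
    rw [Lie.ChevalleyDatum.permRoot]
    rcases h : (List.range D.nroots).find? _ with _ | k
    · have := List.find?_eq_none.1 h r' (by simp)
      simp only [← G.cov_eq, h1] at this
      simp at this
    · have h5 := List.mem_range.1 (List.mem_of_find?_eq_some h)
      lift k to Fin D.nroots using h5
      have h6 := List.find?_some h
      simp only [← G.cov_eq, List.all_eq_true, List.mem_finRange, beq_iff_eq, true_imp_iff, ← h1] at h6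
      rw [Option.getD_some, Fin.val_inj]
      refine G.R.vec_inj (funext fun i => mul_right_cancel₀ (G.R.len_pos (G.R.simple i)).ne' ?_)
      obtain ⟨i, rfl⟩ := π.surjective i
      rw [← G.R.cov_len, ← G.R.cov_len, h6, hl]
  exact ⟨ε, h2, h4 ▸ G.forall_x_iff.2 h3⟩

end Cfsg.Agent.S2161
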