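import Cfsg.Statements.S2298
import Cfsg.Agent.H27.GL2f

set_option autoImplicit false
open Cfsg

namespace Cfsg.Agent.S2298

open Cfsg.Agent.H27

/-- Over a finite field F with q elements, every irreducible complex character of GL₂ has degree 1, q − 1, q or q + 1; and when q ≥ 3 (so that these four numbers are distinct) there are exactly q − 1 irreducible characters of degree 1, exactly q − 1 of degree q, exactly (q − 1)(q − 2)/2 of degree q + 1 and exactly q(q − 1)/2 of degree q − 1. -/
theorem result {F : Type*} [Field F] [Fintype F] :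
    (∀ χ : Matrix.GeneralLinearGroup (Fin 2) F → ℂ, Cfsg.IsIrrCharacter (Matrix.GeneralLinearGroup (Fin 2) F) χ →
      χ 1 = 1 ∨ χ 1 = (Fintype.card F : ℂ) - 1 ∨ χ 1 = (Fintype.card F : ℂ) ∨ χ 1 = (Fintype.card F : ℂ) + 1) ∧
    (3 ≤ Fintype.card F →
      Nat.card {χ : Cfsg.IrrCharacter (Matrix.GeneralLinearGroup (Fin 2) F) // (χ : Matrix.GeneralLinearGroup (Fin 2) F → ℂ) 1 = 1} = Fintype.card F - 1 ∧
      Nat.card {χ : Cfsg.IrrCharacter (Matrix.GeneralLinearGroup (Fin 2) F) // (χ : Matrix.GeneralLinearGroup (Fin 2) F → ℂ) 1 = (Fintype.card F : ℂ)} = Fintype.card F - 1 ∧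
      Nat.card {χ : Cfsg.IrrCharacter (Matrix.GeneralLinearGroup (Fin 2) F) // (χ : Matrix.GeneralLinearGroup (Fin 2) F → ℂ) 1 = (Fintype.card F : ℂ) + 1} = (Fintype.card F - 1) * (Fintype.card F - 2) / 2 ∧
      Nat.card {χ : Cfsg.IrrCharacter (Matrix.GeneralLinearGroup (Fin 2) F) // (χ : Matrix.GeneralLinearGroup (Fin 2) F → ℂ) 1 = (Fintype.card F : ℂ) - 1} = Fintype.card F * (Fintype.card F - 1) / 2) := by
  classical
  obtain ⟨e, he⟩ := exists_ell F
  rw [← Nat.card_eq_fintype_card]
  refine ⟨fun χ hχ => ?_, fun h3 => ?_⟩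
  · rcases gl_irr_cases he hχ with h | h | h | h
    · exact Or.inl (famL_val h).1
    · exact Or.inr (Or.inr (Or.inl (famS_val h).1))
    · exact Or.inr (Or.inr (Or.inr (famP_val h).1))
    · exact Or.inr (Or.inl (famC_val h).1)
  have n0 : (Nat.card F : ℂ) ≠ 0 := cast_q_ne_zero
  have n1 : (Nat.card F : ℂ) ≠ 1 := by exact_mod_cast (by omega : Nat.card F ≠ 1)
  have n2 : (Nat.card F : ℂ) ≠ 2 := by exact_mod_cast (by omega : Nat.card F ≠ 2)
  refine ⟨?_, ?_, ?_, ?_⟩
  · rw [card_irr_of_iff famL_irr (fun χ => χ 1 = 1), card_famL]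
    refine fun χ hχ => ⟨fun h1 => ?_, fun h => (famL_val h).1⟩
    rcases gl_irr_cases he hχ with h | h | h | h
    · exact h
    · exact (n1 (by linear_combination h1 - (famS_val h).1)).elim
    · exact (n0 (by linear_combination h1 - (famP_val h).1)).elim
    · exact (n2 (by linear_combination h1 - (famC_val h).1)).elim
  · rw [card_irr_of_iff famS_irr (fun χ => χ 1 = Nat.card F), card_famS]
    refine fun χ hχ => ⟨fun h1 => ?_, fun h => (famS_val h).1⟩
    rcases gl_irr_cases he hχ with h | h | h | h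
    · exact (n1 (by linear_combination (famL_val h).1 - h1)).elim
    · exact h
    · exact (one_ne_zero (α := ℂ) (by linear_combination h1 - (famP_val h).1)).elim
    · exact (one_ne_zero (α := ℂ) (by linear_combination (famC_val h).1 - h1)).elim
  · rw [card_irr_of_iff famP_irr (fun χ => χ 1 = Nat.card F + 1), ← card_famP,
      Nat.mul_div_cancel_left _ two_pos]
    refine fun χ hχ => ⟨fun h1 => ?_, fun h => (famP_val h).1⟩
    rcases gl_irr_cases he hχ with h | h | h | h
    · exact (n0 (by linear_combination (famL_val h).1 - h1)).elim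
    · exact (one_ne_zero (α := ℂ) (by linear_combination (famS_val h).1 - h1)).elim
    · exact h
    · exact (two_ne_zero (α := ℂ) (by linear_combination (famC_val h).1 - h1)).elim
  · rw [card_irr_of_iff (famC_irr he) (fun χ => χ 1 = Nat.card F - 1), ← card_famC he,
      Nat.mul_div_cancel_left _ two_pos]
    refine fun χ hχ => ⟨fun h1 => ?_, fun h => (famC_val h).1⟩
    rcases gl_irr_cases he hχ with h | h | h | h
    · exact (n2 (by linear_combination (famL_val h).1 - h1)).elim
    · exact (one_ne_zero (α := ℂ) (by linear_combination h1 - (famS_val h).1)).elim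
    · exact (two_ne_zero (α := ℂ) (by linear_combination h1 - (famP_val h).1)).elim
    · exact h

end Cfsg.Agent.S2298
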