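import Cfsg.Statements.S2301
import Cfsg.Agent.H27.GL2d

set_option autoImplicit false
open Cfsg

namespace Cfsg.Agent.S2301

open Cfsg.Agent.H27

/-- Over a finite field with q elements of odd characteristic p, the elements of order p of SL₂ (the non-identity unipotent elements) fall into exactly two conjugacy classes, each of size (q² − 1)/2; two upper unitriangular matrices with non-zero off-diagonal entries b and b′ are conjugate exactly when bb′ is a square. -/
theorem result {F : Type*} [Field F] [Fintype F] (p : ℕ) [Fact p.Prime] [CharP F p] (hp : p ≠ 2) :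
    Nat.card {C : ConjClasses (Matrix.SpecialLinearGroup (Fin 2) F) // ∃ g : Matrix.SpecialLinearGroup (Fin 2) F, orderOf g = p ∧ ConjClasses.mk g = C} = 2 ∧
    (∀ g : Matrix.SpecialLinearGroup (Fin 2) F, orderOf g = p → Nat.card (ConjClasses.mk g).carrier = (Fintype.card F ^ 2 - 1) / 2) ∧
    ∀ g h : Matrix.SpecialLinearGroup (Fin 2) F, (g : Matrix (Fin 2) (Fin 2) F) 0 0 = 1 → (g : Matrix (Fin 2) (Fin 2) F) 1 1 = 1 → (g : Matrix (Fin 2) (Fin 2) F) 1 0 = 0 → (g : Matrix (Fin 2) (Fin 2) F) 0 1 ≠ 0 →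
      (h : Matrix (Fin 2) (Fin 2) F) 0 0 = 1 → (h : Matrix (Fin 2) (Fin 2) F) 1 1 = 1 → (h : Matrix (Fin 2) (Fin 2) F) 1 0 = 0 → (h : Matrix (Fin 2) (Fin 2) F) 0 1 ≠ 0 →
      (IsConj g h ↔ IsSquare ((g : Matrix (Fin 2) (Fin 2) F) 0 1 * (h : Matrix (Fin 2) (Fin 2) F) 0 1)) := by
  have h2 : (2 : F) ≠ 0 := two_ne_zero_of_charP p hp
  have key : ∀ g : Matrix.SpecialLinearGroup (Fin 2) F, orderOf g = p →
      ∃ x : F, x ≠ 0 ∧ IsConj (triS 1 x) g :=
    fun g hg => sl_isConj_of_pow p (k := 1) (by rw [pow_one, ← hg, pow_orderOf_eq_one])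
      (fun e => (Fact.out : p.Prime).ne_one (by rw [← hg, e, orderOf_one]))
  obtain ⟨n, hn⟩ := exists_not_isSquare h2
  have hn0 : n ≠ 0 := fun e => hn (e ▸ IsSquare.zero)
  refine ⟨?_, fun g hg => ?_, fun g h a1 a2 a3 a4 b1 b2 b3 b4 => ?_⟩
  · refine card_subtype_pair (a := ConjClasses.mk (triS 1 1)) (b := ConjClasses.mk (triS 1 n))
      (fun e => hn ?_) fun C => ⟨?_, ?_⟩
    · simpa using ((sl_isConj_un_iff (one_pow 2) one_ne_zero).1
        (ConjClasses.mk_eq_mk_iff_isConj.1 e)).2.2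
    · rintro ⟨g, hg, rfl⟩
      obtain ⟨x, hx, h1⟩ := key g hg
      by_cases hs : IsSquare x
      · exact Or.inl (ConjClasses.mk_eq_mk_iff_isConj.2 (IsConj.trans
          ((sl_isConj_un_iff (one_pow 2) one_ne_zero).2 ⟨rfl, hx, by simpa using hs⟩) h1).symm)
      · exact Or.inr (ConjClasses.mk_eq_mk_iff_isConj.2 (IsConj.trans
          ((sl_isConj_un_iff (one_pow 2) hn0).2 ⟨rfl, hx, isSquare_mul_of_not hn hs⟩) h1).symm)
    · rintro (rfl | rfl)
      · exact ⟨_, orderOf_triS_one p one_ne_zero, rfl⟩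
      · exact ⟨_, orderOf_triS_one p hn0, rfl⟩
  · obtain ⟨x, hx, h1⟩ := key g hg
    rw [card_carrier_eq_index, ← Nat.card_eq_fintype_card]
    exact index_torS_uni_odd h2 (IsConj.s2_uni h1 (uni_triS (one_pow 2) hx))
  · have e1 : g = triS 1 ((g : M2 F) 0 1) := by apply s2ext <;> simp [a1, a2, a3]
    have e2 : h = triS 1 ((h : M2 F) 0 1) := by apply s2ext <;> simp [b1, b2, b3]
    conv_lhs => rw [e1, e2]
    rw [sl_isConj_un_iff (one_pow 2) a4]
    simp [b4]

end Cfsg.Agent.S2301
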