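import Cfsg.Statements.S2302
import Cfsg.Agent.H27.GL2d

set_option autoImplicit false
open Cfsg

namespace Cfsg.Agent.S2302

open Cfsg.Agent.H27

/-- Over a finite field with q elements of characteristic 2, the involutions of SL₂ (the non-identity unipotent elements) form a single conjugacy class, of size q² − 1. -/
theorem result {F : Type*} [Field F] [Fintype F] [CharP F 2] (g h : Matrix.SpecialLinearGroup (Fin 2) F) (hg : orderOf g = 2) (hh : orderOf h = 2) :
    IsConj g h ∧ Nat.card (ConjClasses.mk g).carrier = Fintype.card F ^ 2 - 1 := by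
  have h2 : (2 : F) = 0 := two_eq_zero_of_charP
  have key : ∀ g : Matrix.SpecialLinearGroup (Fin 2) F, orderOf g = 2 →
      ∃ x : F, x ≠ 0 ∧ IsConj (triS 1 x) g :=
    fun g hg => sl_isConj_of_pow 2 (k := 1) (by rw [pow_one]; exact orderOf_dvd_iff_pow_eq_one.1 hg.dvd)
      (fun e => by rw [e, orderOf_one] at hg; omega)
  obtain ⟨x, hx, h1⟩ := key g hg
  obtain ⟨y, hy, h3⟩ := key h hh
  refine ⟨h1.symm.trans (IsConj.trans ?_ h3), ?_⟩
  · exact (sl_isConj_un_iff (one_pow 2) hx).2 ⟨rfl, hy, isSquare_of_two h2 _⟩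
  · rw [card_carrier_eq_index, ← Nat.card_eq_fintype_card]
    exact index_torS_uni_even h2 (IsConj.s2_uni h1 (uni_triS (one_pow 2) hx))

end Cfsg.Agent.S2302
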