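import Cfsg.Statements.S2308
import Cfsg.Agent.H27.GL2f

set_option autoImplicit false
open Cfsg

namespace Cfsg.Agent.S2308

open Cfsg.Agent.H27 Cfsg.Agent.H5

/-- Values of the permutation character of GL₂ over a finite field F with q elements on the cosets of its upper triangular subgroup (equivalently, the number of lines of F² that an element maps to themselves): q + 1 at a scalar matrix, 2 at a diagonal matrix with two different diagonal entries, 0 at an element with no eigenvector in F², and 1 at an upper triangular matrix with equal diagonal entries and non-zero upper right entry. -/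
theorem result {F : Type*} [Field F] [Fintype F] (g : Matrix.GeneralLinearGroup (Fin 2) F) :
    ((∃ a : F, (g : Matrix (Fin 2) (Fin 2) F) = a • (1 : Matrix (Fin 2) (Fin 2) F)) → Cfsg.fixedPointCharacter (Cfsg.upperTriangularGL 2 F) g = Fintype.card F + 1) ∧
    ((g : Matrix (Fin 2) (Fin 2) F) 0 1 = 0 → (g : Matrix (Fin 2) (Fin 2) F) 1 0 = 0 → (g : Matrix (Fin 2) (Fin 2) F) 0 0 ≠ (g : Matrix (Fin 2) (Fin 2) F) 1 1 →
      Cfsg.fixedPointCharacter (Cfsg.upperTriangularGL 2 F) g = 2) ∧
    ((∀ (c : F) (v : Fin 2 → F), v ≠ 0 → (g : Matrix (Fin 2) (Fin 2) F).mulVec v ≠ c • v) → Cfsg.fixedPointCharacter (Cfsg.upperTriangularGL 2 F) g = 0) ∧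
    ((g : Matrix (Fin 2) (Fin 2) F) 1 0 = 0 → (g : Matrix (Fin 2) (Fin 2) F) 0 0 = (g : Matrix (Fin 2) (Fin 2) F) 1 1 → (g : Matrix (Fin 2) (Fin 2) F) 0 1 ≠ 0 →
      Cfsg.fixedPointCharacter (Cfsg.upperTriangularGL 2 F) g = 1) := by
  classical
  have key : Cfsg.fixedPointCharacter (Cfsg.upperTriangularGL 2 F) g = ps 1 1 g := by
    rw [fixedPointCharacter, ← indFun_one_eq_card_fixedBy, ps]
    congr 1
    ext b
    have h := mem_borel.1 b.2
    rw [MulChar.one_apply (tri_ne00 h).isUnit, MulChar.one_apply (tri_ne11 h).isUnit, one_mul]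
  rw [key, ← Nat.card_eq_fintype_card]
  refine ⟨fun h => ?_, fun _ h2 h3 => ?_, fun h => ps_ell _ _ h, fun h1 h2 h3 => ?_⟩
  · obtain ⟨a, rfl⟩ := exists_sc (scal_iff.2 h)
    simp [ps_sc]
  · obtain ⟨a, b, x, rfl⟩ := exists_tri h2
    rw [ps_tri _ _ (fun e => h3 (by simp [e]))]; simp; norm_num
  · obtain ⟨a, b, x, rfl⟩ := exists_tri h1
    obtain rfl : a = b := Units.ext (by simpa using h2)
    rw [show tri a a x = un a x from rfl, ps_un _ _ _ (by simpa using h3)]; simp

end Cfsg.Agent.S2308
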