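import Cfsg.Statements.S2309
import Cfsg.Agent.H27.GL2f

set_option autoImplicit false
open Cfsg

namespace Cfsg.Agent.S2309

open Cfsg.Agent.H27

/-- Over a finite field F with q elements: every irreducible complex character of GL₂ of degree q − 1 vanishes at every diagonal matrix with two distinct entries, and every irreducible complex character of degree q + 1 vanishes at every element with no eigenvector in F². -/
theorem result {F : Type*} [Field F] [Fintype F] (χ : Matrix.GeneralLinearGroup (Fin 2) F → ℂ) (hχ : Cfsg.IsIrrCharacter (Matrix.GeneralLinearGroup (Fin 2) F) χ) (g : Matrix.GeneralLinearGroup (Fin 2) F) :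
    (χ 1 = (Fintype.card F : ℂ) - 1 → (g : Matrix (Fin 2) (Fin 2) F) 0 1 = 0 → (g : Matrix (Fin 2) (Fin 2) F) 1 0 = 0 → (g : Matrix (Fin 2) (Fin 2) F) 0 0 ≠ (g : Matrix (Fin 2) (Fin 2) F) 1 1 → χ g = 0) ∧
    (χ 1 = (Fintype.card F : ℂ) + 1 → (∀ (c : F) (v : Fin 2 → F), v ≠ 0 → (g : Matrix (Fin 2) (Fin 2) F).mulVec v ≠ c • v) → χ g = 0) := by
  classical
  obtain ⟨e, he⟩ := exists_ell F
  rw [← Nat.card_eq_fintype_card]
  have n0 : (Nat.card F : ℂ) ≠ 0 := cast_q_ne_zero
  refine ⟨fun h1 _ h3 h4 => ?_, fun h1 h2 => ?_⟩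
  · rcases gl_irr_cases he hχ with h | h | h | h
    · exfalso
      have h5 : (Nat.card F : ℂ) = 2 := by linear_combination (famL_val h).1 - h1
      have h6 : Nat.card Fˣ = 1 := by
        rw [Nat.card_units, show Nat.card F = 2 by exact_mod_cast h5]
      obtain ⟨a, b, x, rfl⟩ := exists_tri h3
      have := (Nat.card_eq_one_iff_unique.1 h6).1
      exact h4 (by simp [Subsingleton.elim a b])
    · exact (one_ne_zero (α := ℂ) (by linear_combination h1 - (famS_val h).1)).elim
    · exact (two_ne_zero (α := ℂ) (by linear_combination h1 - (famP_val h).1)).elim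
    · obtain ⟨θ, rfl⟩ := h
      exact cu_spl he _ (spl_of_tri h3 h4)
  · rcases gl_irr_cases he hχ with h | h | h | h
    · exact (n0 (by linear_combination (famL_val h).1 - h1)).elim
    · exact (one_ne_zero (α := ℂ) (by linear_combination (famS_val h).1 - h1)).elim
    · obtain ⟨θ, rfl⟩ := h
      exact ps_ell _ _ h2
    · exact (two_ne_zero (α := ℂ) (by linear_combination (famC_val h).1 - h1)).elim

end Cfsg.Agent.S2309
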