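import Cfsg.Statements.S2310
import Cfsg.Agent.H27.GL2f

set_option autoImplicit false
open Cfsg

namespace Cfsg.Agent.S2310

open Cfsg.Agent.H27

/-- Over a finite field F with q ≥ 3 elements, let u be the upper unitriangular matrix of GL₂ with off-diagonal entry 1. An irreducible complex character χ of GL₂ takes at u the value 1 if χ has degree 1 or q + 1, the value −1 if χ has degree q − 1, and the value 0 if χ has degree q. -/
theorem result {F : Type*} [Field F] [Fintype F] (hq : 3 ≤ Fintype.card F) (χ : Matrix.GeneralLinearGroup (Fin 2) F → ℂ) (hχ : Cfsg.IsIrrCharacter (Matrix.GeneralLinearGroup (Fin 2) F) χ)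
    (u : Matrix.GeneralLinearGroup (Fin 2) F) (hu : (u : Matrix (Fin 2) (Fin 2) F) = !![1, 1; 0, 1]) :
    (χ 1 = 1 → χ u = 1) ∧ (χ 1 = (Fintype.card F : ℂ) + 1 → χ u = 1) ∧
    (χ 1 = (Fintype.card F : ℂ) - 1 → χ u = -1) ∧ (χ 1 = (Fintype.card F : ℂ) → χ u = 0) := by
  classical
  obtain ⟨e, he⟩ := exists_ell F
  rw [← Nat.card_eq_fintype_card] at hq ⊢
  obtain rfl : u = un 1 1 := Units.ext (by simp [hu])
  have n0 : (Nat.card F : ℂ) ≠ 0 := cast_q_ne_zero
  have n1 : (Nat.card F : ℂ) ≠ 1 := by exact_mod_cast (by omega : Nat.card F ≠ 1)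
  have n2 : (Nat.card F : ℂ) ≠ 2 := by exact_mod_cast (by omega : Nat.card F ≠ 2)
  rcases gl_irr_cases he hχ with h | h | h | h
  · obtain ⟨h1, h2⟩ := famL_val h
    exact ⟨fun _ => h2, fun _ => h2, fun h => (n2 (by linear_combination h1 - h)).elim,
      fun h => (n1 (by linear_combination h1 - h)).elim⟩
  · obtain ⟨h1, h2⟩ := famS_val h
    exact ⟨fun h => (n1 (by linear_combination h - h1)).elim,
      fun h => (one_ne_zero (α := ℂ) (by linear_combination h1 - h)).elim,
      fun h => (one_ne_zero (α := ℂ) (by linear_combination h - h1)).elim, fun _ => h2⟩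
  · obtain ⟨h1, h2⟩ := famP_val h
    exact ⟨fun _ => h2, fun _ => h2,
      fun h => (two_ne_zero (α := ℂ) (by linear_combination h - h1)).elim,
      fun h => (one_ne_zero (α := ℂ) (by linear_combination h - h1)).elim⟩
  · obtain ⟨h1, h2⟩ := famC_val h
    exact ⟨fun h => (n2 (by linear_combination h - h1)).elim,
      fun h => (two_ne_zero (α := ℂ) (by linear_combination h1 - h)).elim, fun _ => h2,
      fun h => (one_ne_zero (α := ℂ) (by linear_combination h1 - h)).elim⟩

end Cfsg.Agent.S2310
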