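import Cfsg.Statements.S2315
import Cfsg.Agent.H28.Sbn4
import Cfsg.Agent.H28.RgA
import Cfsg.Agent.H12.Lin

set_option autoImplicit false
open Cfsg

namespace Cfsg.Agent.S2315



/-- Steinberg's count of unipotent elements for the general linear group: over a finite field with q elements of characteristic p, the number of elements of GL_n of p-power order (the unipotent matrices) is q^(n(n−1)). -/
theorem result {F : Type*} [Field F] [Fintype F] (p : ℕ) [Fact p.Prime] [CharP F p] (n : ℕ) :
    Nat.card {g : Matrix.GeneralLinearGroup (Fin n) F // ∃ k : ℕ, orderOf g = p ^ k} = Fintype.card F ^ (n * (n - 1)) := by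
  classical
  obtain ⟨k, hp, hk⟩ := FiniteField.card F p
  have h1 : Nat.card {g : Matrix.SpecialLinearGroup (Fin n) F // ∃ k : ℕ, orderOf g = p ^ k} =
      Nat.card {g : Matrix.GeneralLinearGroup (Fin n) F // ∃ k : ℕ, orderOf g = p ^ k} := by
    have hi : Function.Injective (Matrix.SpecialLinearGroup.toGL : Matrix.SpecialLinearGroup (Fin n) F →* _) :=
      Matrix.SpecialLinearGroup.toGL_injective
    refine Nat.card_congr (Equiv.ofBijective (fun g => ⟨_, by rw [orderOf_injective _ hi]; exact g.2⟩)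
      ⟨fun a b h => Subtype.ext (hi (congrArg Subtype.val h)), ?_⟩)
    rintro ⟨g, l, hl⟩
    obtain ⟨g, rfl⟩ : g ∈ (Matrix.SpecialLinearGroup.toGL : Matrix.SpecialLinearGroup (Fin n) F →* _).range := by
      rw [H12.range_toGL_eq_ker_det, MonoidHom.mem_ker, Units.ext_iff]
      have := congrArg (fun x => (Matrix.GeneralLinearGroup.det x : F)) (pow_orderOf_eq_one g)
      simp only [hl, map_pow, map_one, Units.val_pow_eq_pow_val, Units.val_one] at this
      rw [← sub_eq_zero, ← pow_eq_zero_iff (pow_ne_zero l hp.ne_zero), sub_pow_char_pow, this]; simp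
    exact ⟨⟨g, l, by rwa [orderOf_injective _ hi] at hl⟩, rfl⟩
  rw [← h1]
  by_cases hn : n ≤ 1
  · have : Subsingleton (Fin n) := Fin.subsingleton_iff_le_one.2 hn
    have : Unique {g : Matrix.SpecialLinearGroup (Fin n) F // ∃ k : ℕ, orderOf g = p ^ k} :=
      ⟨⟨⟨1, 0, by simp⟩⟩, fun _ => Subtype.ext (Subsingleton.elim _ _)⟩
    simp [Nat.sub_eq_zero_of_le hn]
  obtain ⟨X⟩ := (H28.isSBN_SL F p (n := n) (by omega)).nonempty
  have h2 := H12.card_SL_fin (F := F) rfl n (by omega)
  rw [Finset.prod_congr rfl (g := fun i : Fin n => Fintype.card F ^ (i : ℕ) * (Fintype.card F ^ (n - i) - 1)) fun i _ => by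
    rw [Nat.mul_sub_one, ← pow_add, Nat.add_sub_cancel' i.2.le], Finset.prod_mul_distrib, Finset.prod_pow_eq_pow_sum] at h2
  rw [X.card_unip, H28.pow_factorization_eq (F := F) p (fun i _ => (Nat.sub_pos_of_lt i.2).ne') (fun h => ?_) h2,
    ← pow_mul, Fin.sum_univ_eq_sum_range (fun i => i), Finset.sum_range_id_mul_two]
  have := Nat.dvd_sub (hk ▸ dvd_pow_self p k.ne_zero : p ∣ Fintype.card F) h
  rw [Nat.sub_sub_self Fintype.card_pos] at this
  exact hp.not_dvd_one this

end Cfsg.Agent.S2315
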