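import Cfsg.Statements.S2316
import Cfsg.Agent.H28.Sbn4
import Cfsg.Agent.H28.TwA
import Cfsg.Agent.S0245

set_option autoImplicit false
open Cfsg

namespace Cfsg.Agent.S2316



/-- Steinberg's count of unipotent elements for the symplectic group: over a finite field with q elements of characteristic p, the number of elements of Sp_{2m} of p-power order is q^(2m²). -/
theorem result {F : Type*} [Field F] [Fintype F] (p : ℕ) [Fact p.Prime] [CharP F p] (m : ℕ) :
    Nat.card {g : ↥(Matrix.symplecticGroup (Fin m) F) // ∃ k : ℕ, orderOf g = p ^ k} = Fintype.card F ^ (2 * m ^ 2) := by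
  classical
  rcases m with _ | m
  · have : Unique {g : ↥(Matrix.symplecticGroup (Fin 0) F) // ∃ k : ℕ, orderOf g = p ^ k} :=
      ⟨⟨⟨1, 0, by simp⟩⟩, fun _ => Subtype.ext (Subtype.ext (Subsingleton.elim _ _))⟩
    simp
  obtain ⟨X⟩ := (H28.isSBN_Sp (K := F) p (Nat.le_add_left 1 m)).nonempty
  have := Fintype.ofFinite (Matrix.symplecticGroup (Fin (m + 1)) F)
  rw [X.card_unip, H28.pow_factorization_eq (F := F) p (c := 1) (by simp) (Fact.out : p.Prime).not_dvd_one
    ((one_mul _).trans (S0245.result rfl _)), ← pow_mul, mul_comm]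

end Cfsg.Agent.S2316
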