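import Cfsg.Statements.S2317
import Cfsg.Agent.H13.Jor

set_option autoImplicit false
open Cfsg

namespace Cfsg.Agent.S2317

theorem ppow_iff {F : Type*} [Field F] (p : ℕ) [Fact p.Prime] [CharP F p] {n : Type*} [Fintype n]
    [DecidableEq n] (g : GL n F) : (∃ k : ℕ, orderOf g = p ^ k) ↔ IsNilpotent (g.1 - 1) := by
  have hp : p.Prime := Fact.out
  have h0 : ∀ k, g ^ p ^ k = 1 ↔ (g.1 - 1) ^ p ^ k = 0 := fun k => by
    rw [H13.sub_one_pow_char (F := F), sub_eq_zero, Units.ext_iff]; rfl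
  constructor
  · rintro ⟨k, hk⟩
    exact ⟨p ^ k, (h0 k).1 (hk ▸ pow_orderOf_eq_one g)⟩
  · rintro ⟨k, hk⟩
    have := (h0 k).2 (pow_eq_zero_of_le (Nat.lt_pow_self hp.one_lt).le hk)
    obtain ⟨j, -, hj⟩ := (Nat.dvd_prime_pow hp).1 (orderOf_dvd_of_pow_eq_one this)
    exact ⟨j, hj⟩

/-- Over a finite field of characteristic p, the conjugacy classes of GL_n consisting of elements of p-power order (the unipotent classes) are as many as the partitions of n. -/
theorem result {F : Type*} [Field F] [Fintype F] (p : ℕ) [Fact p.Prime] [CharP F p] (n : ℕ) :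
    Nat.card {C : ConjClasses (Matrix.GeneralLinearGroup (Fin n) F) //
      ∃ g : Matrix.GeneralLinearGroup (Fin n) F, (∃ k : ℕ, orderOf g = p ^ k) ∧ ConjClasses.mk g = C} =
      Fintype.card (Nat.Partition n) := by
  simp only [ppow_iff, and_comm (a := IsNilpotent _)]
  rw [H28.card_conjClasses_eq' (fun g : GL (Fin n) F => H13.jt (Matrix.toLin' g.1)) _
    (fun M => (∀ k ∈ M, 0 < k) ∧ M.sum = n)
    (fun g h hg hh => H28.isConj_GL_iff.trans (H13.isConj_iff_jt hg hh))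
    (fun g hg => ⟨fun _ => H13.jt_pos, by
      simpa using H13.sum_jt (H13.isNilpotent_toLin'.mpr hg)⟩)
    fun M ⟨h3, h4⟩ => H13.exists_GL_jt (F := F) (n := Fin n) h3 (by simpa), ← Nat.card_eq_fintype_card]
  exact Nat.card_congr ⟨fun M => ⟨M.1, fun h => M.2.1 _ h, M.2.2⟩,
    fun μ => ⟨μ.parts, fun _ h => μ.parts_pos h, μ.parts_sum⟩, fun _ => rfl, fun _ => rfl⟩

end Cfsg.Agent.S2317
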