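import Cfsg.Statements.S2320
import Cfsg.Agent.H27.GL2f

set_option autoImplicit false
open Cfsg

namespace Cfsg.Agent.S2320

open Cfsg.Agent.H27 Cfsg.Agent.H4

/-- Over a finite field F with q elements, every irreducible complex character of GL₂ of degree q takes a value of absolute value 1 at every diagonal matrix with two different diagonal entries and at every element with no eigenvector in F². -/
theorem result {F : Type*} [Field F] [Fintype F] (χ : Matrix.GeneralLinearGroup (Fin 2) F → ℂ) (hχ : Cfsg.IsIrrCharacter (Matrix.GeneralLinearGroup (Fin 2) F) χ) (hdeg : χ 1 = (Fintype.card F : ℂ)) (g : Matrix.GeneralLinearGroup (Fin 2) F) :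
    ((g : Matrix (Fin 2) (Fin 2) F) 0 1 = 0 → (g : Matrix (Fin 2) (Fin 2) F) 1 0 = 0 → (g : Matrix (Fin 2) (Fin 2) F) 0 0 ≠ (g : Matrix (Fin 2) (Fin 2) F) 1 1 → ‖χ g‖ = 1) ∧
    ((∀ (c : F) (v : Fin 2 → F), v ≠ 0 → (g : Matrix (Fin 2) (Fin 2) F).mulVec v ≠ c • v) → ‖χ g‖ = 1) := by
  classical
  obtain ⟨e, he⟩ := exists_ell F
  rw [← Nat.card_eq_fintype_card] at hdeg
  have h0 := two_le_card F
  have n1 : (Nat.card F : ℂ) ≠ 1 := by exact_mod_cast (by omega : Nat.card F ≠ 1)
  have hl : ∀ α : MulChar F ℂ, ‖lin α g‖ = 1 := fun α => linear_norm (linHom α).toHomUnits g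
  rcases gl_irr_cases he hχ with h | h | h | h
  · exact (n1 (by linear_combination (famL_val h).1 - hdeg)).elim
  · obtain ⟨α, rfl⟩ := h
    refine ⟨fun _ h3 h4 => ?_, fun h => ?_⟩
    · obtain ⟨a, b, x, rfl⟩ := exists_tri h3
      rw [st_tri _ (fun e => h4 (by simp [e])), ← lin_tri _ _ _ x, hl]
    · rw [st_ell _ h, norm_neg, hl]
  · exact (one_ne_zero (α := ℂ) (by linear_combination hdeg - (famP_val h).1)).elim
  · exact (one_ne_zero (α := ℂ) (by linear_combination (famC_val h).1 - hdeg)).elim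

end Cfsg.Agent.S2320
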