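import Cfsg.Statements.S2321
import Cfsg.Agent.H27.SL2c

set_option autoImplicit false
open Cfsg

namespace Cfsg.Agent.S2321

open Cfsg.Agent.H27 Cfsg.Agent.H4 Cfsg.Agent.H5


/-- Over a finite field F with q elements, an irreducible complex character of SL₂ of degree q (the Steinberg character) takes the value 1 at every diagonal matrix whose diagonal entry a has a² ≠ 1, the value −1 at every element with no eigenvector in F², and the value 0 at every upper triangular matrix with equal diagonal entries and non-zero upper right entry. -/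
theorem result {F : Type*} [Field F] [Fintype F] (χ : Matrix.SpecialLinearGroup (Fin 2) F → ℂ) (hχ : Cfsg.IsIrrCharacter (Matrix.SpecialLinearGroup (Fin 2) F) χ) (hdeg : χ 1 = (Fintype.card F : ℂ)) (g : Matrix.SpecialLinearGroup (Fin 2) F) :
    ((g : Matrix (Fin 2) (Fin 2) F) 0 1 = 0 → (g : Matrix (Fin 2) (Fin 2) F) 1 0 = 0 → (g : Matrix (Fin 2) (Fin 2) F) 0 0 ^ 2 ≠ 1 → χ g = 1) ∧
    ((∀ (c : F) (v : Fin 2 → F), v ≠ 0 → (g : Matrix (Fin 2) (Fin 2) F).mulVec v ≠ c • v) → χ g = -1) ∧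
    ((g : Matrix (Fin 2) (Fin 2) F) 1 0 = 0 → (g : Matrix (Fin 2) (Fin 2) F) 0 0 = (g : Matrix (Fin 2) (Fin 2) F) 1 1 → (g : Matrix (Fin 2) (Fin 2) F) 0 1 ≠ 0 → χ g = 0) := by
  classical
  rw [← Nat.card_eq_fintype_card] at hdeg
  obtain rfl := eq_stS_of_deg hχ hdeg
  refine ⟨fun _ h1 h2 => ?_, fun h => stS_ell h, fun h1 h2 h3 => ?_⟩
  · obtain ⟨a, x, rfl⟩ := exists_triS h1
    exact stS_spl (fun e => h2 (by simpa using congrArg Units.val e)) x
  · obtain ⟨a, x, rfl⟩ := exists_triS h1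
    have ha : a ^ 2 = 1 := by
      rw [sq, ← eq_inv_iff_mul_eq_one]; exact Units.ext (by simpa using h2)
    exact stS_uni ⟨a, ha⟩ (by simpa using h3)

end Cfsg.Agent.S2321
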