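import Cfsg.Statements.S2322
import Cfsg.Agent.H27.SL2c

set_option autoImplicit false
open Cfsg

namespace Cfsg.Agent.S2322

open Cfsg.Agent.H27 Cfsg.Agent.H4 Cfsg.Agent.H5


/-- Over a finite field F with q elements, q odd: every irreducible complex character of SL₂ of degree q − 1 or (q − 1)/2 vanishes at every diagonal matrix whose diagonal entry a has a² ≠ 1, and every irreducible complex character of degree q + 1 or (q + 1)/2 vanishes at every element with no eigenvector in F². -/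
theorem result {F : Type*} [Field F] [Fintype F] (hodd : Odd (Fintype.card F)) (χ : Matrix.SpecialLinearGroup (Fin 2) F → ℂ) (hχ : Cfsg.IsIrrCharacter (Matrix.SpecialLinearGroup (Fin 2) F) χ) (g : Matrix.SpecialLinearGroup (Fin 2) F) :
    ((χ 1 = (Fintype.card F : ℂ) - 1 ∨ χ 1 = (((Fintype.card F - 1) / 2 : ℕ) : ℂ)) →
      (g : Matrix (Fin 2) (Fin 2) F) 0 1 = 0 → (g : Matrix (Fin 2) (Fin 2) F) 1 0 = 0 → (g : Matrix (Fin 2) (Fin 2) F) 0 0 ^ 2 ≠ 1 → χ g = 0) ∧
    ((χ 1 = (Fintype.card F : ℂ) + 1 ∨ χ 1 = (((Fintype.card F + 1) / 2 : ℕ) : ℂ)) →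
      (∀ (c : F) (v : Fin 2 → F), v ≠ 0 → (g : Matrix (Fin 2) (Fin 2) F).mulVec v ≠ c • v) → χ g = 0) := by
  classical
  obtain ⟨e, he⟩ := exists_ell F
  have h2 := two_ne_zero_iff_odd.2 hodd
  rw [← Nat.card_eq_fintype_card] at hodd ⊢
  rw [cast_half_add hodd, cast_half_sub hodd]
  refine ⟨fun h _ h1 h3 => ?_, fun h hg => ?_⟩
  · obtain ⟨a, x, rfl⟩ := exists_triS h1
    have ha : a ^ 2 ≠ 1 := fun e => h3 (by simpa using congrArg Units.val e)
    have hq := four_le_card h2 ha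
    rcases h with h | h
    · obtain ⟨θ, rfl⟩ := mem_famCS_of_deg hχ he hq h
      exact cuS_spl he _ (spl_triS ha x)
    · exact famHC_spl he (mem_famHC_of_deg hχ he hq h) (spl_triS ha x)
  · rcases h with h | h
    · obtain ⟨θ, rfl⟩ := mem_famPS_of_deg hχ h
      exact psS_ell _ hg
    · rcases mem_famHP_or_of_deg hχ he h with h1 | ⟨h3, θ, rfl⟩
      · exact famHP_ell h1 hg
      · obtain ⟨z, hz, hc⟩ := exists_sl_isConj_C1 he hg
        have hs : ¬ Scal (z : M2 F) := fun h => Ell.not_scal hg ((IsConj.s2_scal hc).1 h)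
        rw [← hχ.isClassFunction.of_isConj hc]
        change cuS he θ.1 (⟨z, hz⟩ : C1 e) = 0
        rw [cuS_C1 he _ _ hs, sum_eq_zero_of_three h3 he θ.2 _ hs, neg_zero]

end Cfsg.Agent.S2322
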