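import Cfsg.Statements.S2325
import Cfsg.Agent.H27.GL2d

set_option autoImplicit false
open Cfsg

namespace Cfsg.Agent.S2325

/-- Over a finite field with q elements, q odd, the special linear group SL₂ has exactly q + 4 conjugacy classes. -/
theorem result {F : Type*} [Field F] [Fintype F] (hodd : Odd (Fintype.card F)) :
    Nat.card (ConjClasses (Matrix.SpecialLinearGroup (Fin 2) F)) = Fintype.card F + 4 := by
  rw [Cfsg.Agent.H27.card_conjClasses_S2_odd (Cfsg.Agent.H27.two_ne_zero_iff_odd.2 hodd),
    Nat.card_eq_fintype_card]

end Cfsg.Agent.S2325
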