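import Cfsg.Statements.S2363
import Cfsg.Agent.S0243
import Cfsg.Agent.S0245
import Cfsg.Agent.S0246
import Cfsg.Agent.S0280
import Cfsg.Agent.S0292
import Cfsg.Agent.S0293
import Cfsg.Agent.S0294
import Cfsg.Agent.S1059
import Cfsg.Agent.S1062
import Cfsg.Agent.S1063
import Cfsg.Agent.S1064
import Cfsg.Agent.S1065
import Cfsg.Agent.S1066
import Cfsg.Agent.S1067
import Cfsg.Agent.S1068
import Cfsg.Agent.S1069
import Cfsg.Agent.S1163

set_option autoImplicit false
open Cfsg

namespace Cfsg.Agent.S2363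

section arith

variable {p q : ℕ} (hp : p.Prime) (hq : ∃ f, 0 < f ∧ q = p ^ f)
include hp hq

theorem one_lt_q : 1 < q := by
  obtain ⟨f, hf, rfl⟩ := hq
  exact Nat.one_lt_pow hf.ne' hp.one_lt

theorem co_add (i : ℕ) : (q ^ (i + 1) + 1).Coprime p := by
  obtain ⟨f, hf, rfl⟩ := hq
  rw [← pow_mul, Nat.coprime_comm, hp.coprime_iff_not_dvd, Nat.dvd_add_right (dvd_pow_self p (by positivity))]
  simpa using hp.one_lt.ne'

theorem co_sub (i : ℕ) : (q ^ (i + 1) - 1).Coprime p := by
  obtain ⟨f, hf, rfl⟩ := hq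
  rw [← pow_mul, Nat.coprime_comm, hp.coprime_iff_not_dvd]
  intro h
  have h1 := Nat.dvd_sub (dvd_pow_self p (show f * (i + 1) ≠ 0 by positivity)) h
  rw [Nat.sub_sub_self (Nat.one_le_pow _ _ hp.pos)] at h1
  simp [hp.one_lt.ne'] at h1

theorem co_add1 : (q + 1).Coprime p := by simpa using co_add hp hq 0

theorem co_sub1 : (q - 1).Coprime p := by simpa using co_sub hp hq 0

theorem fact_eq {d n N M : ℕ} (h : d * n = q ^ N * M) (hd : d.Coprime p) (hM : M.Coprime p) :
    p ^ n.factorization p = q ^ N := by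
  obtain ⟨f, hf, rfl⟩ := hq
  have h0 : M ≠ 0 := by rintro rfl; simp [hp.one_lt.ne'] at hM
  rw [← pow_mul] at h
  have h1 : d * n ≠ 0 := h ▸ mul_ne_zero (pow_ne_zero _ hp.ne_zero) h0
  have : (d * n).factorization p = (p ^ (f * N) * M).factorization p := by rw [h]
  simp only [Nat.factorization_mul (left_ne_zero_of_mul h1) (right_ne_zero_of_mul h1),
    Nat.factorization_mul (pow_ne_zero _ hp.ne_zero) h0, Finsupp.add_apply,
    Nat.factorization_eq_zero_of_not_dvd ((hp.coprime_iff_not_dvd).1 hd.symm),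
    Nat.factorization_eq_zero_of_not_dvd ((hp.coprime_iff_not_dvd).1 hM.symm), hp.factorization_pow,
    Finsupp.single_eq_same, zero_add, add_zero] at this
  rw [this, pow_mul]

theorem lt_pow {d n N M k : ℕ} (h : d * n = q ^ N * M) (hk : M < d * q ^ k) : n < q ^ (N + k) := by
  have h1 := one_lt_q hp hq
  refine lt_of_mul_lt_mul_left (a := d) ?_ (Nat.zero_le _)
  rw [h, pow_add, mul_left_comm]
  exact mul_lt_mul_of_pos_left hk (by positivity)

theorem key {d n N M : ℕ} (k : ℕ) (h : d * n = q ^ N * M) (hd : d.Coprime p) (hM : M.Coprime p) (hk : M < d * q ^ k)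
    (h3 : 3 * k ≤ 5 * N) {P : Prop} : n < p ^ (3 * n.factorization p) ∧ (P → n ^ 3 < p ^ (8 * n.factorization p)) := by
  have h1 := one_lt_q hp hq
  have h2 := lt_pow hp hq h hk
  rw [mul_comm 3, mul_comm 8, pow_mul, pow_mul, fact_eq hp hq h hd hM, ← pow_mul, ← pow_mul]
  refine ⟨h2.trans_le (Nat.pow_le_pow_right h1.le (by omega)), fun _ => (Nat.pow_lt_pow_left h2 three_ne_zero).trans_le ?_⟩
  rw [← pow_mul]
  exact Nat.pow_le_pow_right h1.le (by omega)

theorem key1 {d n N M : ℕ} (k : ℕ) (h : d * n = q ^ N * M) (hd : d.Coprime p) (hM : M.Coprime p) (hk : M < q ^ k)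
    (h3 : 3 * k ≤ 5 * N) {P : Prop} : n < p ^ (3 * n.factorization p) ∧ (P → n ^ 3 < p ^ (8 * n.factorization p)) :=
  key hp hq k h hd hM (hk.trans_le (Nat.le_mul_of_pos_left _ (Nat.pos_of_ne_zero (by
    rintro rfl; simp [hp.one_lt.ne'] at hd)))) h3

theorem sub_lt (i : ℕ) : q ^ i - 1 < q ^ i := Nat.sub_lt (pow_pos (zero_lt_one.trans (one_lt_q hp hq)) _) one_pos

theorem add_le (i : ℕ) : q ^ i + 1 ≤ q ^ (i + 1) := Nat.pow_lt_pow_right (one_lt_q hp hq) (by omega)

theorem prod_sp (m : ℕ) : ∏ i ∈ Finset.range m, (q ^ (2 * (i + 1)) - 1) ≤ q ^ (m * (m + 1)) := by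
  induction m with
  | zero => simp
  | succ m ih =>
    rw [Finset.prod_range_succ, show (m + 1) * (m + 1 + 1) = m * (m + 1) + 2 * (m + 1) by ring, pow_add]
    exact Nat.mul_le_mul ih (Nat.sub_le _ _)

theorem co_sp (m : ℕ) : (∏ i ∈ Finset.range m, (q ^ (2 * (i + 1)) - 1)).Coprime p :=
  Nat.Coprime.prod_left fun i _ => co_sub hp hq (2 * i + 1)

theorem prod_sp_lt {m : ℕ} (hm : 0 < m) : ∏ i ∈ Finset.range m, (q ^ (2 * (i + 1)) - 1) < q ^ (m * (m + 1)) := by
  obtain ⟨m, rfl⟩ := Nat.exists_eq_add_of_le' hm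
  have := one_lt_q hp hq
  rw [Finset.prod_range_succ, show (m + 1) * (m + 1 + 1) = m * (m + 1) + 2 * (m + 1) by ring, pow_add]
  exact Nat.mul_lt_mul_of_le_of_lt (prod_sp hp hq m) (sub_lt hp hq _) (by positivity)

theorem prod_sl (n : ℕ) : ∃ k, 2 * k = n * n + 5 * n + 4 ∧ ∏ i ∈ Finset.range (n + 2), (q ^ (i + 1) - 1) < (q - 1) * q ^ k := by
  have h1 := one_lt_q hp hq
  induction n with
  | zero =>
    refine ⟨2, rfl, ?_⟩
    simp only [zero_add, Finset.prod_range_succ, Finset.range_zero, Finset.prod_empty, one_mul, pow_one]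
    exact mul_lt_mul_of_pos_left (sub_lt hp hq _) (by omega)
  | succ n ih =>
    obtain ⟨k, h, ih⟩ := ih
    refine ⟨k + (n + 3), by linarith, ?_⟩
    rw [Finset.prod_range_succ, pow_add q k, ← mul_assoc]
    exact Nat.mul_lt_mul_of_lt_of_le ih (Nat.sub_le _ _) (by positivity)

theorem prod_su (n : ℕ) : ∃ k, 2 * k = n * n + 7 * n + 10 ∧
    ∏ i ∈ Finset.range (n + 3), (if Even i then q ^ (i + 1) + 1 else q ^ (i + 1) - 1) < (q + 1) * q ^ k := by
  have h1 := one_lt_q hp hq
  have pr : ∀ i, (q ^ i - 1) * (q ^ (i + 1) + 1) < q ^ (2 * i + 1) := fun i => by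
    have a1 : 1 ≤ q ^ i := Nat.one_le_pow _ _ h1.le
    have a2 : q ^ i < q ^ (i + 1) := Nat.pow_lt_pow_right h1 (by omega)
    zify [a1] at a2 ⊢
    rw [show (q : ℤ) ^ (2 * i + 1) = q ^ i * q ^ (i + 1) by ring]
    nlinarith
  have h2 : ∀ j, ∏ i ∈ Finset.range (2 * j + 3), (if Even i then q ^ (i + 1) + 1 else q ^ (i + 1) - 1) <
      (q + 1) * q ^ (2 * j * j + 7 * j + 5) := fun j => by
    induction j with
    | zero =>
      simp only [mul_zero, zero_add, Finset.prod_range_succ, Finset.range_zero, Finset.prod_empty, one_mul, pow_one]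
      rw [if_pos (by decide), if_neg (by decide), if_pos (by decide), mul_assoc]
      exact mul_lt_mul_of_pos_left (pr 2) (by omega)
    | succ j ih =>
      rw [show 2 * (j + 1) + 3 = 2 * j + 3 + 1 + 1 by ring, Finset.prod_range_succ, Finset.prod_range_succ,
        if_neg (by simp [parity_simps]), if_pos (by simp [parity_simps]), mul_assoc,
        show 2 * (j + 1) * (j + 1) + 7 * (j + 1) + 5 = 2 * j * j + 7 * j + 5 + (2 * (2 * j + 3 + 1) + 1) by ring,
        pow_add q (2 * j * j + 7 * j + 5), ← mul_assoc (q + 1)]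
      exact Nat.mul_lt_mul_of_lt_of_le ih (pr _).le (by positivity)
  obtain ⟨j, rfl | rfl⟩ := Nat.even_or_odd' n
  · exact ⟨_, by ring, h2 j⟩
  · refine ⟨2 * j * j + 7 * j + 5 + (2 * j + 3 + 1), by ring, ?_⟩
    rw [show 2 * j + 1 + 3 = 2 * j + 3 + 1 by ring, Finset.prod_range_succ, if_neg (by simp [parity_simps]),
      pow_add q (2 * j * j + 7 * j + 5),
      ← mul_assoc]
    exact Nat.mul_lt_mul_of_lt_of_le (h2 j) (Nat.sub_le _ _) (by positivity)

end arith

theorem prod_gl (q n : ℕ) : ∏ i : Fin n, (q ^ n - q ^ (i : ℕ)) = q ^ (n * (n - 1) / 2) * ∏ i ∈ Finset.range n, (q ^ (i + 1) - 1) := by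
  rw [Fin.prod_univ_eq_prod_range (fun i => q ^ n - q ^ i), ← Finset.prod_range_reflect (fun i => q ^ (i + 1) - 1),
    ← Finset.sum_range_id, ← Finset.prod_pow_eq_pow_sum, ← Finset.prod_mul_distrib]
  refine Finset.prod_congr rfl fun i hi => ?_
  rw [Finset.mem_range] at hi
  rw [Nat.mul_sub, ← pow_add, mul_one, show i + (n - 1 - i + 1) = n by omega]

theorem card_q (F : Type) [Field F] [Fintype F] (p : ℕ) [CharP F p] : ∃ f, 0 < f ∧ Fintype.card F = p ^ f := by
  obtain ⟨n, -, h⟩ := FiniteField.card F p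
  exact ⟨n, n.pos, h⟩

theorem root_q {p q a : ℕ} (hp : p.Prime) (ha : a ≠ 0) (h : ∃ f, 0 < f ∧ q ^ a = p ^ f) : ∃ f, 0 < f ∧ q = p ^ f := by
  obtain ⟨f, hf, h⟩ := h
  obtain ⟨k, -, rfl⟩ := (Nat.dvd_prime_pow hp).1 (h ▸ dvd_pow_self q ha : q ∣ p ^ f)
  refine ⟨k, Nat.pos_of_ne_zero ?_, rfl⟩
  rintro rfl
  exact (Nat.one_lt_pow hf.ne' hp.one_lt).ne (by simpa using h)

/-- Let G be a finite simple group of Lie type in characteristic p and let p^k be the exact power of p dividing the order of G. Then the order of G is less than p^(3k); and unless G is isomorphic to PSL(2, F) for the field F with p^k elements, the cube of the order of G is less than p^(8k) (that is, the order is below p^(8k/3)). -/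
theorem result {G : Type*} [Group G] [Finite G] (p : ℕ) (hp : p.Prime) (hG : Cfsg.IsLieTypeChar p G) :
    Nat.card G < p ^ (3 * (Nat.card G).factorization p) ∧
      ((¬ ∃ (F : Type) (_ : Field F) (_ : Fintype F), Fintype.card F = p ^ (Nat.card G).factorization p ∧
          Nonempty (G ≃* Matrix.ProjectiveSpecialLinearGroup (Fin 2) F)) →
        Nat.card G ^ 3 < p ^ (8 * (Nat.card G).factorization p)) := by
  rcases hG with ⟨F, _, _, _, n, hn, -, ⟨e⟩⟩ | ⟨F, _, _, _, m, hm, -, ⟨e⟩⟩ | ⟨F, _, _, _, n, q, hF, hn, -, ⟨e⟩⟩ |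
    ⟨F, _, _, _, m, hm, ho, ⟨e⟩⟩ | ⟨F, _, _, _, m, hm, ⟨e⟩⟩ | ⟨F, _, _, _, m, a, b, hm, hab, ⟨e⟩⟩ |
    ⟨F, _, _, _, ⟨-, ⟨e⟩⟩ | ⟨⟨e⟩⟩ | ⟨⟨e⟩⟩ | ⟨⟨e⟩⟩ | ⟨⟨e⟩⟩⟩ | ⟨F, _, _, _, q, hq', ⟨hF, ⟨e⟩⟩ | ⟨hF, ⟨e⟩⟩⟩ |
    ⟨rfl, F, _, _, m, hm, hF, ⟨e⟩⟩ | ⟨rfl, F, _, _, m, hm, hF, ⟨e⟩⟩ | ⟨rfl, F, _, _, m, hm, hF, ⟨e⟩⟩
  · have hq := card_q F p
    have h := S0243.result (F := F) rfl n hn
    rw [← mul_assoc, prod_gl, ← Nat.card_congr e.toEquiv] at h
    have hd := ((co_sub1 hp hq).coprime_dvd_left (Nat.gcd_dvd_right n _)).mul_left (co_sub1 hp hq)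
    have hM : (∏ i ∈ Finset.range n, (Fintype.card F ^ (i + 1) - 1)).Coprime p :=
      Nat.Coprime.prod_left fun i _ => co_sub hp hq i
    obtain ⟨n, rfl⟩ := Nat.exists_eq_add_of_le' hn
    obtain ⟨k, hk, h1⟩ := prod_sl hp hq n
    replace h1 := h1.trans_le (Nat.mul_le_mul_right _ (Nat.le_mul_of_pos_left _ (Nat.gcd_pos_of_pos_left (Fintype.card F - 1)
      (show 0 < n + 2 by omega))))
    have h2 : (n + 2) * (n + 2 - 1) / 2 * 2 = (n + 2) * (n + 1) := Nat.div_mul_cancel (by
      rw [mul_comm]; exact (Nat.even_mul_succ_self (n + 1)).two_dvd)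
    rcases n with _ | n
    · have h3 := fact_eq hp hq h hd hM
      refine ⟨?_, fun h4 => absurd ⟨F, _, _, by simpa using h3.symm, ⟨e⟩⟩ h4⟩
      rw [mul_comm 3, pow_mul, h3, ← pow_mul]
      exact (lt_pow hp hq h h1).trans_le (Nat.pow_le_pow_right (one_lt_q hp hq).le (by omega))
    · exact key hp hq k h hd hM h1 (by nlinarith)
  · have hq := card_q F p
    have h := S0245.result (F := F) rfl m
    rw [Subgroup.card_eq_card_quotient_mul_card_subgroup (Subgroup.center _), S0246.result rfl m (by omega), mul_comm,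
      ← Nat.card_congr e.toEquiv] at h
    exact key1 hp hq _ h ((co_sub1 hp hq).coprime_dvd_left (Nat.gcd_dvd_right _ _)) (co_sp hp hq m) (prod_sp_lt hp hq (by omega))
      (by nlinarith)
  · have hq := root_q hp two_ne_zero (hF ▸ card_q F p)
    have h := S0280.result hF n (by omega)
    rw [← mul_assoc, ← Nat.card_congr e.toEquiv] at h
    obtain ⟨n, rfl⟩ := Nat.exists_eq_add_of_le' hn
    obtain ⟨k, hk, h1⟩ := prod_su hp hq n
    have h2 : (n + 3) * (n + 3 - 1) / 2 * 2 = (n + 3) * (n + 2) := Nat.div_mul_cancel (by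
      rw [mul_comm]; exact (Nat.even_mul_succ_self (n + 2)).two_dvd)
    refine key hp hq k h (((co_add1 hp hq).coprime_dvd_left (Nat.gcd_dvd_right _ _)).mul_left (co_add1 hp hq))
      (Nat.Coprime.prod_left fun i _ => ?_) (h1.trans_le (Nat.mul_le_mul_right _ (Nat.le_mul_of_pos_left _
        (Nat.gcd_pos_of_pos_left _ (by omega))))) (by nlinarith)
    split_ifs
    exacts [co_add hp hq i, co_sub hp hq i]
  · have hq := card_q F p
    have h := S0292.result (F := F) rfl ho m hm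
    rw [← Nat.card_congr e.toEquiv] at h
    refine key1 hp hq _ h ?_ (co_sp hp hq m) (prod_sp_lt hp hq (by omega)) (by nlinarith)
    exact (co_add1 hp hq).coprime_dvd_left ho.add_one.two_dvd
  · have hq := card_q F p
    have h := S0293.result (F := F) rfl m hm
    rw [← Nat.card_congr e.toEquiv, mul_assoc] at h
    obtain ⟨m, rfl⟩ := Nat.exists_eq_add_of_le' (show 1 ≤ m by omega)
    refine key1 hp hq (m + 1 + m * (m + 1)) h ((co_sub hp hq m).coprime_dvd_left (Nat.gcd_dvd_right _ _))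
      ((co_sub hp hq m).mul_left (co_sp hp hq _)) ?_ (by simp only [Nat.add_sub_cancel]; nlinarith)
    rw [pow_add _ (m + 1)]
    exact Nat.mul_lt_mul'' (sub_lt hp hq _) (prod_sp_lt hp hq (by omega))
  · have hq := card_q F p
    have h := S0294.result (F := F) rfl m hm a b hab
    rw [← Nat.card_congr e.toEquiv, mul_assoc] at h
    obtain ⟨m, rfl⟩ := Nat.exists_eq_add_of_le' (show 1 ≤ m by omega)
    refine key1 hp hq (m + 1 + 1 + m * (m + 1)) h ((co_add hp hq m).coprime_dvd_left (Nat.gcd_dvd_right _ _))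
      ((co_add hp hq m).mul_left (co_sp hp hq _)) ?_ (by simp only [Nat.add_sub_cancel]; nlinarith)
    rw [pow_add _ (m + 1 + 1)]
    exact Nat.mul_lt_mul_of_le_of_lt (add_le hp hq _) (prod_sp_lt hp hq (by omega)) (by have := one_lt_q hp hq; positivity)
  · have hq := card_q F p
    have h := (one_mul _).trans (S1059.result (F := F) rfl)
    simp only [← Nat.card_congr e.toEquiv, mul_assoc] at h
    refine key1 hp hq (2 + 6) h (by simp) (by
      repeat first | exact co_sub hp hq _ | exact co_add hp hq _ | exact co_sub1 hp hq | refine Nat.Coprime.mul_left ?_ ?_) ?_ (by norm_num)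
    simp only [pow_add]
    repeat first | exact sub_lt hp hq _ | refine Nat.mul_lt_mul'' (sub_lt hp hq _) ?_
  · have hq := card_q F p
    have h := (one_mul _).trans (S1062.result (F := F) rfl)
    simp only [← Nat.card_congr e.toEquiv, mul_assoc] at h
    refine key1 hp hq (2 + (6 + (8 + 12))) h (by simp) (by
      repeat first | exact co_sub hp hq _ | exact co_add hp hq _ | exact co_sub1 hp hq | refine Nat.Coprime.mul_left ?_ ?_) ?_
      (by norm_num)
    simp only [pow_add]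
    repeat first | exact sub_lt hp hq _ | refine Nat.mul_lt_mul'' (sub_lt hp hq _) ?_
  · have hq := card_q F p
    have h := S1063.result (F := F) rfl
    simp only [← Nat.card_congr e.toEquiv, mul_assoc] at h
    refine key1 hp hq (2 + (5 + (6 + (8 + (9 + 12))))) h ((co_sub1 hp hq).coprime_dvd_left (Nat.gcd_dvd_right _ _))
      (by
      repeat first | exact co_sub hp hq _ | exact co_add hp hq _ | exact co_sub1 hp hq | refine Nat.Coprime.mul_left ?_ ?_) ?_ (by norm_num)
    simp only [pow_add]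
    repeat first | exact sub_lt hp hq _ | refine Nat.mul_lt_mul'' (sub_lt hp hq _) ?_
  · have hq := card_q F p
    have h := S1064.result (F := F) rfl
    simp only [← Nat.card_congr e.toEquiv, mul_assoc] at h
    refine key1 hp hq (2 + (6 + (8 + (10 + (12 + (14 + 18)))))) h ((co_sub1 hp hq).coprime_dvd_left (Nat.gcd_dvd_right _ _))
      (by
      repeat first | exact co_sub hp hq _ | exact co_add hp hq _ | exact co_sub1 hp hq | refine Nat.Coprime.mul_left ?_ ?_) ?_ (by norm_num)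
    simp only [pow_add]
    repeat first | exact sub_lt hp hq _ | refine Nat.mul_lt_mul'' (sub_lt hp hq _) ?_
  · have hq := card_q F p
    have h := (one_mul _).trans (S1065.result (F := F) rfl)
    simp only [← Nat.card_congr e.toEquiv, mul_assoc] at h
    refine key1 hp hq (2 + (8 + (12 + (14 + (18 + (20 + (24 + 30))))))) h (by simp)
      (by
      repeat first | exact co_sub hp hq _ | exact co_add hp hq _ | exact co_sub1 hp hq | refine Nat.Coprime.mul_left ?_ ?_) ?_ (by norm_num)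
    simp only [pow_add]
    repeat first | exact sub_lt hp hq _ | refine Nat.mul_lt_mul'' (sub_lt hp hq _) ?_
  · have hq := root_q hp two_ne_zero (hF ▸ card_q F p)
    have h := S1066.result hq' hF
    have h0 := one_lt_q hp hq
    simp only [← Nat.card_congr e.toEquiv, mul_assoc] at h
    refine key1 hp hq (2 + (6 + (6 + (8 + (10 + 12))))) h ((co_add1 hp hq).coprime_dvd_left (Nat.gcd_dvd_right _ _))
      (by
      repeat first | exact co_sub hp hq _ | exact co_add hp hq _ | exact co_sub1 hp hq | refine Nat.Coprime.mul_left ?_ ?_) ?_ (by norm_num)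
    simp only [pow_add]
    repeat first | exact sub_lt hp hq _ | refine Nat.mul_lt_mul'' (sub_lt hp hq _) ?_ |
      refine Nat.mul_lt_mul_of_le_of_lt (add_le hp hq _) ?_ (by positivity)
  · have hq := root_q hp three_ne_zero (hF ▸ card_q F p)
    have h := (one_mul _).trans (S1067.result hq' hF)
    have h0 := one_lt_q hp hq
    simp only [← Nat.card_congr e.toEquiv, mul_assoc] at h
    refine key1 hp hq (2 + (6 + 10)) h (by simp) ?_ ?_ (by norm_num)
    · refine (co_sub hp hq _).mul_left ((co_sub hp hq _).mul_left ?_)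
      obtain ⟨f, hf, rfl⟩ := hq
      rw [Nat.coprime_comm, hp.coprime_iff_not_dvd, Nat.dvd_add_right (dvd_add (dvd_pow (dvd_pow_self p hf.ne') (by norm_num))
        (dvd_pow (dvd_pow_self p hf.ne') (by norm_num)))]
      simpa using hp.one_lt.ne'
    · simp only [pow_add]
      refine Nat.mul_lt_mul'' (sub_lt hp hq _) (Nat.mul_lt_mul'' (sub_lt hp hq _) ?_)
      have := add_le hp hq 4
      have : q ^ 5 < q ^ 8 := Nat.pow_lt_pow_right h0 (by norm_num)
      have : 2 * q ^ 8 ≤ q * q ^ 8 := Nat.mul_le_mul_right _ h0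
      have : q ^ 9 < q ^ 10 := Nat.pow_lt_pow_right h0 (by norm_num)
      have : q * q ^ 8 = q ^ 9 := by ring
      norm_num at *
      omega
  · have h := (one_mul _).trans (S1163.result hm hF).1
    obtain ⟨q, hq'⟩ : ∃ q, q = 2 ^ (2 * m + 1) := ⟨_, rfl⟩
    have hq : ∃ f, 0 < f ∧ q = 2 ^ f := ⟨_, by omega, hq'⟩
    simp only [← Nat.card_congr e.toEquiv, mul_assoc, ← hq'] at h
    refine key1 hp hq 3 h (by simp) ((co_sub1 hp hq).mul_left (co_add hp hq 1)) ?_ (by norm_num)
    have h0 := one_lt_q hp hq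
    zify [h0.le] at h0 ⊢
    nlinarith
  · have h := (one_mul _).trans (S1068.result hF)
    obtain ⟨q, hq'⟩ : ∃ q, q = 2 ^ (2 * m + 1) := ⟨_, rfl⟩
    have hq : ∃ f, 0 < f ∧ q = 2 ^ f := ⟨_, by omega, hq'⟩
    have h0 := one_lt_q hp hq
    simp only [← Nat.card_congr e.toEquiv, mul_assoc, ← hq'] at h
    refine key1 hp hq (1 + (4 + (4 + 7))) h (by simp)
      (by
      repeat first | exact co_sub hp hq _ | exact co_add hp hq _ | exact co_sub1 hp hq | refine Nat.Coprime.mul_left ?_ ?_) ?_ (by norm_num)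
    simp only [pow_add]
    exact Nat.mul_lt_mul_of_lt_of_le (by rw [pow_one]; omega) (Nat.mul_le_mul (add_le hp hq _) (Nat.mul_le_mul (Nat.sub_le _ _)
      (add_le hp hq _))) (by positivity)
  · have h := (one_mul _).trans (S1069.result hF)
    obtain ⟨q, hq'⟩ : ∃ q, q = 3 ^ (2 * m + 1) := ⟨_, rfl⟩
    have hq : ∃ f, 0 < f ∧ q = 3 ^ f := ⟨_, by omega, hq'⟩
    have h0 := one_lt_q hp hq
    simp only [← Nat.card_congr e.toEquiv, mul_assoc, ← hq'] at h
    refine key1 hp hq (1 + 4) h (by simp) ((co_sub1 hp hq).mul_left (co_add hp hq 2)) ?_ (by norm_num)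
    simp only [pow_add]
    exact Nat.mul_lt_mul_of_lt_of_le (by rw [pow_one]; omega) (add_le hp hq _) (by positivity)

end Cfsg.Agent.S2363
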