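import Cfsg.Statements.S2367
-- import your own Cfsg.Agent.* helpers here

set_option autoImplicit false
open Cfsg

namespace Cfsg.Agent.S2367

open Nat

theorem spor {N : ℕ} (a : ℕ) (h : N ≠ 0 ∧ N ∣ 71 ! ∧ 2 ^ a ∣ N ∧
    ∀ p < 72, (∀ d < p, 1 < d → ¬ d ∣ p) → p ≠ 2 → p ^ 3 ∣ N → p ^ 4 ∣ N ∨ p ^ 3 < 2 ^ a) {p : ℕ}
    (hp : p.Prime) (hodd : p ≠ 2) (h3 : N.factorization p = 3) : p ^ 3 < 2 ^ N.factorization 2 := by
  obtain ⟨h0, h1, h2, h4⟩ := h
  have h5 : p ^ 3 ∣ N := (hp.pow_dvd_iff_le_factorization h0).2 h3.ge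
  have h6 := (hp.dvd_factorial).1 ((dvd_pow_self p three_ne_zero).trans (h5.trans h1))
  rcases h4 p (by omega) (fun d hd h1 h => by
    rcases hp.eq_one_or_self_of_dvd d h with h | h <;> omega) hodd h5 with h | h
  · have := (hp.pow_dvd_iff_le_factorization h0).1 h
    omega
  · exact h.trans_le (Nat.pow_le_pow_right two_pos ((prime_two.pow_dvd_iff_le_factorization h0).1 h2))

theorem two_pow_dvd (k : ℕ) : 2 ^ (3 * k) ∣ (4 * k)! := by
  induction k with
  | zero => simp
  | succ k ih =>
    rw [show 4 * (k + 1) = 4 * k + 1 + 1 + 1 + 1 by ring, factorial_succ, factorial_succ,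
      factorial_succ, factorial_succ, show 3 * (k + 1) = 3 + 3 * k by ring, pow_add, ← mul_assoc,
      ← mul_assoc, ← mul_assoc]
    refine mul_dvd_mul ⟨(k + 1) * (4 * k + 3) * (2 * k + 1) * (4 * k + 1), by ring⟩ ih

theorem cube_lt (k : ℕ) (hk : 3 ≤ k) : 2 * (2 * k) ^ 3 ≤ 2 ^ (3 * k) := by
  induction k, hk using Nat.le_induction with
  | base => decide
  | succ k hk ih =>
    rw [show 3 * (k + 1) = 3 * k + 3 by ring, pow_add]
    have : (2 * (k + 1)) ^ 3 ≤ (2 * (2 * k)) ^ 3 := Nat.pow_le_pow_left (by omega) 3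
    nlinarith


/-- Let G be an alternating group of degree at least 5 or a simple group with the order of one of the 26 sporadic groups, and let p be an odd prime such that p³ is the exact power of p dividing the order of G. Then p³ is less than the 2-part of the order of G. -/
theorem result {G : Type*} [Group G] [Finite G] (hG : Cfsg.IsAlternating G ∨ Cfsg.IsSporadic G)
    (p : ℕ) (hp : p.Prime) (hodd : p ≠ 2) (h3 : (Nat.card G).factorization p = 3) :
    p ^ 3 < 2 ^ (Nat.card G).factorization 2 := by
  rcases hG with ⟨n, hn, ⟨e⟩⟩ | hG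
  · have : Nontrivial (Fin n) := Fin.nontrivial_iff_two_le.2 (by omega)
    have h1 := two_mul_nat_card_alternatingGroup (α := Fin n)
    rw [Nat.card_perm, Nat.card_eq_fintype_card (α := Fin n), Fintype.card_fin,
      ← Nat.card_congr e.toEquiv] at h1
    have h0 : Nat.card G ≠ 0 := Nat.card_pos.ne'
    have hf : ∀ q, (n !).factorization q = (2 : ℕ).factorization q + (Nat.card G).factorization q :=
      fun q => by rw [← h1, Nat.factorization_mul two_ne_zero h0]; rfl
    have h4 : (n !).factorization p = 3 := by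
      rw [hf, h3, prime_two.factorization, Finsupp.single_eq_of_ne hodd]
    have h5 : (n !).factorization 2 = 1 + (Nat.card G).factorization 2 := by
      rw [hf, prime_two.factorization, Finsupp.single_eq_same]
    have hp3 : p ≠ 3 := by
      rintro rfl
      rcases lt_or_ge n 9 with h | h
      · have h6 : 3 ^ 3 ∣ n ! := (hp.pow_dvd_iff_le_factorization (factorial_ne_zero n)).2 h4.ge
        exact absurd (h6.trans (factorial_dvd_factorial (show n ≤ 8 by omega))) (by decide)
      · have h6 : 3 ^ 4 ∣ n ! := (show 3 ^ 4 ∣ Nat.factorial 9 by decide).trans (factorial_dvd_factorial h)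
        have := (hp.pow_dvd_iff_le_factorization (factorial_ne_zero n)).1 h6
        omega
    have hp5 : 5 ≤ p := hp.five_le_of_ne_two_of_ne_three hodd hp3
    have h6 : 3 * p ≤ n := by
      by_contra h
      have : Fact p.Prime := ⟨hp⟩
      have h7 : Nat.log p n < 2 := Nat.log_lt_of_lt_pow (by omega) (by nlinarith)
      rw [Nat.factorization_def _ hp, padicValNat_factorial h7] at h4
      simp only [Nat.Ico_succ_singleton, Finset.sum_singleton, pow_one] at h4
      have := Nat.div_lt_of_lt_mul (show n < p * 3 by omega)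
      omega
    have h7 := (prime_two.pow_dvd_iff_le_factorization (factorial_ne_zero n)).1
      ((two_pow_dvd (n / 4)).trans (factorial_dvd_factorial (Nat.mul_div_le n 4)))
    have h8 := cube_lt (n / 4) (by omega)
    have h9 : p ^ 3 < (2 * (n / 4)) ^ 3 := Nat.pow_lt_pow_left (by omega) three_ne_zero
    have h10 := Nat.pow_le_pow_right two_pos (h7.trans h5.le)
    rw [pow_add] at h10
    omega
  rcases hG with h | h | h | h | h | h | h | h | h | h | h | h | h | h | h | h | h | h | h | h |
    h | h | h | h | h | h <;> rw [h.2] at h3 ⊢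
  exacts [spor 4 (by decide +kernel) hp hodd h3, spor 6 (by decide +kernel) hp hodd h3,
    spor 7 (by decide +kernel) hp hodd h3, spor 7 (by decide +kernel) hp hodd h3,
    spor 10 (by decide +kernel) hp hodd h3, spor 3 (by decide +kernel) hp hodd h3,
    spor 7 (by decide +kernel) hp hodd h3, spor 7 (by decide +kernel) hp hodd h3,
    spor 21 (by decide +kernel) hp hodd h3, spor 21 (by decide +kernel) hp hodd h3,
    spor 18 (by decide +kernel) hp hodd h3, spor 10 (by decide +kernel) hp hodd h3,
    spor 17 (by decide +kernel) hp hodd h3, spor 18 (by decide +kernel) hp hodd h3,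
    spor 21 (by decide +kernel) hp hodd h3, spor 9 (by decide +kernel) hp hodd h3,
    spor 7 (by decide +kernel) hp hodd h3, spor 10 (by decide +kernel) hp hodd h3,
    spor 14 (by decide +kernel) hp hodd h3, spor 13 (by decide +kernel) hp hodd h3,
    spor 9 (by decide +kernel) hp hodd h3, spor 14 (by decide +kernel) hp hodd h3,
    spor 8 (by decide +kernel) hp hodd h3, spor 15 (by decide +kernel) hp hodd h3,
    spor 41 (by decide +kernel) hp hodd h3, spor 46 (by decide +kernel) hp hodd h3]

end Cfsg.Agent.S2367
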