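import Cfsg.Statements.S2368
import Cfsg.Agent.H13.Jor
import Cfsg.Agent.S2317

set_option autoImplicit false
open Cfsg

namespace Cfsg.Agent.S2368

/-- Let F be a finite field of characteristic p and m ≥ 1. Every element of GL(m, F) of p-power order has order less than p·m, and GL(m, F) has an element of p-power order at least m; so the largest order of a p-element of GL(m, F) is the least power of p that is at least m. -/
theorem result {F : Type*} [Field F] [Fintype F] (p : ℕ) [Fact p.Prime] [CharP F p] (m : ℕ) (hm : 1 ≤ m) :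
    (∀ g : Matrix.GeneralLinearGroup (Fin m) F, (∃ j : ℕ, orderOf g = p ^ j) → orderOf g < p * m) ∧
      ∃ g : Matrix.GeneralLinearGroup (Fin m) F, (∃ j : ℕ, orderOf g = p ^ j) ∧ m ≤ orderOf g := by
  have hp : p.Prime := Fact.out
  have h0 : ∀ (g : GL (Fin m) F) k, IsNilpotent (g.1 - 1) →
      (g ^ p ^ k = 1 ↔ ∀ i ∈ H13.jt (Matrix.toLin' g.1), i ≤ p ^ k) := fun g k hg => by
    rw [← H13.pow_eq_zero_iff_jt (H13.isNilpotent_toLin'.mpr hg), H13.toLin'_pow_eq_zero,
      H13.sub_one_pow_char (F := F), sub_eq_zero, Units.ext_iff]; rfl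
  constructor
  · intro g hg
    have hn := (S2317.ppow_iff p g).1 hg
    have h1 : orderOf g ∣ p ^ Nat.clog p m := by
      refine orderOf_dvd_of_pow_eq_one ((h0 g _ hn).2 fun i hi => le_trans ?_ (Nat.le_pow_clog hp.one_lt m))
      have := H13.sum_jt (H13.isNilpotent_toLin'.mpr hn)
      simpa [this] using Multiset.le_sum_of_mem hi
    refine (Nat.le_of_dvd (pow_pos hp.pos _) h1).trans_lt ?_
    rcases hm.eq_or_lt with rfl | hm
    · simpa using hp.one_lt
    · have := Nat.pow_pred_clog_lt_self hp.one_lt hm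
      have h2 := Nat.clog_pos hp.one_lt hm
      obtain ⟨k, hk⟩ := Nat.exists_eq_succ_of_ne_zero h2.ne'
      rw [hk] at this ⊢
      rw [pow_succ']
      exact Nat.mul_lt_mul_of_pos_left this hp.pos
  · obtain ⟨g, hg, hg'⟩ := H13.exists_GL_jt (F := F) (n := Fin m) (M := {m}) (by simp; omega) (by simp)
    obtain ⟨k, hk⟩ := (S2317.ppow_iff p g).2 hg
    refine ⟨g, ⟨k, hk⟩, ?_⟩
    have := (h0 g k hg).1 (hk ▸ pow_orderOf_eq_one g)
    rw [hk]
    exact this m (by simp [hg'])

end Cfsg.Agent.S2368
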