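import Cfsg.Statements.S2370
import Cfsg.Agent.H15.TwIF

set_option autoImplicit false
open Cfsg

namespace Cfsg.Agent.S2370

/-- Let q = 2^(2m+1) with m ≥ 1. Every element of 2-power order of the large Ree group ²F₄(q) has order at most 32. -/
theorem result {K : Type*} [Field K] [Fintype K] (m : ℕ) (hm : 1 ≤ m) (hK : Fintype.card K = 2 ^ (2 * m + 1))
    (x : ↥(Cfsg.Lie.twistedF4 K (2 ^ m))) (hx : ∃ j : ℕ, orderOf x = 2 ^ j) : orderOf x ≤ 32 := by
  obtain ⟨_, S, θ, h, h1, -⟩ := H15.exists_F4 hK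
  obtain ⟨j, hj⟩ := hx
  have : Finite S.T := inferInstance
  obtain ⟨a, -, ha⟩ := S.exists_conj_U' 2 (h1.ge x.2) (k := j) (by rw [← hj, ← Subgroup.coe_pow, pow_orderOf_eq_one]; rfl)
  have h2 := H15.pow_sixteen ha
  rw [conj_pow, mul_inv_eq_one, mul_eq_left] at h2
  exact (Nat.le_of_dvd (by norm_num) (orderOf_dvd_of_pow_eq_one (show x ^ 16 = 1 from Subtype.ext h2))).trans (by norm_num)

end Cfsg.Agent.S2370
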