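import Cfsg.Statements.S2371
import Cfsg.Agent.H14.Tor3

set_option autoImplicit false
open Cfsg

namespace Cfsg.Agent.S2371

/-- The group G₂(q), q ≥ 3, contains a cyclic subgroup of order q² + q + 1 which is its own centralizer. -/
theorem result {F : Type*} [Field F] [Fintype F] (q : ℕ) (hF : Fintype.card F = q) (hq : 3 ≤ q) :
    ∃ H : Subgroup ↥(Cfsg.Lie.chevG2.group F), IsCyclic ↥H ∧ Nat.card ↥H = q ^ 2 + q + 1 ∧
      Subgroup.centralizer (H : Set ↥(Cfsg.Lie.chevG2.group F)) = H := by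
  subst hF
  obtain ⟨H, h1, h2, h3⟩ := H14.exists_cyclic_torus' H14.goodG2 H14.stG2 H14.bridgeG2
    (H14.torS_injective _ _ (H14.centerG2 _)) (H14.car_eqG2 _) ([0, 1, 0, 1, 0, 0] : List (Fin 2))
    [[1, 0], [-2, 1], [1, -1]] [[1, 0], [2, 1]] [1, 1, 1] [0, 2] (by decide +kernel) (by decide +kernel) (by decide +kernel) F
    (M := Fintype.card F ^ 2 + Fintype.card F + 1) (d := 2) rfl (by omega)
    (by simp [H14.evP, Finset.sum_range_succ]; ring) fun n => by simp only [H14.evP, Finset.sum_range_succ]; simp; nlinarith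
  rw [H14.center_St_eq_bot H14.goodG2 H14.stG2 (H14.centerG2 _)] at h2
  exact ⟨H, h1, by simpa using h2, h3⟩

end Cfsg.Agent.S2371
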