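import Cfsg.Statements.S2372
import Cfsg.Agent.H14.Tor3

set_option autoImplicit false
open Cfsg

namespace Cfsg.Agent.S2372

/-- The group F₄(q) contains a cyclic subgroup of order q⁴ + 1 which is its own centralizer. -/
theorem result {F : Type*} [Field F] [Fintype F] (q : ℕ) (hF : Fintype.card F = q) :
    ∃ H : Subgroup ↥(Cfsg.Lie.chevF4.group F), IsCyclic ↥H ∧ Nat.card ↥H = q ^ 4 + 1 ∧
      Subgroup.centralizer (H : Set ↥(Cfsg.Lie.chevF4.group F)) = H := by
  subst hF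
  obtain ⟨H, h1, h2, h3⟩ := H14.exists_cyclic_torus' H14.goodF4 H14.stF4 H14.bridgeF4
    (H14.torS_injective _ _ (H14.centerF4 _)) (H14.car_eqF4 _) ([2, 0, 1, 2, 3, 1] : List (Fin 4))
    [[1, 0, 0, 0], [-1, 1, 0, 0], [-1, 0, 0, 1], [-1, 1, -1, 1], [-1, 0, 0, 0]]
    [[1, 0, 0, 0], [1, 1, 0, 0], [1, 1, 1, -1], [1, 0, 1, 0]] [1, 0, 0, 0, 1] [16, 5]
    (by decide +kernel) (by decide +kernel) (by decide +kernel) F (M := Fintype.card F ^ 4 + 1) (d := 4) rfl (by omega)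
    (by simp [H14.evP, Finset.sum_range_succ]; ring)
    fun n => by simp [H14.evP, Finset.sum_range_succ]; rw [← sub_pos]; ring_nf; positivity
  rw [H14.center_St_eq_bot H14.goodF4 H14.stF4 (H14.centerF4 _)] at h2
  exact ⟨H, h1, by simpa using h2, h3⟩

end Cfsg.Agent.S2372
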