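import Cfsg.Statements.S2373
import Cfsg.Agent.H14.Tor3

set_option autoImplicit false
open Cfsg

namespace Cfsg.Agent.S2373

/-- The group E₆(q) (the simple Chevalley group of type E₆) contains a cyclic subgroup of order (q⁴ − q² + 1)(q² + q + 1)/gcd(3, q − 1) which is its own centralizer. -/
theorem result {F : Type*} [Field F] [Fintype F] (q : ℕ) (hF : Fintype.card F = q) :
    ∃ H : Subgroup ↥(Cfsg.Lie.chevE6.group F), IsCyclic ↥H ∧ Nat.card ↥H = (q ^ 4 - q ^ 2 + 1) * (q ^ 2 + q + 1) / Nat.gcd 3 (q - 1) ∧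
      Subgroup.centralizer (H : Set ↥(Cfsg.Lie.chevE6.group F)) = H := by
  subst hF
  obtain ⟨n, hn⟩ := Nat.exists_eq_add_of_lt (Fintype.one_lt_card (α := F))
  obtain ⟨H, h1, h2, h3⟩ := H14.exists_cyclic_torus' H14.goodE6 H14.stE6 H14.bridgeE6
    (fun _ _ => H14.torX_injective_E6) (H14.car_eqE6 _) ([5, 3, 2, 1, 4, 0] : List (Fin 6))
    [[1, 0, 0, 0, 0, 0], [0, 1, 0, -1, 1, 0], [0, 0, 1, -1, 1, -1], [1, 1, 0, -1, 0, 0], [0, 0, 0, -1, 1, 0],
      [0, 0, 0, 0, 0, -1], [0, 0, 0, 0, -1, 1]]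
    [[1, 0, 0, 0, 0, 0], [0, 1, 0, 0, -1, 0], [0, 0, 1, 0, -1, -1], [1, 1, 0, -1, -1, 0], [1, 1, 0, -1, 0, 0],
      [0, 0, 0, 0, 0, -1]] [1, 1, 0, -1, 0, 1, 1] [3] (by decide +kernel) (by decide +kernel) (by decide +kernel) F
    (M := (Fintype.card F ^ 4 - Fintype.card F ^ 2 + 1) * (Fintype.card F ^ 2 + Fintype.card F + 1)) (d := 6) rfl
    (by positivity) (by
      rw [Nat.cast_mul, Nat.cast_add, Nat.cast_sub (by rw [hn]; ring_nf; omega)]
      simp [H14.evP, Finset.sum_range_succ]; ring)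
    fun n => by simp [H14.evP, Finset.sum_range_succ]; rw [← sub_pos]; ring_nf; positivity
  rw [H14.card_center_St H14.goodE6 H14.stE6 H14.torX_injective_E6 (H14.centerE6 _), pow_one, Nat.card_eq_fintype_card] at h2
  exact ⟨H, h1, by rw [← h2, Nat.mul_div_cancel_left _ (by positivity)], h3⟩

end Cfsg.Agent.S2373
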