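import Cfsg.Statements.S2375
import Cfsg.Agent.H14.Tor3

set_option autoImplicit false
open Cfsg

namespace Cfsg.Agent.S2375

/-- The group E₈(q) contains a cyclic subgroup of order q⁸ + q⁷ − q⁵ − q⁴ − q³ + q + 1 which is its own centralizer. -/
theorem result {F : Type*} [Field F] [Fintype F] (q : ℕ) (hF : Fintype.card F = q) :
    ∃ H : Subgroup ↥(Cfsg.Lie.chevE8.group F), IsCyclic ↥H ∧ Nat.card ↥H = q ^ 8 + q ^ 7 - q ^ 5 - q ^ 4 - q ^ 3 + q + 1 ∧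
      Subgroup.centralizer (H : Set ↥(Cfsg.Lie.chevE8.group F)) = H := by
  subst hF
  obtain ⟨H, h1, h2, h3⟩ := H14.exists_cyclic_torus' H14.goodE8 H14.stE8 H14.bridgeE8
    (H14.torS_injective _ _ (H14.centerE8 _)) (H14.car_eqE8 _) ([3, 0, 6, 2, 7, 1, 4, 5] : List (Fin 8))
    [[0, 0, 0, 0, 0, 0, 0, 1], [0, 0, 0, 0, 0, 1, -1, 0], [0, 1, 1, -1, 0, 0, 0, 0], [-1, 0, 1, -1, 1, 0, 0, 0],
      [0, 1, 0, -1, 0, 1, 0, 0], [0, 0, 1, -1, 0, 1, -1, 1], [-1, 1, 1, -1, 0, 1, -1, 0], [0, 1, 1, -2, 1, 0, 0, 0],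
      [-1, 0, 1, -1, 0, 1, 0, 0]]
    [[0, 1, 1, 0, 0, 0, -1, 0], [1, 1, 1, 0, 0, -1, 0, 0], [0, 1, 2, 1, 0, 0, -1, -1], [1, 2, 2, 1, 0, -1, -1, -1],
      [1, 2, 1, 1, 0, -1, -1, 0], [0, 1, 1, 1, 1, 0, -1, -1], [0, 0, 1, 1, 1, 0, -1, -1], [1, 0, 0, 0, 0, 0, 0, 0]]
    [1, 1, 0, -1, -1, -1, 0, 1, 1] [6] (by decide +kernel) (by decide +kernel) (by decide +kernel) F
    (M := Fintype.card F ^ 8 + Fintype.card F ^ 7 - Fintype.card F ^ 5 - Fintype.card F ^ 4 - Fintype.card F ^ 3 +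
      Fintype.card F + 1) (d := 8) rfl (by omega) (by
      obtain ⟨n, hn⟩ := Nat.exists_eq_add_of_lt (Fintype.one_lt_card (α := F))
      rw [Nat.sub_sub, Nat.sub_sub, Nat.cast_add, Nat.cast_add, Nat.cast_sub (by rw [hn]; ring_nf; omega)]
      simp [H14.evP, Finset.sum_range_succ]; ring)
    fun n => by simp [H14.evP, Finset.sum_range_succ]; rw [← sub_pos]; ring_nf; positivity
  rw [H14.center_St_eq_bot H14.goodE8 H14.stE8 (H14.centerE8 _)] at h2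
  exact ⟨H, h1, by simpa using h2, h3⟩

end Cfsg.Agent.S2375
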