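import Cfsg.Statements.S2383
import Cfsg.Agent.H14.SS4

set_option autoImplicit false
open Cfsg

namespace Cfsg.Agent.S2383

/-- Steinberg's count of semisimple classes in characteristic 2 for the types B₂, D₄, E₇, where the finite simply connected group has trivial centre and so coincides with the Chevalley group: for the Chevalley group of type B₂, D₄ or E₇ over a field with `q` elements of characteristic 2, the conjugacy classes of elements of odd order number exactly `q^l`, `l` the rank. -/
theorem result {F : Type*} [Field F] [Fintype F] {q : ℕ} (hq : Fintype.card F = q) [CharP F 2]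
    (D : Cfsg.Lie.ChevalleyDatum) (hD : D ∈ [Cfsg.Lie.chevB2, Cfsg.Lie.chevD4, Cfsg.Lie.chevE7]) :
    Nat.card {c : ConjClasses ↥(D.group F) // ∃ g : ↥(D.group F), ConjClasses.mk g = c ∧ Odd (orderOf g)} = q ^ D.rank := by
  subst hq
  have h2 : ∀ (K : Type _) [Field K] [Algebra F K] (z : Kˣ), z ^ 2 = 1 → z = 1 := fun K _ _ z h => by
    have := charP_of_injective_algebraMap (algebraMap F K).injective 2
    exact Units.ext ((sq_eq_one_iff.1 (congrArg Units.val h : (z : K) ^ 2 = 1)).elim id fun h => h.trans (CharTwo.neg_eq 1))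
  have key : ∀ {D : Cfsg.Lie.ChevalleyDatum} (G : H14.Good D) (hs : H14.StData D) {m : ℕ} (_ : H14.HasCenter G.R.car m 2), _ :=
    fun G hs _ h => H14.card_ss G hs F (fun K _ _ => H14.torS_injective_of G hs K h (h2 K)) (by
      obtain ⟨n, -, hn⟩ := FiniteField.card F 2
      rw [H14.card_center_St G hs (H14.torS_injective_of G hs F h (h2 F)) h, Nat.card_eq_fintype_card, hn,
        (Nat.coprime_two_left.2 (Nat.Even.sub_odd Nat.one_le_two_pow (by simp [Nat.even_pow]) odd_one)).gcd_eq_one, one_pow]) 2
  simp only [List.mem_cons, List.not_mem_nil, or_false, Nat.coprime_two_right] at hD key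
  rcases hD with rfl | rfl | rfl
  exacts [key H14.goodB2 H14.stB2 (H14.centerB2 _), key H14.goodD4 H14.stD4 (H14.centerD4 _), key H14.goodE7 H14.stE7 (H14.centerE7 _)]

end Cfsg.Agent.S2383
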