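import Cfsg.Statements.S2391
import Cfsg.Agent.H7.NormalP

set_option autoImplicit false
open Cfsg

namespace Cfsg.Agent.S2391

open Matrix in
/-- the ascending fixed-point series -/
def ser {F : Type*} [Field F] {n : ℕ} (U : Subgroup (SpecialLinearGroup (Fin n) F)) :
    ℕ → Submodule F (Fin n → F)
  | 0 => ⊥
  | i + 1 => ⨅ u ∈ U, (ser U i).comap (Matrix.mulVecLin (u : Matrix (Fin n) (Fin n) F) - LinearMap.id)

open Matrix in
theorem mem_ser {F : Type*} [Field F] {n : ℕ} {U : Subgroup (SpecialLinearGroup (Fin n) F)} {i : ℕ}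
    {v : Fin n → F} : v ∈ ser U (i + 1) ↔ ∀ u ∈ U, u.1 *ᵥ v - v ∈ ser U i := by
  simp [ser]

open Matrix in
theorem ser_norm {F : Type*} [Field F] {n : ℕ} {U : Subgroup (SpecialLinearGroup (Fin n) F)}
    {g : SpecialLinearGroup (Fin n) F} (hg : g ∈ Subgroup.normalizer (U : Set _)) :
    ∀ i, ∀ v ∈ ser U i, g.1 *ᵥ v ∈ ser U i
  | 0, v, hv => by simp_all [ser]
  | i + 1, v, hv => mem_ser.2 fun u hu => by
    have h1 : g⁻¹ * u * g ∈ U := by
      simpa using (Subgroup.mem_normalizer_iff.1 (Subgroup.inv_mem _ hg) u).1 hu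
    have := ser_norm hg i _ (mem_ser.1 hv _ h1)
    have h2 : g.1 * (g⁻¹ * u * g).1 = u.1 * g.1 :=
      congrArg Subtype.val (show g * (g⁻¹ * u * g) = u * g by group)
    rwa [mulVec_sub, mulVec_mulVec, h2, ← mulVec_mulVec] at this

open Matrix in
theorem ser_lt {F : Type*} [Field F] [Finite F] (p : ℕ) [Fact p.Prime] [CharP F p] {n : ℕ}
    {U : Subgroup (SpecialLinearGroup (Fin n) F)} (hU : IsPGroup p U) (i : ℕ) (h : ser U i ≠ ⊤) :
    ser U i < ser U (i + 1) := by
  have h0 : ∀ u : U, ∀ v ∈ ser U i, u.1.1 *ᵥ v ∈ ser U i := fun u =>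
    ser_norm (Subgroup.le_normalizer u.2) i
  refine lt_of_le_of_ne (fun v hv => mem_ser.2 fun u hu => sub_mem (h0 ⟨u, hu⟩ v hv) hv) fun he => ?_
  let ρ : U →* Module.End F ((Fin n → F) ⧸ ser U i) :=
    { toFun := fun u => (ser U i).mapQ (ser U i) (Matrix.mulVecLin u.1.1) (h0 u)
      map_one' := by ext v; simp
      map_mul' := fun a b => by
        refine LinearMap.ext fun v => ?_
        obtain ⟨v, rfl⟩ := Submodule.Quotient.mk_surjective _ v
        exact congrArg Submodule.Quotient.mk (mulVec_mulVec v a.1.1 b.1.1).symm }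
  haveI := Submodule.Quotient.nontrivial_iff.2 h
  obtain ⟨v, hv⟩ := exists_ne (0 : (Fin n → F) ⧸ ser U i)
  obtain ⟨w, -, hw0, hw⟩ := H7.exists_ne_zero_fixed p hU ρ ⊤ (fun _ _ _ => trivial) trivial hv
  obtain ⟨w, rfl⟩ := Submodule.Quotient.mk_surjective _ w
  refine hw0 ((Submodule.Quotient.mk_eq_zero _).2 (he ▸ mem_ser.2 fun u hu => ?_))
  exact (Submodule.Quotient.eq _).1 (hw ⟨u, hu⟩)

/-- The Borel–Tits property of `SL_n(q)` in flag form: for a field `F` of characteristic `p` with finitely many elements and a non-trivial `p`-subgroup `U` of `SL_n(F)`, there is a flag `0 = V₀ < V₁ < ⋯ < V_{k+1} = F^n` with at least one proper non-zero member such that every element of the normaliser of `U` maps each `V_i` onto itself and every element of `U` acts trivially on each quotient `V_{i+1}/V_i` (so the normaliser lies in the parabolic subgroup of the flag and `U` in its unipotent radical). -/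
theorem result {F : Type*} [Field F] [Fintype F] (p : ℕ) [Fact p.Prime] [CharP F p] (n : ℕ)
    (U : Subgroup (Matrix.SpecialLinearGroup (Fin n) F)) (hU : IsPGroup p ↥U) (hne : U ≠ ⊥) :
    ∃ (k : ℕ) (V : Fin (k + 2) → Submodule F (Fin n → F)), 1 ≤ k ∧ StrictMono V ∧ V 0 = ⊥ ∧ V (Fin.last (k + 1)) = ⊤ ∧
      (∀ g ∈ Subgroup.normalizer (U : Set (Matrix.SpecialLinearGroup (Fin n) F)), ∀ i, (V i).map (Matrix.mulVecLin (g : Matrix (Fin n) (Fin n) F)) = V i) ∧
      (∀ u ∈ U, ∀ i : Fin (k + 1), ∀ v ∈ V i.succ, (u : Matrix (Fin n) (Fin n) F).mulVec v - v ∈ V (Fin.castSucc i)) := by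
  classical
  have hex : ∃ N, ser U N = ⊤ := by
    by_contra h
    push Not at h
    exact not_strictMono_of_wellFoundedGT (ser U) (strictMono_nat_of_lt_succ fun i => ser_lt p hU i (h i))
  have h1 : ser U 1 ≠ ⊤ := fun h => hne (by
    rw [eq_bot_iff]
    intro u hu
    refine Subtype.ext (Matrix.ext_of_mulVec_single fun j => ?_)
    have := mem_ser.1 (h ▸ Submodule.mem_top : Pi.single j 1 ∈ ser U 1) u hu
    exact (sub_eq_zero.1 this).trans (Matrix.one_mulVec _).symm)
  have h0 : ser U 0 ≠ ⊤ := fun h => h1 (by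
    rw [eq_top_iff]; intro v _; exact mem_ser.2 fun u _ => h ▸ Submodule.mem_top)
  have hN := Nat.find_spec hex
  have hm := fun i => Nat.find_min hex (m := i)
  obtain ⟨k, hk⟩ : ∃ k, Nat.find hex = k + 2 := by
    refine ⟨Nat.find hex - 2, ?_⟩
    have : Nat.find hex ≠ 0 := fun h => h0 (h ▸ hN)
    have : Nat.find hex ≠ 1 := fun h => h1 (h ▸ hN)
    omega
  rw [hk] at hN hm
  refine ⟨k + 1, fun i => ser U i, by omega, Fin.strictMono_iff_lt_succ.2 fun i =>
    ser_lt p hU i (hm i i.2), rfl, hN, fun g hg i => ?_, fun u hu i v hv => mem_ser.1 hv u hu⟩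
  refine le_antisymm (by rintro _ ⟨v, hv, rfl⟩; exact ser_norm hg i v hv) fun v hv => ?_
  refine ⟨_, ser_norm (Subgroup.inv_mem _ hg) i v hv, ?_⟩
  rw [Matrix.mulVecLin_apply, Matrix.mulVec_mulVec, ← Matrix.SpecialLinearGroup.coe_mul,
    mul_inv_cancel, Matrix.SpecialLinearGroup.coe_one, Matrix.one_mulVec]

end Cfsg.Agent.S2391
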