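import Cfsg.Statements.S2394
import Cfsg.Agent.H12.SBridge
import Cfsg.Agent.H12.Lin
import Cfsg.Agent.H2.Zsig
-- import your own Cfsg.Agent.* helpers here

set_option autoImplicit false
open scoped MatrixGroups
open Cfsg

namespace Cfsg.Agent.S2394

open Cfsg.Agent.H12

/-- The smallest degree of a faithful representation of the symplectic group `Sp_{2n}(q)` over its own field `F_q` is `2n`: every injective homomorphism from `Sp_{2n}(F)` to `GL_d(F)`, `F` the field with `q` elements, has `d ≥ 2n`. -/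
theorem result {F : Type*} [Field F] [Fintype F] (n : ℕ) {d : ℕ}
    (ρ : ↥(Matrix.symplecticGroup (Fin n) F) →* GL (Fin d) F) (hρ : Function.Injective ρ) : 2 * n ≤ d := by
  by_contra! hd
  have h := Subgroup.card_dvd_of_injective ρ hρ
  rw [card_sp, card_GL_fin rfl, Fintype.card_fin, Nat.card_eq_fintype_card, spOrd] at h
  have hq : 1 < Fintype.card F := Fintype.one_lt_card
  generalize Fintype.card F = q at h hq
  by_cases h1 : n = 1
  · subst h1
    have h2 : q * q - 1 ≥ q := by
      have : 2 * q ≤ q * q := Nat.mul_le_mul_right _ hq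
      omega
    have h3 : q * (q * q - 1) ≥ 1 * q := by nlinarith
    interval_cases d
    · simp at h; omega
    · have := Nat.le_of_dvd (by simp; omega) h
      simp [sq] at this
      omega
  by_cases h6 : q = 2 ∧ n = 3
  · obtain ⟨rfl, rfl⟩ := h6
    interval_cases d <;> revert h <;> decide +kernel
  obtain ⟨r, hr, h2, h3⟩ := H2.zsigmondy (n := 2 * n) hq (by omega) (by omega) (by omega)
  obtain ⟨m, rfl⟩ : ∃ m, n = m + 1 := ⟨n - 1, by omega⟩
  have h4 := ((h2.mul_left _).trans (by rw [Finset.prod_range_succ]) |>.mul_left _).trans h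
  obtain ⟨i, -, hi⟩ := (hr.prime.dvd_finset_prod_iff _).1 h4
  rw [show q ^ d - q ^ (i : ℕ) = q ^ (i : ℕ) * (q ^ (d - i) - 1) by
    rw [Nat.mul_sub_one, ← pow_add, Nat.add_sub_cancel' i.2.le], hr.dvd_mul] at hi
  rcases hi with hi | hi
  · have h5 : r ∣ q ^ (2 * (m + 1)) := (hr.dvd_of_dvd_pow hi).pow (by omega)
    have := Nat.dvd_sub h5 h2
    rw [Nat.sub_sub_self (Nat.one_le_pow _ _ (by omega))] at this
    exact hr.one_lt.ne' (Nat.dvd_one.1 this)
  · exact h3 _ (by have := i.2; omega) (by omega) hi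

end Cfsg.Agent.S2394
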