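import Cfsg.Statements.S2398
import Cfsg.Agent.H14.Lift4

set_option autoImplicit false
open Cfsg

namespace Cfsg.Agent.S2398

/-- Universality of the group Δ presented by Steinberg's generators with relators (R1), (R2), over a field with more than four elements (types G₂, B₂, D₄, F₄, E₆, E₇, E₈): for every central extension `π₁ : E → G₁` (surjective, central kernel) and every homomorphism `σ : Δ → G₁` there is exactly one homomorphism `τ : Δ → E` with `π₁ ∘ τ = σ`. In particular every central extension of Δ splits; together with the fact that Δ maps onto the Chevalley group with central kernel, this makes Δ the universal central extension of the Chevalley group. -/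
theorem result {K : Type*} [Field K] (hK5 : ∃ s : Finset K, 4 < s.card) (D : Cfsg.Lie.ChevalleyDatum) (hD : D ∈ [Cfsg.Lie.chevG2, Cfsg.Lie.chevB2, Cfsg.Lie.chevD4, Cfsg.Lie.chevF4, Cfsg.Lie.chevE6, Cfsg.Lie.chevE7, Cfsg.Lie.chevE8])
    {G₁ E : Type*} [Group G₁] [Group E] (π₁ : E →* G₁) (hπ : Function.Surjective π₁) (hc : π₁.ker ≤ Subgroup.center E)
    (σ : D.SteinbergCover K →* G₁) : ∃! τ : D.SteinbergCover K →* E, π₁.comp τ = σ := by
  obtain ⟨G⟩ := H14.exists_good hD
  have hs := H14.stData_of_mem hD
  obtain ⟨τ, h⟩ := (H14.liftP_big' (G := G) hD hK5).exists_lift hs hπ hc σ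
  refine ⟨τ, h, fun τ' h' => H27.lift_unique hc ((H14.rgSc G K hs).commutator_eq_top' (H14.rgSc_grp G K hs)
    (H14.perfect_of_mem hD G _ (H14.rgSc_chev G K hs) fun _ => ?_)) fun x => DFunLike.congr_fun (h'.trans h.symm) x⟩
  obtain ⟨v, hv⟩ := H14.exists_pow_ne hK5 (Polynomial.X * (Polynomial.X - Polynomial.C 1))
    (mul_ne_zero Polynomial.X_ne_zero (Polynomial.X_sub_C_ne_zero 1)) (by compute_degree!)
  exact ⟨v, by simpa [sub_eq_zero] using hv⟩

end Cfsg.Agent.S2398
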