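import Cfsg.Statements.S2399
import Cfsg.Agent.H14.Lift4

set_option autoImplicit false
open scoped MatrixGroups
open Cfsg

namespace Cfsg.Agent.S2399

/-- Projective representations in the natural characteristic lift: for each of the types G₂, B₂, D₄, F₄, E₆, E₇, E₈ over any field `K` (for types B₂ and G₂ the field must have more than two elements — the cases where the Chevalley group is not simple are set aside), every homomorphism from the Chevalley group to `PGL_n(L) = GL_n(L)/Z`, `L` a field of the same characteristic as `K`, lifts uniquely to a homomorphism from the group Δ presented by (R1), (R2) to `GL_n(L)`, compatibly with the projection Δ → Chevalley group sending x̄_r(t) to x_r(t). -/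
theorem result {K : Type*} [Field K] (D : Cfsg.Lie.ChevalleyDatum) (hD : D ∈ [Cfsg.Lie.chevG2, Cfsg.Lie.chevB2, Cfsg.Lie.chevD4, Cfsg.Lie.chevF4, Cfsg.Lie.chevE6, Cfsg.Lie.chevE7, Cfsg.Lie.chevE8]) (hK : D ∈ [Cfsg.Lie.chevB2, Cfsg.Lie.chevG2] → ∃ x : K, x ≠ 0 ∧ x ≠ 1)
    (θ : D.SteinbergCover K →* ↥(D.group K))
    (hθ : ∀ (r : ℕ) (t : K), r < D.nroots → ((θ (D.scGen K r t) : GL D.Idx K) : Matrix D.Idx D.Idx K) = D.x K r t)
    {L : Type*} [Field L] (hL : ringChar L = ringChar K) {n : ℕ}
    (φ : ↥(D.group K) →* GL (Fin n) L ⧸ Subgroup.center (GL (Fin n) L)) :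
    ∃! ψ : D.SteinbergCover K →* GL (Fin n) L, (QuotientGroup.mk' (Subgroup.center (GL (Fin n) L))).comp ψ = φ.comp θ := by
  obtain ⟨G⟩ := H14.exists_good hD
  have hs := H14.stData_of_mem hD
  have hp := (H14.rgSc G K hs).commutator_eq_top' (H14.rgSc_grp G K hs)
    (H14.perfect_of_mem hD G _ (H14.rgSc_chev G K hs) fun h => hK (by rcases h with rfl | rfl <;> simp))
  have hc := (QuotientGroup.ker_mk' (Subgroup.center (GL (Fin n) L))).le
  suffices h : ∃ ψ : D.SteinbergCover K →* GL (Fin n) L, (QuotientGroup.mk' _).comp ψ = φ.comp θ from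
    h.imp fun τ h => ⟨h, fun τ' h' => H27.lift_unique hc hp fun x => DFunLike.congr_fun (h'.trans h.symm) x⟩
  rcases CharP.char_is_prime_or_zero K (ringChar K) with h | h
  · rcases eq_or_ne n 0 with rfl | hn
    · exact ⟨1, MonoidHom.ext fun _ => (QuotientGroup.mk'_surjective _).subsingleton.elim _ _⟩
    obtain ⟨a, m, h1, h2⟩ := Nat.exists_eq_pow_mul_and_not_dvd hn _ h.ne_one
    refine H14.exists_lift_char hs (QuotientGroup.mk'_surjective _) hc hp (ringChar.Nat.cast_ringChar)
      ((Nat.Prime.coprime_iff_not_dvd h).2 h1).symm (fun z hz hz' => ?_) G _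
    obtain ⟨c, rfl⟩ := Matrix.GeneralLinearGroup.center_eq_range_scalar.le (hc hz')
    have h3 := Abelianization.commutator_subset_ker Matrix.GeneralLinearGroup.det hz
    have : ExpChar L (ringChar K) := hL ▸ @ExpChar.prime L _ _ (hL ▸ h) inferInstance
    rw [← map_pow, show c ^ m = 1 from Units.ext ((ExpChar.pow_prime_pow_mul_eq_one_iff (ringChar K) a m (c : L)).1 (by
      simpa [← h2] using congrArg Units.val h3)), map_one]
  · have : CharZero K := (CharP.ringChar_zero_iff_CharZero K).1 h
    have := Infinite.of_injective _ (Nat.cast_injective (R := K))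
    obtain ⟨s, hs'⟩ := Infinite.exists_subset_card_eq K 5
    exact (H14.liftP_big' (G := G) hD ⟨s, by omega⟩).exists_lift hs (QuotientGroup.mk'_surjective _) hc _

end Cfsg.Agent.S2399
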