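import Cfsg.Statements.S2400
import Cfsg.Agent.H14.Lift4

set_option autoImplicit false
open Cfsg

namespace Cfsg.Agent.S2400

/-- Over a finite field `K`, the group presented by Steinberg's relators (R1)–(R3) (the universal Chevalley group) of type E₆ or E₇, or of type B₂ or D₄ with `K` of more than two elements, has trivial Schur multiplier: every finite stem extension of it is an isomorphism (Schur multiplier described through stem extensions as in the definitions). Types G₂, F₄ and E₈ are not covered here. -/
theorem result {K : Type*} [Field K] [Fintype K] (e : Cfsg.Lie.ChevalleyDatum × ℕ)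
    (he : e ∈ [(Cfsg.Lie.chevE6, 0), (Cfsg.Lie.chevE7, 0), (Cfsg.Lie.chevB2, 2), (Cfsg.Lie.chevD4, 2)]) (hK : Fintype.card K ≠ e.2) :
    Cfsg.HasCyclicSchurMultiplier (e.1.SteinbergGroup K) 1 := by
  classical
  have h2 : Fintype.card K ≠ 2 → 3 ≤ Fintype.card K := fun h => by have := Fintype.one_lt_card (α := K); omega
  simp only [List.mem_cons, List.not_mem_nil, or_false] at he
  rcases he with rfl | rfl | rfl | rfl
  · exact (H14.liftP_E6 H14.goodE6).schur_St H14.stE6
  · exact (H14.liftP_E7 H14.goodE7).schur_St H14.stE7
  · exact (H14.liftP_B2 H14.goodB2 (h2 hK)).schur_St H14.stB2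
  · obtain ⟨x, hx⟩ := Finset.exists_mem_notMem_of_card_lt_card (s := {0, 1}) (t := (Finset.univ : Finset K))
      (Finset.card_le_two.trans_lt (h2 hK))
    exact (H14.liftP_D4 H14.goodD4 ⟨x, by simpa using hx.2⟩).schur_St H14.stD4

end Cfsg.Agent.S2400
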