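import Cfsg.Statements.S2416
import Cfsg.Agent.H14.Gen1

set_option autoImplicit false
open scoped MatrixGroups
open Cfsg

namespace Cfsg.Agent.S2416

/-- A Chevalley group of type G₂, B₂, D₄, F₄, E₆, E₇ or E₈ over a finite field lies in (indeed equals) the subgroup generated by its monomial subgroup `N` and a single fundamental root subgroup `X_p`, where `p` is a short fundamental root if there are two root lengths (any fundamental root otherwise), provided the characteristic is not 2 for types B₂, F₄ and not 3 for type G₂ (and the field has more than two elements for B₂, G₂). -/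
theorem result {K : Type*} [Field K] [Finite K] (D : Cfsg.Lie.ChevalleyDatum) (hD : D ∈ [Cfsg.Lie.chevG2, Cfsg.Lie.chevB2, Cfsg.Lie.chevD4, Cfsg.Lie.chevF4, Cfsg.Lie.chevE6, Cfsg.Lie.chevE7, Cfsg.Lie.chevE8])
    (hK : D ∈ [Cfsg.Lie.chevB2, Cfsg.Lie.chevG2] → ∃ x : K, x ≠ 0 ∧ x ≠ 1)
    (h2 : D ∈ [Cfsg.Lie.chevB2, Cfsg.Lie.chevF4] → ringChar K ≠ 2) (h3 : D = Cfsg.Lie.chevG2 → ringChar K ≠ 3)
    (i : ℕ) (hi : i < D.rank) (hshort : D.isLong (D.simple i) = false) :
    D.group K ≤ D.monomialSubgroup K ⊔ D.rootSubgroup K (D.simple i) := by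
  obtain ⟨G⟩ := H14.exists_good hD
  have hc := (H14.conn_of_mem hD G).1
  lift i to Fin D.rank using hi
  rw [← G.simple_eq] at hshort ⊢
  have hN : (G.rg K).N ≤ D.monomialSubgroup K ⊔ D.rootSubgroup K (G.R.simple i) := (G.N_eq K).ge.trans le_sup_left
  have hr : ∀ t, (G.rg K).x (G.R.simple i) t ∈ D.monomialSubgroup K ⊔ D.rootSubgroup K (G.R.simple i) := fun t =>
    Subgroup.mem_sup_right (by rw [G.rootSubgroup_eq]; exact (G.rg K).x_mem_gen (Set.mem_singleton _) t)
  have sl := fun h : ∀ r s, G.R.len r = G.R.len s => (G.grp_eq K).le.trans <| (G.rg K).gen_le.2 fun k (_ : k ∈ Set.univ) =>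
    G.x_mem_of_isLong hc hN (s := k) (by rw [Bool.eq_iff_iff, G.isLong_iff hc, G.isLong_iff hc, h k]) hr
  have e : ∀ p : ℕ, p.Prime → ringChar K ≠ p → ((p : ℤ) : K) ≠ 0 := fun p hp h h' =>
    h (CharP.ringChar_of_prime_eq_zero hp (by simpa using h'))
  simp only [List.mem_cons, List.not_mem_nil, or_false] at hD
  rcases hD with rfl | rfl | rfl | rfl | rfl | rfl | rfl
  · exact G.le_of_short hc hN hshort hr (a := 2) (b := 3) (k := 0) (e 3 (by decide) (h3 rfl)) (by decide +kernel)
  · exact G.le_of_short hc hN hshort hr (a := 1) (b := 2) (k := 0) (e 2 (by decide) (h2 (by simp))) (by decide +kernel)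
  · exact sl (H14.slD4 G)
  · exact G.le_of_short hc hN hshort hr (a := 3) (b := 18) (k := 0) (e 2 (by decide) (h2 (by simp))) (by decide +kernel)
  exacts [sl (H14.slE6 G), sl (H14.slE7 G), sl (H14.slE8 G)]

end Cfsg.Agent.S2416
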