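import Cfsg.Statements.S2426
import Cfsg.Agent.H29.StSL2

set_option autoImplicit false
open Cfsg

namespace Cfsg.Agent.S2426

open Cfsg.Agent.H29
open scoped MatrixGroups

def rels (K : Type*) [Field K] : Set (FreeGroup (Bool × K)) :=
  ({g : FreeGroup (Bool × K) | ∃ (b : Bool) (t u : K), g = FreeGroup.of (b, t) * FreeGroup.of (b, u) * (FreeGroup.of (b, t + u))⁻¹} ∪
          {g | ∃ (b : Bool) (t u : K), t ≠ 0 ∧
            g = (FreeGroup.of (b, t) * FreeGroup.of (!b, -t⁻¹) * FreeGroup.of (b, t)) * FreeGroup.of (b, u) *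
                  (FreeGroup.of (b, t) * FreeGroup.of (!b, -t⁻¹) * FreeGroup.of (b, t))⁻¹ * (FreeGroup.of (!b, -(t⁻¹ ^ 2 * u)))⁻¹})

def gen {K : Type*} [Field K] (x : Bool × K) : SL(2, K) := if x.1 then up x.2 else lo x.2

theorem rel_one {K : Type*} [Field K] {r : FreeGroup (Bool × K)} (hr : r ∈ rels K) :
    PresentedGroup.mk (rels K) r = 1 :=
  PresentedGroup.one_of_mem hr

theorem add_rel {K : Type*} [Field K] (b : Bool) (t u : K) :
    (PresentedGroup.of (b, t + u) : PresentedGroup (rels K)) =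
      PresentedGroup.of (b, t) * PresentedGroup.of (b, u) := by
  have := rel_one (K := K) (Or.inl ⟨b, t, u, rfl⟩)
  simp only [map_mul, map_inv] at this
  exact (mul_inv_eq_one.1 this).symm

def dat (K : Type*) [Field K] : StData K (PresentedGroup (rels K)) where
  x t := PresentedGroup.of (false, t)
  y t := PresentedGroup.of (true, t)
  x_add := add_rel false
  y_add := add_rel true
  conj t ht u := by
    have := rel_one (K := K) (Or.inr ⟨false, t, u, ht, rfl⟩)
    simp only [map_mul, map_inv] at this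
    have h2 := mul_inv_eq_one.1 this
    rw [show -(u / t ^ 2) = -(t⁻¹ ^ 2 * u) by field_simp]
    exact h2

theorem gen_rel {K : Type*} [Field K] : ∀ r ∈ rels K, FreeGroup.lift gen r = 1 := by
  rintro r (⟨b, t, u, rfl⟩ | ⟨b, t, u, ht, rfl⟩)
  · simp only [map_mul, map_inv, FreeGroup.lift_apply_of, mul_inv_eq_one]
    cases b
    · exact (lo_add t u).symm
    · exact (up_add t u).symm
  · simp only [map_mul, map_inv, FreeGroup.lift_apply_of, mul_inv_eq_one, mul_inv_eq_iff_eq_mul]
    cases b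
    · ext i j
      fin_cases i <;> fin_cases j <;>
        simp [gen, lo_val, up_val, Matrix.mul_apply, Fin.sum_univ_two, ht] <;> field_simp <;> ring
    · ext i j
      fin_cases i <;> fin_cases j <;>
        simp [gen, lo_val, up_val, Matrix.mul_apply, Fin.sum_univ_two, ht] <;> field_simp <;> ring


/-- The rank-one Steinberg presentation of `SL₂` over a finite field `K`: generators `x(t)`, `y(t)` (`t ∈ K`; the two opposite root subgroups) subject to additivity `x(t)x(u) = x(t+u)`, `y(t)y(u) = y(t+u)` and, with `w(t) = x(t) y(−t⁻¹) x(t)` and `w'(t) = y(t) x(−t⁻¹) y(t)` for `t ≠ 0`, the relations `w(t) x(u) w(t)⁻¹ = y(−t⁻² u)` and `w'(t) y(u) w'(t)⁻¹ = x(−t⁻² u)`, present `SL₂(K)`, with `x(t) ↦ (1 t; 0 1)` and `y(t) ↦ (1 0; t 1)`. -/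
theorem result {K : Type*} [Field K] [Finite K] :
    ∃ e : PresentedGroup
        ({g : FreeGroup (Bool × K) | ∃ (b : Bool) (t u : K), g = FreeGroup.of (b, t) * FreeGroup.of (b, u) * (FreeGroup.of (b, t + u))⁻¹} ∪
          {g | ∃ (b : Bool) (t u : K), t ≠ 0 ∧
            g = (FreeGroup.of (b, t) * FreeGroup.of (!b, -t⁻¹) * FreeGroup.of (b, t)) * FreeGroup.of (b, u) *
                  (FreeGroup.of (b, t) * FreeGroup.of (!b, -t⁻¹) * FreeGroup.of (b, t))⁻¹ * (FreeGroup.of (!b, -(t⁻¹ ^ 2 * u)))⁻¹})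
        ≃* Matrix.SpecialLinearGroup (Fin 2) K,
      (∀ t : K, ((e (PresentedGroup.of (true, t)) : Matrix (Fin 2) (Fin 2) K)) = !![1, t; 0, 1]) ∧
      (∀ t : K, ((e (PresentedGroup.of (false, t)) : Matrix (Fin 2) (Fin 2) K)) = !![1, 0; t, 1]) := by
  obtain ⟨φ, h1, h2⟩ := (dat K).exists_hom
  let ψ : PresentedGroup (rels K) →* SL(2, K) := PresentedGroup.toGroup gen_rel
  have hψ : ∀ x, ψ (PresentedGroup.of x) = gen x := fun x => PresentedGroup.toGroup.of _
  have e1 : φ.comp ψ = MonoidHom.id _ := by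
    ext ⟨b, t⟩
    simp only [MonoidHom.comp_apply, hψ, MonoidHom.id_apply]
    cases b
    · exact h1 t
    · exact h2 t
  have e2 : ψ.comp φ = MonoidHom.id _ := by
    apply MonoidHom.eq_of_eqOn_dense (s := (lowerUnipotentSL2 K : Set SL(2, K)) ∪ upperUnipotentSL2 K)
    · rw [Subgroup.closure_union, Subgroup.closure_eq, Subgroup.closure_eq, lower_sup_upper]
    · rintro g (hg | hg)
      · obtain ⟨t, rfl⟩ := mem_lower.1 hg
        simp only [MonoidHom.comp_apply, h1, MonoidHom.id_apply]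
        exact hψ _
      · obtain ⟨t, rfl⟩ := mem_upper.1 hg
        simp only [MonoidHom.comp_apply, h2, MonoidHom.id_apply]
        exact hψ _
  refine ⟨MonoidHom.toMulEquiv ψ φ e1 e2, fun t => ?_, fun t => ?_⟩
  · exact congrArg Subtype.val (hψ (true, t))
  · exact congrArg Subtype.val (hψ (false, t))

end Cfsg.Agent.S2426
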