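import Cfsg.Statements.S2427
import Cfsg.Agent.H27.SL2d

set_option autoImplicit false
open Cfsg

namespace Cfsg.Agent.S2427

open Cfsg.Agent.H27 Cfsg.Agent.H4 Cfsg.Agent.H5 Cfsg.Agent.H12
open scoped MatrixGroups commutatorElement

theorem key3 : ∀ a : ZMod 3, a ≠ 0 → ∀ b : ZMod 3, ∃ n : Fin 3, b = (n.1 : ZMod 3) * a := by decide


/-- The group SL₂ over the field with 3 elements has order 24 and centre of order 2; its commutator subgroup has order 8, is isomorphic to the quaternion group of order 8 and is complemented by every Sylow 3-subgroup (so the group is a semidirect product of a quaternion group of order 8 by a cyclic group of order 3); and its only normal subgroups besides the trivial subgroup and the whole group are the centre and the commutator subgroup. -/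
theorem result :
    Nat.card (Matrix.SpecialLinearGroup (Fin 2) (ZMod 3)) = 24 ∧
    Nat.card (Subgroup.center (Matrix.SpecialLinearGroup (Fin 2) (ZMod 3))) = 2 ∧
    Nat.card (commutator (Matrix.SpecialLinearGroup (Fin 2) (ZMod 3))) = 8 ∧
    Nonempty (commutator (Matrix.SpecialLinearGroup (Fin 2) (ZMod 3)) ≃* QuaternionGroup 2) ∧
    (∀ P : Sylow 3 (Matrix.SpecialLinearGroup (Fin 2) (ZMod 3)),
      Subgroup.IsComplement' (commutator (Matrix.SpecialLinearGroup (Fin 2) (ZMod 3)))
        (P : Subgroup (Matrix.SpecialLinearGroup (Fin 2) (ZMod 3)))) ∧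
    ∀ N : Subgroup (Matrix.SpecialLinearGroup (Fin 2) (ZMod 3)), N.Normal →
      N = ⊥ ∨ N = ⊤ ∨ N = Subgroup.center (Matrix.SpecialLinearGroup (Fin 2) (ZMod 3)) ∨
        N = commutator (Matrix.SpecialLinearGroup (Fin 2) (ZMod 3)) := by
  have h24 : Nat.card SL(2, ZMod 3) = 24 := by rw [card_S2, Nat.card_zmod]; rfl
  have h2 : (2 : ZMod 3) ≠ 0 := by decide
  have hodd : Odd (Fintype.card (ZMod 3)) := by decide
  obtain ⟨S⟩ := (inferInstance : Nonempty (Sylow 2 SL(2, ZMod 3)))
  obtain ⟨k, t, w, hk, ht, ho, hc, htS, hwS, hw, hS⟩ := sylow_two hodd S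
  obtain rfl : k = 1 := by
    by_contra hk1
    obtain ⟨j, rfl⟩ : ∃ j, k = j + 2 := ⟨k - 2, by omega⟩
    exact (sylow_two_card hodd S).2 (Or.inl rfl) ⟨2 ^ j, by rw [hc]; ring⟩
  obtain ⟨h1, u, -, hu⟩ := two_normalizer_eight ht htS hwS hw hS h2 ho hc
  have hn : (S : Subgroup SL(2, ZMod 3)).Normal :=
    Subgroup.normalizer_eq_top_iff.1 (Subgroup.eq_top_of_card_eq _ (h1.trans h24.symm))
  have hi : (S : Subgroup SL(2, ZMod 3)).index = 3 := index_of_card_mul hc h24
  have hww : w * w = -1 := mul_self_of_not_mem ht (two_le_normalizer ht hw hS hwS) (w_not_mem ht hw)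
  have htt : t * t = -1 := by
    have : u * (t * t) * u⁻¹ = -1 := by rw [← hww, ← hu]; group
    rw [mul_inv_eq_iff_eq_mul, neg_one_mul, ← mul_neg_one] at this
    exact mul_left_cancel this
  have key : ∀ N : Subgroup SL(2, ZMod 3), N.Normal → ∀ x ∈ N, x * x = -1 →
      (S : Subgroup SL(2, ZMod 3)) ≤ N := fun N hN x hx e => by
    have k1 : ∀ y, y * y = -1 → y ∈ N := fun y hy => by
      obtain ⟨P, rfl⟩ := exists_conj_of_trace_eq (trace_sq_ne_four_of_mul_self h2 e)
        ((sl2_trace_of_mul_self hy).trans (sl2_trace_of_mul_self e).symm)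
      exact hN.conj_mem x hx P
    intro y hy
    rcases hS y hy with h | h
    · exact (Subgroup.zpowers_le).2 (k1 t htt) h
    · simpa using N.mul_mem (k1 w hww) ((Subgroup.zpowers_le).2 (k1 t htt) h)
  have hcom : commutator SL(2, ZMod 3) = S := by
    refine le_antisymm ?_ (key _ inferInstance (w * t⁻¹) ?_ ?_)
    · haveI : Fact (Nat.Prime 3) := ⟨Nat.prime_three⟩
      have := isCyclic_of_prime_card (α := SL(2, ZMod 3) ⧸ (S : Subgroup SL(2, ZMod 3))) hi
      exact Subgroup.Normal.quotient_commutative_iff_commutator_le.1 inferInstance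
    · rw [← hu]
      exact Subgroup.commutator_mem_commutator (Subgroup.mem_top u) (Subgroup.mem_top t)
    · rw [← hww]
      calc _ = (w * t * w⁻¹)⁻¹ * (w * w) * t⁻¹ := by group
        _ = _ := by rw [hw, hww]; simp
  have hZ : Nat.card (Subgroup.center SL(2, ZMod 3)) = 2 :=
    card_subtype_pair (sl_neg_one_ne h2).symm fun x => mem_center_SL2
  refine ⟨h24, hZ, by rw [hcom, hc]; rfl, ?_, fun P => ?_, fun N hN => ?_⟩
  · obtain ⟨k, hk, ⟨e⟩⟩ := (isCyclic_or_quaternion_sl2 h2 (S : Subgroup SL(2, ZMod 3)).subtype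
      (Subgroup.subtype_injective _) S.2).resolve_left (not_isCyclic_sylow_two_sl2 hodd S)
    have := Nat.card_congr e.toEquiv
    rw [hc, Nat.card_eq_fintype_card, QuaternionGroup.card] at this
    obtain rfl : k = 1 := Nat.pow_right_injective le_rfl (by simp only; omega)
    rw [hcom]; exact ⟨e⟩
  · have h3 : Nat.card P = 3 := by
      rw [P.card_eq_multiplicity, h24, show 24 = 3 * 8 from rfl,
        Nat.factorization_mul (by norm_num) (by norm_num)]
      simp [Nat.factorization_eq_zero_of_not_dvd, Nat.prime_three]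
    exact Subgroup.isComplement'_of_coprime (by rw [hcom, hc, h3, h24]; rfl)
      (by rw [hcom, hc, h3]; norm_num)
  · by_cases h3 : 3 ∣ Nat.card N
    · haveI : Fact (Nat.Prime 3) := ⟨Nat.prime_three⟩
      obtain ⟨x, hx⟩ := exists_prime_orderOf_dvd_card' (G := N) 3 h3
      obtain ⟨a, ha, hc⟩ := sl_isConj_of_pow 3 (g := x.1) (k := 1) (by
        rw [← orderOf_dvd_iff_pow_eq_one, Subgroup.orderOf_coe, hx]; rfl) (fun e => by
          rw [show x = 1 from Subtype.ext e] at hx; simp at hx)
      obtain ⟨c, hc'⟩ := isConj_iff.1 hc.symm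
      have h4 : upper a ∈ N := by
        rw [show upper a = triS 1 a by apply s2ext <;> simp, ← hc']; exact hN.conj_mem _ x.2 c
      have h5 : ∀ b, upper b ∈ N := fun b => by
        obtain ⟨n, rfl⟩ := key3 a ha b
        rw [← upper_pow]; exact N.pow_mem h4 _
      refine Or.inr (Or.inl (SL2_eq_top_of_upper_lower h5 fun b => ?_))
      have := hN.conj_mem _ (h5 (-b)) (cpS 0)
      rwa [show cpS 0 * upper (-b) * (cpS 0)⁻¹ = lower b by
        rw [mul_inv_eq_iff_eq_mul]; apply s2ext <;> simp [m2mul]] at this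
    · have h4 : Nat.card N ∣ 2 ^ 3 :=
        (Nat.Coprime.dvd_mul_left ((Nat.prime_three.coprime_iff_not_dvd.2 h3).symm)).1
          (show _ ∣ 3 * 2 ^ 3 from (Subgroup.card_subgroup_dvd_card N).trans h24.dvd)
      have h5 : N ≤ S := (IsPGroup.of_card_dvd_pow h4).le_sylow_of_normal S
      by_cases h6 : N ≤ Subgroup.center _
      · have h7 := Subgroup.card_dvd_of_le h6
        rw [hZ, Nat.dvd_prime Nat.prime_two] at h7
        rcases h7 with h7 | h7
        · exact Or.inl (Subgroup.eq_bot_of_card_eq _ h7)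
        · exact Or.inr (Or.inr (Or.inl (Subgroup.eq_of_le_of_card_ge h6 (by rw [hZ, h7]))))
      · obtain ⟨x, hx, hx'⟩ := SetLike.not_le_iff_exists.1 h6
        refine Or.inr (Or.inr (Or.inr (hcom ▸ le_antisymm h5 (key N hN x hx ?_))))
        by_cases h7 : x ∈ torS t
        · have h8 := orderOf_dvd_of_mem_zpowers (two_mem_zpowers ht hw hS (h5 hx) h7)
          rw [ho, orderOf_dvd_iff_pow_eq_one, pow_one, pow_mul, sq, sq] at h8
          exact (sl2_eq_of_mul_self h2 h8).resolve_left fun e =>
            hx' (mem_center_SL2.2 (sl2_eq_of_mul_self h2 e))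
        · exact mul_self_of_not_mem ht (two_le_normalizer ht hw hS (h5 hx)) h7

end Cfsg.Agent.S2427
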