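import Cfsg.Statements.S2428
import Cfsg.Agent.H27.SL2d

set_option autoImplicit false
open Cfsg

namespace Cfsg.Agent.S2428

open Cfsg.Agent.H27 Cfsg.Agent.H4 Cfsg.Agent.H5 Cfsg.Agent.H12
open scoped MatrixGroups commutatorElement


/-- Let F be a finite field with q elements, q odd, and let d be a diagonal element of SL₂ over F whose diagonal entry a has a² ≠ 1 (such d exist exactly when q > 3). Then the centraliser of d is precisely the diagonal subgroup T; the normaliser of T has order 2(q − 1) and exactly (q + 5)/2 conjugacy classes; and every element of that normaliser outside T has square equal to −1. -/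
theorem result {F : Type*} [Field F] [Fintype F] (hodd : Odd (Fintype.card F))
    (d : Matrix.SpecialLinearGroup (Fin 2) F) (hd01 : (d : Matrix (Fin 2) (Fin 2) F) 0 1 = 0) (hd10 : (d : Matrix (Fin 2) (Fin 2) F) 1 0 = 0) (hda : (d : Matrix (Fin 2) (Fin 2) F) 0 0 ^ 2 ≠ 1) :
    (∀ g : Matrix.SpecialLinearGroup (Fin 2) F, g ∈ Subgroup.centralizer ({d} : Set (Matrix.SpecialLinearGroup (Fin 2) F)) ↔ ((g : Matrix (Fin 2) (Fin 2) F) 0 1 = 0 ∧ (g : Matrix (Fin 2) (Fin 2) F) 1 0 = 0)) ∧
    Nat.card (Subgroup.normalizer ((Subgroup.centralizer ({d} : Set (Matrix.SpecialLinearGroup (Fin 2) F))) : Set (Matrix.SpecialLinearGroup (Fin 2) F))) = 2 * (Fintype.card F - 1) ∧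
    Nat.card (ConjClasses (Subgroup.normalizer ((Subgroup.centralizer ({d} : Set (Matrix.SpecialLinearGroup (Fin 2) F))) : Set (Matrix.SpecialLinearGroup (Fin 2) F)))) = (Fintype.card F + 5) / 2 ∧
    ∀ g : Matrix.SpecialLinearGroup (Fin 2) F, g ∈ Subgroup.normalizer ((Subgroup.centralizer ({d} : Set (Matrix.SpecialLinearGroup (Fin 2) F))) : Set (Matrix.SpecialLinearGroup (Fin 2) F)) →
      g ∉ Subgroup.centralizer ({d} : Set (Matrix.SpecialLinearGroup (Fin 2) F)) → ((g * g) : Matrix (Fin 2) (Fin 2) F) = -1 := by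
  have h2 := two_ne_zero_iff_odd.2 hodd
  obtain ⟨a, x, rfl⟩ := exists_triS hd10
  obtain rfl : x = 0 := by simpa using hd01
  have ha : a ^ 2 ≠ 1 := fun e => hda (by simpa using congrArg Units.val e)
  have hs := spl_triS ha (0 : F)
  have hr := reg_of_spl hs
  rw [← Nat.card_eq_fintype_card]
  refine ⟨fun g => ⟨fun h => ?_, fun h => ?_⟩, ?_, ?_, fun g h h' =>
    congrArg Subtype.val (mul_self_of_not_mem hr h h')⟩
  · obtain ⟨b, c, h⟩ := exists_of_comm hs.not_scal (X := g.1) (congrArg Subtype.val (mem_torS_iff.1 h))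
    rw [h]; simp
  · rw [mem_torS_iff]
    apply s2ext <;> simp [m2mul, h.1, h.2, mul_comm]
  · rw [card_normalizer_torS hr, card_torS_spl hs]
  · have := card_conjClasses_normalizer h2 hr
    rw [card_torS_spl hs] at this
    have := two_le_card F
    change Nat.card (ConjClasses (Subgroup.normalizer (torS (triS a 0) : Set SL(2, F)))) = _
    omega

end Cfsg.Agent.S2428
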