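import Cfsg.Statements.S2429
import Cfsg.Agent.H27.SL2d

set_option autoImplicit false
open Cfsg

namespace Cfsg.Agent.S2429

open Cfsg.Agent.H27 Cfsg.Agent.H4 Cfsg.Agent.H5 Cfsg.Agent.H12
open scoped MatrixGroups commutatorElement


/-- Let F be a finite field with q elements, q odd. Then SL₂ over F contains a cyclic subgroup T′ of order q + 1 (a non-split torus) with the following properties: T′ is its own centraliser, and indeed the centraliser of each element of T′ other than 1 and −1 is exactly T′; every element of SL₂ having no eigenvector in F² is conjugate to an element of T′; the normaliser of T′ has order 2(q + 1) and exactly (q + 7)/2 conjugacy classes; and every element of that normaliser outside T′ has square −1. -/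
theorem result {F : Type*} [Field F] [Fintype F] (hodd : Odd (Fintype.card F)) :
    ∃ T' : Subgroup (Matrix.SpecialLinearGroup (Fin 2) F), IsCyclic T' ∧ Nat.card T' = Fintype.card F + 1 ∧
      Subgroup.centralizer ((T' : Set (Matrix.SpecialLinearGroup (Fin 2) F))) = T' ∧
      (∀ g : Matrix.SpecialLinearGroup (Fin 2) F, g ∈ T' → (g : Matrix (Fin 2) (Fin 2) F) ≠ 1 → (g : Matrix (Fin 2) (Fin 2) F) ≠ -1 → Subgroup.centralizer ({g} : Set (Matrix.SpecialLinearGroup (Fin 2) F)) = T') ∧
      (∀ g : Matrix.SpecialLinearGroup (Fin 2) F, (∀ (c : F) (v : Fin 2 → F), v ≠ 0 → (g : Matrix (Fin 2) (Fin 2) F).mulVec v ≠ c • v) → ∃ h : Matrix.SpecialLinearGroup (Fin 2) F, h * g * h⁻¹ ∈ T') ∧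
      Nat.card (Subgroup.normalizer (T' : Set (Matrix.SpecialLinearGroup (Fin 2) F))) = 2 * (Fintype.card F + 1) ∧
      Nat.card (ConjClasses (Subgroup.normalizer (T' : Set (Matrix.SpecialLinearGroup (Fin 2) F)))) = (Fintype.card F + 7) / 2 ∧
      ∀ g : Matrix.SpecialLinearGroup (Fin 2) F, g ∈ Subgroup.normalizer (T' : Set (Matrix.SpecialLinearGroup (Fin 2) F)) → g ∉ T' → ((g * g) : Matrix (Fin 2) (Fin 2) F) = -1 := by
  have h2 := two_ne_zero_iff_odd.2 hodd
  obtain ⟨t, ht, hr⟩ := exists_orderOf_eq (F := F) (k := Fintype.card F + 1) (Or.inr dvd_rfl)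
    (by have := Fintype.one_lt_card (α := F); omega)
  rw [← Nat.card_eq_fintype_card] at ht ⊢
  have he := ell_of_orderOf ht
  have hz : Subgroup.zpowers t = torS t := Subgroup.eq_of_le_of_card_ge (zpowers_le_torS t)
    (by rw [card_torS_ell he, Nat.card_zpowers, ht])
  refine ⟨torS t, hz ▸ inferInstance, card_torS_ell he, ?_, fun g hg h1 h3 => torS_eq he.not_scal hg
    fun hs => ?_, fun g hg => ?_, by rw [card_normalizer_torS hr, card_torS_ell he], ?_,
    fun g h h' => congrArg Subtype.val (mul_self_of_not_mem hr h h')⟩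
  · conv_lhs => rw [← hz, centralizer_zpowers_eq]
  · rcases scal_sl_iff.1 hs with rfl | rfl
    exacts [h1 rfl, h3 rfl]
  · obtain ⟨z, hz, hc⟩ := exists_sl_isConj_C1 (e := ι2 t) he hg
    obtain ⟨c, hc⟩ := isConj_iff.1 hc.symm
    exact ⟨c, by rw [hc, torS_eq_comap]; exact hz⟩
  · have := card_conjClasses_normalizer h2 hr
    rw [card_torS_ell he] at this
    omega

end Cfsg.Agent.S2429
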