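import Cfsg.Statements.S2434
import Cfsg.Agent.H27.SL2c

set_option autoImplicit false
open Cfsg

namespace Cfsg.Agent.S2434

open Cfsg.Agent.H27 Cfsg.Agent.H4 Cfsg.Agent.H5


/-- Let F be a finite field with q elements, q odd, and C a cyclic subgroup of order q + 1 of SL₂ over F (a non-split torus; it contains the centre). For every homomorphism θ from C to the non-zero complex numbers with θ² ≠ 1 there is an irreducible complex character χ of degree q − 1 such that χ(c) = −θ(c) − θ(c)⁻¹ for every non-central c in C, χ(zg) = θ(z)χ(g) for central z in C, χ vanishes at diagonal elements with entry a, a² ≠ 1, and χ takes the value −1 at every upper unitriangular element other than 1. Conversely every irreducible character of degree q − 1 has, for some such θ, the values −θ(c) − θ(c)⁻¹ at the non-central elements c of C (for q ≥ 5 these are exactly the cuspidal characters of degree q − 1). -/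
theorem result {F : Type*} [Field F] [Fintype F] (hodd : Odd (Fintype.card F))
    (C : Subgroup (Matrix.SpecialLinearGroup (Fin 2) F)) (hC : IsCyclic C) (hcard : Nat.card C = Fintype.card F + 1) :
    (∀ θ : C →* ℂˣ, (∃ c : C, θ c ^ 2 ≠ 1) →
      ∃ χ : Matrix.SpecialLinearGroup (Fin 2) F → ℂ, Cfsg.IsIrrCharacter (Matrix.SpecialLinearGroup (Fin 2) F) χ ∧ χ 1 = (Fintype.card F : ℂ) - 1 ∧
        (∀ c : C, (c : Matrix.SpecialLinearGroup (Fin 2) F) ∉ Subgroup.center (Matrix.SpecialLinearGroup (Fin 2) F) → χ c = -((θ c).val + (θ c)⁻¹.val)) ∧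
        (∀ c : C, (c : Matrix.SpecialLinearGroup (Fin 2) F) ∈ Subgroup.center (Matrix.SpecialLinearGroup (Fin 2) F) → ∀ g : Matrix.SpecialLinearGroup (Fin 2) F, χ ((c : Matrix.SpecialLinearGroup (Fin 2) F) * g) = (θ c).val * χ g) ∧
        (∀ g : Matrix.SpecialLinearGroup (Fin 2) F, (g : Matrix (Fin 2) (Fin 2) F) 0 1 = 0 → (g : Matrix (Fin 2) (Fin 2) F) 1 0 = 0 → (g : Matrix (Fin 2) (Fin 2) F) 0 0 ^ 2 ≠ 1 → χ g = 0) ∧
        (∀ g : Matrix.SpecialLinearGroup (Fin 2) F, (g : Matrix (Fin 2) (Fin 2) F) 1 0 = 0 → (g : Matrix (Fin 2) (Fin 2) F) 0 0 = 1 → (g : Matrix (Fin 2) (Fin 2) F) 1 1 = 1 → (g : Matrix (Fin 2) (Fin 2) F) 0 1 ≠ 0 → χ g = -1)) ∧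
    (∀ χ : Matrix.SpecialLinearGroup (Fin 2) F → ℂ, Cfsg.IsIrrCharacter (Matrix.SpecialLinearGroup (Fin 2) F) χ → χ 1 = (Fintype.card F : ℂ) - 1 →
      ∃ θ : C →* ℂˣ, (∃ c : C, θ c ^ 2 ≠ 1) ∧
        ∀ c : C, (c : Matrix.SpecialLinearGroup (Fin 2) F) ∉ Subgroup.center (Matrix.SpecialLinearGroup (Fin 2) F) → χ c = -((θ c).val + (θ c)⁻¹.val)) := by
  classical
  have h2 := two_ne_zero_iff_odd.2 hodd
  rw [← Nat.card_eq_fintype_card] at hodd hcard ⊢
  obtain ⟨e, he, rfl⟩ := exists_eq_C1 hC hcard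
  simp only [← scal_iff_mem_center, ← ne_inv_iff, ← map_inv]
  refine ⟨fun θ hθ => ⟨cuS he θ, isIrr_cuS he hθ, cuS_one he θ, fun c hc => cuS_C1 he θ c hc,
    fun c hc g => ?_, fun g _ h1 h3 => ?_, fun g h1 h3 _ h4 => ?_⟩, fun χ hχ h => ?_⟩
  · have hi := isIrr_cuS he hθ
    rw [apply_mul_of_mem_charCenter (hi.center_le_charCenter (scal_iff_mem_center.1 hc))
      hi.apply_one_ne_zero]
    obtain ⟨a, ha⟩ := exists_mu2 hc
    obtain rfl : c = scC e a := Subtype.ext ha
    rw [scC_coe, cuS_scal, cuS_one, mul_div_cancel_left₀ _ cast_q_sub_one_ne_zero]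
  · obtain ⟨a, x, rfl⟩ := exists_triS h1
    exact cuS_spl he _ (spl_triS (fun e => h3 (by simpa using congrArg Units.val e)) x)
  · obtain ⟨a, x, rfl⟩ := exists_triS h1
    obtain rfl : a = 1 := Units.ext (by simpa using h3)
    exact cuS_u he _ (by simpa using h4)
  · rcases mem_famCS_or_of_deg hχ he h with ⟨θ, rfl⟩ | h1 | ⟨h3, h1⟩
    · exact ⟨θ.1, θ.2, fun c hc => cuS_C1 he _ c hc⟩
    · rw [h1] at hodd; exact absurd hodd (by decide)
    · obtain ⟨θ, hθ⟩ := exists_ne_inv_C1 he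
      refine ⟨θ, hθ, fun c hc => ?_⟩
      rw [famHP_ell h1 (ell_of_mem_C1 he c.2 hc), sum_eq_zero_of_three h3 he hθ c hc, neg_zero]

end Cfsg.Agent.S2434
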