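import Cfsg.Statements.S2435
import Cfsg.Agent.H27.SL2c

set_option autoImplicit false
open Cfsg

namespace Cfsg.Agent.S2435

open Cfsg.Agent.H27 Cfsg.Agent.H4 Cfsg.Agent.H5


/-- Let F be a finite field with q elements, q odd and q ≥ 5, and χ an irreducible complex character of SL₂ over F. If χ has degree (q + 1)/2, then at a diagonal element with entry a, a² ≠ 1, χ takes the value 1 when a is a square in F and −1 otherwise. If χ has degree (q − 1)/2, then at an element g with no eigenvector in F² (so g has order dividing q + 1), χ takes the value −1 when g raised to the power (q + 1)/2 is the identity and the value 1 otherwise. -/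
theorem result {F : Type*} [Field F] [Fintype F] (hodd : Odd (Fintype.card F)) (hq : 5 ≤ Fintype.card F)
    (χ : Matrix.SpecialLinearGroup (Fin 2) F → ℂ) (hχ : Cfsg.IsIrrCharacter (Matrix.SpecialLinearGroup (Fin 2) F) χ) (g : Matrix.SpecialLinearGroup (Fin 2) F) :
    (χ 1 = (((Fintype.card F + 1) / 2 : ℕ) : ℂ) → (g : Matrix (Fin 2) (Fin 2) F) 0 1 = 0 → (g : Matrix (Fin 2) (Fin 2) F) 1 0 = 0 → (g : Matrix (Fin 2) (Fin 2) F) 0 0 ^ 2 ≠ 1 →
      (IsSquare ((g : Matrix (Fin 2) (Fin 2) F) 0 0) → χ g = 1) ∧ (¬ IsSquare ((g : Matrix (Fin 2) (Fin 2) F) 0 0) → χ g = -1)) ∧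
    (χ 1 = (((Fintype.card F - 1) / 2 : ℕ) : ℂ) → (∀ (c : F) (v : Fin 2 → F), v ≠ 0 → (g : Matrix (Fin 2) (Fin 2) F).mulVec v ≠ c • v) →
      (((g ^ ((Fintype.card F + 1) / 2)) : Matrix (Fin 2) (Fin 2) F) = 1 → χ g = -1) ∧ (((g ^ ((Fintype.card F + 1) / 2)) : Matrix (Fin 2) (Fin 2) F) ≠ 1 → χ g = 1)) := by
  classical
  obtain ⟨e, he⟩ := exists_ell F
  rw [← Nat.card_eq_fintype_card] at hodd hq ⊢
  rw [cast_half_add hodd, cast_half_sub hodd]
  refine ⟨fun h _ h1 h3 => ?_, fun h hg => ?_⟩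
  · obtain ⟨a, x, rfl⟩ := exists_triS h1
    have ha : a ^ 2 ≠ 1 := fun e => h3 (by simpa using congrArg Units.val e)
    obtain ⟨α, ψ, h4, h5, H⟩ := mem_famHP_of_deg hχ (by omega) h
    have h6 := H.two_mul (g := triS a x) fun h => h.not_spl (spl_triS ha x)
    have h7 : IsSquare ((a⁻¹ : Fˣ) : F) ↔ IsSquare (a : F) := by simp
    rw [psS_spl _ ha] at h6
    change (IsSquare (a : F) → _) ∧ (¬ IsSquare (a : F) → _)
    refine ⟨fun hs => ?_, fun hs => ?_⟩
    · rw [(quad_apply h4 h5 _).1 hs, (quad_apply h4 h5 _).1 (h7.2 hs)] at h6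
      linear_combination h6 / 2
    · rw [(quad_apply h4 h5 _).2 hs, (quad_apply h4 h5 _).2 (h7.not.2 hs)] at h6
      linear_combination h6 / 2
  · obtain ⟨θ, ψ, h4, h5, H⟩ := mem_famHC_of_deg hχ he (by omega) h
    obtain ⟨z, hz, hc⟩ := exists_sl_isConj_C1 he hg
    have hs : ¬ Scal (z : M2 F) := fun h => Ell.not_scal hg ((IsConj.s2_scal hc).1 h)
    have h6 := H.two_mul (g := z) fun h => h.not_ell (ell_of_mem_C1 he hz hs)
    have h7 := cuS_C1 he θ ⟨z, hz⟩ hs
    have h8 : θ ⟨z, hz⟩⁻¹ = θ ⟨z, hz⟩ := by rw [map_inv]; exact (DFunLike.congr_fun h4 _).symm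
    have h9 : ((g : M2 F) ^ ((Nat.card F + 1) / 2) = 1) ↔
        (⟨z, hz⟩ : C1 e) ^ ((Nat.card F + 1) / 2) = 1 := by
      rw [Subtype.ext_iff, SubmonoidClass.coe_pow, OneMemClass.coe_one, IsConj.pow_eq_one' hc,
        ← Matrix.SpecialLinearGroup.coe_pow]
      exact ⟨fun h => Subtype.ext h, fun h => by rw [h]; rfl⟩
    rw [← hχ.isClassFunction.of_isConj hc, ne_eq, h9]
    rw [h8, ← h6] at h7
    refine ⟨fun hs => ?_, fun hs => ?_⟩
    · rw [(quadC_apply he h4 h5 _).1 hs] at h7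
      simp only [Units.val_one] at h7
      linear_combination h7 / 2
    · rw [(quadC_apply he h4 h5 _).2 hs] at h7
      simp only [Units.val_neg, Units.val_one] at h7
      linear_combination h7 / 2

end Cfsg.Agent.S2435
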