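import Cfsg.Statements.S2436
import Cfsg.Agent.H27.SL2d

set_option autoImplicit false
open Cfsg

namespace Cfsg.Agent.S2436

open Cfsg.Agent.H27 Cfsg.Agent.H4 Cfsg.Agent.H5 Cfsg.Agent.H12
open scoped MatrixGroups commutatorElement

theorem deg_cases {F : Type*} [Field F] [Finite F] [Fintype SL(2, F)] [Fintype (G2 F)] {e : G2 F}
    (he : Ell (e : M2 F)) {χ : SL(2, F) → ℂ} (hχ : IsIrrCharacter _ χ) :
    (χ = (fun _ => 1) ∧ charDegree χ = 1) ∨ (χ = stS F ∧ charDegree χ = Nat.card F) ∨
    (χ ∈ famPS F ∧ charDegree χ = Nat.card F + 1) ∨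
    (χ ∈ famCS he ∧ charDegree χ + 1 = Nat.card F) ∨
    (χ ∈ famHP F ∧ 2 * charDegree χ = Nat.card F + 1) ∨
    (χ ∈ famHC he ∧ 2 * charDegree χ + 1 = Nat.card F) := by
  have hd := hχ.isCharacter.charDegree_cast
  refine (sl_irr_cases he hχ).imp (fun h => ⟨h, ?_⟩) (Or.imp (fun h => ⟨h, ?_⟩) (Or.imp
    (fun h => ⟨h, ?_⟩) (Or.imp (fun h => ⟨h, ?_⟩) (Or.imp (fun h => ⟨h, ?_⟩) fun h => ⟨h, ?_⟩)))) <;>
    apply Nat.cast_injective (R := ℂ) <;> push_cast <;> rw [hd]
  · rw [h]
  · rw [h, stS_one]
  · exact famPS_deg h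
  · rw [famCS_deg h]; ring
  · exact famHP_deg h
  · rw [famHC_deg h]; ring

theorem card_union {X : Type*} {s t : Set X} (hs : s.Finite) (ht : t.Finite) (h : Disjoint s t) :
    Nat.card (s ∪ t : Set X) = Nat.card s + Nat.card t := by
  simp only [Nat.card_coe_set_eq]; exact Set.ncard_union_eq h hs ht

theorem mck_two {F : Type*} [Field F] [Finite F] (h2 : (2 : F) ≠ 0) : mck 2 SL(2, F) = 4 := by
  classical
  have := Fintype.ofFinite SL(2, F)
  have := Fintype.ofFinite (G2 F)
  obtain ⟨e, he⟩ := exists_ell F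
  have hodd := odd_natCard h2
  have h1 := two_le_card F
  have k1 : Nat.card ({fun _ => 1, stS F} : Set (SL(2, F) → ℂ)) = 2 := by
    rw [Nat.card_coe_set_eq, Set.ncard_pair]
    intro h
    exact cast_q_ne_one (F := F) (by rw [← stS_one, ← h])
  have k2 : ∀ χ ∈ ({fun _ => 1, stS F} : Set (SL(2, F) → ℂ)), IsIrrCharacter _ χ := by
    rintro _ (rfl | rfl)
    exacts [(irrOne _).2, isIrr_stS]
  have d1 : charDegree (fun _ : SL(2, F) => (1 : ℂ)) = 1 := charDegree_eq_of (by simp)
  have d2 : charDegree (stS F) = Nat.card F := charDegree_eq_of stS_one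
  obtain ⟨k, hk⟩ := hodd
  rcases Nat.even_or_odd k with ⟨m, hm⟩ | ⟨m, hm⟩
  · rw [mck, card_irr_of_iff (s := {fun _ => 1, stS F} ∪ famHP F)
      (fun χ h => h.elim (k2 χ) (famHP_irr χ)) (fun χ => ¬ 2 ∣ charDegree χ) fun χ hχ => ?_,
      card_union (Set.toFinite _) (finite_of_irr famHP_irr) ?_, k1, card_famHP h2]
    · rw [Set.disjoint_left]
      rintro _ (rfl | rfl) h
      · exact cast_q_ne_one (F := F) (by linear_combination -famHP_deg h)
      · exact cast_q_ne_one (F := F) (by linear_combination famHP_deg h - 2 * stS_one (F := F))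
    · constructor
      · intro h
        rcases deg_cases he hχ with h | h | h | h | h | h
        · exact Or.inl (Or.inl h.1)
        · exact Or.inl (Or.inr h.1)
        · omega
        · omega
        · exact Or.inr h.1
        · omega
      · rintro ((rfl | rfl) | h)
        · omega
        · omega
        · have : 2 * charDegree χ = Nat.card F + 1 := Nat.cast_injective (R := ℂ) (by
            push_cast; rw [hχ.isCharacter.charDegree_cast, famHP_deg h])
          omega
  · rw [mck, card_irr_of_iff (s := {fun _ => 1, stS F} ∪ famHC he)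
      (fun χ h => h.elim (k2 χ) (famHC_irr χ)) (fun χ => ¬ 2 ∣ charDegree χ) fun χ hχ => ?_,
      card_union (Set.toFinite _) (finite_of_irr famHC_irr) ?_, k1, card_famHC h2]
    · rw [Set.disjoint_left]
      rintro _ (rfl | rfl) h
      · have h3 := cast_q_eq (F := F) (n := 3) (by push_cast; linear_combination -famHC_deg h)
        obtain ⟨θ, ψ, -, -, H⟩ := h
        have := H.sq_at_u
        rw [cuS_u he _ one_ne_zero, h3] at this
        norm_num at this
      · exact cast_q_add_one_ne_zero (F := F)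
          (by linear_combination famHC_deg h - 2 * stS_one (F := F))
    · constructor
      · intro h
        rcases deg_cases he hχ with h | h | h | h | h | h
        · exact Or.inl (Or.inl h.1)
        · exact Or.inl (Or.inr h.1)
        · omega
        · omega
        · omega
        · exact Or.inr h.1
      · rintro ((rfl | rfl) | h)
        · omega
        · omega
        · have : 2 * charDegree χ + 1 = Nat.card F := Nat.cast_injective (R := ℂ) (by
            push_cast; rw [hχ.isCharacter.charDegree_cast, famHC_deg h]; ring)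
          omega

theorem normalizer_equiv {G : Type*} [Group G] [Finite G] {p : ℕ} [Fact p.Prime] (S T : Sylow p G) :
    Nonempty (Subgroup.normalizer ((S : Subgroup G) : Set G) ≃*
      Subgroup.normalizer ((T : Subgroup G) : Set G)) := by
  obtain ⟨g, rfl⟩ := MulAction.exists_smul_eq G S T
  rw [show ((g • S : Sylow p G) : Subgroup G) = (S : Subgroup G).map (MulAut.conj g).toMonoidHom
    from rfl, ← Subgroup.map_equiv_normalizer_eq]
  exact ⟨MulEquiv.subgroupMap (MulAut.conj g) _⟩


/-- Let F be a finite field with q elements, q odd, ℓ any prime and S a Sylow ℓ-subgroup of SL₂ over F with normaliser N. Then SL₂ and N have the same number of irreducible complex characters of degree not divisible by ℓ (the McKay equality holds for SL₂ over F at every prime). -/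
theorem result {F : Type*} [Field F] [Fintype F] (hodd : Odd (Fintype.card F)) (ℓ : ℕ) [Fact ℓ.Prime] (S : Sylow ℓ (Matrix.SpecialLinearGroup (Fin 2) F)) :
    Nat.card {χ : Cfsg.IrrCharacter (Matrix.SpecialLinearGroup (Fin 2) F) // ¬ ℓ ∣ Cfsg.charDegree (χ : Matrix.SpecialLinearGroup (Fin 2) F → ℂ)} =
      Nat.card {ψ : Cfsg.IrrCharacter (Subgroup.normalizer ((S : Subgroup (Matrix.SpecialLinearGroup (Fin 2) F)) : Set (Matrix.SpecialLinearGroup (Fin 2) F))) //
        ¬ ℓ ∣ Cfsg.charDegree (ψ : Subgroup.normalizer ((S : Subgroup (Matrix.SpecialLinearGroup (Fin 2) F)) : Set (Matrix.SpecialLinearGroup (Fin 2) F)) → ℂ)} := by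
  classical
  have h2 := two_ne_zero_iff_odd.2 hodd
  have hl : ℓ.Prime := Fact.out
  obtain ⟨e, he⟩ := exists_ell F
  change mck ℓ _ = mck ℓ _
  have hq := two_le_card F
  have hodd' := odd_natCard h2
  have nd : ∀ {a b c : ℕ}, ℓ ∣ a → ℓ ∣ b → a = b + c → ℓ ∣ c := fun ha hb e =>
    (Nat.dvd_add_right hb).1 (e ▸ ha)
  by_cases hG : ℓ ∣ Nat.card SL(2, F); swap
  · have : (S : Subgroup SL(2, F)) = ⊥ := by
      obtain ⟨n, hn⟩ := S.2.exists_card_eq
      rcases n with _ | n
      · exact Subgroup.eq_bot_of_card_eq _ hn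
      · exact (hG ((dvd_pow_self _ n.succ_ne_zero).trans
          (hn ▸ Subgroup.card_subgroup_dvd_card _))).elim
    rw [this, Subgroup.normalizer_eq_top]
    exact mck_congr _ Subgroup.topEquiv.symm
  by_cases hl2 : ℓ = 2
  · subst hl2
    obtain ⟨k, t, w, hk, ht, ho, hc, htS, hwS, hw, hS⟩ := sylow_two hodd S
    set N := Subgroup.normalizer ((S : Subgroup SL(2, F)) : Set SL(2, F)) with hN
    have hSN : (S : Subgroup SL(2, F)) ≤ N := Subgroup.le_normalizer
    have hi : ¬ 2 ∣ ((S : Subgroup SL(2, F)).subgroupOf N).index := (S.subtype hSN).not_dvd_index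
    rw [mck_two h2, mck_eq_of_normal 2 ((S : Subgroup SL(2, F)).subgroupOf N)
      (S.subtype hSN).2 hi]
    have hD := dic_of_le ht (two_le_normalizer ht hw hS) hwS (w_not_mem ht hw)
    have hm : -1 ∈ (S : Subgroup SL(2, F)) := by
      rw [← mul_self_of_not_mem ht (two_le_normalizer ht hw hS hwS) (w_not_mem ht hw)]
      exact Subgroup.mul_mem _ hwS hwS
    have h4 := hD.index_commutator
    rw [card_sq_subgroupOf h2 (neg_one_mem_torS t) hm] at h4
    set P := (S : Subgroup SL(2, F)).subgroupOf N with hP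
    let e1 := Subgroup.subgroupOfEquivOfLe hSN
    have h5 : Nat.card (⁅P, P⁆ : Subgroup N) = 2 ^ k := by
      rw [← P.map_subtype_commutator, Subgroup.card_subtype,
        Nat.card_congr (e1.subgroupMap (commutator _)).toEquiv, map_commutator_eq,
        MonoidHom.range_eq_top.2 e1.surjective, ← commutator_def]
      have := (commutator (S : Subgroup SL(2, F))).index_mul_card
      rw [h4, hc] at this
      omega
    have h6 := Subgroup.card_eq_card_quotient_mul_card_subgroup (⁅P, P⁆ : Subgroup N)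
    rw [h5] at h6
    by_cases hk1 : k = 1
    · subst hk1
      obtain ⟨h7, u, hu, hu'⟩ := two_normalizer_eight ht htS hwS hw hS h2 ho hc
      have h8 : Nat.card (N ⧸ ⁅P, P⁆) = 12 := by rw [← hN] at h7; omega
      symm
      refine card_irr_twelve h8 (P.map (QuotientGroup.mk' ⁅P, P⁆)) ?_ ?_ fun hcomm => ?_
      · rintro _ ⟨a, ha, rfl⟩ _ ⟨b, hb, rfl⟩
        rw [← map_mul, ← map_mul, QuotientGroup.mk'_apply, QuotientGroup.mk'_apply,
          QuotientGroup.eq]
        have := Subgroup.commutator_mem_commutator (P.inv_mem hb) (P.inv_mem ha)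
        rw [commutatorElement_def] at this
        convert this using 1; group
      · rw [Subgroup.index_map_eq _ (QuotientGroup.mk'_surjective _) (by
          rw [QuotientGroup.ker_mk']; exact Subgroup.commutator_le_right _ _)]
        exact index_of_card_mul ((Nat.card_congr e1.toEquiv).trans hc) h7
      · have h9 := hcomm (QuotientGroup.mk ⟨t, hSN htS⟩⁻¹) (QuotientGroup.mk ⟨u, hu⟩⁻¹)
        rw [← QuotientGroup.mk_mul, ← QuotientGroup.mk_mul, QuotientGroup.eq,
          ← P.map_subtype_commutator] at h9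
        obtain ⟨y, hy, hy'⟩ := h9
        have h10 : e1 y ∈ commutator (S : Subgroup SL(2, F)) := by
          have := Subgroup.mem_map_of_mem e1.toMonoidHom hy
          rwa [map_commutator_eq, MonoidHom.range_eq_top.2 e1.surjective] at this
        obtain ⟨s, hs, hs'⟩ := hD.mem_commutator_iff.1 h10
        have h11 : u * t * u⁻¹ * t⁻¹ = s.1 ^ 2 := by
          have h12 := congrArg Subtype.val hs'
          have h13 := congrArg Subtype.val hy'
          simp only [mul_inv_rev, inv_inv, Subgroup.coe_mul, InvMemClass.coe_inv] at h13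
          rw [mul_assoc, ← h13]; exact h12
        apply w_not_mem ht hw
        have := (torS t).mul_mem ((torS t).pow_mem hs 2) (self_mem_torS t)
        erw [← h11, hu', inv_mul_cancel_right] at this
        exact this
    · have h7 : N = S := two_normalizer_eq ht htS hwS hw hS fun h => by
        have := Nat.le_of_dvd (by norm_num) h
        have := Nat.pow_le_pow_right two_pos (show 2 ≤ k by omega)
        omega
      have h8 : Nat.card (N ⧸ ⁅P, P⁆) = 2 ^ 2 := by
        rw [show Nat.card N = 4 * 2 ^ k by rw [h7, hc]] at h6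
        exact Nat.eq_of_mul_eq_mul_right (by positivity) h6.symm
      rw [card_irr_of_comm (IsPGroup.commGroupOfCardEqPrimeSq h8).mul_comm, h8]; rfl
  have c2 : ∀ {a}, ℓ ∣ 2 * a ↔ ℓ ∣ a := (Nat.Coprime.dvd_mul_left
    ((Nat.coprime_primes hl Nat.prime_two).2 hl2))
  have n1 : ¬ ℓ ∣ 1 := hl.one_lt.ne' ∘ Nat.dvd_one.1
  have n2 : ¬ ℓ ∣ 2 := fun h => n1 (c2.1 h)
  have tor : ∀ N, N = Fintype.card F - 1 ∨ N = Fintype.card F + 1 → ℓ ∣ N →
      2 * mck ℓ (Subgroup.normalizer ((S : Subgroup SL(2, F)) : Set SL(2, F))) = N + 6 :=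
    fun N hN hd => by
      obtain ⟨y, hy, e, h1, -⟩ := sylow_odd hl2 S hN hd
      have hD := dic_normalizer hy
      haveI := Subgroup.normal_of_index_eq_two hD.idx
      rw [e, normalizer_zpowers_eq hy, mck_eq_of_abelian ℓ _ hD.comm (by rw [hD.idx]; exact n2),
        card_conjClasses_normalizer h2 hy, h1]
  rw [← Nat.card_eq_fintype_card] at tor
  have fPS := card_famPS (F := F)
  have fCS := card_famCS (he := he)
  rw [card_sq_eq_one_odd h2] at fPS fCS
  have dg : ∀ χ : SL(2, F) → ℂ, IsIrrCharacter _ χ → (χ ∈ famPS F → charDegree χ = Nat.card F + 1) ∧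
      (χ ∈ famCS he → charDegree χ + 1 = Nat.card F) ∧
      (χ ∈ famHP F → 2 * charDegree χ = Nat.card F + 1) ∧
      (χ ∈ famHC he → 2 * charDegree χ + 1 = Nat.card F) := fun χ hχ => by
    refine ⟨fun h => ?_, fun h => ?_, fun h => ?_, fun h => ?_⟩ <;>
      apply Nat.cast_injective (R := ℂ) <;> push_cast <;> rw [hχ.isCharacter.charDegree_cast]
    · exact famPS_deg h
    · rw [famCS_deg h]; ring
    · exact famHP_deg h
    · rw [famHC_deg h]; ring
  rw [card_S2, sq_sub_one_nat, hl.dvd_mul, hl.dvd_mul] at hG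
  rcases hG with hG | hG | hG
  · obtain ⟨p, hp⟩ := CharP.exists F
    obtain ⟨n, hp', hn⟩ := FiniteField.card F p
    rw [← Nat.card_eq_fintype_card] at hn
    obtain rfl : ℓ = p := (Nat.prime_dvd_prime_iff_eq hl hp').1 (hl.dvd_of_dvd_pow (hn ▸ hG))
    obtain ⟨f⟩ := normalizer_equiv S (rootSylow ℓ (inf F))
    have hB : Subgroup.normalizer ((rootSylow ℓ (inf F) : Subgroup SL(2, F)) : Set SL(2, F)) =
        BorS F := by
      ext g
      rw [coe_rootSylow, mem_normalizer_rootSL, mem_BorS]
      exact gl_smul_inf_eq_inf_iff (ι2 g)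
    rw [mck_congr ℓ f, mck_eq_of_abelian ℓ ((rootSylow ℓ (inf F) : Subgroup SL(2, F)).subgroupOf _)
      ?_ ((rootSylow ℓ (inf F)).subtype Subgroup.le_normalizer).not_dvd_index, hB,
      card_conjClasses_BorS h2, mck_eq_sub ℓ (s := {stS F}) (by rintro _ rfl; exact isIrr_stS)
      fun χ hχ => ⟨fun h => ?_, ?_⟩, card_conjClasses_S2_odd h2]
    · simp
    · rcases deg_cases he hχ with h1 | h1 | h1 | h1 | h1 | h1
      · exact (n1 (h1.2 ▸ h)).elim
      · exact h1.1
      · exact (n1 (nd h hG h1.2)).elim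
      · exact (n1 (nd hG h h1.2.symm)).elim
      · exact (n1 (nd (c2.2 h) hG h1.2)).elim
      · exact (n1 (nd hG (c2.2 h) h1.2.symm)).elim
    · rintro rfl
      rwa [charDegree_eq_of stS_one]
    · intro a ha b hb
      obtain ⟨x, hx⟩ := mem_rootSL_inf.1 ha
      obtain ⟨y, hy⟩ := mem_rootSL_inf.1 hb
      apply Subtype.ext
      change a.1 = _ at hx
      change b.1 = _ at hy
      rw [Subgroup.coe_mul, Subgroup.coe_mul, hx, hy, ← upper_add, ← upper_add, add_comm]
  · have h3 := tor _ (Or.inl rfl) hG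
    rw [mck_eq_sub ℓ (s := famCS he ∪ famHC he) (fun χ h => h.elim (famCS_irr χ) (famHC_irr χ))
      fun χ hχ => ⟨fun h => ?_, ?_⟩, card_conjClasses_S2_odd h2,
      card_union (finite_of_irr famCS_irr) (finite_of_irr famHC_irr) ?_, card_famHC h2]
    · omega
    · rw [Set.disjoint_left]
      intro χ h1 h3
      have := (dg χ (famCS_irr χ h1)).2.1 h1
      have := (dg χ (famCS_irr χ h1)).2.2.2 h3
      omega
    · rcases deg_cases he hχ with h1 | h1 | h1 | h1 | h1 | h1
      · exact (n1 (h1.2 ▸ h)).elim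
      · exact (n1 (nd h hG (by omega))).elim
      · exact (n2 (nd h hG (by omega))).elim
      · exact Or.inl h1.1
      · exact (n2 (nd (c2.2 h) hG (by omega))).elim
      · exact Or.inr h1.1
    · rintro (h | h)
      · rwa [← (dg χ hχ).2.1 h] at hG
      · rw [← (dg χ hχ).2.2.2 h] at hG; exact c2.1 hG
  · have h3 := tor _ (Or.inr rfl) hG
    rw [mck_eq_sub ℓ (s := famPS F ∪ famHP F) (fun χ h => h.elim (famPS_irr χ) (famHP_irr χ))
      fun χ hχ => ⟨fun h => ?_, ?_⟩, card_conjClasses_S2_odd h2,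
      card_union (finite_of_irr famPS_irr) (finite_of_irr famHP_irr) ?_, card_famHP h2]
    · obtain ⟨k, hk⟩ := hodd'
      omega
    · rw [Set.disjoint_left]
      intro χ h1 h3
      have := (dg χ (famPS_irr χ h1)).1 h1
      have := (dg χ (famPS_irr χ h1)).2.2.1 h3
      omega
    · rcases deg_cases he hχ with h1 | h1 | h1 | h1 | h1 | h1
      · exact (n1 (h1.2 ▸ h)).elim
      · exact (n1 (nd hG h (by omega))).elim
      · exact Or.inl h1.1
      · exact (n2 (nd hG h (by omega))).elim
      · exact Or.inr h1.1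
      · exact (n2 (nd hG (c2.2 h) (by omega))).elim
    · rintro (h | h)
      · rwa [← (dg χ hχ).1 h] at hG
      · rw [← (dg χ hχ).2.2.1 h] at hG; exact c2.1 hG

end Cfsg.Agent.S2436
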