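import Cfsg.Statements.S2438
import Cfsg.Agent.H27.SL2d

set_option autoImplicit false
open Cfsg

namespace Cfsg.Agent.S2438

open Cfsg.Agent.H27 Cfsg.Agent.H4 Cfsg.Agent.H5 Cfsg.Agent.H12
open scoped MatrixGroups commutatorElement

theorem sum_U {F : Type*} [Field F] [Fintype F] [DecidableEq F] (χ : SL(2, F) → ℂ) :
    (∑ g : SL(2, F), if (g : M2 F) 1 0 = 0 ∧ (g : M2 F) 0 0 = 1 ∧ (g : M2 F) 1 1 = 1 then χ g else 0) =
      ∑ x : F, χ (triS 1 x) := by
  rw [← Finset.sum_filter]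
  symm
  refine Finset.sum_bij (fun x _ => triS 1 x) (fun x _ => by simp) (fun a _ b _ h => (triS_inj.1 h).2)
    (fun g hg => ?_) fun _ _ => rfl
  simp only [Finset.mem_filter, Finset.mem_univ, true_and] at hg
  obtain ⟨a, x, rfl⟩ := exists_triS hg.1
  obtain rfl : a = 1 := Units.ext (by simpa using hg.2.1)
  exact ⟨x, Finset.mem_univ _, rfl⟩

theorem sum_val {F : Type*} [Field F] [Fintype F] (χ : SL(2, F) → ℂ) {c : ℂ}
    (h : ∀ x, x ≠ 0 → χ (triS 1 x) = c) : ∑ x : F, χ (triS 1 x) = χ 1 + (Nat.card F - 1) * c := by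
  classical
  rw [← Finset.add_sum_erase _ _ (Finset.mem_univ 0), triS_one_zero, Finset.sum_congr rfl
    (g := fun _ => c) fun x hx => h x (Finset.ne_of_mem_erase hx), Finset.sum_const,
    Finset.card_erase_of_mem (Finset.mem_univ _), Finset.card_univ, ← Nat.card_eq_fintype_card,
    nsmul_eq_mul, cast_q_sub_one]

theorem sum_half {F : Type*} [Field F] [Fintype F] {ρ χ ψ : SL(2, F) → ℂ} (H : HalfPair ρ χ ψ) :
    2 * ∑ x : F, χ (triS 1 x) = ∑ x : F, ρ (triS 1 x) := by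
  have := H.sum_delta ⟨1, one_pow 2⟩
  rw [Finset.sum_sub_distrib] at this
  simp only [H.sum, Pi.add_apply, Finset.sum_add_distrib]
  linear_combination this


/-- Let F be a finite field with q elements, q odd, q ≥ 5, U the upper unitriangular subgroup of SL₂ over F, and χ an irreducible complex character. The sum of the values of χ over U equals 2q, q, 0, q, 0 according as the degree of χ is q + 1, q, q − 1, (q + 1)/2, (q − 1)/2; so among these five degrees the sum vanishes exactly for the degrees q − 1 and (q − 1)/2, i.e. the irreducible characters of those two degrees are the ones whose restriction to U does not contain the trivial character (the cuspidal characters), while those of degree q + 1, q and (q + 1)/2 are not cuspidal. -/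
theorem result {F : Type*} [Field F] [Fintype F] [DecidableEq F] (hodd : Odd (Fintype.card F)) (hq : 5 ≤ Fintype.card F)
    (χ : Matrix.SpecialLinearGroup (Fin 2) F → ℂ) (hχ : Cfsg.IsIrrCharacter (Matrix.SpecialLinearGroup (Fin 2) F) χ) :
    (χ 1 = (Fintype.card F : ℂ) + 1 →
      (∑ g : Matrix.SpecialLinearGroup (Fin 2) F, if (g : Matrix (Fin 2) (Fin 2) F) 1 0 = 0 ∧ (g : Matrix (Fin 2) (Fin 2) F) 0 0 = 1 ∧ (g : Matrix (Fin 2) (Fin 2) F) 1 1 = 1 then χ g else 0) = 2 * (Fintype.card F : ℂ)) ∧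
    (χ 1 = (Fintype.card F : ℂ) →
      (∑ g : Matrix.SpecialLinearGroup (Fin 2) F, if (g : Matrix (Fin 2) (Fin 2) F) 1 0 = 0 ∧ (g : Matrix (Fin 2) (Fin 2) F) 0 0 = 1 ∧ (g : Matrix (Fin 2) (Fin 2) F) 1 1 = 1 then χ g else 0) = (Fintype.card F : ℂ)) ∧
    (χ 1 = (Fintype.card F : ℂ) - 1 →
      (∑ g : Matrix.SpecialLinearGroup (Fin 2) F, if (g : Matrix (Fin 2) (Fin 2) F) 1 0 = 0 ∧ (g : Matrix (Fin 2) (Fin 2) F) 0 0 = 1 ∧ (g : Matrix (Fin 2) (Fin 2) F) 1 1 = 1 then χ g else 0) = 0) ∧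
    (χ 1 = (((Fintype.card F + 1) / 2 : ℕ) : ℂ) →
      (∑ g : Matrix.SpecialLinearGroup (Fin 2) F, if (g : Matrix (Fin 2) (Fin 2) F) 1 0 = 0 ∧ (g : Matrix (Fin 2) (Fin 2) F) 0 0 = 1 ∧ (g : Matrix (Fin 2) (Fin 2) F) 1 1 = 1 then χ g else 0) = (Fintype.card F : ℂ)) ∧
    (χ 1 = (((Fintype.card F - 1) / 2 : ℕ) : ℂ) →
      (∑ g : Matrix.SpecialLinearGroup (Fin 2) F, if (g : Matrix (Fin 2) (Fin 2) F) 1 0 = 0 ∧ (g : Matrix (Fin 2) (Fin 2) F) 0 0 = 1 ∧ (g : Matrix (Fin 2) (Fin 2) F) 1 1 = 1 then χ g else 0) = 0) := by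
  classical
  obtain ⟨e, he⟩ := exists_ell F
  rw [← Nat.card_eq_fintype_card] at hq hodd ⊢
  rw [cast_half_add hodd, cast_half_sub hodd, sum_U]
  refine ⟨fun h => ?_, fun h => ?_, fun h => ?_, fun h => ?_, fun h => ?_⟩
  · obtain ⟨α, rfl⟩ := mem_famPS_of_deg hχ h
    rw [sum_val _ fun x hx => psS_u _ hx, psS_one]; ring
  · obtain rfl := eq_stS_of_deg hχ h
    rw [sum_val _ fun x hx => stS_uni ⟨1, one_pow 2⟩ hx, h]; ring
  · obtain ⟨α, rfl⟩ := mem_famCS_of_deg hχ he (by omega) h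
    rw [sum_val _ fun x hx => cuS_u he _ hx, cuS_one]; ring
  · obtain ⟨α, ψ, -, -, H⟩ := mem_famHP_of_deg hχ (by omega) h
    have := sum_half H
    rw [sum_val (psS α) fun x hx => psS_u _ hx, psS_one] at this
    linear_combination this / 2
  · obtain ⟨α, ψ, -, -, H⟩ := mem_famHC_of_deg hχ he (by omega) h
    have := sum_half H
    rw [sum_val (cuS he α) fun x hx => cuS_u he _ hx, cuS_one] at this
    linear_combination this / 2

end Cfsg.Agent.S2438
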