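import Cfsg.Statements.S2439
import Cfsg.Agent.H27.SL2d
import Cfsg.Agent.H6.Weak

set_option autoImplicit false
open Cfsg

namespace Cfsg.Agent.S2439

open Cfsg.Agent.H27 Cfsg.Agent.H4 Cfsg.Agent.H5 Cfsg.Agent.H12 Cfsg.Agent.H6
open scoped MatrixGroups commutatorElement

section
variable {F : Type*} [Field F] [Fintype F] {p : ℕ} [Fact p.Prime] [CharP F p]
  {M : Ideal AlgInt} [M.IsMaximal] (hM : IsPModular p M) {χ ψ : SL(2, F) → ℂ}

theorem not_dvd_deg (hχ : IsIrrCharacter _ χ) (h : χ 1 ≠ Nat.card F) : ¬ p ∣ charDegree χ := by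
  classical
  obtain ⟨e, he⟩ := exists_ell F
  have hq := char_dvd_natCard (F := F) p
  have hd := hχ.isCharacter.charDegree_cast
  have n1 : ¬ p ∣ 1 := (Fact.out : p.Prime).one_lt.ne' ∘ Nat.dvd_one.1
  have nd : ∀ {a b : ℕ}, p ∣ a → p ∣ b → (a : ℂ) = b + 1 → False := fun ha hb e =>
    n1 ((Nat.dvd_add_right hb).1 ((by exact_mod_cast e : _ = _ + 1) ▸ ha))
  intro hp
  rcases sl_irr_cases he hχ with rfl | rfl | h1 | h1 | h1 | h1
  · exact nd hp (dvd_zero p) (by rw [hd]; simp)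
  · exact h stS_one
  · exact nd hp hq (by rw [hd, famPS_deg h1])
  · exact nd hq hp (by rw [hd, famCS_deg h1]; ring)
  · exact nd (hp.mul_left 2) hq (by push_cast; rw [hd, famHP_deg h1])
  · exact nd hq (hp.mul_left 2) (by push_cast; rw [hd, famHC_deg h1]; ring)

theorem dvd_orderOf_of_uni {g : SL(2, F)} (h : Uni (g : M2 F)) : p ∣ orderOf g := by
  obtain ⟨a, x, ha, hx, hc⟩ := exists_sl_isConj_un h
  have h1 := congrArg ι2 ((IsConj.pow_eq_one' hc).2 (pow_orderOf_eq_one g))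
  rw [map_pow, ι2_triS_of_sq ha, un_pow, map_one] at h1
  have h2 := congrArg (fun g : G2 F => (g : M2 F) 0 1) h1
  simp only [Units.val_mul, m2mul, sc_coe, un_coe] at h2
  rw [← CharP.cast_eq_zero_iff F p]
  simpa [hx] using h2

include hM in
theorem red_eq_zero (hχ : IsIrrCharacter _ χ) (h : χ 1 ≠ Nat.card F) {g : SL(2, F)}
    (hg : ¬ p ∣ orderOf g) (hs : ¬ Scal (g : M2 F)) : redC M (centralChar χ g) = 0 := by
  have hq := char_dvd_natCard (F := F) p
  have h1 : p ∣ (torS g).index := by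
    rcases type_cases (g : M2 F) with h1 | h1 | h1 | h1
    · exact (hs h1).elim
    · exact (hg (dvd_orderOf_of_uni h1)).elim
    · rw [index_torS_spl h1]; exact hq.mul_right _
    · rw [index_torS_ell h1]; exact hq.mul_right _
  have h2 : redC M (χ 1) ≠ 0 := by
    rw [← hχ.isCharacter.charDegree_cast, redC_natCast, ne_eq, natCast_res_eq_zero_iff hM]
    exact not_dvd_deg hχ h
  rw [centralChar, redC_div (mul_mem (natCast_mem _ _) (char_mem hχ.isCharacter _)) h2,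
    redC_mul (natCast_mem _ _) (char_mem hχ.isCharacter _), redC_natCast,
    (natCast_res_eq_zero_iff hM _).2 h1, zero_mul, zero_div]

omit [Fintype F] in
theorem cc_scal {g : SL(2, F)} (hs : Scal (g : M2 F)) : centralChar χ g = χ g / χ 1 := by
  rw [centralChar, show Subgroup.centralizer {g} = ⊤ from torS_scal hs]; simp

theorem sign_cases (hχ : IsIrrCharacter _ χ) : χ (-1) = χ 1 ∨ χ (-1) = - χ 1 := by
  have hz : (-1 : SL(2, F)) ∈ Subgroup.center SL(2, F) := mem_center_SL2.2 (Or.inr rfl)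
  have h1 := apply_mul_of_mem_charCenter (hχ.center_le_charCenter hz) hχ.apply_one_ne_zero (-1)
  have h0 := hχ.apply_one_ne_zero
  rw [neg_mul_neg, one_mul] at h1
  field_simp at h1
  exact sq_eq_sq_iff_eq_or_eq_neg.1 h1.symm

include hM in
theorem same_of (hχ : IsIrrCharacter _ χ) (hψ : IsIrrCharacter _ ψ) (h : χ 1 ≠ Nat.card F)
    (h' : ψ 1 ≠ Nat.card F) {c : ℂ} (e : χ (-1) = c * χ 1) (e' : ψ (-1) = c * ψ 1) :
    SameBlock M χ ψ := by
  refine sameBlock_of_pRegular hM hχ hψ fun g hg => ?_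
  by_cases hs : Scal (g : M2 F)
  · rw [cc_scal hs, cc_scal hs]
    rcases scal_sl_iff.1 hs with rfl | rfl
    · rw [div_self hχ.apply_one_ne_zero, div_self hψ.apply_one_ne_zero]
    · rw [e, e', mul_div_cancel_right₀ _ hχ.apply_one_ne_zero,
        mul_div_cancel_right₀ _ hψ.apply_one_ne_zero]
  · rw [red_eq_zero hM hχ h hg hs, red_eq_zero hM hψ h' hg hs]

include hM in
theorem not_same_st (hχ : IsIrrCharacter _ χ) (hψ : IsIrrCharacter _ ψ) (h : χ 1 = Nat.card F)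
    (h' : ψ 1 ≠ Nat.card F) : ¬ SameBlock M χ ψ := fun hs => by
  classical
  obtain rfl := eq_stS_of_deg hχ h
  obtain ⟨g, hg, -⟩ := exists_orderOf_eq (F := F) (k := Fintype.card F + 1) (Or.inr dvd_rfl)
    (by have := Fintype.one_lt_card (α := F); omega)
  rw [← Nat.card_eq_fintype_card] at hg
  have he := ell_of_orderOf hg
  have hq := char_dvd_natCard (F := F) p
  have h1 := (sameBlock_iff_redC hχ hψ).1 hs g
  rw [red_eq_zero hM hψ h' (fun e => (Fact.out : p.Prime).one_lt.ne'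
    (Nat.dvd_one.1 ((Nat.dvd_add_right hq).1 (hg ▸ e)))) he.not_scal, centralChar,
    index_torS_ell he, stS_ell he, h, Nat.cast_mul, mul_assoc, mul_div_cancel_left₀ _ cast_q_ne_zero,
    mul_neg_one, redC_neg, neg_eq_zero, redC_natCast, natCast_res_eq_zero_iff hM] at h1
  have := two_le_card F
  exact (Fact.out : p.Prime).one_lt.ne' (Nat.dvd_one.1 ((Nat.dvd_add_right h1).1
    (by rwa [Nat.sub_add_cancel (by omega)])))

include hM in
theorem not_same_sign (hp : p ≠ 2) (hχ : IsIrrCharacter _ χ) (hψ : IsIrrCharacter _ ψ)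
    (h : χ (-1) = χ 1) (h' : ψ (-1) = - ψ 1) : ¬ SameBlock M χ ψ := fun hs => by
  have h1 := (sameBlock_iff_redC hχ hψ).1 hs (-1)
  have h2 : Scal ((-1 : SL(2, F)) : M2 F) := scal_sl_iff.2 (Or.inr rfl)
  rw [cc_scal h2, cc_scal h2, h, h', neg_div, div_self hχ.apply_one_ne_zero,
    div_self hψ.apply_one_ne_zero, redC_neg, redC_one] at h1
  have : ((2 : ℕ) : Res M) = 0 := by push_cast; linear_combination h1
  exact hp ((Nat.prime_dvd_prime_iff_eq Fact.out Nat.prime_two).1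
    ((natCast_res_eq_zero_iff hM _).1 this))

include hM in
theorem defect {B : Set (IrrCharacter SL(2, F))} (hB : IsPBlock M B) {χ : IrrCharacter SL(2, F)}
    (hχ : χ ∈ B) (h : χ.1 1 ≠ Nat.card F) (P : Sylow p SL(2, F)) : IsDefectGroup p M B P := by
  obtain ⟨g, hg⟩ := exists_isDefectClass hB
  have hs : Scal (g : M2 F) := by
    by_contra hs
    exact hg.2.2 χ hχ ((redC_eq_zero_iff (centralChar_mem χ.2 g)).1
      (red_eq_zero hM χ.2 h (IsDefectClass.not_dvd hM hB hg) hs))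
  have hle : (P : Subgroup SL(2, F)) ≤ Subgroup.centralizer {g} := by
    rw [show Subgroup.centralizer {g} = ⊤ from torS_scal hs]; exact le_top
  exact ⟨g, hg, P.subtype hle, (Subgroup.map_subgroupOf_eq_of_le hle).symm⟩

end


/-- Let F be a finite field with q elements of odd characteristic p, and M a maximal ideal of the algebraic integers containing p. Then SL₂ over F has exactly three p-blocks relative to M: the irreducible character of degree q (the Steinberg character) alone; the other irreducible characters taking the same value at −1 as at 1 (the principal block); and the irreducible characters χ with χ(−1) = −χ(1). Every Sylow p-subgroup is a defect group of each of the last two blocks. -/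
theorem result {F : Type*} [Field F] [Fintype F] (p : ℕ) [Fact p.Prime] [CharP F p] (hp : p ≠ 2)
    (M : Ideal Cfsg.AlgInt) (hM : Cfsg.IsPModular p M) :
    (∀ B : Set (Cfsg.IrrCharacter (Matrix.SpecialLinearGroup (Fin 2) F)), Cfsg.IsPBlock M B ↔
      (B = {χ : Cfsg.IrrCharacter (Matrix.SpecialLinearGroup (Fin 2) F) | (χ : Matrix.SpecialLinearGroup (Fin 2) F → ℂ) 1 = (Fintype.card F : ℂ)} ∨
       B = {χ : Cfsg.IrrCharacter (Matrix.SpecialLinearGroup (Fin 2) F) | (χ : Matrix.SpecialLinearGroup (Fin 2) F → ℂ) (-1) = (χ : Matrix.SpecialLinearGroup (Fin 2) F → ℂ) 1 ∧ (χ : Matrix.SpecialLinearGroup (Fin 2) F → ℂ) 1 ≠ (Fintype.card F : ℂ)} ∨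
       B = {χ : Cfsg.IrrCharacter (Matrix.SpecialLinearGroup (Fin 2) F) | (χ : Matrix.SpecialLinearGroup (Fin 2) F → ℂ) (-1) = -(χ : Matrix.SpecialLinearGroup (Fin 2) F → ℂ) 1})) ∧
    Nat.card {B : Set (Cfsg.IrrCharacter (Matrix.SpecialLinearGroup (Fin 2) F)) // Cfsg.IsPBlock M B} = 3 ∧
    ∀ P : Sylow p (Matrix.SpecialLinearGroup (Fin 2) F),
      Cfsg.IsDefectGroup p M {χ : Cfsg.IrrCharacter (Matrix.SpecialLinearGroup (Fin 2) F) | (χ : Matrix.SpecialLinearGroup (Fin 2) F → ℂ) (-1) = (χ : Matrix.SpecialLinearGroup (Fin 2) F → ℂ) 1 ∧ (χ : Matrix.SpecialLinearGroup (Fin 2) F → ℂ) 1 ≠ (Fintype.card F : ℂ)} (P : Subgroup (Matrix.SpecialLinearGroup (Fin 2) F)) ∧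
      Cfsg.IsDefectGroup p M {χ : Cfsg.IrrCharacter (Matrix.SpecialLinearGroup (Fin 2) F) | (χ : Matrix.SpecialLinearGroup (Fin 2) F → ℂ) (-1) = -(χ : Matrix.SpecialLinearGroup (Fin 2) F → ℂ) 1} (P : Subgroup (Matrix.SpecialLinearGroup (Fin 2) F)) := by
  classical
  haveI := hM.2.1
  rw [← Nat.card_eq_fintype_card]
  have h2 : (2 : F) ≠ 0 := H27.two_ne_zero_of_charP p hp
  have st1 : ∀ χ : IrrCharacter SL(2, F), χ.1 1 = Nat.card F → χ.1 (-1) = χ.1 1 := fun χ h => by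
    rw [eq_stS_of_deg χ.2 h, stS_one, ← triS_neg_one_zero]
    exact stS_scal ⟨-1, by simp⟩
  have st2 : ∀ χ : IrrCharacter SL(2, F), χ.1 (-1) = - χ.1 1 → χ.1 1 ≠ Nat.card F := fun χ h e =>
    χ.2.apply_one_ne_zero (by linear_combination (h - st1 χ e) / 2)
  have b1 : ∀ χ : IrrCharacter SL(2, F), χ.1 1 = Nat.card F →
      blockOf M χ.1 = {χ : IrrCharacter SL(2, F) | χ.1 1 = Nat.card F} := fun χ h => Set.ext fun ψ =>
    ⟨fun hs => by_contra fun h' => not_same_st hM χ.2 ψ.2 h h' hs, fun h' => by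
      rw [eq_stS_of_deg χ.2 h, ← eq_stS_of_deg ψ.2 h']; exact sameBlock_refl _⟩
  have b2 : ∀ χ : IrrCharacter SL(2, F), χ.1 (-1) = χ.1 1 → χ.1 1 ≠ Nat.card F →
      blockOf M χ.1 = {χ : IrrCharacter SL(2, F) | χ.1 (-1) = χ.1 1 ∧ χ.1 1 ≠ Nat.card F} := fun χ h h1 => Set.ext fun ψ =>
    ⟨fun hs => ⟨(sign_cases ψ.2).resolve_right fun h' => not_same_sign hM hp χ.2 ψ.2 h h' hs,
      fun h' => not_same_st hM ψ.2 χ.2 h' h1 (sameBlock_symm hs)⟩,
      fun h' => same_of hM χ.2 ψ.2 h1 h'.2 (c := 1) (by rw [h, one_mul]) (by rw [h'.1, one_mul])⟩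
  have b3 : ∀ χ : IrrCharacter SL(2, F), χ.1 (-1) = - χ.1 1 →
      blockOf M χ.1 = {χ : IrrCharacter SL(2, F) | χ.1 (-1) = - χ.1 1} := fun χ h => Set.ext fun ψ =>
    ⟨fun hs => (sign_cases ψ.2).resolve_left fun h' =>
      not_same_sign hM hp ψ.2 χ.2 h' h (sameBlock_symm hs),
      fun h' => same_of hM χ.2 ψ.2 (st2 χ h) (st2 ψ h') (c := -1) (by rw [h, neg_one_mul])
        (by rw [h', neg_one_mul])⟩
  obtain ⟨χ3, hχ3, h3⟩ := exists_irr_apply_ne (sl_neg_one_ne h2)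
  have h3' := (sign_cases hχ3).resolve_left h3
  have h2' : (irrOne SL(2, F)).1 1 ≠ Nat.card F := fun e => cast_q_ne_one (F := F) e.symm
  have key : ∀ B : Set (IrrCharacter SL(2, F)), IsPBlock M B ↔ (B = {χ : IrrCharacter SL(2, F) | χ.1 1 = Nat.card F} ∨
      B = {χ : IrrCharacter SL(2, F) | χ.1 (-1) = χ.1 1 ∧ χ.1 1 ≠ Nat.card F} ∨ B = {χ : IrrCharacter SL(2, F) | χ.1 (-1) = - χ.1 1}) := fun B => by
    constructor
    · rintro ⟨χ, rfl⟩
      by_cases h : χ.1 1 = Nat.card F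
      · exact Or.inl (b1 χ h)
      · exact Or.inr ((sign_cases χ.2).imp (fun h' => b2 χ h' h) (b3 χ))
    · rintro (rfl | rfl | rfl)
      · exact ⟨⟨_, isIrr_stS⟩, (b1 _ stS_one).symm⟩
      · exact ⟨irrOne _, (b2 _ rfl h2').symm⟩
      · exact ⟨⟨_, hχ3⟩, (b3 _ h3').symm⟩
  refine ⟨key, ?_, fun P => ⟨defect hM ((key _).2 (Or.inr (Or.inl rfl))) (χ := irrOne _)
    ⟨rfl, h2'⟩ h2' P, defect hM ((key _).2 (Or.inr (Or.inr rfl))) (χ := ⟨_, hχ3⟩) h3'
      (st2 _ h3') P⟩⟩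
  change Nat.card {B | IsPBlock M B} = 3
  rw [Nat.card_coe_set_eq, Set.ncard_eq_three]
  refine ⟨_, _, _, fun e => ?_, fun e => ?_, fun e => ?_, Set.ext key⟩
  · exact h2' ((Set.ext_iff.1 e (irrOne _)).2 ⟨rfl, h2'⟩)
  · exact st2 _ h3' ((Set.ext_iff.1 e ⟨_, hχ3⟩).2 h3')
  · exact h3 ((Set.ext_iff.1 e ⟨_, hχ3⟩).2 h3').1

end Cfsg.Agent.S2439
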