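import Cfsg.Statements.S2531


set_option autoImplicit false
open Cfsg

namespace Cfsg.Agent.S2531

open Projectivization
open scoped LinearAlgebra.Projectivization

theorem rep_mk_mem {F V : Type*} [Field F] [AddCommGroup V] [Module F V] {W : Submodule F V} {v : V} (hv : v ≠ 0) :
    (mk F v hv).rep ∈ W ↔ v ∈ W := by
  obtain ⟨a, e⟩ := exists_smul_eq_mk_rep F v hv
  rw [← e, Units.smul_def, W.smul_mem_iff a.ne_zero]

theorem card_pts {F V : Type*} [Field F] [Finite F] [AddCommGroup V] [Module F V] [Finite V] {W : Submodule F V} (h : W ≠ ⊥) :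
    ((Nat.card {x : ℙ F V // x.rep ∈ W} : ℕ) : F) = 1 := by
  rw [← Nat.card_congr (Equiv.ofBijective (fun x : ℙ F W => (⟨map W.subtype W.subtype_injective x, by
    induction x using Projectivization.ind with | h v hv => exact (rep_mk_mem _).2 v.2⟩ : {x : ℙ F V // x.rep ∈ W}))
    ⟨fun a b e => map_injective _ W.subtype_injective (congrArg Subtype.val e), fun x =>
      ⟨mk F ⟨x.1.rep, x.2⟩ fun e => x.1.rep_nonzero (congrArg Subtype.val e), Subtype.ext x.1.mk_rep⟩⟩), card_of_finrank F W rfl]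
  obtain ⟨k, hk⟩ := Nat.exists_eq_succ_of_ne_zero (mt Submodule.finrank_eq_zero.1 h)
  have := Fintype.ofFinite F
  simp [hk, Finset.sum_range_succ']

/-- Let `F` be a finite field and `n ≥ 3`. No set of permutations of the points of the projective space of `Fⁿ`, each induced by an invertible semilinear transformation of `Fⁿ` (so a subset of the full projective semilinear group), is sharply 2-transitive on the points: it is impossible that for all pairs of distinct points `(a, b)` and `(c, d)` exactly one member of the set sends `a` to `c` and `b` to `d`. -/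
theorem result {F : Type*} [Field F] [Finite F]
    (n : ℕ) (hn : 3 ≤ n) (S : Set (Equiv.Perm (Projectivization F (Fin n → F))))
    (hS : ∀ s ∈ S, ∃ (σ : F ≃+* F) (f : (Fin n → F) →ₛₗ[(σ : F →+* F)] (Fin n → F)) (hf : Function.Injective f),
      ∀ x, s x = Projectivization.map f hf x) :
    ¬ (∀ a b c d : Projectivization F (Fin n → F), a ≠ b → c ≠ d →
        ∃! s, s ∈ S ∧ s a = c ∧ s b = d) := by
  intro h
  classical
  obtain ⟨m, rfl⟩ := Nat.exists_eq_add_of_le' hn
  let W : Submodule F (Fin (m + 3) → F) := LinearMap.ker (LinearMap.proj 0)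
  let a : ℙ F (Fin (m + 3) → F) := mk F (Pi.single 0 1) (by simp)
  have ha : ∀ x : ℙ F (Fin (m + 3) → F), x.rep ∈ W → a ≠ x := by
    rintro _ h rfl
    simpa [W] using (rep_mk_mem _).1 h
  have hW : W ≠ ⊥ := fun e => by simpa using e.le (show Pi.single 1 1 ∈ W by simp [W])
  have h1 := Nat.card_congr (Equiv.ofBijective (fun t : Σ s : {s // s ∈ S ∧ s a = a}, {b : ℙ F (Fin (m + 3) → F) //
    b.rep ∈ W ∧ (s.1 b).rep ∈ W} => ((⟨_, t.2.2.1⟩, ⟨_, t.2.2.2⟩) : {x : ℙ F _ // x.rep ∈ W} × {x : ℙ F _ // x.rep ∈ W}))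
    ⟨by
      rintro ⟨⟨s, hs⟩, b, hb⟩ ⟨⟨t, ht⟩, c, hc⟩ e
      simp only [Prod.mk.injEq, Subtype.mk.injEq] at e
      obtain ⟨rfl, e⟩ := e
      obtain rfl := (h a b a _ (ha _ hb.1) (ha _ hb.2)).unique ⟨hs.1, hs.2, rfl⟩ ⟨ht.1, ht.2, e.symm⟩
      rfl, fun x => let ⟨s, hs, _⟩ := h a x.1 a x.2 (ha _ x.1.2) (ha _ x.2.2)
        ⟨⟨⟨s, hs.1, hs.2.1⟩, x.1, x.1.2, hs.2.2.symm ▸ x.2.2⟩, Prod.ext rfl (Subtype.ext hs.2.2)⟩⟩)
  obtain ⟨b, hb⟩ : ∃ b, a ≠ b := ⟨mk F (Pi.single 1 1) (by simp), ha _ ((rep_mk_mem _).2 (by simp [W]))⟩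
  have h2 := Nat.card_congr (Equiv.ofBijective (fun s : {s // s ∈ S ∧ s a = a} => (⟨s.1 b, fun e =>
    hb (s.1.injective (s.2.2.trans e.symm))⟩ : {x // ¬ x = a})) ⟨fun s t e => Subtype.ext
      ((h a b a _ hb fun e => hb (s.1.injective (s.2.2.trans e))).unique ⟨s.2.1, s.2.2, rfl⟩ ⟨t.2.1, t.2.2, (congrArg Subtype.val e).symm⟩),
      fun x => let ⟨s, hs, _⟩ := h a b a x hb (Ne.symm x.2); ⟨⟨s, hs.1, hs.2.1⟩, Subtype.ext hs.2.2⟩⟩)
  have := Fintype.ofFinite {s // s ∈ S ∧ s a = a}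
  have := Fintype.ofFinite (ℙ F (Fin (m + 3) → F))
  have h3 := congrArg (Nat.cast : ℕ → F) h1
  rw [Nat.card_sigma, Nat.card_prod, Nat.cast_mul, card_pts hW, Nat.cast_sum, Finset.sum_congr rfl fun s _ => ?_, Finset.sum_const,
    Finset.card_univ, nsmul_one, ← Nat.card_eq_fintype_card, h2, Nat.card_eq_fintype_card, Fintype.card_subtype_compl,
    Fintype.card_subtype_eq, Nat.cast_pred Fintype.card_pos, ← Nat.card_eq_fintype_card,
    ← Nat.card_congr (Equiv.subtypeUnivEquiv fun x => Submodule.mem_top (R := F) (x := x.rep)), card_pts top_ne_bot] at h3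
  · simp at h3
  obtain ⟨σ, f, hf, e⟩ := hS s s.2.1
  rw [← card_pts (W := W ⊓ W.comap f) ?_]
  · refine congrArg _ (Nat.card_congr (Equiv.subtypeEquivRight fun x => and_congr_right' ?_))
    induction x using Projectivization.ind with | h v hv => rw [e, map_mk, rep_mk_mem]; exact (rep_mk_mem (W := W.comap f) hv).symm
  have := Fintype.ofFinite F
  obtain ⟨v, w, h4, h5⟩ := Fintype.exists_ne_map_eq_of_card_lt (fun v : Fin (m + 3) → F => (v 0, f v 0)) (by
    rw [Fintype.card_prod, Fintype.card_fun, Fintype.card_fin, ← pow_two]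
    exact Nat.pow_lt_pow_right Fintype.one_lt_card (by omega))
  exact (Submodule.ne_bot_iff _).2 ⟨v - w, by simpa [W, sub_eq_zero] using h5, sub_ne_zero.2 h4⟩

end Cfsg.Agent.S2531
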