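import Cfsg.Statements.S2532
import Mathlib

set_option autoImplicit false
open Cfsg

namespace Cfsg.Agent.S2532

open Subgroup Equiv Equiv.Perm MulAction Finset

/-- There is a function `f` of two natural-number arguments such that, whenever `m ≥ f(n, r)`, every subgroup of order `n` of the alternating group of degree `m` centralizes some subgroup of that alternating group isomorphic to the alternating group of degree `r`. -/
theorem result :
    ∃ f : ℕ → ℕ → ℕ, ∀ (m r : ℕ) (H : Subgroup ↥(alternatingGroup (Fin m))), f (Nat.card H) r ≤ m →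
      ∃ K : Subgroup ↥(alternatingGroup (Fin m)), Nonempty (↥K ≃* ↥(alternatingGroup (Fin r))) ∧
        K ≤ Subgroup.centralizer (H : Set ↥(alternatingGroup (Fin m))) := by
  classical
  refine ⟨fun n r => 2 ^ n * (n * r) + 1, fun m r H hm => ?_⟩
  have := Fintype.ofFinite (Subgroup H)
  have h1 : Fintype.card (Subgroup H) ≤ 2 ^ Nat.card H := by
    have := Fintype.ofFinite H
    simpa using Fintype.card_le_of_injective _ (SetLike.coe_injective (A := Subgroup H))
  obtain ⟨S, hS⟩ := Fintype.exists_lt_card_fiber_of_mul_lt_card (stabilizer H : Fin m → _) (n := Nat.card H * r)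
    ((Nat.mul_le_mul_right _ h1).trans_lt (by simpa using hm))
  have h2 := hS.trans_le (card_le_mul_card_image (f := (Quotient.mk'' : _ → orbitRel.Quotient H (Fin m))) _ (Nat.card H)
    fun q _ => by
      induction' q using Quotient.inductionOn' with b
      rw [← Set.ncard_coe_finset]
      exact (Set.ncard_le_ncard (t := orbit H b) fun a ha => orbitRel_apply.1 (Quotient.exact' (mem_filter.1 ha).2)).trans
        (Nat.card_le_card_of_surjective _ Set.rangeFactorization_surjective))
  obtain ⟨y⟩ := Function.Embedding.nonempty_of_card_le (α := Fin r) (by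
    simpa using (Nat.lt_of_mul_lt_mul_left h2).le : _ ≤ Fintype.card (image _ _ : Finset _))
  choose x hx hx' using fun i => mem_image.1 (y i).2
  have h3 : ∀ i, stabilizer H (x i) = S := fun i => (mem_filter.1 (hx i)).2
  have h4 : ∀ (g k : H) i j, g • x i = k • x j ↔ (g : H ⧸ S) = k ∧ i = j := fun g k i j => by
    have : g • x i = k • x j → i = j := fun h => y.injective (Subtype.ext (by
      rw [← hx', ← hx', Quotient.eq'', orbitRel_apply]; exact ⟨g⁻¹ * k, by simp [mul_smul, ← h]⟩))
    refine ⟨fun h => ⟨?_, this h⟩, ?_⟩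
    · obtain rfl := this h
      rw [QuotientGroup.eq, ← h3 i, mem_stabilizer_iff, mul_smul, ← h, inv_smul_smul]
    · rintro ⟨h, rfl⟩
      rwa [QuotientGroup.eq, ← h3 i, mem_stabilizer_iff, mul_smul, inv_smul_eq_iff, eq_comm] at h
  let ι : (H ⧸ S) × Fin r ↪ Fin m := ⟨fun q => q.1.out • x q.2, fun q q' h => Prod.ext (by simpa using ((h4 ..).1 h).1)
    ((h4 ..).1 h).2⟩
  have h5 : ∀ (g : H) i, g • x i = ι (g, i) := fun g i => (h4 ..).2 (by simp)
  let ψ : Perm (Fin r) →* Perm ((H ⧸ S) × Fin r) := ⟨⟨fun σ => prodCongrRight fun _ => σ, rfl⟩, fun _ _ => rfl⟩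
  let f := (viaEmbeddingHom ι).comp (ψ.comp (alternatingGroup _).subtype)
  have h6 : ∀ σ, f σ ∈ alternatingGroup _ := fun σ => by
    have := Fintype.ofFinite (H ⧸ S)
    exact (@sign_extendDomain _ _ _ _ _ _ _ _ (_) _).trans ((sign_prodCongrRight fun _ => σ.1).trans (by simp [mem_alternatingGroup.1 σ.2]))
  have h7 : Function.Injective f := (viaEmbeddingHom_injective ι).comp fun σ τ h => by
    ext i; exact congrArg (fun π => (π (((1 : H) : H ⧸ S), i)).2.1) h
  refine ⟨(f.codRestrict _ h6).range, ⟨(MonoidHom.ofInjective (by simpa using h7)).symm⟩, ?_⟩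
  rintro _ ⟨σ, rfl⟩ g hg
  ext z
  congr 1
  change (⟨g, hg⟩ : H) • f σ z = f σ ((⟨g, hg⟩ : H) • z)
  generalize (⟨g, hg⟩ : H) = k
  have h8 : ∀ (k : H) q, k • ι q = ι (k * q.1.out, q.2) := fun k q => (mul_smul ..).symm.trans (h5 ..)
  by_cases h : z ∈ Set.range ι
  · obtain ⟨q, rfl⟩ := h
    simp only [f, MonoidHom.comp_apply, viaEmbeddingHom_apply, viaEmbedding_apply, h8]; rfl
  · simp only [f, MonoidHom.comp_apply, viaEmbeddingHom_apply]
    rw [viaEmbedding_apply_of_notMem _ _ _ h, viaEmbedding_apply_of_notMem]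
    rintro ⟨q, e⟩
    exact h ⟨_, by rw [← h8 k⁻¹, e, inv_smul_smul]⟩

end Cfsg.Agent.S2532
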