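import Cfsg.Statements.S2533
import Cfsg.Agent.H12.Transport

set_option autoImplicit false
open Cfsg

namespace Cfsg.Agent.S2533

open Matrix

/-- the elementary abelian group of order `p ^ 3` extended by inversion -/
def H (p : ℕ) : Type := (Fin 3 → ZMod p) × ℤˣ

instance (p : ℕ) : Group (H p) where
  mul x y := (x.1 + (x.2 : ℤ) • y.1, x.2 * y.2)
  one := (0, 1)
  inv x := (-((x.2 : ℤ) • x.1), x.2)
  mul_assoc x y z := Prod.ext (by
    change x.1 + _ • y.1 + ((x.2 * y.2 : ℤˣ) : ℤ) • z.1 = x.1 + _ • (y.1 + _ • z.1)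
    rw [smul_add, add_assoc, Units.val_mul, mul_smul]) (mul_assoc _ _ _)
  one_mul x := Prod.ext (by change 0 + (1 : ℤ) • x.1 = x.1; simp) (one_mul _)
  mul_one x := Prod.ext (by change x.1 + _ • 0 = x.1; simp) (mul_one _)
  inv_mul_cancel x := Prod.ext (neg_add_cancel _) (Int.units_mul_self _)

/-- three shifts -/
def A {p : ℕ} (k : ℕ) : (Fin 3 → ZMod p) →+ Matrix (Fin k) (Fin (k + 1)) (ZMod p) :=
  AddMonoidHom.mk' (fun a => of fun i j => ∑ t : Fin 3, if j.1 = i.1 + t.1 then a t else 0) fun a b => by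
    ext i j
    simp only [of_apply, Matrix.add_apply, ← Finset.sum_add_distrib]
    exact Finset.sum_congr rfl fun t _ => by split_ifs <;> simp

/-- the representation -/
def ρ (p N : ℕ) : H p →* SpecialLinearGroup (Fin (2 * N + 2) ⊕ Fin (2 * N + 2 + 1)) (ZMod p) :=
  MonoidHom.mk' (fun x => ⟨fromBlocks ((x.2 : ℤ) • 1) (A _ x.1) 0 1, by
    rcases Int.units_eq_one_or x.2 with h | h <;> simp [h, det_neg, pow_succ]⟩) fun x y => Subtype.ext (by
    change fromBlocks (((x.2 * y.2 : ℤˣ) : ℤ) • 1) (A _ (x.1 + (x.2 : ℤ) • y.1)) 0 1 = fromBlocks _ _ _ _ * fromBlocks _ _ _ _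
    rw [map_add, map_zsmul]
    simp only [fromBlocks_multiply, Matrix.smul_mul, Matrix.one_mul, Matrix.mul_one, Matrix.mul_zero, Matrix.zero_mul, add_zero,
      zero_add, Units.val_mul, mul_smul, add_comm])

lemma ρ_val (p N : ℕ) (x : H p) : (ρ p N x).1 = fromBlocks ((x.2 : ℤ) • 1) (A _ x.1) 0 1 := rfl

lemma toep {F : Type*} [Field F] {k : ℕ} {S : Matrix (Fin (k + 1)) (Fin (k + 1)) F}
    (h1 : ∀ i j : Fin k, S i.succ j.succ = S i.castSucc j.castSucc) (h2 : ∀ i : Fin k, S i.succ 0 = 0)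
    (h3 : ∀ i : Fin k, S i.castSucc (Fin.last k) = 0) : S = S 0 0 • 1 := by
  have a1 : ∀ j i, j ≤ i → S i j = if i = j then S 0 0 else 0 := fun j => by
    induction j using Fin.induction with
    | zero => exact fun i _ => by cases i using Fin.cases <;> simp [h2]
    | succ j ih =>
      intro i hi
      cases i using Fin.cases with
      | zero => simp at hi
      | succ i => simp [h1, ih _ (show j.castSucc ≤ i.castSucc by simpa using hi)]
  have a2 : ∀ j i, i < j → S i j = 0 := fun j => by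
    induction j using Fin.reverseInduction with
    | last => exact fun i hi => by obtain ⟨i, rfl⟩ := Fin.exists_castSucc_eq.2 hi.ne; exact h3 i
    | cast j ih =>
      intro i hi
      obtain ⟨i, rfl⟩ := Fin.exists_castSucc_eq.2 (hi.trans (Fin.castSucc_lt_last j)).ne
      rw [← h1, ih _ (by simpa using hi)]
  ext i j
  rcases lt_or_ge i j with h | h
  · simp [a2 j i h, h.ne]
  · simp [a1 j i h, one_apply]

lemma main {p : ℕ} [hp : Fact p.Prime] (h2 : p ≠ 2) (N : ℕ) :
    Function.Injective ((QuotientGroup.mk' (Subgroup.center _)).comp (ρ p N)) ∧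
    ∀ g, (∀ h, QuotientGroup.mk' (Subgroup.center _) (ρ p N h) * g = g * QuotientGroup.mk' (Subgroup.center _) (ρ p N h)) → g = 1 := by
  have t0 : (2 : ZMod p) ≠ 0 := fun h => h2 ((Nat.prime_dvd_prime_iff_eq hp.out Nat.prime_two).1 ((ZMod.natCast_eq_zero_iff 2 p).1 h))
  have t1 : (-1 : ZMod p) ≠ 1 := fun h => t0 (by linear_combination -h)
  refine ⟨(injective_iff_map_eq_one _).2 fun x hx => ?_, fun g hg => ?_⟩
  · obtain ⟨c, -, hc⟩ := Matrix.SpecialLinearGroup.mem_center_iff.1 ((QuotientGroup.eq_one_iff _).1 hx)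
    rw [ρ_val] at hc
    have a1 := congrFun₂ hc (.inr 0) (.inr 0)
    have a2 := congrFun₂ hc (.inl 0) (.inl 0)
    have a3 := fun j => congrFun₂ hc (.inl 0) (.inr j)
    simp [-zsmul_eq_mul] at a1 a2 a3
    refine Prod.ext (funext fun t => ?_) ((Int.units_eq_one_or x.2).resolve_right fun h => t1 (by simpa [h, a1] using a2.symm))
    have := a3 ⟨t, by omega⟩
    change x.1 t = 0
    fin_cases t <;> simpa [A, Fin.sum_univ_three] using this.symm
  obtain ⟨g, rfl⟩ := QuotientGroup.mk'_surjective _ g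
  have a1 : ∀ h, ∃ c : ZMod p, c ^ (2 * N + 2 + (2 * N + 2 + 1)) = 1 ∧ g.1 * (ρ p N h).1 = c • ((ρ p N h).1 * g.1) := fun h => by
    have := hg h
    rw [← map_mul, ← map_mul, QuotientGroup.mk'_eq_mk'] at this
    obtain ⟨z, hz, e⟩ := this
    obtain ⟨c, h1, hc⟩ := Matrix.SpecialLinearGroup.mem_center_iff.1 hz
    refine ⟨c, by simpa using h1, ?_⟩
    have : (ρ p N h).1 * g.1 * z.1 = g.1 * (ρ p N h).1 := congrArg Subtype.val e
    rw [← this, ← hc, scalar_apply, ← smul_one_eq_diagonal, Matrix.mul_smul, mul_one]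
  have hd := g.2
  rw [QuotientGroup.mk'_apply, QuotientGroup.eq_one_iff, Subgroup.mem_center_iff]
  suffices ∃ c : ZMod p, g.1 = c • 1 from fun y => Subtype.ext (by
    obtain ⟨c, hc⟩ := this
    change y.1 * g.1 = g.1 * y.1
    simp [hc])
  rw [← fromBlocks_toBlocks g.1] at a1 hd ⊢
  generalize g.1.toBlocks₁₁ = P, g.1.toBlocks₁₂ = Q, g.1.toBlocks₂₁ = R, g.1.toBlocks₂₂ = S at a1 hd ⊢
  obtain ⟨c, c1, c2⟩ := a1 (0, -1)
  erw [ρ_val] at c2
  simp [fromBlocks_multiply, fromBlocks_smul] at c2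
  obtain ⟨c3, c4, c5, c6⟩ := c2
  have e0 : ∀ {m n : Type} {X : Matrix m n (ZMod p)} {c : ZMod p}, c ≠ 1 → X = c • X → X = 0 := fun hc h =>
    (smul_eq_zero.1 (by rw [sub_smul, one_smul, ← h, sub_self])).resolve_left (sub_ne_zero.2 hc)
  obtain rfl : c = 1 := by
    by_contra hc
    have c7 : -c ≠ 1 := fun h => t1 (by
      rw [neg_eq_iff_eq_neg.1 h, Odd.neg_one_pow ⟨2 * N + 2, by ring⟩] at c1
      exact c1)
    rw [e0 hc c3, e0 c7 (c4.trans (neg_smul _ _).symm), e0 c7 ((neg_eq_iff_eq_neg.1 c5).trans (neg_smul _ _).symm), e0 hc c6] at hd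
    simp at hd
  rw [e0 t1 (c4.trans (neg_smul _ _).symm), e0 t1 ((neg_eq_iff_eq_neg.1 c5).trans (neg_smul _ _).symm)] at a1 hd ⊢
  have a2 : ∀ a, P * A (p := p) (2 * N + 2) a = A (p := p) (2 * N + 2) a * S := fun a => by
    obtain ⟨c, -, c2⟩ := a1 (a, 1)
    erw [ρ_val] at c2
    simp [fromBlocks_multiply, fromBlocks_smul] at c2
    obtain rfl : c = 1 := by
      by_contra hc
      simp [e0 hc c2.2.2] at hd
    simpa using c2.2.1
  have b0 : ∀ i j, A (p := p) (2 * N + 2) ![1, 0, 0] i j = if j = i.castSucc then 1 else 0 := fun i j => by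
    simp [A, Fin.sum_univ_three, Fin.ext_iff]
  have b1 : ∀ i j, A (p := p) (2 * N + 2) ![0, 1, 0] i j = if j = i.succ then 1 else 0 := fun i j => by
    simp [A, Fin.sum_univ_three, Fin.ext_iff]
  have d0 := fun i j => congrFun₂ (a2 ![1, 0, 0]) i j
  have d1 := fun i j => congrFun₂ (a2 ![0, 1, 0]) i j
  simp only [Matrix.mul_apply, b0, b1, ite_mul, mul_ite, mul_one, mul_zero, one_mul, zero_mul, Finset.sum_ite_eq', Finset.mem_univ,
    if_true] at d0 d1
  have f1 : ∀ i j, S i.castSucc j.castSucc = P i j := fun i j => by simp [← d0]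
  have f2 : S = S 0 0 • 1 := toep (fun i j => by rw [f1, ← d1]; simp) (fun i => by simp [← d1, (Fin.succ_ne_zero _).symm])
    fun i => by simp [← d0, (Fin.castSucc_ne_last _).symm]
  refine ⟨S 0 0, ?_⟩
  rw [← fromBlocks_one, fromBlocks_smul, ← f2, smul_zero, smul_zero, fromBlocks_inj]
  refine ⟨?_, rfl, rfl, rfl⟩
  ext i j
  rw [← f1, f2]
  simp [one_apply]

/-- For every odd prime `p` there is a finite group `H` of order `2p³` which, for infinitely many `n`, embeds in the projective special linear group `PSL(n, p)` as a subgroup with trivial centralizer. -/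
theorem result
    (p : ℕ) [Fact p.Prime] (hp : p ≠ 2) :
    ∃ (H : Type) (_ : Group H) (_ : Finite H), Nat.card H = 2 * p ^ 3 ∧
      ∀ N : ℕ, ∃ n, N ≤ n ∧ ∃ φ : H →* Matrix.ProjectiveSpecialLinearGroup (Fin n) (ZMod p),
        Function.Injective φ ∧ Subgroup.centralizer (φ.range : Set (Matrix.ProjectiveSpecialLinearGroup (Fin n) (ZMod p))) = ⊥ := by
  refine ⟨H p, inferInstance, inferInstanceAs (Finite ((Fin 3 → ZMod p) × ℤˣ)), ?_, fun N => ?_⟩
  · rw [show Nat.card (H p) = Nat.card ((Fin 3 → ZMod p) × ℤˣ) from rfl]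
    simp [mul_comm]
  let e := H12.centerQuotCongr (H12.slReindex (ZMod p) (finSumFinEquiv (m := 2 * N + 2) (n := 2 * N + 2 + 1)))
  obtain ⟨h1, h2⟩ := main hp N
  refine ⟨_, by omega, e.toMonoidHom.comp ((QuotientGroup.mk' _).comp (ρ p N)), e.injective.comp h1, (Subgroup.eq_bot_iff_forall _).2 fun g hg => ?_⟩
  obtain ⟨g, rfl⟩ := e.surjective g
  rw [h2 g fun h => e.injective (by rw [map_mul, map_mul]; exact hg _ ⟨h, rfl⟩), map_one]

end Cfsg.Agent.S2533
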