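import Cfsg.Statements.S2534
import Cfsg.Agent.H6.HallSym3
-- import your own Cfsg.Agent.* helpers here

set_option autoImplicit false
open Cfsg

namespace Cfsg.Agent.S2534

open Cfsg.Agent.H1 Cfsg.Agent.H6.HS Subgroup Equiv

/-- stabilizer of a colouring up to permutation of the colours -/
def PS {Ω : Type} (col : Ω → Fin 3) : Subgroup (Perm Ω) where
  carrier := {g | ∃ σ : Perm (Fin 3), ∀ x, col (g x) = σ (col x)}
  mul_mem' := by
    rintro g h ⟨σ, hσ⟩ ⟨τ, hτ⟩
    exact ⟨σ * τ, fun x => by rw [Perm.mul_apply, hσ, hτ, Perm.mul_apply]⟩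
  one_mem' := ⟨1, fun _ => rfl⟩
  inv_mem' := by
    rintro g ⟨σ, hσ⟩
    refine ⟨σ⁻¹, fun x => ?_⟩
    rw [Perm.eq_inv_iff_eq, ← hσ]; simp

theorem pow_six {Ω : Type} [Fintype Ω] [DecidableEq Ω] {T : Finset Ω} (hT : T.card ≤ 3)
    {g : Perm Ω} (hg : ∀ x, g x ∈ T ↔ x ∈ T) {x : Ω} (hx : x ∈ T) : (g ^ 6) x = x := by
  have h1 : (g.subtypePerm hg) ^ 6 = 1 := by
    refine orderOf_dvd_iff_pow_eq_one.1 ((_root_.orderOf_dvd_natCard _).trans ?_)
    rw [Nat.card_perm, Nat.card_eq_fintype_card, Fintype.card_coe]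
    exact Nat.factorial_dvd_factorial hT
  rw [Perm.subtypePerm_pow] at h1
  exact congrArg Subtype.val (DFunLike.congr_fun h1 ⟨x, hx⟩)

theorem PS_pow {Ω : Type} [Fintype Ω] [DecidableEq Ω] (col : Ω → Fin 3)
    (hcol : ∀ i, (Finset.univ.filter fun x => col x = i).card ≤ 3) {g : Perm Ω} (hg : g ∈ PS col) :
    g ^ 36 = 1 := by
  obtain ⟨σ, hσ⟩ := hg
  have h1 : ∀ k : ℕ, ∀ x, col ((g ^ k) x) = (σ ^ k) (col x) := by
    intro k
    induction k with
    | zero => intro x; rfl
    | succ k ih => intro x; rw [pow_succ', pow_succ', Perm.mul_apply, Perm.mul_apply, hσ, ih]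
  have h2 : σ ^ 6 = 1 := by
    refine orderOf_dvd_iff_pow_eq_one.1 ((_root_.orderOf_dvd_natCard _).trans ?_)
    rw [Nat.card_perm]; simp [Nat.factorial]
  ext x
  rw [show 36 = 6 * 6 by norm_num, pow_mul]
  refine pow_six (hcol (col x)) (fun y => ?_) (by simp)
  simp [h1, h2]

theorem PS_pi {Ω : Type} [Fintype Ω] [DecidableEq Ω] (col : Ω → Fin 3)
    (hcol : ∀ i, (Finset.univ.filter fun x => col x = i).card ≤ 3) (A : Subgroup (Perm Ω))
    {p : ℕ} (hp : p.Prime) (hd : p ∣ Nat.card (PS col ⊓ A : Subgroup (Perm Ω))) :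
    p = 2 ∨ p = 3 := by
  haveI := Fact.mk hp
  obtain ⟨g, hg⟩ := exists_prime_orderOf_dvd_card' p hd
  have h1 : g ^ 36 = 1 := Subtype.ext (PS_pow col hcol g.2.1)
  have h2 : p ∣ 2 ^ 2 * 3 ^ 2 := hg ▸ orderOf_dvd_of_pow_eq_one h1
  rcases (Nat.Prime.dvd_mul hp).1 h2 with h | h
  · exact Or.inl ((Nat.prime_dvd_prime_iff_eq hp Nat.prime_two).1 (hp.dvd_of_dvd_pow h))
  · exact Or.inr ((Nat.prime_dvd_prime_iff_eq hp Nat.prime_three).1 (hp.dvd_of_dvd_pow h))

theorem bad (n : ℕ) (hn : 5 ≤ n) (π : Set ℕ) (s : ℕ) (hs : Typ π n s) :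
    ∃ U : Subgroup (Perm (Fin n)),
      (∀ p, p.Prime → p ∣ Nat.card (U ⊓ alternatingGroup (Fin n) : Subgroup _) → p ∈ π) ∧
      ∀ B : Finset (Fin n), B.card = s → ¬ U ⊓ alternatingGroup (Fin n) ≤ MB B := by
  have hc : Fintype.card (Fin n) = n := Fintype.card_fin n
  rcases hs with ⟨hp, rfl, hπ⟩ | ⟨⟨rfl, rfl⟩ | ⟨rfl, rfl⟩, hπ⟩
  · obtain ⟨T, -, hT⟩ := Finset.exists_subset_card_eq (s := (Finset.univ : Finset (Fin n))) (n := 2)
      (by simp; omega)
    refine ⟨St T, pi_of_relIndex fun p hpp hle hnπ => ?_, fun B hB hle => ?_⟩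
    · rw [hc] at hle
      have : p = n := by
        by_contra hne
        exact hnπ ((hπ p hpp hle).2 (by omega))
      rw [relIndex_St (by omega) le_rfl, hT, hc, this]
      exact ⟨hp.dvd_choose_self (by norm_num) (by omega), not_sq_dvd_factorial hp⟩
    · rw [MB_eq_St (by omega)] at hle
      obtain ⟨β, rfl⟩ := Finset.card_eq_one.1 hB
      obtain ⟨u, v, huv, rfl⟩ := Finset.card_eq_two.1 hT
      obtain ⟨c, d, hcd, hc1, hd1, hβ⟩ : ∃ c d, c ≠ d ∧ c ∉ ({u, v} : Finset (Fin n)) ∧
          d ∉ ({u, v} : Finset (Fin n)) ∧ (β = u ∨ β = v ∨ β = c) := by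
        obtain ⟨c, -, hc1⟩ := Finset.exists_mem_notMem_of_card_lt_card
          (s := ({u, v, β} : Finset (Fin n))) (t := Finset.univ)
          (lt_of_le_of_lt Finset.card_le_three (by simp; omega))
        obtain ⟨d, -, hd1⟩ := Finset.exists_mem_notMem_of_card_lt_card
          (s := ({u, v, β, c} : Finset (Fin n))) (t := Finset.univ)
          (lt_of_le_of_lt Finset.card_le_four (by simp; omega))
        simp only [Finset.mem_insert, Finset.mem_singleton, not_or] at hc1 hd1 ⊢
        by_cases h : β = u ∨ β = v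
        · exact ⟨c, d, Ne.symm hd1.2.2.2, ⟨hc1.1, hc1.2.1⟩, ⟨hd1.1, hd1.2.1⟩, by tauto⟩
        · push Not at h
          exact ⟨β, d, Ne.symm hd1.2.2.1, h, ⟨hd1.1, hd1.2.1⟩, by tauto⟩
      simp only [Finset.mem_insert, Finset.mem_singleton, not_or] at hc1 hd1
      have hg : swap u v * swap c d ∈ St ({u, v} : Finset (Fin n)) ⊓ alternatingGroup (Fin n) := by
        refine ⟨mul_mem (fun x => ?_) (fun x => ?_), ?_⟩
        · simp only [Finset.mem_insert, Finset.mem_singleton, swap_apply_def]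
          split_ifs <;> simp_all
        · simp only [Finset.mem_insert, Finset.mem_singleton, swap_apply_def]
          split_ifs <;> simp_all
        · refine Perm.mem_alternatingGroup.2 ?_
          rw [Perm.sign_mul, Perm.sign_swap huv, Perm.sign_swap hcd]; simp
      have := (hle hg β).2 (Finset.mem_singleton_self β)
      rw [Finset.mem_singleton, Perm.mul_apply] at this
      rcases hβ with rfl | rfl | rfl
      · rw [swap_apply_of_ne_of_ne (Ne.symm hc1.1) (Ne.symm hd1.1), swap_apply_left] at this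
        exact huv this.symm
      · rw [swap_apply_of_ne_of_ne (Ne.symm hc1.2) (Ne.symm hd1.2), swap_apply_right] at this
        exact huv this
      · rw [swap_apply_left, swap_apply_of_ne_of_ne hd1.1 hd1.2] at this
        exact hcd this.symm
  · refine ⟨PS ![0, 0, 0, 1, 1, 1, 2], fun p hp hd => ?_, fun B hB hle => ?_⟩
    · have := PS_pi _ (by decide) _ hp hd
      exact (hπ p hp (by omega)).2 this
    · have ha := hle (x := swap 0 1 * swap 1 2 * (swap 3 4 * swap 4 5))
        ⟨⟨1, by decide⟩, Perm.mem_alternatingGroup.2 (by decide)⟩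
      have hb := hle (x := swap 0 3 * swap 3 1 * swap 1 4 * swap 2 5)
        ⟨⟨swap 0 1, by decide⟩, Perm.mem_alternatingGroup.2 (by decide)⟩
      rw [mem_MB] at ha hb
      clear hle
      revert B
      decide +kernel
  · refine ⟨PS ![0, 0, 0, 1, 1, 1, 2, 2], fun p hp hd => ?_, fun B hB hle => ?_⟩
    · have := PS_pi _ (by decide) _ hp hd
      exact (hπ p hp (by omega)).2 this
    · have ha := hle (x := swap 0 1 * swap 1 2 * (swap 3 4 * swap 4 5))
        ⟨⟨1, by decide⟩, Perm.mem_alternatingGroup.2 (by decide)⟩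
      have hb := hle (x := swap 0 1 * swap 6 7)
        ⟨⟨1, by decide⟩, Perm.mem_alternatingGroup.2 (by decide)⟩
      rw [mem_MB] at ha hb
      clear hle
      revert B
      decide +kernel


/-- For `n ≥ 5` and a set of primes `π`, the alternating group of degree `n` satisfies the full Sylow analogue for `π` (its maximal `π`-subgroups are pairwise conjugate; for a finite group this says Hall `π`-subgroups exist, are all conjugate, and contain every `π`-subgroup up to conjugacy) if and only if either at most one prime of `π` divides its order or every prime dividing its order lies in `π`. -/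
theorem result (n : ℕ) (hn : 5 ≤ n) (π : Set ℕ) :
    Cfsg.IsDPiGroup π ↥(alternatingGroup (Fin n)) ↔
      ((∀ r s : ℕ, r.Prime → s.Prime → r ∈ π → s ∈ π → r ∣ Nat.card ↥(alternatingGroup (Fin n)) → s ∣ Nat.card ↥(alternatingGroup (Fin n)) → r = s) ∨
        ∀ r : ℕ, r.Prime → r ∣ Nat.card ↥(alternatingGroup (Fin n)) → r ∈ π) := by
  have hc : Fintype.card (Fin n) = n := Fintype.card_fin n
  have hdvd : ∀ r : ℕ, r.Prime → (r ∣ Nat.card (alternatingGroup (Fin n)) ↔ r ≤ n) := by
    intro r hr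
    refine ⟨fun h => hc ▸ prime_le_of_dvd_card _ hr h, fun h => ?_⟩
    exact prime_mem_of_alt_le (π := {r | r ∣ Nat.card (alternatingGroup (Fin n))})
      (K := alternatingGroup (Fin n)) ⟨fun p _ h => h, fun p hp _ h => by
        rw [relIndex_self] at h
        exact hp.one_lt.ne' (Nat.dvd_one.1 h)⟩ le_rfl hr (hc.symm ▸ h) (Or.inr (by omega))
  constructor
  · intro hD
    by_contra hcon
    push Not at hcon
    obtain ⟨⟨r, s, hr, hs, hrπ, hsπ, hrd, hsd, hrs⟩, t, ht, htd, htπ⟩ := hcon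
    have h1 : Two π (Fintype.card (Fin n)) :=
      ⟨r, s, hr, hs, hrs, hrπ, hsπ, hc.symm ▸ (hdvd r hr).1 hrd, hc.symm ▸ (hdvd s hs).1 hsd⟩
    have h2 : ∃ t, t.Prime ∧ t ≤ Fintype.card (Fin n) ∧ t ∉ π :=
      ⟨t, ht, hc.symm ▸ (hdvd t ht).1 htd, htπ⟩
    have hmax : ∀ H : Subgroup (alternatingGroup (Fin n)), Maximal (IsPiSubgroup π) H →
        IsPiHall π H := by
      intro H hH
      refine ⟨hH.prop, fun p hp hπ hd => ?_⟩
      haveI := Fact.mk hp
      obtain ⟨P⟩ : Nonempty (Sylow p (alternatingGroup (Fin n))) := inferInstance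
      have hP : IsPiSubgroup π (P : Subgroup (alternatingGroup (Fin n))) := by
        intro q hq hqd
        obtain ⟨k, hk⟩ := P.isPGroup'.exists_card_eq
        rw [hk] at hqd
        exact ((Nat.prime_dvd_prime_iff_eq hq hp).1 (hq.dvd_of_dvd_pow hqd)) ▸ hπ
      obtain ⟨H', hle, hH'⟩ := Finite.exists_le_maximal hP
      obtain ⟨g, hg⟩ := hD H H' hH hH'
      have h3 : H'.index = H.index := by
        rw [hg]
        exact index_map_equiv H (MulAut.conj g)
      exact P.not_dvd_index ((h3 ▸ hd).trans (index_dvd_of_le hle))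
    obtain ⟨H0, -, hH0⟩ := Finite.exists_le_maximal (p := IsPiSubgroup π)
      (a := (⊥ : Subgroup (alternatingGroup (Fin n)))) (fun p hp hd => by
        rw [card_bot] at hd
        exact absurd (Nat.dvd_one.1 hd) hp.one_lt.ne')
    obtain ⟨B0, hB0, -⟩ := classify le_rfl (isPiHallOf_map_subtype.2 (hmax H0 hH0)) h1 h2
    obtain ⟨U, hU, hbad⟩ := bad n hn π _ (hc ▸ hB0)
    have hU' : IsPiSubgroup π (U.subgroupOf (alternatingGroup (Fin n))) := by
      intro p hp hd
      rw [card_subgroupOf_eq_inf] at hd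
      exact hU p hp hd
    obtain ⟨H, hle, hH⟩ := Finite.exists_le_maximal hU'
    obtain ⟨B, hB, hHB⟩ := classify le_rfl (isPiHallOf_map_subtype.2 (hmax H hH)) h1 h2
    refine hbad B (hB.unique hB0) ?_
    rw [← subgroupOf_map_subtype]
    exact (map_mono hle).trans (hHB ▸ inf_le_left)
  · rintro (h | h) H K hH hK
    · obtain ⟨p, hp, h'⟩ := exists_one_prime Nat.card_pos.ne' h
      haveI := Fact.mk hp
      have key : ∀ H : Subgroup (alternatingGroup (Fin n)), Maximal (IsPiSubgroup π) H →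
          IsSylowIn p H ⊤ := by
        intro H hH
        obtain ⟨P, hP, hle⟩ := exists_isSylowIn_ge (K := ⊤) le_top ((pi_iff_pgroup hp h').1 hH.prop)
        rwa [hH.eq_of_le ((pi_iff_pgroup hp h').2 hP.isPGroup) hle]
      obtain ⟨g, -, hg⟩ := (key H hH).exists_conj_eq (key K hK)
      exact ⟨g, hg.symm⟩
    · have ht : IsPiSubgroup π (⊤ : Subgroup (alternatingGroup (Fin n))) :=
        fun p hp hd => h p hp (by simpa using hd)
      refine ⟨1, ?_⟩
      rw [hH.eq_of_le ht le_top, hK.eq_of_le ht le_top]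
      exact (map_top_of_surjective _ (MulAut.conj (1 : alternatingGroup (Fin n))).surjective).symm

end Cfsg.Agent.S2534
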