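import Cfsg.Statements.S2535
import Cfsg.Agent.H6.HallSym3
-- import your own Cfsg.Agent.* helpers here

set_option autoImplicit false
open Cfsg

namespace Cfsg.Agent.S2535

open Cfsg.Agent.H1 Cfsg.Agent.H6.HS Subgroup


/-- For every `n` and every set of primes `π`, the following are equivalent for the symmetric group `S` of degree `n` and its alternating subgroup `A`: `S` has a Hall `π`-subgroup; `S` has a Hall `π`-subgroup and all of them are conjugate; `A` has a Hall `π`-subgroup; `A` has a Hall `π`-subgroup and all of them are conjugate. -/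
theorem result (n : ℕ) (π : Set ℕ) :
    (Cfsg.IsEPiGroup π (Equiv.Perm (Fin n)) ↔ Cfsg.IsCPiGroup π (Equiv.Perm (Fin n))) ∧
    (Cfsg.IsEPiGroup π (Equiv.Perm (Fin n)) ↔ Cfsg.IsEPiGroup π ↥(alternatingGroup (Fin n))) ∧
    (Cfsg.IsEPiGroup π ↥(alternatingGroup (Fin n)) ↔ Cfsg.IsCPiGroup π ↥(alternatingGroup (Fin n))) := by
  have hn : Fintype.card (Fin n) = n := Fintype.card_fin n
  have hS : Nat.card (Equiv.Perm (Fin n)) = n.factorial := by
    rw [Nat.card_perm, Nat.card_eq_fintype_card, hn]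
  have hA : Nat.card (alternatingGroup (Fin n)) ∣ n.factorial := by
    simpa using card_dvd_fact (alternatingGroup (Fin n))
  rcases cases3 π n with ⟨h1, h2⟩ | h | ⟨p, hp, h⟩
  · rw [← hn] at h1 h2
    refine ⟨⟨fun hE => ⟨hE, fun H K hH hK => ?_⟩, fun h => h.1⟩, ?_,
      ⟨fun hE => ⟨hE, fun H K hH hK => ?_⟩, fun h => h.1⟩⟩
    · obtain ⟨g, -, hg⟩ := hallC le_top h1 h2 (isPiHallOf_top.2 hH) (isPiHallOf_top.2 hK)
      exact ⟨g, hg.symm⟩
    · rw [epi_top_iff, epi_sub_iff, hallE le_top h1 h2, hallE le_rfl h1 h2]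
    · obtain ⟨g, hgA, hg⟩ := hallC le_rfl h1 h2 (isPiHallOf_map_subtype.2 hH)
        (isPiHallOf_map_subtype.2 hK)
      refine ⟨⟨g, hgA⟩, map_injective (alternatingGroup (Fin n)).subtype_injective ?_⟩
      rw [← hg]
      exact (map_subtype_conj_smul (⟨g, hgA⟩ : alternatingGroup (Fin n)) H).symm
  · have c1 : IsCPiGroup π (Equiv.Perm (Fin n)) := cpi_of_all fun r hr hd => h r hr (hS ▸ hd)
    have c2 : IsCPiGroup π (alternatingGroup (Fin n)) :=
      cpi_of_all fun r hr hd => h r hr (hd.trans hA)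
    exact ⟨iff_of_true c1.1 c1, iff_of_true c1.1 c2.1, iff_of_true c2.1 c2⟩
  · have c1 : IsCPiGroup π (Equiv.Perm (Fin n)) := cpi_of_one hp fun r hr hd => h r hr (hS ▸ hd)
    have c2 : IsCPiGroup π (alternatingGroup (Fin n)) :=
      cpi_of_one hp fun r hr hd => h r hr (hd.trans hA)
    exact ⟨iff_of_true c1.1 c1, iff_of_true c1.1 c2.1, iff_of_true c2.1 c2⟩

end Cfsg.Agent.S2535
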