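import Cfsg.Statements.S2537
import Mathlib
import Cfsg.Agent.H12.PSL2Dih
import Cfsg.Agent.H1.Hall

set_option autoImplicit false
open Cfsg

namespace Cfsg.Agent.S2537

open Subgroup H12
open scoped MatrixGroups

theorem dec {n : ℕ} (hn : n ≠ 0) : ∃ t, ¬ 2 ∣ t ∧ ¬ 3 ∣ t ∧
    n = 2 ^ n.factorization 2 * 3 ^ n.factorization 3 * t := by
  obtain ⟨a, u, h1, rfl⟩ := Nat.exists_eq_pow_mul_and_not_dvd hn 2 (by decide)
  obtain ⟨b, t, h2, rfl⟩ := Nat.exists_eq_pow_mul_and_not_dvd (right_ne_zero_of_mul hn) 3 (by decide)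
  have h3 : ¬ 2 ∣ t := fun h => h1 (h.mul_left _)
  have h4 : t ≠ 0 := fun e => h3 (by simp [e])
  refine ⟨t, h3, h2, ?_⟩
  simp [Nat.factorization_mul, h4, Nat.prime_two.factorization, Nat.prime_three.factorization,
    Nat.factorization_eq_zero_of_not_dvd h3, Nat.factorization_eq_zero_of_not_dvd h2, mul_assoc]

/-- Let `F` be a finite field with `q` elements of characteristic `p ≥ 5`, and `ε = 1` if `q ≡ 1 (mod 4)`, `ε = -1` otherwise. Then `PSL(2, F)` has a Hall `{2, 3}`-subgroup if and only if `3` divides `q − ε`, or the `{2,3}`-part of `q² − 1` is 24, or the `{2,3}`-part of `q² − 1` is 48 (the `{2,3}`-part of `m` being the largest divisor of `m` with no prime factor other than 2 and 3). -/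
theorem result {F : Type*} [Field F] [Fintype F] {p : ℕ} [Fact p.Prime] [CharP F p]
    (hp : 5 ≤ p) (q : ℕ) (hq : Fintype.card F = q) :
    (∃ H : Subgroup (Matrix.ProjectiveSpecialLinearGroup (Fin 2) F), Cfsg.IsPiHall ({2, 3} : Set ℕ) H) ↔
      (3 ∣ q - 1 ∧ q % 4 = 1) ∨ (3 ∣ q + 1 ∧ q % 4 = 3) ∨
        2 ^ (q ^ 2 - 1).factorization 2 * 3 ^ (q ^ 2 - 1).factorization 3 = 24 ∨
        2 ^ (q ^ 2 - 1).factorization 2 * 3 ^ (q ^ 2 - 1).factorization 3 = 48 := by
  have hpp : p.Prime := Fact.out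
  obtain ⟨⟨f, f0⟩, -, hf⟩ := FiniteField.card F p
  have qr : ∀ r : ℕ, r.Prime → r ∣ q → r = p := fun r h1 h2 =>
    (Nat.prime_dvd_prime_iff_eq h1 hpp).1 (h1.dvd_of_dvd_pow (hf ▸ hq ▸ h2))
  have q2 : ¬ 2 ∣ q := fun h => by have := qr 2 Nat.prime_two h; omega
  have q3 : ¬ 3 ∣ q := fun h => by have := qr 3 Nat.prime_three h; omega
  have q5 : 5 ≤ q := hp.trans (hq ▸ hf ▸ Nat.le_self_pow f0.ne' p)
  have g2 : Nat.gcd 2 (q - 1) = 2 := Nat.gcd_eq_left (by omega)
  have hG := card_PSL2 hq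
  have e : q ^ 2 - 1 = (q + 1) * (q - 1) := Nat.sq_sub_sq q 1
  obtain ⟨t, t2, t3, ht⟩ := dec (n := q ^ 2 - 1) (by rw [e]; exact mul_ne_zero (by omega) (by omega))
  generalize (q ^ 2 - 1).factorization 2 = a at *
  generalize (q ^ 2 - 1).factorization 3 = b at *
  rw [g2, ht] at hG
  have c2 : ¬ 2 ∣ q * t := Nat.prime_two.not_dvd_mul q2 t2
  have c3 : ¬ 3 ∣ q * t := Nat.prime_three.not_dvd_mul q3 t3
  constructor
  · rintro ⟨H, h1, h2⟩
    have hH := H.card_mul_index
    have h3 : 2 * Nat.card H = 2 ^ a * 3 ^ b := by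
      refine Nat.dvd_antisymm (Nat.Coprime.dvd_of_dvd_mul_right (n := q * t) (Nat.coprime_of_dvd
        fun r hr h => ?_) ⟨H.index, by rw [mul_assoc 2 _ H.index, hH, hG]; ring⟩)
        (Nat.Coprime.dvd_of_dvd_mul_right (n := H.index) (Nat.Coprime.mul_left
          (Nat.Coprime.pow_left _ ((Nat.prime_two.coprime_iff_not_dvd).2 (h2 2 Nat.prime_two (by simp))))
          (Nat.Coprime.pow_left _ ((Nat.prime_three.coprime_iff_not_dvd).2
            (h2 3 Nat.prime_three (by simp))))) ⟨q * t, by rw [mul_assoc 2 _ H.index, hH, hG]; ring⟩)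
      rcases (Nat.Prime.dvd_mul hr).1 h with h | h
      · rwa [(Nat.prime_dvd_prime_iff_eq hr Nat.prime_two).1 h]
      · rcases h1 r hr h with rfl | rfl <;> assumption
    have hp' : ¬ p ∣ Nat.card H := fun h => by rcases h1 p hpp h with rfl | rfl <;> omega
    have d8 : 2 ^ 3 ∣ 2 * Nat.card H := h3 ▸ (Nat.Coprime.dvd_of_dvd_mul_right
      (Nat.Coprime.pow_left _ ((Nat.prime_two.coprime_iff_not_dvd).2 t2)) (by
        rw [← ht, pow_two]; apply Nat.dvd_of_mod_eq_zero
        have : q * q % 8 = 1 := by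
          rw [Nat.mul_mod]
          have : q % 8 = 1 ∨ q % 8 = 3 ∨ q % 8 = 5 ∨ q % 8 = 7 := by omega
          rcases this with h | h | h | h <;> rw [h]
        omega))
    have d3 : 3 ∣ 2 * Nat.card H := h3 ▸ (Nat.Coprime.dvd_of_dvd_mul_right
      ((Nat.prime_three.coprime_iff_not_dvd).2 t3) (by
        rw [← ht, pow_two]; apply Nat.dvd_of_mod_eq_zero
        have : q * q % 3 = 1 := by
          rw [Nat.mul_mod]
          have : q % 3 = 1 ∨ q % 3 = 2 := by omega
          rcases this with h | h <;> rw [h]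
        omega))
    have od : ∀ g ∈ H, 2 * orderOf g ∣ q + 1 ∨ 2 * orderOf g ∣ q - 1 := fun g hg => by
      have := psl2_orderOf_dvd p (g := g) fun h => hp' (h.trans (orderOf_dvd_natCard H hg))
      rw [hq, g2] at this
      exact this.imp (fun h => (Nat.dvd_div_iff_mul_dvd (by omega)).1 h)
        fun h => (Nat.dvd_div_iff_mul_dvd (by omega)).1 h
    rcases dickson_psl2_iso p H with ⟨x, -, h⟩ | ⟨h, -⟩ | ⟨x, s, h, -⟩ | ⟨-, ⟨h⟩⟩ | ⟨-, ⟨h⟩⟩ |
      ⟨-, ⟨h⟩⟩ | ⟨E, -, h⟩
    · exact absurd h hp'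
    · obtain ⟨g, hg⟩ := h.exists_ofOrder_eq_natCard
      have := od g g.2
      rw [orderOf_coe, hg, h3] at this
      have h4 : 2 ^ a * 3 ^ b * 2 ∣ 2 ^ a * 3 ^ b * t := by
        rw [← ht, e]
        rcases this with h | h
        · exact Nat.mul_dvd_mul h (by omega)
        · rw [mul_comm (q + 1)]; exact Nat.mul_dvd_mul h (by omega)
      exact absurd (Nat.dvd_of_mul_dvd_mul_left (by positivity) h4) t2
    · have := od x h.left_mem
      rw [← h.card] at this
      have a1 : 4 ∣ Nat.card H := by omega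
      have a2 : 3 ∣ Nat.card H := by omega
      rcases this with h | h <;> have := a1.trans h <;> have := a2.trans h <;> omega
    · rw [Nat.card_congr h.toEquiv, nat_card_alternatingGroup] at h3
      simp only [Nat.card_fin] at h3
      exact .inr (.inr (.inl h3.symm))
    · rw [Nat.card_congr h.toEquiv, card_perm4] at h3
      exact .inr (.inr (.inr h3.symm))
    · have := h1 5 Nat.prime_five (by
        rw [Nat.card_congr h.toEquiv, nat_card_alternatingGroup]; simp only [Nat.card_fin]; decide)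
      simp at this
    · haveI := Fintype.ofFinite E
      obtain ⟨⟨k, k0⟩, -, hk⟩ := FiniteField.card E p
      have : p ∣ Fintype.card E := hk ▸ dvd_pow_self p k0.ne'
      refine absurd ?_ hp'
      rcases h with ⟨⟨h⟩⟩ | ⟨⟨h⟩⟩ <;> rw [Nat.card_congr h.toEquiv]
      · rw [card_PGL2 rfl]; exact this.mul_right _
      · refine ((Nat.Prime.dvd_mul hpp).1 (card_PSL2 (F := E) rfl ▸ this.mul_right _)).resolve_left
          fun h => ?_
        have := Nat.le_of_dvd two_pos (h.trans (Nat.gcd_dvd_left _ _))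
        omega
  have dih : ∀ N M, N = q - 1 ∨ N = q + 1 → q ^ 2 - 1 = N * (2 * M) → ¬ 2 ∣ M → ¬ 3 ∣ M →
      ∃ H : Subgroup PSL(2, F), IsPiHall ({2, 3} : Set ℕ) H := fun N M h1 h2 h3 h4 => by
    obtain ⟨D, x, s, h, o⟩ := exists_dihedralPair (F := F) (N := N) (hq ▸ h1) (by omega)
    have c := h.card
    rw [o, hq, g2, Nat.mul_div_cancel' (by omega)] at c
    have i : D.index = q * M := by
      have := D.card_mul_index
      rw [← ht, h2, ← this, c] at hG
      exact Nat.eq_of_mul_eq_mul_left (show 0 < 2 * N by omega) (by linarith)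
    obtain ⟨H, k1, k2, k3⟩ := H1.exists_isPiHallOf ({2, 3} : Set ℕ) h.isSolvable
    refine ⟨H, k2, fun r hr h5 => ?_⟩
    rw [← relIndex_mul_index k1, i]
    refine hr.not_dvd_mul (k3 r hr h5) ?_
    rcases h5 with rfl | rfl
    exacts [hr.not_dvd_mul q2 h3, hr.not_dvd_mul q3 h4]
  have sm : ∀ H : Subgroup PSL(2, F), 2 * Nat.card H = 2 ^ a * 3 ^ b →
      IsPiHall ({2, 3} : Set ℕ) H := fun H h => by
    have i : H.index = q * t := by
      rw [← H.card_mul_index, ← mul_assoc, ← h] at hG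
      exact Nat.eq_of_mul_eq_mul_left (show 0 < 2 * Nat.card H from h ▸ by positivity) (by linarith)
    refine ⟨fun r hr h1 => ?_, fun r hr h1 => ?_⟩
    · rcases (Nat.Prime.dvd_mul hr).1 (h ▸ h1.mul_left 2) with h2 | h2
      · exact .inl ((Nat.prime_dvd_prime_iff_eq hr Nat.prime_two).1 (hr.dvd_of_dvd_pow h2))
      · exact .inr ((Nat.prime_dvd_prime_iff_eq hr Nat.prime_three).1 (hr.dvd_of_dvd_pow h2))
    · rcases h1 with rfl | rfl <;> rwa [i]
  have h2 : (2 : F) ≠ 0 := natCast_ne_zero_of_not_dvd p (n := 2) fun h => by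
    have := Nat.le_of_dvd two_pos h; omega
  rintro (h | h | h | h)
  · exact dih (q - 1) ((q + 1) / 2) (.inl rfl) (by rw [e, mul_comm, Nat.mul_div_cancel' (by omega)])
      (by omega) (by omega)
  · exact dih (q + 1) ((q - 1) / 2) (.inr rfl) (by rw [e, Nat.mul_div_cancel' (by omega)])
      (by omega) (by omega)
  · obtain ⟨H, ⟨k⟩⟩ := exists_alt4 h2
    exact ⟨H, sm H (by
      rw [Nat.card_congr k.toEquiv, nat_card_alternatingGroup, h]; simp only [Nat.card_fin]; decide)⟩
  · obtain ⟨s, hs⟩ := exists_sqrt_two (F := F) (by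
      rw [hq]
      rw [h, pow_two] at ht
      by_contra hn
      have : q * q % 16 = 9 := by
        rw [Nat.mul_mod]
        have : q % 16 = 3 ∨ q % 16 = 5 ∨ q % 16 = 11 ∨ q % 16 = 13 := by omega
        rcases this with h | h | h | h <;> rw [h]
      omega)
    obtain ⟨H, ⟨k⟩⟩ := exists_perm4_of_sq h2 hs
    exact ⟨H, sm H (by rw [Nat.card_congr k.toEquiv, card_perm4, h])⟩

end Cfsg.Agent.S2537
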