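import Cfsg.Statements.S2538
import Cfsg.Agent.H6.HallSym3
-- import your own Cfsg.Agent.* helpers here

set_option autoImplicit false
open Cfsg

namespace Cfsg.Agent.S2538

open Cfsg.Agent.H1 Cfsg.Agent.H6.HS Subgroup


/-- For every `n` and every set of primes `π`, a subgroup of the alternating group of degree `n` is a Hall `π`-subgroup of it if and only if it is the intersection with the alternating group of some Hall `π`-subgroup of the symmetric group of degree `n`. -/
theorem result (n : ℕ) (π : Set ℕ)
    (M : Subgroup ↥(alternatingGroup (Fin n))) :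
    Cfsg.IsPiHall π M ↔ ∃ M₀ : Subgroup (Equiv.Perm (Fin n)), Cfsg.IsPiHall π M₀ ∧ M = M₀.subgroupOf (alternatingGroup (Fin n)) := by
  have hn : Fintype.card (Fin n) = n := Fintype.card_fin n
  have hS : Nat.card (Equiv.Perm (Fin n)) = n.factorial := by
    rw [Nat.card_perm, Nat.card_eq_fintype_card, hn]
  have hA : Nat.card (alternatingGroup (Fin n)) ∣ n.factorial := by
    simpa using card_dvd_fact (alternatingGroup (Fin n))
  have hsub : ∀ X : Subgroup (Equiv.Perm (Fin n)),
      M.map (alternatingGroup (Fin n)).subtype = X ⊓ alternatingGroup (Fin n) →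
      M = X.subgroupOf (alternatingGroup (Fin n)) := fun X hX =>
    map_injective (alternatingGroup (Fin n)).subtype_injective (by rw [hX, subgroupOf_map_subtype])
  constructor
  · intro hM
    have hM' := isPiHallOf_map_subtype.2 hM
    rcases cases3 π n with ⟨h1, h2⟩ | h | ⟨p, hp, h⟩
    · rw [← hn] at h1 h2
      obtain ⟨B, hB, hMB⟩ := classify le_rfl hM' h1 h2
      refine ⟨MB B, ?_, hsub _ hMB⟩
      have := MB_hall le_top h1.three_le hB
      rwa [inf_top_eq, isPiHallOf_top] at this
    · refine ⟨⊤, (hall_iff_top fun r hr hd => h r hr (hS ▸ hd)).2 rfl, ?_⟩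
      rw [(hall_iff_top fun r hr hd => h r hr (hd.trans hA)).1 hM, top_subgroupOf]
    · haveI := Fact.mk hp
      have h1 := (hall_iff_sylow hp fun r hr hd => h r hr (hd.trans hA)).1 hM
      obtain ⟨P, hP, hle⟩ := exists_isSylowIn_ge (K := ⊤) le_top
        (h1.isPGroup.map (alternatingGroup (Fin n)).subtype)
      refine ⟨P, (hall_iff_sylow hp fun r hr hd => h r hr (hS ▸ hd)).2 hP, ?_⟩
      exact h1.eq_of_le (map_le_iff_le_comap.1 hle) le_top hP.isPGroup.comap_subtype
  · rintro ⟨M₀, h0, rfl⟩
    have := isPiHallOf_inf (isPiHallOf_top.2 h0) (K := alternatingGroup (Fin n)) le_top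
      le_normalizer_of_normal
    rw [← isPiHallOf_map_subtype, subgroupOf_map_subtype]
    exact this

end Cfsg.Agent.S2538
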