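import Cfsg.Statements.S2540
import Cfsg.Agent.H12.Lin
import Mathlib

set_option autoImplicit false
open Cfsg

namespace Cfsg.Agent.S2540

/-- Let F be a finite field and n ≥ 1, excluding the case n = 2 with #F ≤ 3. A subgroup of GL_n(F) that is normalized by every element of SL_n(F) either consists of scalar matrices or contains SL_n(F). -/
theorem result {F : Type*} [Field F] [Fintype F] (n : ℕ) (hn : 1 ≤ n) (hex : ¬ (n = 2 ∧ Fintype.card F ≤ 3)) (G : Subgroup (Matrix.GeneralLinearGroup (Fin n) F)) (hG : ∀ s : Matrix.SpecialLinearGroup (Fin n) F, ∀ g ∈ G, (Matrix.SpecialLinearGroup.toGL s) * g * (Matrix.SpecialLinearGroup.toGL s)⁻¹ ∈ G) : (∀ g ∈ G, ∃ c : F, (g : Matrix (Fin n) (Fin n) F) = c • (1 : Matrix (Fin n) (Fin n) F)) ∨ (Matrix.SpecialLinearGroup.toGL : Matrix.SpecialLinearGroup (Fin n) F →* _).range ≤ G := by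
  classical
  rcases hn.eq_or_lt with rfl | hn
  · left
    intro g _
    refine ⟨(g : Matrix (Fin 1) (Fin 1) F) 0 0, ?_⟩
    ext i j
    rw [Subsingleton.elim i 0, Subsingleton.elim j 0]; simp
  have h4 : n = 2 → 4 ≤ Fintype.card F := fun h => by
    by_contra h'; exact hex ⟨h, by omega⟩
  have hP := H12.commutator_SL_fin_eq_top (F := F) n hn h4
  have hS := H12.PSL_fin_simple (F := F) n hn h4
  let j := (Matrix.SpecialLinearGroup.toGL : Matrix.SpecialLinearGroup (Fin n) F →* GL (Fin n) F)
  let N := G.comap j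
  have hN : N.Normal := ⟨fun g hg s => by
    have := hG s _ hg
    simpa [N, j] using this⟩
  rcases (hN.map _ (QuotientGroup.mk'_surjective (Subgroup.center _))).eq_bot_or_eq_top with h | h
  · left
    intro g hg
    rw [Subgroup.map_eq_bot_iff, QuotientGroup.ker_mk'] at h
    -- the map s ↦ [s, g] is a homomorphism into the centre
    have hdet : ∀ s : Matrix.SpecialLinearGroup (Fin n) F,
        ((g * j s * g⁻¹ : GL (Fin n) F) : Matrix (Fin n) (Fin n) F).det = 1 := fun s => by
      have : Matrix.GeneralLinearGroup.det (g * j s * g⁻¹) = 1 := by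
        rw [map_mul, map_mul, map_inv, mul_right_comm, mul_inv_cancel, one_mul]
        exact Units.ext s.2
      exact congrArg Units.val this
    let c : Matrix.SpecialLinearGroup (Fin n) F →* Matrix.SpecialLinearGroup (Fin n) F :=
      { toFun := fun s => ⟨_, hdet s⟩
        map_one' := Subtype.ext (by simp)
        map_mul' := fun s t => Subtype.ext (by
          show ((g * j (s * t) * g⁻¹ : GL (Fin n) F) : Matrix (Fin n) (Fin n) F) = ((g * j s * g⁻¹ : GL (Fin n) F) : Matrix (Fin n) (Fin n) F) * (g * j t * g⁻¹ : GL (Fin n) F)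
          rw [← Units.val_mul, map_mul]
          congr 1; group) }
    have hc : ∀ s, j (c s) = g * j s * g⁻¹ := fun s => Units.ext rfl
    have hz : ∀ s, s⁻¹ * c s ∈ Subgroup.center _ := fun s => h (by
      show j _ ∈ G
      rw [map_mul, hc, map_inv]
      have := G.mul_mem (hG s⁻¹ _ hg) (G.inv_mem hg)
      rw [map_inv, inv_inv] at this
      simpa [mul_assoc] using this)
    have hE : (c.eqLocus (MonoidHom.id _)) = ⊤ := by
      rw [eq_top_iff, ← hP, commutator_def, Subgroup.commutator_le]
      intro a _ b _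
      show c (a * b * a⁻¹ * b⁻¹) = a * b * a⁻¹ * b⁻¹
      have ha := Subgroup.mem_center_iff.1 (hz a)
      have hb := Subgroup.mem_center_iff.1 (hz b)
      rw [map_mul, map_mul, map_mul, map_inv, map_inv]
      generalize c a = a' at ha
      generalize c b = b' at hb
      obtain ⟨y, rfl⟩ : ∃ y, a' = a * y := ⟨a⁻¹ * a', by group⟩
      obtain ⟨z, rfl⟩ : ∃ z, b' = b * z := ⟨b⁻¹ * b', by group⟩
      simp only [inv_mul_cancel_left] at ha hb
      simp only [mul_inv_rev]
      calc a * y * (b * z) * (y⁻¹ * a⁻¹) * (z⁻¹ * b⁻¹) = a * (y * (b * z)) * y⁻¹ * (a⁻¹ * z⁻¹) * b⁻¹ := by group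
        _ = a * b * (z * a⁻¹) * z⁻¹ * b⁻¹ := by rw [← ha]; group
        _ = _ := by rw [← hb]; group
    have hcomm : ∀ s, g * j s = j s * g := fun s => by
      have : c s = s := (hE ▸ Subgroup.mem_top s : s ∈ c.eqLocus (MonoidHom.id _))
      rw [← mul_inv_eq_iff_eq_mul, ← hc, this]
    obtain ⟨c, hc⟩ : (g : Matrix (Fin n) (Fin n) F) ∈ Set.range (Matrix.scalar (Fin n)) := by
      refine Matrix.mem_range_scalar_iff_commute_single.2 fun i k hik => ?_
      have := congrArg Units.val (hcomm (Matrix.SpecialLinearGroup.transvection hik 1))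
      simp only [Units.val_mul] at this
      change _ * (1 + Matrix.single i k 1) = (1 + Matrix.single i k 1) * _ at this
      rw [mul_add, add_mul, mul_one, one_mul, add_right_inj] at this
      exact this.symm
    exact ⟨c, by rw [← hc]; simp [Matrix.smul_one_eq_diagonal]⟩
  · right
    have h1 : N ⊔ Subgroup.center _ = ⊤ := by
      have := congrArg (Subgroup.comap (QuotientGroup.mk' (Subgroup.center _))) h
      rwa [Subgroup.comap_map_eq, QuotientGroup.ker_mk', Subgroup.comap_top] at this
    have h2 : N = ⊤ := by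
      rw [eq_top_iff, ← hP]
      have : IsMulCommutative (_ ⧸ N) := ⟨⟨fun a b => by
        obtain ⟨a, rfl⟩ := QuotientGroup.mk_surjective a
        obtain ⟨b, rfl⟩ := QuotientGroup.mk_surjective b
        obtain ⟨x, hx, z, hz, rfl⟩ := Subgroup.mem_sup_of_normal_left.1 (h1 ▸ Subgroup.mem_top a)
        rw [QuotientGroup.mk_mul, (QuotientGroup.eq_one_iff x).2 hx, one_mul, ← QuotientGroup.mk_mul,
          ← QuotientGroup.mk_mul, Subgroup.mem_center_iff.1 hz]⟩⟩
      exact Subgroup.Normal.quotient_commutative_iff_commutator_le.1 this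
    rintro _ ⟨s, rfl⟩
    exact (h2 ▸ Subgroup.mem_top s : s ∈ N)

end Cfsg.Agent.S2540
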