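import Cfsg.Statements.S2541
import Cfsg.Agent.H19.GL2Ord

set_option autoImplicit false
open Cfsg

namespace Cfsg.Agent.S2541



/-- Let F be a field with 9 elements. The symmetric group S_6 is not isomorphic to PGL_2(F) (although both have index-2 subgroups isomorphic to A_6). -/
theorem result {F : Type*} [Field F] [Fintype F] (hF : Fintype.card F = 9) : ¬ Nonempty (Equiv.Perm (Fin 6) ≃* Matrix.ProjGenLinGroup (Fin 2) F) := by
  rintro ⟨e⟩
  have := Fact.mk Nat.prime_three
  have : CharP F 3 := charP_of_card_eq_prime_pow (f := 2) hF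
  have h : 8 ∈ Set.range (orderOf : Matrix.ProjGenLinGroup (Fin 2) F → ℕ) :=
    (H19.spec_PGL2 3 8).2 (Or.inr (Or.inl (by rw [hF])))
  rw [← H19.spec_congr e, H19.spec_perm] at h
  exact absurd h (by decide +kernel)

end Cfsg.Agent.S2541
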