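import Cfsg.Statements.S2542
import Cfsg.Agent.H14.L211

set_option autoImplicit false
open Cfsg

namespace Cfsg.Agent.S2542

/-- Let F be a field with 11 elements. PSL_2(F) has a subgroup H of index 11 isomorphic to the alternating group A_5, and the action of PSL_2(F) on the cosets of H is 2-transitive (of degree 11). -/
theorem result {F : Type*} [Field F] [Fintype F] (hF : Fintype.card F = 11) : ∃ H : Subgroup (Matrix.ProjectiveSpecialLinearGroup (Fin 2) F), H.index = 11 ∧ Nonempty (H ≃* alternatingGroup (Fin 5)) ∧ MulAction.IsMultiplyPretransitive (Matrix.ProjectiveSpecialLinearGroup (Fin 2) F) ((Matrix.ProjectiveSpecialLinearGroup (Fin 2) F) ⧸ H) 2 := by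
  obtain ⟨f⟩ := H12.nonempty_ringEquiv_of_natCard_eq (F := ZMod 11) (K := F) (by
    rw [Nat.card_eq_fintype_card, Nat.card_eq_fintype_card, hF, ZMod.card])
  let e := H12.pslCongr (Fin 2) f
  obtain ⟨i⟩ := H14.L211.isoH
  refine ⟨H14.L211.H.map e.toMonoidHom, ?_, ⟨(e.subgroupMap _).symm.trans i⟩, ?_⟩
  · exact (Subgroup.index_map_equiv _ e).trans (H14.L211.index_of_iso H14.L211.isoH)
  · have := H14.L211.two_trans
    rw [MulAction.is_two_pretransitive_iff] at this ⊢
    intro a b c d h1 h2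
    obtain ⟨a, rfl⟩ := QuotientGroup.mk_surjective a
    obtain ⟨b, rfl⟩ := QuotientGroup.mk_surjective b
    obtain ⟨c, rfl⟩ := QuotientGroup.mk_surjective c
    obtain ⟨d, rfl⟩ := QuotientGroup.mk_surjective d
    have k : ∀ x y, ((e.symm x : H14.L211.P) : H14.L211.P ⧸ H14.L211.H) = (e.symm y : H14.L211.P) ↔
        (x : _ ⧸ H14.L211.H.map e.toMonoidHom) = y := by
      intro x y
      rw [QuotientGroup.eq, QuotientGroup.eq, ← map_inv, ← map_mul]
      exact Subgroup.mem_map_equiv.symm
    obtain ⟨g, g1, g2⟩ := this (mt (k a b).1 h1) (mt (k c d).1 h2)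
    refine ⟨e g, (k _ _).1 ?_, (k _ _).1 ?_⟩
    · rw [← g1]; simp
    · rw [← g2]; simp

end Cfsg.Agent.S2542
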