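import Cfsg.Statements.S2543
import Cfsg.Agent.H14.L211

set_option autoImplicit false
open scoped Pointwise
open Cfsg

namespace Cfsg.Agent.S2543

/-- Let F be a field with 11 elements. PSL_2(F) has exactly 22 subgroups isomorphic to the alternating group A_5, and they form two conjugacy classes: there are two such subgroups that are not conjugate, and every such subgroup is conjugate to one of these two. -/
theorem result {F : Type*} [Field F] [Fintype F] (hF : Fintype.card F = 11) : Nat.card {H : Subgroup (Matrix.ProjectiveSpecialLinearGroup (Fin 2) F) // Nonempty (H ≃* alternatingGroup (Fin 5))} = 22 ∧ ∃ H K : Subgroup (Matrix.ProjectiveSpecialLinearGroup (Fin 2) F), Nonempty (H ≃* alternatingGroup (Fin 5)) ∧ Nonempty (K ≃* alternatingGroup (Fin 5)) ∧ (∀ g : Matrix.ProjectiveSpecialLinearGroup (Fin 2) F, MulAut.conj g • H ≠ K) ∧ ∀ L : Subgroup (Matrix.ProjectiveSpecialLinearGroup (Fin 2) F), Nonempty (L ≃* alternatingGroup (Fin 5)) → ∃ g : Matrix.ProjectiveSpecialLinearGroup (Fin 2)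 F, MulAut.conj g • L = H ∨ MulAut.conj g • L = K := by
  obtain ⟨f⟩ := H12.nonempty_ringEquiv_of_natCard_eq (F := ZMod 11) (K := F) (by
    rw [Nat.card_eq_fintype_card, Nat.card_eq_fintype_card, hF, ZMod.card])
  let e := H12.pslCongr (Fin 2) f
  have hm : ∀ (g : H14.L211.P) (L : Subgroup H14.L211.P),
      MulAut.conj (e g) • e.mapSubgroup L = e.mapSubgroup (MulAut.conj g • L) := by
    intro g L
    show (L.map e.toMonoidHom).map (MulAut.conj (e g)).toMonoidHom =
      (L.map (MulAut.conj g).toMonoidHom).map e.toMonoidHom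
    rw [Subgroup.map_map, Subgroup.map_map]
    congr 1
    ext x
    simp
  have hi : ∀ L : Subgroup H14.L211.P, Nonempty (L ≃* alternatingGroup (Fin 5)) ↔
      Nonempty (e.mapSubgroup L ≃* alternatingGroup (Fin 5)) := fun L =>
    ⟨fun ⟨i⟩ => ⟨(e.subgroupMap L).symm.trans i⟩, fun ⟨i⟩ => ⟨(e.subgroupMap L).trans i⟩⟩
  refine ⟨?_, e.mapSubgroup H14.L211.H, e.mapSubgroup H14.L211.K, (hi _).1 H14.L211.isoH,
    (hi _).1 H14.L211.isoK, fun g h => ?_, fun L hL => ?_⟩
  · exact (Nat.card_congr (e.mapSubgroup.toEquiv.subtypeEquiv hi)).symm.trans H14.L211.card_all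
  · obtain ⟨g, rfl⟩ := e.surjective g
    rw [hm] at h
    exact H14.L211.nonconj g (e.mapSubgroup.injective h)
  · obtain ⟨L, rfl⟩ := e.mapSubgroup.surjective L
    obtain ⟨g, h⟩ := H14.L211.classify L ((hi L).2 hL)
    exact ⟨e g, by rw [hm]; exact h.imp (congrArg _) (congrArg _)⟩

end Cfsg.Agent.S2543
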