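import Cfsg.Statements.S2548
import Cfsg.Agent.H28.StO
import Cfsg.Agent.S0299
import Cfsg.Agent.S0305

set_option autoImplicit false
open Cfsg

namespace Cfsg.Agent.S2548



/-- Let F be a finite field of characteristic p and consider the group PΩ⁺_{2m}(F) of the hyperbolic quadratic form Σ x_i y_i with m ≥ 1, where Ω denotes the commutator subgroup of the full isometry group. This group has an irreducible complex character χ whose degree equals the order of a Sylow p-subgroup (equal to q^(m(m−1)) when #F = q, except in the degenerate case m = 2, q = 2, where this commutator subgroup has order 18 and its Sylow 2-subgroups have order 2) and whose restriction to any Sylow p-subgroup P is the regular character of P: χ vanishes on the non-identity elements of P. (This is the Steinberg character.) -/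
theorem result {F : Type*} [Field F] [Fintype F] (p : ℕ) [Fact p.Prime] [CharP F p] (m : ℕ) (hm : 1 ≤ m) : ∃ χ : Cfsg.POmega F (Cfsg.quadFormPlus m F) → ℂ, Cfsg.IsIrrCharacter (Cfsg.POmega F (Cfsg.quadFormPlus m F)) χ ∧ ∀ P : Sylow p (Cfsg.POmega F (Cfsg.quadFormPlus m F)), χ 1 = Nat.card P ∧ ∀ x : Cfsg.POmega F (Cfsg.quadFormPlus m F), x ∈ P → x ≠ 1 → χ x = 0 := by
  have := H28.finite_OG (H13.QPlus m F)
  have := Finite.of_equiv _ (H13.pomegaEquiv (H13.QPlus m F)).symm.toEquiv
  refine H28.HasSt.out ?_
  rcases hm.eq_or_lt with rfl | hm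
  · obtain ⟨e⟩ := S0305.result (F := F) rfl
    exact H28.hasSt_of_dihedral e
  rcases (Nat.succ_le_of_lt hm).eq_or_lt with rfl | hm
  · rcases (Nat.succ_le_of_lt (Fintype.one_lt_card (α := F))).eq_or_lt with h | h
    · obtain ⟨n, h1, h2⟩ := FiniteField.card F p
      obtain rfl : p = 2 := (Nat.prime_dvd_prime_iff_eq h1 Nat.prime_two).1 (by
        rw [show 2 = Fintype.card F from h, h2]; exact dvd_pow_self p n.ne_zero)
      obtain ⟨s⟩ := (H13.nd_QPlus (m := 2) (F := F)).nonempty_semiSim_even H13.nd_detQ (m := 2)
        (by simp) H13.finrank_M2 (iff_of_true (H13.isPlus_QPlus 2) H13.isPlus_detQ)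
      exact (H28.hasSt_detQ_two h.symm).of_equiv ((H13.pomegaEquiv (H13.QPlus 2 F)).trans s.pomEquiv)
    · obtain ⟨e⟩ := S0299.result (F := F) h
      have := (H28.isSBN_SL F p (le_refl 2)).quot.hasSt
      exact (this.prod this).of_equiv e
  · exact (H28.isSBN_OmPlus F p hm).quot.hasSt.of_equiv (H13.pomegaEquiv (H13.QPlus m F))

end Cfsg.Agent.S2548
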