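import Cfsg.Statements.S2549
import Cfsg.Agent.H28.StO
import Cfsg.Agent.S0300
import Cfsg.Agent.S0306

set_option autoImplicit false
open Cfsg

namespace Cfsg.Agent.S2549



/-- Let F be a finite field of characteristic p and consider the group PΩ⁻_{2m+2}(F) of the quadratic form Σ_{i<m} x_i y_i + (z₁² + a z₁ z₂ + b z₂²) with anisotropic binary part, m ≥ 0. This group has an irreducible complex character χ whose degree equals the order of a Sylow p-subgroup (namely q^(m(m+1)) when #F = q) and whose restriction to any Sylow p-subgroup P is the regular character of P: χ vanishes on the non-identity elements of P. (This is the Steinberg character.) -/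
theorem result {F : Type*} [Field F] [Fintype F] (p : ℕ) [Fact p.Prime] [CharP F p] (m : ℕ) (a b : F) (hab : ∀ z₁ z₂ : F, z₁ ^ 2 + a * z₁ * z₂ + b * z₂ ^ 2 = 0 → z₁ = 0 ∧ z₂ = 0) : ∃ χ : Cfsg.POmega F (Cfsg.quadFormMinus m F a b) → ℂ, Cfsg.IsIrrCharacter (Cfsg.POmega F (Cfsg.quadFormMinus m F a b)) χ ∧ ∀ P : Sylow p (Cfsg.POmega F (Cfsg.quadFormMinus m F a b)), χ 1 = Nat.card P ∧ ∀ x : Cfsg.POmega F (Cfsg.quadFormMinus m F a b), x ∈ P → x ≠ 1 → χ x = 0 := by
  have := H28.finite_OG (H13.QMinus m F a b)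
  have := Finite.of_equiv _ (H13.pomegaEquiv (H13.QMinus m F a b)).symm.toEquiv
  refine H28.HasSt.out ?_
  rcases m with _ | _ | m
  · obtain ⟨e⟩ := (H13.nd_QMinus (m := 0) hab).dihedral_minus (H13.not_isPlus_QMinus hab) (by simp)
    exact (H28.hasSt_of_dihedral e).of_equiv (H13.pomegaEquiv (H13.QMinus 0 F a b))
  · obtain ⟨K, _, _, j, -, -, h, -⟩ := H28.exists_quad_ext hab
    have := Fintype.ofFinite K
    have : CharP K p := charP_of_injective_ringHom j.injective p
    obtain ⟨e⟩ := S0300.result (K := K) rfl (by simpa using h) a b hab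
    exact (H28.isSBN_SL K p le_rfl).quot.hasSt.of_equiv e
  · exact (H28.isSBN_OmMinus p (by omega) hab).quot.hasSt.of_equiv (H13.pomegaEquiv (H13.QMinus _ F a b))

end Cfsg.Agent.S2549
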