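import Cfsg.Statements.S2550
import Cfsg.Agent.S0256
import Cfsg.Agent.S0819
import Cfsg.Agent.H12.Lin

set_option autoImplicit false
open Cfsg

namespace Cfsg.Agent.S2550

/-- Let F be a field with 2 elements and K a field with 4 elements. PSL_4(F) and PSL_3(K) have the same order (20160) but are not isomorphic. -/
theorem result {F K : Type*} [Field F] [Fintype F] [Field K] [Fintype K] (hF : Fintype.card F = 2) (hK : Fintype.card K = 4) : Nat.card (Matrix.ProjectiveSpecialLinearGroup (Fin 4) F) = Nat.card (Matrix.ProjectiveSpecialLinearGroup (Fin 3) K) ∧ ¬ Nonempty (Matrix.ProjectiveSpecialLinearGroup (Fin 4) F ≃* Matrix.ProjectiveSpecialLinearGroup (Fin 3) K) := by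
  constructor
  · have h1 := H12.card_PSL_fin hF 4 (by omega)
    have h2 := H12.card_PSL_fin hK 3 (by omega)
    simp [Fin.prod_univ_succ] at h1 h2
    omega
  · rintro ⟨e⟩
    obtain ⟨e'⟩ := S0256.result hF
    let σ : alternatingGroup (Fin 8) := ⟨⟨![1, 2, 0, 4, 5, 6, 7, 3], ![2, 0, 1, 7, 3, 4, 5, 6],
      by decide, by decide⟩, Equiv.Perm.mem_alternatingGroup.2 (by decide +kernel)⟩
    have h : orderOf σ = 15 := by
      rw [orderOf_eq_iff (by norm_num)]
      decide +kernel
    exact S0819.result hK (e (e'.symm σ)) (by rw [MulEquiv.orderOf_eq, MulEquiv.orderOf_eq, h])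

end Cfsg.Agent.S2550
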