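import Cfsg.Statements.S2551
import Cfsg.Agent.S0256
import Cfsg.Agent.H12.SCount
import Cfsg.Agent.H12.SBridge
import Cfsg.Agent.H12.Lin

set_option autoImplicit false
open Cfsg

namespace Cfsg.Agent.S2551

theorem exists_alt7 : ∃ f : alternatingGroup (Fin 7) →* alternatingGroup (Fin 8), Function.Injective f := by
  let e : Fin 7 ≃ {x : Fin 8 // x ≠ 0} := finSuccAboveEquiv 0
  refine ⟨((Equiv.Perm.extendDomainHom e).comp (alternatingGroup _).subtype).codRestrict _ fun g => ?_,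
    fun a b h => Subtype.ext (Equiv.Perm.extendDomainHom_injective e (congrArg Subtype.val h))⟩
  exact Equiv.Perm.mem_alternatingGroup.2 ((Equiv.Perm.sign_extendDomain _ _).trans
    (Equiv.Perm.mem_alternatingGroup.1 g.2))

theorem exists_map {F : Type*} [Field F] [Fintype F] (hF : Fintype.card F = 2) {v w v' w' : Fin 4 → F}
    (h1 : v ≠ 0) (h2 : w ≠ 0) (h3 : v ≠ w) (h4 : v' ≠ 0) (h5 : w' ≠ 0) (h6 : v' ≠ w') :
    ∃ g : GL (Fin 4) F, g • (v, w) = (v', w') := by
  have key : ∀ {v w : Fin 4 → F}, v ≠ 0 → w ≠ 0 → v ≠ w → LinearIndependent F ![v, w] :=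
    fun {v w} h1 h2 h3 => (LinearIndependent.pair_iff' h1).2 fun a ha => by
      by_cases h : a = 0
      · exact h2 (by simp [← ha, h])
      · have := FiniteField.pow_card_sub_one_eq_one a h
        rw [hF, pow_one] at this
        exact h3 (by simp [← ha, this])
  obtain ⟨g, hg⟩ := Submodule.exists_linearEquiv_restrict_eq
    ((key h1 h2 h3).linearCombinationEquiv.symm.trans (key h4 h5 h6).linearCombinationEquiv)
  have : ∀ i, g (![v, w] i) = ![v', w'] i := fun i => by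
    have := hg ((key h1 h2 h3).linearCombinationEquiv (Finsupp.single i 1))
    simpa using this.symm
  obtain ⟨g, rfl⟩ := (H12.glEq (Fin 4) F).surjective g
  exact ⟨g, Prod.ext (this 0) (this 1)⟩

/-- Let F be the field with 2 elements. GL_4(F) (≅ A_8) has a subgroup isomorphic to the alternating group A_7, and every such subgroup acts 2-transitively on the 15 non-zero vectors of F⁴: any ordered pair of distinct non-zero vectors is carried to any other by some element of the subgroup. -/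
theorem result {F : Type*} [Field F] [Fintype F] (hF : Fintype.card F = 2) : (∃ H : Subgroup (Matrix.GeneralLinearGroup (Fin 4) F), Nonempty (H ≃* alternatingGroup (Fin 7))) ∧ ∀ H : Subgroup (Matrix.GeneralLinearGroup (Fin 4) F), Nonempty (H ≃* alternatingGroup (Fin 7)) → ∀ v w v' w' : Fin 4 → F, v ≠ 0 → w ≠ 0 → v ≠ w → v' ≠ 0 → w' ≠ 0 → v' ≠ w' → ∃ g ∈ H, (g : Matrix (Fin 4) (Fin 4) F).mulVec v = v' ∧ (g : Matrix (Fin 4) (Fin 4) F).mulVec w = w' := by
  classical
  have h2 : CharP F 2 := charP_of_card_eq_prime_pow (p := 2) (f := 1) hF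
  have hq : Nat.card F = 2 := by rw [Nat.card_eq_fintype_card, hF]
  have hG : Nat.card (GL (Fin 4) F) = 20160 := by
    rw [H12.card_GL_fin hF]; simp [Fin.prod_univ_succ]
  constructor
  · obtain ⟨e⟩ := S0256.result hF
    obtain ⟨f, hf⟩ := exists_alt7
    have hc : Subgroup.center (Matrix.SpecialLinearGroup (Fin 4) F) = ⊥ := by
      rw [← Subgroup.card_eq_one, H12.card_center_SL, hq]; rfl
    let e' := e.symm.trans ((QuotientGroup.quotientMulEquivOfEq hc).trans QuotientGroup.quotientBot)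
    let φ := (Matrix.SpecialLinearGroup.toGL.comp e'.toMonoidHom).comp f
    have hφ : Function.Injective φ :=
      (Matrix.SpecialLinearGroup.toGL_injective.comp e'.injective).comp hf
    exact ⟨φ.range, ⟨(MonoidHom.ofInjective hφ).symm⟩⟩
  rintro H ⟨e⟩ v w v' w' h1 h3 h4 h5 h6 h7
  have hH : Nat.card H = 2520 := by
    rw [Nat.card_congr e.toEquiv, nat_card_alternatingGroup]; simp [Nat.factorial]
  obtain ⟨t, ht⟩ := exists_prime_orderOf_dvd_card' (G := H) 2 (by rw [hH]; norm_num)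
  obtain ⟨u, hu⟩ : ∃ u : Fin 4 → F, t.1 • u ≠ u := by
    by_contra! h
    have : t = 1 := Subtype.ext (Units.ext (H12.mat_ext_mulVec fun v => (h v).trans
      (Matrix.one_mulVec v).symm))
    simp [this] at ht
  have ht2 : t.1 • t.1 • u = u := by
    rw [← mul_smul, ← sq, ← Subgroup.coe_pow, orderOf_dvd_iff_pow_eq_one.1 ht.dvd]
    exact one_smul _ _
  have hu0 : u ≠ 0 := by rintro rfl; exact hu (smul_zero _)
  have hu1 : t.1 • u ≠ 0 := (smul_ne_zero_iff_ne _).2 hu0
  let P : (Fin 4 → F) × (Fin 4 → F) → Prop := fun y => y.1 ≠ 0 ∧ y.2 ≠ 0 ∧ y.1 ≠ y.2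
  have hP : ∀ (g : GL (Fin 4) F) y, P y → P (g • y) := fun g y hy =>
    ⟨(smul_ne_zero_iff_ne g).2 hy.1, (smul_ne_zero_iff_ne g).2 hy.2.1,
      fun h => hy.2.2 (smul_left_cancel g h)⟩
  have hx : P (u, t.1 • u) := ⟨hu0, hu1, hu.symm⟩
  have hPc : Nat.card {y // P y} = 210 := by
    obtain ⟨σ⟩ := H12.nonempty_ringEquiv_zmod (p := 2) hF
    let τ : (Fin 4 → F) ≃+ (Fin 4 → ZMod 2) := AddEquiv.piCongrRight fun _ => σ.toAddEquiv
    rw [Nat.card_congr (Equiv.subtypeEquiv (q := fun y : (Fin 4 → ZMod 2) × (Fin 4 → ZMod 2) =>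
      y.1 ≠ 0 ∧ y.2 ≠ 0 ∧ y.1 ≠ y.2) (τ.toEquiv.prodCongr τ.toEquiv) fun y => by simp [P]),
      Nat.card_eq_fintype_card]
    decide +kernel
  have h8 := H12.card_eq_card_mul_card_stabilizer (G := GL (Fin 4) F) (u, t.1 • u) P fun y =>
    ⟨fun hy => exists_map hF hu0 hu1 hu.symm hy.1 hy.2.1 hy.2.2, fun ⟨g, hg⟩ => hg ▸ hP g _ hx⟩
  let O : (Fin 4 → F) × (Fin 4 → F) → Prop := fun y => ∃ g ∈ H, g • (u, t.1 • u) = y
  have h9 := H12.card_eq_card_mul_card_inf_stabilizer H (u, t.1 • u) O fun y => Iff.rfl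
  have h10 := Subgroup.card_dvd_of_le (inf_le_right : H ⊓ MulAction.stabilizer _ (u, t.1 • u) ≤ _)
  have hOP : ∀ y, O y → P y := fun y ⟨g, _, hg⟩ => hg ▸ hP g _ hx
  have h11 : Even (Nat.card {y // O y}) := by
    have hs : ∀ y, O y → O y.swap := by
      rintro _ ⟨g, hg, rfl⟩
      exact ⟨g * t, H.mul_mem hg t.2, by rw [mul_smul, Prod.smul_mk t.1, ht2]; rfl⟩
    rw [Nat.card_eq_fintype_card, ← ZMod.natCast_eq_zero_iff_even, Fintype.card, Finset.card_eq_sum_ones,
      Nat.cast_sum]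
    exact Finset.sum_involution (fun y _ => ⟨y.1.swap, hs _ y.2⟩) (fun _ _ => rfl)
      (fun y _ _ h => (hOP _ y.2).2.2 (congrArg (fun z => z.1.2) h)) (fun _ _ => Finset.mem_univ _)
      fun _ _ => rfl
  let j : {y // O y} → {y // P y} := fun y => ⟨y.1, hOP _ y.2⟩
  have hj : Function.Injective j := fun a b h => Subtype.ext (congrArg (·.1) h)
  have h12 := Nat.card_le_card_of_injective j hj
  have h13 : Nat.card {y // O y} = 210 := by
    rw [hG, hPc] at h8
    rw [hH] at h9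
    rw [hPc] at h12
    rw [show Nat.card (MulAction.stabilizer (GL (Fin 4) F) (u, t.1 • u)) = 96 by omega] at h10
    generalize Nat.card {y // O y} = a at *
    generalize Nat.card (H ⊓ MulAction.stabilizer _ (u, t.1 • u) : Subgroup _) = b at *
    have := Nat.le_of_dvd (by norm_num) h10
    obtain ⟨c, rfl⟩ := h11
    interval_cases b <;> omega
  have h14 := ((Nat.bijective_iff_injective_and_card j).2 ⟨hj, h13.trans hPc.symm⟩).2
  obtain ⟨⟨_, g, hg, rfl⟩, h15⟩ := h14 ⟨(v, w), h1, h3, h4⟩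
  obtain ⟨⟨_, g', hg', rfl⟩, h16⟩ := h14 ⟨(v', w'), h5, h6, h7⟩
  have h17 : (g' * g⁻¹) • (v, w) = (v', w') := by
    rw [← show g • (u, t.1 • u) = (v, w) from congrArg (·.1) h15, mul_smul, inv_smul_smul]
    exact congrArg (·.1) h16
  exact ⟨g' * g⁻¹, H.mul_mem hg' (H.inv_mem hg), congrArg Prod.fst h17, congrArg Prod.snd h17⟩

end Cfsg.Agent.S2551
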