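import Cfsg.Statements.S2552
import Cfsg.Agent.H12.MaxT

set_option autoImplicit false
open Cfsg

namespace Cfsg.Agent.S2552

/-- Let F be a finite field and n ≥ 1. For every k, the special linear group SL_n(F) acts transitively on the set of k-dimensional subspaces of F^n: any two subspaces of the same dimension are carried onto each other by some matrix of determinant 1. -/
theorem result {F : Type*} [Field F] [Fintype F] (n : ℕ) (hn : 1 ≤ n) (U₁ U₂ : Submodule F (Fin n → F)) (h : Module.finrank F U₁ = Module.finrank F U₂) : ∃ g : Matrix.SpecialLinearGroup (Fin n) F, U₁.map ((Matrix.SpecialLinearGroup.toLin' g : (Fin n → F) ≃ₗ[F] (Fin n → F)) : (Fin n → F) →ₗ[F] (Fin n → F)) = U₂ := by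
  obtain ⟨e, he⟩ := Submodule.exists_linearEquiv_restrict_eq (LinearEquiv.ofFinrankEq U₁ U₂ h)
  have h1 : U₁.map (e : (Fin n → F) →ₗ[F] (Fin n → F)) = U₂ := by
    apply Submodule.eq_of_le_of_finrank_eq
    · rintro _ ⟨x, hx, rfl⟩
      have := he ⟨x, hx⟩
      exact this ▸ (LinearEquiv.ofFinrankEq U₁ U₂ h ⟨x, hx⟩).2
    · rw [LinearEquiv.finrank_map_eq, h]
  haveI : Nonempty (Fin n) := ⟨⟨0, hn⟩⟩
  obtain ⟨u, hu0, hu⟩ : ∃ u : Fin n → F, u ≠ 0 ∧ (u ∈ U₁ ∨ U₁ = ⊥) := by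
    by_cases h0 : U₁ = ⊥
    · obtain ⟨u, hu⟩ := exists_ne (0 : Fin n → F)
      exact ⟨u, hu, .inr h0⟩
    · obtain ⟨u, hu, hu0⟩ := Submodule.exists_mem_ne_zero_of_ne_bot h0
      exact ⟨u, hu0, .inl hu⟩
  obtain ⟨φ, hφ, -⟩ := H12.exists_dual_one (W := (⊥ : Submodule F (Fin n → F))) (v := u) (by simpa)
  set c := LinearMap.det (e : (Fin n → F) →ₗ[F] (Fin n → F))
  have hc : c ≠ 0 := (LinearEquiv.isUnit_det' e).ne_zero
  let d := LinearMap.transvection φ ((c⁻¹ - 1) • u)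
  have hd : LinearMap.det d = c⁻¹ := by simp [d, hφ]
  have hd' : Function.Injective d := by
    rw [← LinearMap.ker_eq_bot, ← LinearMap.isUnit_iff_ker_eq_bot, LinearMap.isUnit_iff_isUnit_det, hd]
    exact (inv_ne_zero hc).isUnit
  have h2 : U₁.map d = U₁ := by
    apply Submodule.eq_of_le_of_finrank_eq
    · rintro _ ⟨x, hx, rfl⟩
      rcases hu with hu | rfl
      · exact U₁.add_mem hx (U₁.smul_mem _ (U₁.smul_mem _ hu))
      · rw [(Submodule.mem_bot F).1 hx, map_zero]; exact Submodule.zero_mem _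
    · exact (Submodule.equivMapOfInjective d hd' U₁).finrank_eq.symm
  refine ⟨⟨LinearMap.toMatrix' (e ∘ₗ d), ?_⟩, ?_⟩
  · rw [LinearMap.det_toMatrix', LinearMap.det_comp, hd]
    exact mul_inv_cancel₀ hc
  · change U₁.map (Matrix.toLin' (LinearMap.toMatrix' _)) = _
    rw [Matrix.toLin'_toMatrix', Submodule.map_comp, h2, h1]

end Cfsg.Agent.S2552
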