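import Cfsg.Statements.S2561
import Cfsg.Agent.H13.Two

set_option autoImplicit false
open Cfsg

namespace Cfsg.Agent.S2561

/-- Fix the non-singular alternating form on the 2m-dimensional space over the field of two elements obtained by polarizing the plus-type form Σ xᵢyᵢ (m ≥ 1). The functions q on the space with q(u + v) = q(u) + q(v) + f(u, v) (the quadratic forms polarizing to f) number 2^(2m); each is equivalent under an invertible linear map either to the plus-type form or to the minus-type form Σ xᵢyᵢ + (z₁² + z₁z₂ + z₂²); and those of plus type number 2^(2m−1) + 2^(m−1), those of minus type 2^(2m−1) − 2^(m−1). -/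
theorem result (m : ℕ) (hm : 1 ≤ m) :
    Nat.card {q : (Fin m ⊕ Fin m → ZMod 2) → ZMod 2 // (∀ u v : (Fin m ⊕ Fin m → ZMod 2), q (u + v) = q u + q v + (Cfsg.quadFormPlus m (ZMod 2) (u + v) - Cfsg.quadFormPlus m (ZMod 2) u - Cfsg.quadFormPlus m (ZMod 2) v))} = 2 ^ (2 * m) ∧
    (∀ q : (Fin m ⊕ Fin m → ZMod 2) → ZMod 2, (∀ u v : (Fin m ⊕ Fin m → ZMod 2), q (u + v) = q u + q v + (Cfsg.quadFormPlus m (ZMod 2) (u + v) - Cfsg.quadFormPlus m (ZMod 2) u - Cfsg.quadFormPlus m (ZMod 2) v)) →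
      (∃ g : (Fin m ⊕ Fin m → ZMod 2) ≃ₗ[ZMod 2] (Fin m ⊕ Fin m → ZMod 2), ∀ v, q v = Cfsg.quadFormPlus m (ZMod 2) (g v)) ∨
      (∃ g : (Fin m ⊕ Fin m → ZMod 2) ≃ₗ[ZMod 2] ((Fin (m - 1) ⊕ Fin (m - 1)) ⊕ Fin 2 → ZMod 2), ∀ v, q v = Cfsg.quadFormMinus (m - 1) (ZMod 2) 1 1 (g v))) ∧
    Nat.card {q : (Fin m ⊕ Fin m → ZMod 2) → ZMod 2 // (∀ u v : (Fin m ⊕ Fin m → ZMod 2), q (u + v) = q u + q v + (Cfsg.quadFormPlus m (ZMod 2) (u + v) - Cfsg.quadFormPlus m (ZMod 2) u - Cfsg.quadFormPlus m (ZMod 2) v)) ∧ ∃ g : (Fin m ⊕ Fin m → ZMod 2) ≃ₗ[ZMod 2] (Fin m ⊕ Fin m → ZMod 2), ∀ v, q v = Cfsg.quadFormPlus m (ZMod 2) (g v)} = 2 ^ (2 * m - 1) + 2 ^ (m - 1) ∧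
    Nat.card {q : (Fin m ⊕ Fin m → ZMod 2) → ZMod 2 // (∀ u v : (Fin m ⊕ Fin m → ZMod 2), q (u + v) = q u + q v + (Cfsg.quadFormPlus m (ZMod 2) (u + v) - Cfsg.quadFormPlus m (ZMod 2) u - Cfsg.quadFormPlus m (ZMod 2) v)) ∧ ∃ g : (Fin m ⊕ Fin m → ZMod 2) ≃ₗ[ZMod 2] ((Fin (m - 1) ⊕ Fin (m - 1)) ⊕ Fin 2 → ZMod 2), ∀ v, q v = Cfsg.quadFormMinus (m - 1) (ZMod 2) 1 1 (g v)} = 2 ^ (2 * m - 1) - 2 ^ (m - 1) := by
  have hQ : H13.ND (H13.QPlus m (ZMod 2)) := H13.nd_QPlus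
  have hV : Module.finrank (ZMod 2) (Fin m ⊕ Fin m → ZMod 2) = 2 * m := by simp; omega
  have hab := H13.aniso_of_no_root (F := ZMod 2) (ζ := 1) (by decide)
  obtain ⟨h1, -, h2⟩ := hQ.nz_two hm hV
  have h3 := H13.nz_add_card_ne (Q := H13.QPlus m (ZMod 2))
  let e := Equiv.ofBijective _ hQ.bijective_shift
  have h4 : ∀ w, (∃ g : (Fin m ⊕ Fin m → ZMod 2) ≃ₗ[ZMod 2] (Fin m ⊕ Fin m → ZMod 2), ∀ v,
      (e w).1 v = Cfsg.quadFormPlus m (ZMod 2) (g v)) ↔ H13.QPlus m (ZMod 2) w = 0 := fun w => by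
    rw [← hQ.isPlus_shift_iff hm hV, iff_true_intro (H13.isPlus_QPlus m), iff_true]
    refine ⟨fun ⟨g, hg⟩ => (H13.isPlus_QPlus m).of_semiSim
      (H13.SemiSim.ofIsometry g fun v => (hg v).symm).symm, fun h => ?_⟩
    obtain ⟨g, hg⟩ := (hQ.shift w).equiv_QPlus h hV
    exact ⟨g, fun v => (hg v).symm⟩
  have h5 : ∀ w, (∃ g : (Fin m ⊕ Fin m → ZMod 2) ≃ₗ[ZMod 2]
      ((Fin (m - 1) ⊕ Fin (m - 1)) ⊕ Fin 2 → ZMod 2), ∀ v,
      (e w).1 v = Cfsg.quadFormMinus (m - 1) (ZMod 2) 1 1 (g v)) ↔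
      H13.QPlus m (ZMod 2) w ≠ 0 := fun w => by
    rw [Ne, ← hQ.isPlus_shift_iff hm hV, iff_true_intro (H13.isPlus_QPlus m), iff_true]
    refine ⟨fun ⟨g, hg⟩ h => H13.not_isPlus_QMinus hab (h.of_semiSim
      (H13.SemiSim.ofIsometry g fun v => (hg v).symm)), fun h => ?_⟩
    obtain ⟨g, hg⟩ := (hQ.shift w).equiv_QMinus h (m := m - 1) (by omega) hab
    exact ⟨g, fun v => (hg v).symm⟩
  refine ⟨?_, fun q hq => ?_, ?_, ?_⟩
  · refine (Nat.card_congr e).symm.trans ?_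
    rw [H13.card_eq_pow (F := ZMod 2), hV, Nat.card_zmod]
  · obtain ⟨w, hw⟩ := e.surjective ⟨q, hq⟩
    obtain rfl : (e w).1 = q := congrArg Subtype.val hw
    rw [h4, h5]
    exact em _
  · rw [← h1 (H13.isPlus_QPlus m)]
    exact Nat.card_congr ((Equiv.subtypeSubtypeEquivSubtypeInter _ _).symm.trans
      (e.subtypeEquiv fun w => (h4 w).symm).symm)
  · refine (Nat.card_congr ((Equiv.subtypeSubtypeEquivSubtypeInter _ _).symm.trans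
      (e.subtypeEquiv fun w => (h5 w).symm).symm)).trans ?_
    have := h1 (H13.isPlus_QPlus m)
    omega

end Cfsg.Agent.S2561
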