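import Cfsg.Statements.S2562
import Cfsg.Agent.H13.Levi

set_option autoImplicit false
open Cfsg

namespace Cfsg.Agent.S2562

/-- Witt indices over the field of two elements, m ≥ 1: for the plus-type form Σ xᵢyᵢ in dimension 2m some m-dimensional subspace is totally singular and no totally singular subspace has larger dimension; for the minus-type form Σ xᵢyᵢ + (z₁² + z₁z₂ + z₂²) in dimension 2m the maximal dimension of a totally singular subspace is m − 1. -/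
theorem result (m : ℕ) (hm : 1 ≤ m) :
    (∃ U : Submodule (ZMod 2) (Fin m ⊕ Fin m → ZMod 2), (∀ u ∈ U, Cfsg.quadFormPlus m (ZMod 2) u = 0) ∧ Module.finrank (ZMod 2) ↥U = m) ∧
    (∀ U : Submodule (ZMod 2) (Fin m ⊕ Fin m → ZMod 2), (∀ u ∈ U, Cfsg.quadFormPlus m (ZMod 2) u = 0) → Module.finrank (ZMod 2) ↥U ≤ m) ∧
    (∃ U : Submodule (ZMod 2) ((Fin (m - 1) ⊕ Fin (m - 1)) ⊕ Fin 2 → ZMod 2), (∀ u ∈ U, Cfsg.quadFormMinus (m - 1) (ZMod 2) 1 1 u = 0) ∧ Module.finrank (ZMod 2) ↥U = m - 1) ∧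
    (∀ U : Submodule (ZMod 2) ((Fin (m - 1) ⊕ Fin (m - 1)) ⊕ Fin 2 → ZMod 2), (∀ u ∈ U, Cfsg.quadFormMinus (m - 1) (ZMod 2) 1 1 u = 0) → Module.finrank (ZMod 2) ↥U ≤ m - 1) := by
  have hab := H13.aniso_of_no_root (ζ := (1 : ZMod 2)) (by decide)
  refine ⟨⟨_, (H13.ker_funLeft_inr m).2, (H13.ker_funLeft_inr m).1⟩, fun U hU => ?_, ?_,
    fun U hU => H13.finrank_le_of_singular_QMinus hab hU⟩
  · have := (H13.nd_QPlus (m := m)).two_mul_finrank_le hU
    simp at this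
    omega
  · have h := H13.hypFam_QMinus (F := ZMod 2) (m - 1) 1 1
    exact ⟨_, fun w hw => H13.Q_eq_zero_of_mem_span (s := Set.range _) (by rintro _ ⟨i, rfl⟩; exact h.Qe i)
      (by rintro _ ⟨i, rfl⟩ _ ⟨j, rfl⟩; exact h.ee i j) hw, by simpa using finrank_span_eq_card h.li⟩

end Cfsg.Agent.S2562
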