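import Cfsg.Statements.S2563
import Cfsg.Agent.H13.Two

set_option autoImplicit false
open Cfsg

namespace Cfsg.Agent.S2563

/-- For k ≥ 1 the symmetric group of degree 4k + 4 embeds in a full orthogonal group in dimension 4k + 2 over the field of two elements: in the isometry group of the plus-type form Σ xᵢyᵢ when k is odd, and in that of the minus-type form Σ xᵢyᵢ + (z₁² + z₁z₂ + z₂²) when k is even (through its action on even partitions of a (4k+4)-set, with the form 'half the size of a part, modulo 2'). -/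
theorem result (k : ℕ) (hk : 1 ≤ k) :
    (Odd k → ∃ φ : Equiv.Perm (Fin (4 * k + 4)) →* ↥(Cfsg.isometryGroup (ZMod 2) (Cfsg.quadFormPlus (2 * k + 1) (ZMod 2))), Function.Injective φ) ∧
    (Even k → ∃ φ : Equiv.Perm (Fin (4 * k + 4)) →* ↥(Cfsg.isometryGroup (ZMod 2) (Cfsg.quadFormMinus (2 * k) (ZMod 2) 1 1)), Function.Injective φ) := by
  refine ⟨fun h => ?_, fun h => ?_⟩
  · obtain ⟨φ, hφ⟩ := H13.exists_perm_embedding (ι := Fin (4 * k + 4)) (k := k + 1) (by omega)
      (by simp; omega) (H13.nd_QPlus (m := 2 * k + 1)) (by simp; omega)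
      (by simp [H13.isPlus_QPlus, h.add_one])
    exact ⟨(H13.toOG (H13.QPlus (2 * k + 1) (ZMod 2))).symm.toMonoidHom.comp φ,
      (H13.toOG (H13.QPlus (2 * k + 1) (ZMod 2))).symm.injective.comp hφ⟩
  · have hab := H13.aniso_of_no_root (F := ZMod 2) (ζ := 1) (by decide)
    obtain ⟨φ, hφ⟩ := H13.exists_perm_embedding (ι := Fin (4 * k + 4)) (k := k + 1) (by omega)
      (by simp; omega) (H13.nd_QMinus (m := 2 * k) hab) (by simp; omega)
      (by simp [H13.not_isPlus_QMinus hab, h])
    exact ⟨(H13.toOG (H13.QMinus (2 * k) (ZMod 2) 1 1)).symm.toMonoidHom.comp φ,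
      (H13.toOG (H13.QMinus (2 * k) (ZMod 2) 1 1)).symm.injective.comp hφ⟩

end Cfsg.Agent.S2563
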