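import Cfsg.Statements.S2564
import Cfsg.Agent.H13.Two

set_option autoImplicit false
open Cfsg

namespace Cfsg.Agent.S2564

/-- On the 2m-dimensional space over the field of two elements (m ≥ 1) let f be the alternating form obtained by polarizing the plus-type form Σ xᵢyᵢ, and let q be any quadratic form polarizing to f. For a vector w, the function q + f(·, w) again polarizes to f, and it is equivalent to q under an invertible linear map (that is, has the same type) if and only if q(w) = 0. -/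
theorem result (m : ℕ) (hm : 1 ≤ m) (q : (Fin m ⊕ Fin m → ZMod 2) → ZMod 2) (hq : (∀ u v : (Fin m ⊕ Fin m → ZMod 2), q (u + v) = q u + q v + (Cfsg.quadFormPlus m (ZMod 2) (u + v) - Cfsg.quadFormPlus m (ZMod 2) u - Cfsg.quadFormPlus m (ZMod 2) v))) (w : (Fin m ⊕ Fin m → ZMod 2)) :
    (∀ u v : (Fin m ⊕ Fin m → ZMod 2), (q (u + v) + (Cfsg.quadFormPlus m (ZMod 2) (u + v + w) - Cfsg.quadFormPlus m (ZMod 2) (u + v) - Cfsg.quadFormPlus m (ZMod 2) w)) =
        (q u + (Cfsg.quadFormPlus m (ZMod 2) (u + w) - Cfsg.quadFormPlus m (ZMod 2) u - Cfsg.quadFormPlus m (ZMod 2) w)) + (q v + (Cfsg.quadFormPlus m (ZMod 2) (v + w) - Cfsg.quadFormPlus m (ZMod 2) v - Cfsg.quadFormPlus m (ZMod 2) w)) +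
        (Cfsg.quadFormPlus m (ZMod 2) (u + v) - Cfsg.quadFormPlus m (ZMod 2) u - Cfsg.quadFormPlus m (ZMod 2) v)) ∧
    ((∃ g : (Fin m ⊕ Fin m → ZMod 2) ≃ₗ[ZMod 2] (Fin m ⊕ Fin m → ZMod 2), ∀ v, q v + (Cfsg.quadFormPlus m (ZMod 2) (v + w) - Cfsg.quadFormPlus m (ZMod 2) v - Cfsg.quadFormPlus m (ZMod 2) w) = q (g v)) ↔ q w = 0) := by
  let Q := H13.ofFun2 q (QuadraticMap.polarBilin (H13.QPlus m (ZMod 2))) hq
  have hp : ∀ u v, QuadraticMap.polar Q u v = QuadraticMap.polar (H13.QPlus m (ZMod 2)) u v :=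
    H13.polar_ofFun2 _ _ _
  have hQ : H13.ND Q := fun x hx => H13.nd_QPlus x fun y => (hp x y).symm.trans (hx y)
  have hV : Module.finrank (ZMod 2) (Fin m ⊕ Fin m → ZMod 2) = 2 * m := by simp; omega
  have h1 : ∀ v, H13.shift Q w v = q v + (Cfsg.quadFormPlus m (ZMod 2) (v + w) -
      Cfsg.quadFormPlus m (ZMod 2) v - Cfsg.quadFormPlus m (ZMod 2) w) := fun v =>
    congrArg (q v + ·) (hp v w)
  simp only [← h1]
  refine ⟨fun u v => by rw [H13.Q_add, H13.polar_shift, hp]; rfl, ?_⟩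
  refine Iff.trans ⟨fun ⟨g, hg⟩ => ⟨fun h => h.of_semiSim (.ofIsometry g fun v => (hg v).symm),
    fun h => h.of_semiSim (H13.SemiSim.ofIsometry g fun v => (hg v).symm).symm⟩, fun h => ?_⟩
    (hQ.isPlus_shift_iff hm hV w)
  obtain ⟨e, he⟩ := (hQ.shift w).exists_isometry_of_isPlus_iff hQ hV hV h
  exact ⟨e, fun v => (he v).symm⟩

end Cfsg.Agent.S2564
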