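import Cfsg.Statements.S2566
import Cfsg.Agent.H13.PermMod

set_option autoImplicit false
open Cfsg

namespace Cfsg.Agent.S2566

/-- The full orthogonal group of the plus-type form x₁y₁ + x₂y₂ in dimension 4 over the field of two elements has order 72 and is isomorphic to the wreath product of the symmetric group of degree 3 by a group of order 2: it has a normal subgroup isomorphic to the direct product of two symmetric groups of degree 3, of index 2, whose two direct factors are interchanged by conjugation by some element. -/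
theorem result :
    Nat.card ↥(Cfsg.isometryGroup (ZMod 2) (Cfsg.quadFormPlus 2 (ZMod 2))) = 72 ∧
    ∃ (A B : Subgroup ↥(Cfsg.isometryGroup (ZMod 2) (Cfsg.quadFormPlus 2 (ZMod 2)))),
      Nonempty (↥A ≃* Equiv.Perm (Fin 3)) ∧ Nonempty (↥B ≃* Equiv.Perm (Fin 3)) ∧ A ⊓ B = ⊥ ∧ (∀ a ∈ A, ∀ b ∈ B, a * b = b * a) ∧
      (A ⊔ B).index = 2 ∧ ∃ g : ↥(Cfsg.isometryGroup (ZMod 2) (Cfsg.quadFormPlus 2 (ZMod 2))), A.map (MulAut.conj g).toMonoidHom = B := by
  rw [← H13.coe_QPlus]
  obtain ⟨u, hu⟩ := (H13.nd_detQ (F := ZMod 2)).equiv_QPlus H13.isPlus_detQ (m := 2) H13.finrank_M2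
  let e := (H13.SemiSim.ofIsometry u hu).conj.trans (H13.toOG (H13.QPlus 2 (ZMod 2))).symm
  let ψ := e.toMonoidHom.comp (H13.sl2sl2 (ZMod 2))
  have hc : Nat.card (isometryGroup (ZMod 2) ⇑(H13.QPlus 2 (ZMod 2))) = 72 := by
    rw [Nat.card_congr (H13.toOG _).toEquiv,
      H13.nd_QPlus.card_OG_plus (H13.isPlus_QPlus 2) (m := 2) (by simp) (by simp)]
    simp
  have hψ : Function.Injective ψ := e.injective.comp ((injective_iff_map_eq_one _).mpr fun g hg => by
    have h1 := (H13.sl2sl2_eq_iff g).mp (.inl hg)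
    rw [Subgroup.center_prod] at h1
    have h2 : ∀ x ∈ Subgroup.center (Matrix.SpecialLinearGroup (Fin 2) (ZMod 2)), x = 1 :=
      fun x hx => by
        obtain ⟨r, h3, h4⟩ := Matrix.SpecialLinearGroup.mem_center_iff.mp hx
        obtain rfl : r = 1 := by clear h4; revert r; decide
        exact Subtype.ext (by simpa using h4.symm)
    exact Prod.ext (h2 _ h1.1) (h2 _ h1.2))
  obtain ⟨e3⟩ := H13.nonempty_SL2_two (F := ZMod 2) rfl
  refine ⟨hc, (ψ.comp (.inl _ _)).range, (ψ.comp (.inr _ _)).range,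
    ⟨(MonoidHom.ofInjective (f := ψ.comp (.inl _ _)) (hψ.comp (Prod.mk_left_injective 1))).symm.trans e3⟩,
    ⟨(MonoidHom.ofInjective (f := ψ.comp (.inr _ _)) (hψ.comp (Prod.mk_right_injective 1))).symm.trans e3⟩, ?_, ?_, ?_, ?_⟩
  · rw [eq_bot_iff]
    rintro _ ⟨⟨a, rfl⟩, b, hb⟩
    have : (1, b) = (a, 1) := hψ hb
    rw [← show 1 = a from (Prod.ext_iff.mp this).1, map_one]
    exact one_mem _
  · rintro _ ⟨a, rfl⟩ _ ⟨b, rfl⟩
    simp only [MonoidHom.comp_apply (g := ψ), ← map_mul]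
    simp
  · have h0 : ∀ {A : Type} [Group A], (MonoidHom.inl A A).range ⊔ (MonoidHom.inr A A).range = ⊤ :=
      eq_top_iff.mpr fun g _ => by
        rw [← Prod.fst_mul_snd g]
        exact Subgroup.mul_mem_sup ⟨_, rfl⟩ ⟨_, rfl⟩
    rw [MonoidHom.range_comp, MonoidHom.range_comp, ← Subgroup.map_sup, h0, ← MonoidHom.range_eq_map]
    have h1 := ψ.range.card_mul_index
    rw [hc, ← Nat.card_congr (MonoidHom.ofInjective hψ).toEquiv, Nat.card_prod,
      H12.card_SL2 (q := 2) rfl] at h1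
    omega
  · let t : H13.OG (H13.detQ (ZMod 2)) := ⟨Matrix.transposeLinearEquiv _ _ _ _, fun X => by
      simp [H13.detQ_apply, mul_comm]⟩
    have h1 : ∀ a, e t * ψ (a, 1) * (e t)⁻¹ = ψ (1, a) := fun a => by
      rw [mul_inv_eq_iff_eq_mul]
      simp only [ψ, MonoidHom.comp_apply, MulEquiv.coe_toMonoidHom, ← map_mul]
      exact congrArg e (H13.OG_ext fun X => by
        simp [H13.sl2sl2_apply, t, Matrix.transpose_mul])
    refine ⟨e t, ?_⟩
    rw [MonoidHom.map_range]
    exact congrArg _ (MonoidHom.ext h1)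

end Cfsg.Agent.S2566
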