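import Cfsg.Statements.S2567
import Cfsg.Agent.H12.Lin

set_option autoImplicit false
open Cfsg

namespace Cfsg.Agent.S2567

/-- Lifting elements of prime order from PGL to GL: let F be a finite field with q elements, r a prime not dividing q − 1, and x an element of order r in GL_n(F) modulo its centre (the scalar matrices). Then x has exactly one preimage in GL_n(F) of order r. -/
theorem result {F : Type*} [Field F] [Fintype F] {q n r : ℕ} (hF : Fintype.card F = q) (hr : r.Prime) (hdiv : ¬ r ∣ q - 1) (x : GL (Fin n) F ⧸ Subgroup.center (GL (Fin n) F)) (hx : orderOf x = r) : ∃! g : GL (Fin n) F, (QuotientGroup.mk g : GL (Fin n) F ⧸ Subgroup.center (GL (Fin n) F)) = x ∧ orderOf g = r := by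
  classical
  obtain ⟨g, rfl⟩ := QuotientGroup.mk_surjective x
  have h1 : ∀ z ∈ Subgroup.center (GL (Fin n) F), z ^ (q - 1) = 1 := fun z hz => by
    obtain ⟨c, rfl⟩ := Matrix.GeneralLinearGroup.center_eq_range_scalar.le hz
    rw [← map_pow, ← hF, ← Fintype.card_units, pow_card_eq_one, map_one]
  have h2 := (hr.coprime_iff_not_dvd.mpr hdiv)
  have h3 : g ^ r ∈ Subgroup.center _ := by
    rw [← QuotientGroup.eq_one_iff, QuotientGroup.mk_pow, ← hx, pow_orderOf_eq_one]
  have h4 : 0 < q - 1 := by have := Fintype.one_lt_card (α := F); omega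
  obtain ⟨a, -, ha⟩ := Nat.exists_mul_mod_eq_one_of_coprime h2.symm hr.one_lt
  have : Fact r.Prime := ⟨hr⟩
  have h5 : (QuotientGroup.mk (g ^ ((q - 1) * a)) : _ ⧸ Subgroup.center _) = g := by
    rw [QuotientGroup.mk_pow, ← pow_mod_orderOf, hx, ha, pow_one]
  refine existsUnique_of_exists_of_unique ⟨_, h5, orderOf_eq_prime ?_ fun h => ?_⟩ ?_
  · rw [← pow_mul, mul_comm, pow_mul, pow_mul, h1 _ h3, one_pow]
  · rw [← h5, h] at hx
    exact hr.one_lt.ne (by simpa using hx)
  · rintro y z ⟨h6, h7⟩ ⟨h8, h9⟩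
    have h := QuotientGroup.eq.mp (h6.trans h8.symm)
    have h10 : Commute y (y⁻¹ * z) := Subgroup.mem_center_iff.mp h y
    have h11 := h10.mul_pow r
    rw [mul_inv_cancel_left, ← h9, pow_orderOf_eq_one, h9, ← h7, pow_orderOf_eq_one, one_mul, h7] at h11
    exact inv_mul_eq_one.mp ((pow_eq_one_iff_of_coprime h2).mp ⟨h11.symm, h1 _ h⟩)

end Cfsg.Agent.S2567
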