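import Cfsg.Statements.S2568
import Cfsg.Agent.H28.PrimeEl

set_option autoImplicit false
open Cfsg

namespace Cfsg.Agent.S2568



/-- Number of conjugacy classes of elements of a given prime order r, coprime to the characteristic, in GL_n(q): if i is the multiplicative order of q modulo r and t = (r − 1)/i, the classes correspond to the non-zero t-tuples of natural numbers (a_1, …, a_t) with i(a_1 + ⋯ + a_t) ≤ n (a_j is the multiplicity of the j-th Frobenius orbit of nontrivial r-th roots of unity among the eigenvalues), so there are exactly C(⌊n/i⌋ + t, t) − 1 of them. -/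
theorem result {F : Type*} [Field F] [Fintype F] {p q : ℕ} [Fact p.Prime] [CharP F p] (hF : Fintype.card F = q) (n r i t : ℕ) (hr : r.Prime) (hrp : r ≠ p) (hi : i = orderOf (q : ZMod r)) (ht : t * i = r - 1) : Nat.card {C : ConjClasses (GL (Fin n) F) // ∃ g : GL (Fin n) F, ConjClasses.mk g = C ∧ orderOf g = r} = Nat.choose (n / i + t) t - 1 := by
  subst hF
  have := Fact.mk hr
  have h0 : 0 < i := Nat.pos_of_ne_zero fun h => by have := hr.two_le; simp [h] at ht; omega
  have h1 := H28.card_cyc_factors (F := F) hr hrp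
  rw [← hi, ← ht, Nat.mul_div_cancel _ h0] at h1
  have : Finite {x : H28.PP F // x.k = 1 ∧ x.f ∣ Polynomial.cyclotomic r F} :=
    Nat.finite_of_card_ne_zero (by rintro h; have := hr.two_le; simp [← h1, h] at ht; omega)
  have h2 : ∀ g : GL (Fin n) F, Matrix.toLin' g.1 ^ r = 1 ↔ g ^ r = 1 := fun g => by
    rw [← Matrix.toLin'_pow, Module.End.one_eq_id, ← Matrix.toLin'_one, EmbeddingLike.apply_eq_iff_eq, Units.ext_iff]; simp
  have h3 : ∀ g : GL (Fin n) F, orderOf g = r ↔ Matrix.toLin' g.1 ^ r = 1 ∧ H28.ntr (Matrix.toLin' g.1) ≠ 0 := fun g => by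
    rw [orderOf_eq_prime_iff, ← h2]
    refine and_congr_right fun h => ?_
    rw [Ne, Ne, H28.ntr_eq_zero hr hrp h, Module.End.one_eq_id, ← Matrix.toLin'_one, EmbeddingLike.apply_eq_iff_eq,
      Units.val_eq_one]
  rw [← h1, ← H28.card_multiset_le_ne]
  refine H28.card_conjClasses_eq' (fun g : GL (Fin n) F => H28.ntr (Matrix.toLin' g.1)) _ _ (fun g h hg hh =>
    H28.isConj_GL_iff.trans (H28.isConj_iff_sim.trans (H28.sim_iff_ntr hr hrp ((h3 g).1 hg).1 ((h3 h).1 hh).1 rfl)))
    (fun g hg => ?_) fun M hM => ?_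
  · obtain ⟨h4, k, -, h5⟩ := H28.ed_eq_ntr hr hrp ((h3 g).1 hg).1
    exact ⟨⟨h4, (Nat.le_div_iff_mul_le h0).2 (by simp [← hi] at h5; omega)⟩, ((h3 g).1 hg).2⟩
  · obtain ⟨a, h4, rfl⟩ := H28.exists_ntr (V := Fin n → F) hr hrp hM.1.1 (by
      simpa [← hi] using (Nat.le_div_iff_mul_le h0).1 hM.1.2)
    obtain ⟨A, rfl⟩ := Matrix.toLin'.surjective a
    have h5 : IsUnit A := IsUnit.of_pow_eq_one (n := r) (Matrix.toLin'.injective (by
      rw [Matrix.toLin'_pow, h4, Matrix.toLin'_one]; rfl)) hr.ne_zero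
    obtain ⟨g, rfl⟩ := h5
    exact ⟨g, (h3 g).2 ⟨h4, hM.2⟩, rfl⟩

end Cfsg.Agent.S2568
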