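import Cfsg.Statements.S2570
import Cfsg.Agent.H13.Jor

set_option autoImplicit false
open Cfsg

namespace Cfsg.Agent.S2570

/-- Number of conjugacy classes of elements of order p in GL_n over a finite field of characteristic p: they correspond to the Jordan types, that is, to the partitions of n with all parts at most p other than the partition into ones, so there are (number of partitions of n with parts ≤ p) − 1 of them. -/
theorem result {F : Type*} [Field F] [Fintype F] {p : ℕ} [Fact p.Prime] [CharP F p] (n : ℕ) : Nat.card {C : ConjClasses (GL (Fin n) F) // ∃ g : GL (Fin n) F, ConjClasses.mk g = C ∧ orderOf g = p} = (Finset.univ.filter (fun μ : Nat.Partition n => ∀ a ∈ μ.parts, a ≤ p)).card - 1 := by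
  have hp : p.Prime := Fact.out
  have h0 : ∀ g : GL (Fin n) F, g ^ p = 1 ↔ ((g : Matrix (Fin n) (Fin n) F) - 1) ^ p = 0 := fun g => by
    rw [← pow_one p, H13.sub_one_pow_char (F := F), sub_eq_zero, Units.ext_iff]; rfl
  have h1 : ∀ g : GL (Fin n) F, IsNilpotent ((g : Matrix (Fin n) (Fin n) F) - 1) → (orderOf g = p ↔
      (∀ k ∈ H13.jt (Matrix.toLin' g.1), k ≤ p) ∧ ¬ ∀ k ∈ H13.jt (Matrix.toLin' g.1), k ≤ 1) :=
    fun g hg => by
      have := H13.pow_eq_zero_iff_jt (H13.isNilpotent_toLin'.mpr hg)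
      rw [← this, ← this, H13.toLin'_pow_eq_zero, H13.toLin'_pow_eq_zero, orderOf_eq_prime_iff, h0,
        pow_one, sub_eq_zero, Units.val_eq_one]
  have h2 : ∀ g : GL (Fin n) F, orderOf g = p → IsNilpotent ((g : Matrix (Fin n) (Fin n) F) - 1) :=
    fun g hg => ⟨p, (h0 g).mp (hg ▸ pow_orderOf_eq_one g)⟩
  rw [H28.card_conjClasses_eq' (fun g : GL (Fin n) F => H13.jt (Matrix.toLin' g.1)) _
    (fun M => ((∀ k ∈ M, 0 < k) ∧ M.sum = n) ∧ (∀ k ∈ M, k ≤ p) ∧ ¬ ∀ k ∈ M, k ≤ 1)
    (fun g h hg hh => H28.isConj_GL_iff.trans (H13.isConj_iff_jt (h2 g hg) (h2 h hh)))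
    (fun g hg => ⟨⟨fun _ => H13.jt_pos, by
      simpa using H13.sum_jt (H13.isNilpotent_toLin'.mpr (h2 g hg))⟩, (h1 g (h2 g hg)).mp hg⟩)
    fun M ⟨⟨h3, h4⟩, h5⟩ => by
      obtain ⟨g, h6, rfl⟩ := H13.exists_GL_jt (F := F) (n := Fin n) h3 (by simpa)
      exact ⟨g, (h1 g h6).mpr h5, rfl⟩]
  exact H13.card_partition_sub_one n hp.one_le

end Cfsg.Agent.S2570
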