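import Cfsg.Statements.S2572
import Cfsg.Agent.H28.UCent

set_option autoImplicit false
open Cfsg

namespace Cfsg.Agent.S2572



/-- Centraliser of a transvection in GL_n(q), n ≥ 2: if t − 1 has rank one and square zero, the centraliser of t in GL_n(q) has order q^(2n−3) (q − 1) |GL_(n−2)(q)| (a group of order q^(2n−3) extended by GL_1(q) × GL_(n−2)(q)). -/
theorem result {F : Type*} [Field F] [Fintype F] {q n : ℕ} (hF : Fintype.card F = q) (hn : 2 ≤ n) (t : GL (Fin n) F) (ht : Cfsg.IsTransvection (t : Matrix (Fin n) (Fin n) F)) : Nat.card ↥(Subgroup.centralizer ({t} : Set (GL (Fin n) F))) = q ^ (2 * n - 3) * (q - 1) * ∏ i : Fin (n - 2), (q ^ (n - 2) - q ^ (i : ℕ)) := by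
  subst hF
  obtain ⟨n, rfl⟩ := Nat.exists_eq_add_of_le' hn
  have h1 := (sq _).trans ht.2
  have h2 := H13.ed_eq_map (H13.isNilpotent_toLin'.2 ⟨_, h1⟩)
  rw [H13.jt_of_sq (H13.toLin'_pow_eq_zero.mpr h1), ← H13.rank_sub_one, ht.1] at h2
  rw [Nat.card_congr (Equiv.subtypeEquivRight (q := fun g => g.1 * t.1 = t.1 * g.1) fun g =>
    Subgroup.mem_centralizer_singleton_iff.trans Units.ext_iff), H28.card_centE_toLin', (H28.ed_eq_iff.1 h2).card_centE,
    H28.card_centE_jt 3 _ (by simp +contextual [Multiset.mem_replicate, or_imp])]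
  simp [Finset.sum_range_succ, Finset.prod_range_succ, Multiset.count_replicate, show 2 * (n + 2) - 3 = 2 * n + 1 by omega,
    show ∀ q, H28.glc q 0 = 1 from fun _ => rfl, show ∀ q, H28.glc q 1 = q - 1 from fun _ => by simp [H28.glc]]
  change _ = _ * H28.glc (Fintype.card F) n
  ring

end Cfsg.Agent.S2572
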