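import Cfsg.Statements.S2574
import Cfsg.Agent.H13.Jor
import Cfsg.Agent.H12.SBridge

set_option autoImplicit false
open Cfsg

namespace Cfsg.Agent.S2574

/-- A regular unipotent element of the symplectic group has totally isotropic small invariant subspaces: over a finite field, if u ∈ Sp_2m(F) satisfies (u − 1)^(2m) = 0 and rank(u − 1) = 2m − 1, and W is a u-invariant subspace with 2 dim W ≤ 2m, then the alternating form vanishes identically on W. -/
theorem result {F : Type*} [Field F] [Finite F] {m : ℕ} (u : Matrix.symplecticGroup (Fin m) F) (hnil : ((u : Matrix (Fin m ⊕ Fin m) (Fin m ⊕ Fin m) F) - 1) ^ (2 * m) = 0) (hreg : ((u : Matrix (Fin m ⊕ Fin m) (Fin m ⊕ Fin m) F) - 1).rank = 2 * m - 1) (W : Submodule F (Fin m ⊕ Fin m → F)) (hW : ∀ v ∈ W, (u : Matrix (Fin m ⊕ Fin m) (Fin m ⊕ Fin m) F).mulVec v ∈ W) (hdim : 2 * Module.finrank F W ≤ 2 * m) : ∀ v ∈ W, ∀ w ∈ W, Cfsg.sympForm m F v w = 0 := by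
  have D := H12.sd_spB (l := Fin m) (F := F)
  have h := fun U => H13.eq_ker_of_invariant (U := U) (H13.isNilpotent_toLin'.mpr ⟨_, hnil⟩)
    (by rw [← H13.rank_sub_one, hreg]; simp [two_mul])
  have h1 := D.finrank_sperp W
  have h2 := (H12.mem_sperp_iff_of_stab (H12.mem_stabW_of_mapsTo (g := H12.spEquiv _ F u) hW) ·)
  have h3 : W ≤ H12.sperp (H12.spB (Fin m) F) W := by
    rw [h _ fun v hv => (h2 v).mpr hv]
    refine (h W hW).le.trans (LinearMap.iterateKer _ |>.monotone ?_)
    simp at h1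
    omega
  exact fun v hv w hw => (H12.spB_eq v w).symm.trans (h3 hw v hv)

end Cfsg.Agent.S2574
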