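import Cfsg.Statements.S2575
import Cfsg.Agent.H13.Cols
import Cfsg.Agent.H13.Disc

set_option autoImplicit false
open Cfsg

namespace Cfsg.Agent.S2575

/-- Which diagonal involutions of PGL_n(q) lie in PSL_n(q), q odd: for the diagonal matrix t with i entries −1 and n − i entries 1, some non-zero scalar multiple of t has determinant one if and only if i is even or the 2-part of q − 1 exceeds the 2-part of n (that is, −1 is an n-th power in the field exactly in the latter case). -/
theorem result {F : Type*} [Field F] [Fintype F] {q : ℕ} (hF : Fintype.card F = q) (hq : Odd q) {n : ℕ} (hn : 1 ≤ n) (i : ℕ) (hi : i ≤ n) : (∃ c : F, c ≠ 0 ∧ (c • Matrix.diagonal (fun j : Fin n => if (j : ℕ) < i then (-1 : F) else 1)).det = 1) ↔ (Even i ∨ padicValNat 2 n < padicValNat 2 (q - 1)) := by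
  have h2 := H13.two_ne_zero_of_odd_card (F := F) (hF ▸ hq)
  have hd : (Matrix.diagonal (fun j : Fin n => if (j : ℕ) < i then (-1 : F) else 1)).det = (-1) ^ i := by
    rw [Matrix.det_diagonal, Finset.prod_ite, Finset.prod_const, Finset.prod_const_one, mul_one,
      Fin.card_filter_val_lt, min_eq_right hi]
  simp only [Matrix.det_smul, Fintype.card_fin, hd]
  rcases Nat.even_or_odd i with h | h
  · exact iff_of_true ⟨1, one_ne_zero, by simp [h.neg_one_pow]⟩ (.inl h)
  · have h3 : orderOf (-1 : F) = 2 ^ 1 := by
      rw [orderOf_neg_one, if_neg (H13.ringChar_ne_two_of_two_ne_zero h2)]; rfl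
    rw [h.neg_one_pow, H13.exists_pow_eq_iff_padic (by omega) h3, Nat.card_eq_fintype_card, hF]
    have := Nat.not_even_iff_odd.2 h
    simp only [this, false_or]
    omega

end Cfsg.Agent.S2575
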