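import Cfsg.Statements.S2576
import Cfsg.Agent.H13.Cols
import Cfsg.Agent.H13.Disc

set_option autoImplicit false
open Cfsg

namespace Cfsg.Agent.S2576

/-- Which involutions of PGL_2m(q) coming from a scalar of the quadratic extension field lie in PSL_2m(q), q odd: let μ generate the Sylow 2-subgroup of the multiplicative group of the field with q elements (μ has order the 2-part of q − 1) and let t be the block-diagonal matrix with m diagonal blocks [[0, 1], [μ, 0]] (so t² is the scalar μ and t is an involution modulo scalars). Then some non-zero scalar multiple of t has determinant one if and only if q ≡ 3 (mod 4) or the 2-part of q − 1 is less than the 2-part of 2m. -/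
theorem result {F : Type*} [Field F] [Fintype F] {q : ℕ} (hF : Fintype.card F = q) (hq : Odd q) {m : ℕ} (hm : 1 ≤ m) (μ : F) (hμ : orderOf μ = 2 ^ padicValNat 2 (q - 1)) : (∃ c : F, c ≠ 0 ∧ (c • Matrix.blockDiagonal (fun _ : Fin m => !![(0 : F), 1; μ, 0])).det = 1) ↔ (q % 4 = 3 ∨ padicValNat 2 (q - 1) < padicValNat 2 (2 * m)) := by
  have h2 := H13.two_ne_zero_of_odd_card (F := F) (hF ▸ hq)
  have hq2 : 2 ≤ q := hF ▸ Fintype.one_lt_card
  have hd : (Matrix.blockDiagonal (fun _ : Fin m => !![(0 : F), 1; μ, 0])).det = (-μ) ^ m := by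
    rw [Matrix.det_blockDiagonal]; simp [Matrix.det_fin_two]
  simp only [Matrix.det_smul, Fintype.card_prod, Fintype.card_fin, hd]
  have h3 : orderOf (-1 : F) = 2 := by
    rw [orderOf_neg_one, if_neg (H13.ringChar_ne_two_of_two_ne_zero h2)]
  have h4 : ∀ j, 2 ^ j ∣ q - 1 ↔ j ≤ padicValNat 2 (q - 1) := fun j =>
    padicValNat_dvd_iff_le (by omega)
  have h5 := (h4 1).1 (by obtain ⟨k, rfl⟩ := hq; simp)
  have h6 := h4 2
  by_cases h : q % 4 = 3
  · have h7 : padicValNat 2 (q - 1) = 1 := by omega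
    rw [h7, pow_one] at hμ
    have h8 : μ = -1 := (sq_eq_one_iff.1 (orderOf_eq_prime_iff.1 hμ).1).resolve_left
      (orderOf_eq_prime_iff.1 hμ).2
    exact iff_of_true ⟨1, one_ne_zero, by simp [h8]⟩ (.inl h)
  · obtain ⟨a, ha⟩ : ∃ a, padicValNat 2 (q - 1) = a + 2 :=
      ⟨padicValNat 2 (q - 1) - 2, by have := Nat.odd_iff.1 hq; omega⟩
    have h7 : orderOf (-μ) = 2 ^ (a + 2) := by
      rw [ha] at hμ
      refine orderOf_eq_prime_pow ?_ ?_
      · rw [(by simp [Nat.even_pow] : Even (2 ^ (a + 1))).neg_pow, ← orderOf_dvd_iff_pow_eq_one, hμ,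
          Nat.pow_dvd_pow_iff_le_right one_lt_two]
        omega
      · rw [(by simp [Nat.even_pow] : Even (2 ^ (a + 1 + 1))).neg_pow, ← hμ, pow_orderOf_eq_one]
    have h8 : orderOf ((-μ) ^ m) = 2 ^ (a + 2 - min (a + 2) (padicValNat 2 m)) := by
      rw [orderOf_pow' _ (by omega), h7]
      obtain ⟨k, hk, h9⟩ := (Nat.dvd_prime_pow Nat.prime_two).1 (Nat.gcd_dvd_left (2 ^ (a + 2)) m)
      have h10 := H13.padicValNat_gcd (a := 2 ^ (a + 2)) (b := m) Nat.prime_two (by positivity)
        (by omega)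
      rw [h9, padicValNat.prime_pow, padicValNat.prime_pow] at h10
      rw [h9, ← h10, Nat.pow_div hk two_pos]
    rw [H13.exists_pow_eq_iff_padic (by omega) h8, Nat.card_eq_fintype_card, hF, ha,
      padicValNat.mul two_ne_zero (by omega), padicValNat_self]
    simp only [h, false_or]
    omega

end Cfsg.Agent.S2576
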