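import Cfsg.Statements.S2578
import Cfsg.Agent.H13.Jor
import Cfsg.Agent.H12.Lin

set_option autoImplicit false
open Cfsg

namespace Cfsg.Agent.S2578

/-- Regular unipotent classes of SL_n(q): for n ≥ 2 over the field with q elements, the matrices u of determinant one with (u − 1)^n = 0 and rank(u − 1) = n − 1 form a single GL_n(q)-class which splits into exactly gcd(n, q − 1) conjugacy classes of SL_n(q). -/
theorem result {F : Type*} [Field F] [Fintype F] {q : ℕ} (hF : Fintype.card F = q) {n : ℕ} (hn : 2 ≤ n) : Nat.card {C : ConjClasses (Matrix.SpecialLinearGroup (Fin n) F) // ∃ u : Matrix.SpecialLinearGroup (Fin n) F, ConjClasses.mk u = C ∧ ((u : Matrix (Fin n) (Fin n) F) - 1) ^ n = 0 ∧ ((u : Matrix (Fin n) (Fin n) F) - 1).rank = n - 1} = Nat.gcd n (q - 1) := by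
  have : Nonempty (Fin n) := ⟨⟨0, by omega⟩⟩
  obtain ⟨x, h1, h2⟩ := H13.exists_GL_jt (F := F) (n := Fin n) (M := {n}) (by simp; omega) (by simp)
  have h3 := H13.isNilpotent_toLin'.mpr h1
  have h4 : (x.1 - 1).rank = n - 1 := by
    have := (Matrix.toLin' x.1 - 1).finrank_range_add_finrank_ker
    rw [H13.finrank_ker_sub_one h3, h2, ← H13.rank_sub_one] at this
    simp at this
    omega
  rw [H13.card_classes_split Matrix.SpecialLinearGroup.toGL Matrix.GeneralLinearGroup.det
    Matrix.SpecialLinearGroup.toGL_injective (x := x) ?_ (Units.ext (H13.det_of_isNilpotent h1)) ?_,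
    MonoidHom.range_eq_top.mpr Matrix.GeneralLinearGroup.det_surjective, Subgroup.relIndex_top_right,
    show Subgroup.map _ _ = (powMonoidHom n : Fˣ →* Fˣ).range from ?_,
    IsCyclic.index_powMonoidHom_range, Nat.card_units, Nat.card_eq_fintype_card, hF, Nat.gcd_comm]
  · ext c
    refine ⟨fun ⟨b, hb, h⟩ => ?_, fun ⟨d, h⟩ => ⟨Matrix.GeneralLinearGroup.scalar _ d,
      Subgroup.mem_centralizer_singleton_iff.mpr (Units.ext
        (Matrix.scalar_commute (d : F) (Commute.all _) _)), Units.ext (by simp [← h])⟩⟩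
    obtain ⟨d, -, hd⟩ := H13.det_of_commute_regular h1 (by simpa)
      (congrArg Units.val (Subgroup.mem_centralizer_singleton_iff.mp hb)).symm
    refine ⟨Units.mk0 d fun h0 => b.det_ne_zero (by simp [hd, h0]; omega), Units.ext ?_⟩
    simp [← h, hd]
  · ext g
    exact ⟨fun ⟨a, h⟩ => h ▸ Units.ext a.2, fun h => ⟨⟨g, congrArg Units.val h⟩, Units.ext rfl⟩⟩
  · intro u
    rw [H28.isConj_GL_iff]
    refine ⟨fun ⟨h5, h6⟩ => (H13.isConj_iff_jt h1 ⟨_, h5⟩).mpr (h2.trans ?_), fun h => ⟨?_,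
      (H13.rank_sub_one_of_isConj h).symm.trans h4⟩⟩
    · rw [H13.jt_of_regular (H13.isNilpotent_toLin'.mpr ⟨_, h5⟩) (by simp; omega)
        ((H13.rank_sub_one _).symm.trans (by simpa))]
      simp
    · have h5 := (H28.isConj_iff_sim.mp h).isNilpotent h3
      refine H13.toLin'_pow_eq_zero.mp ((H13.pow_eq_zero_iff_jt h5 _).mpr ?_)
      rw [← (H13.sim_iff_jt h3 h5).mp (H28.isConj_iff_sim.mp h), h2]
      simp

end Cfsg.Agent.S2578
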