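import Cfsg.Statements.S2579
import Cfsg.Agent.H13.Jor

set_option autoImplicit false
open Cfsg

namespace Cfsg.Agent.S2579

/-- In SL_n(F) with n ≥ 3, over a finite field F, any two transvections (matrices t with t − 1 of rank one and square zero) are conjugate by an element of SL_n(F). -/
theorem result {F : Type*} [Field F] [Finite F] {n : ℕ} (hn : 3 ≤ n) (s t : Matrix.SpecialLinearGroup (Fin n) F) (hs : Cfsg.IsTransvection (s : Matrix (Fin n) (Fin n) F)) (ht : Cfsg.IsTransvection (t : Matrix (Fin n) (Fin n) F)) : IsConj s t := by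
  have h1 := (sq _).trans hs.2
  refine H13.isConj_SL_of_det (fun c _ => ?_)
    (H13.isConj_of_sq h1 ((sq _).trans ht.2) (hs.1.trans ht.1.symm))
  simpa using H13.exists_commute_det_pow' ⟨_, h1⟩ (k := 1) (by
    rw [H13.jt_of_sq (H13.toLin'_pow_eq_zero.mpr h1), ← H13.rank_sub_one, hs.1]
    simp [Multiset.mem_replicate]
    omega) c

end Cfsg.Agent.S2579
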