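import Cfsg.Statements.S2585
import Cfsg.Agent.H13.Odd2
import Cfsg.Agent.H12.SBridge

set_option autoImplicit false
open Cfsg

namespace Cfsg.Agent.S2585

/-- Over a finite field of characteristic two every element of the symplectic group is orthogonal for a suitable quadratic form: for each A in Sp_2m(F) there is a quadratic form Q on F^(2m) whose polar form is the alternating form defining Sp_2m(F) (so Q is non-degenerate) and which A preserves. Equivalently, for m ≥ 1, Sp_2m(F) is the union of the conjugates of its two orthogonal subgroups O⁺_2m(F) and O⁻_2m(F). -/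
theorem result {F : Type*} [Field F] [Fintype F] [CharP F 2] {m : ℕ} (A : Matrix.symplecticGroup (Fin m) F) : ∃ Q : QuadraticForm F (Fin m ⊕ Fin m → F), (∀ u v : Fin m ⊕ Fin m → F, QuadraticMap.polar ⇑Q u v = Cfsg.sympForm m F u v) ∧ ∀ v : Fin m ⊕ Fin m → F, Q ((A : Matrix (Fin m ⊕ Fin m) (Fin m ⊕ Fin m) F).mulVec v) = Q v := by
  let g := H12.spEquiv _ F A
  let Q := H13.QPlus m F
  have h1 : ∀ u v, QuadraticMap.polar Q u v = sympForm m F u v := fun u v => by
    rw [← H12.spB_eq, H12.spB_apply', H13.polar_QPlus]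
    simp [CharTwo.sub_eq_add, add_comm]
  -- the linear form `φ` with `φ ^ 2 = Q ∘ A - Q`
  let φ : (Fin m ⊕ Fin m → F) →ₗ[F] F :=
    { toFun := fun v => (frobeniusEquiv F 2).symm (Q (g.1 v) - Q v)
      map_add' := fun u v => by
        rw [← map_add, map_add, QuadraticMap.map_add Q, QuadraticMap.map_add Q, h1, h1,
          ← H12.spB_eq, ← H12.spB_eq, H12.UG_map]
        ring_nf
      map_smul' := fun c v => (frobeniusEquiv F 2).injective (by
        rw [smul_eq_mul, map_mul, RingEquiv.apply_symm_apply, RingEquiv.apply_symm_apply]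
        simp [QuadraticMap.map_smul, frobenius_def, mul_sub, sq]) }
  obtain ⟨ψ, hψ⟩ : φ ∈ LinearMap.range (1 - g.1.toLinearMap).dualMap := by
    rw [LinearMap.range_dualMap_eq_dualAnnihilator_ker, Submodule.mem_dualAnnihilator]
    intro v hv
    simp [φ, show g.1 v = v from (sub_eq_zero.mp hv).symm]
  refine ⟨Q + QuadraticMap.linMulLin ψ ψ, fun u v => ?_, fun v => ?_⟩
  · rw [← h1]
    simp only [QuadraticMap.polar, QuadraticMap.add_apply, QuadraticMap.linMulLin_apply, map_add]
    linear_combination (ψ u * ψ v) * (CharTwo.two_eq_zero (R := F))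
  · have h2 := congrArg (frobeniusEquiv F 2) (LinearMap.congr_fun hψ v)
    simp only [φ, LinearMap.coe_mk, AddHom.coe_mk, RingEquiv.apply_symm_apply] at h2
    simp only [LinearMap.dualMap_apply, LinearMap.sub_apply, map_sub, frobeniusEquiv_apply,
      frobenius_def, Module.End.one_apply, LinearEquiv.coe_coe] at h2
    change Q (g.1 v) + ψ (g.1 v) * ψ (g.1 v) = Q v + ψ v * ψ v
    linear_combination -h2

end Cfsg.Agent.S2585
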