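import Cfsg.Statements.S2594
import Cfsg.Agent.H13.Inv2Sp

set_option autoImplicit false
open Cfsg

namespace Cfsg.Agent.S2594

/-- Over a finite field with q elements, q even, an element t of Sp_2m(F) with rank(t − 1) = 1 (a symplectic transvection) has centraliser in Sp_2m(F) of order q^(2m−1) · |Sp_(2m−2)(q)| = q^(2m−1) · q^((m−1)²) · Π_(i=1)^(m−1) (q^(2i) − 1). -/
theorem result {F : Type*} [Field F] [Fintype F] [CharP F 2] {q : ℕ} (hF : Fintype.card F = q) {m : ℕ} (hm : 1 ≤ m) (t : Matrix.symplecticGroup (Fin m) F) (ht : ((t : Matrix (Fin m ⊕ Fin m) (Fin m ⊕ Fin m) F) - 1).rank = 1) : Nat.card ↥(Subgroup.centralizer ({t} : Set ↥(Matrix.symplecticGroup (Fin m) F))) = q ^ (2 * m - 1) * (q ^ ((m - 1) ^ 2) * ∏ i : Fin (m - 1), (q ^ (2 * ((i : ℕ) + 1)) - 1)) := by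
  have h1 : t ^ 2 = 1 := (H12.spEquiv (Fin m) F).injective (by
    rw [map_pow, map_one]
    exact (H13.sub1_sub1_of_two CharTwo.two_eq_zero).1
      (H13.sd_sub1_sub1_of_rk1 H12.sd_spB ((H13.rk1_sp t).trans ht)))
  rw [← H13.card_centralizer_equiv (H12.spEquiv (Fin m) F),
    (H13.isIsom_UG _).card_centralizer_odd H12.sd_spB.wittData (H13.sq_sp h1) (k := 0)
      ((H13.rk1_sp t).trans ht), (H13.card_sp_fix h1 ht).2, hF, ← H13.spOrd_eq]
  simp [H12.spOrd]

end Cfsg.Agent.S2594
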