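import Cfsg.Statements.S2599
import Cfsg.Agent.H13.Levi

set_option autoImplicit false
open Cfsg

namespace Cfsg.Agent.S2599

/-- An irreducible invariant subspace of a semisimple isometry is non-degenerate or totally singular: let Q be a quadratic form on F^n (F finite of characteristic p) with non-degenerate polar form f, x an isometry of Q of order prime to p, and U a non-zero x-invariant subspace containing no x-invariant subspace other than 0 and U. Then U meets its f-orthogonal trivially, or Q vanishes on U, or p = 2, U is a line spanned by a non-singular vector and x fixes U pointwise. -/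
theorem result {F : Type*} [Field F] [Fintype F] {p : ℕ} [Fact p.Prime] [CharP F p] {n : ℕ} (Q : QuadraticForm F (Fin n → F)) (hQ : (QuadraticMap.polarBilin Q).Nondegenerate) (x : ↥(Cfsg.isometryGroup F ⇑Q)) (hx : (orderOf x).Coprime p) (U : Submodule F (Fin n → F)) (hU0 : U ≠ ⊥) (hUx : ∀ u ∈ U, ((x : Matrix.GeneralLinearGroup (Fin n) F) : Matrix (Fin n) (Fin n) F).mulVec u ∈ U) (hirr : ∀ W : Submodule F (Fin n → F), W ≤ U → (∀ w ∈ W, ((x : Matrix.GeneralLinearGroup (Fin n) F) : Matrix (Fin n) (Fin n) F).mulVec w ∈ W) → W = ⊥ ∨ W = U) : U ⊓ LinearMap.BilinForm.orthogonal (QuadraticMap.polarBilin Q) U = ⊥ ∨ (∀ u ∈ U, Q u = 0) ∨ (p = 2 ∧ Module.finrank F U = 1 ∧ (∃ u ∈ U, Q u ≠ 0) ∧ ∀ u ∈ U, ((x : Matrix.GeneralLinearGroup (Fin n) F) : Matrix (Fin n) (Fin n) F).mulVec u = u) := by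
  let g := H13.toOG Q x
  rcases hirr (U ⊓ H13.perp Q U) inf_le_left (fun w hw => ⟨hUx w hw.1, fun u hu => by
    obtain ⟨u', hu', rfl⟩ := (H13.map_OG_eq_of_le (g := g) hUx).ge hu
    exact (H13.OG_polar g u' w).trans (hw.2 u' hu')⟩) with h | h
  · exact Or.inl h
  have h1 : ∀ u ∈ U, ∀ v ∈ U, QuadraticMap.polar Q u v = 0 := fun u hu v hv => (h.ge hv).2 u hu
  let W : Submodule F (Fin n → F) :=
    { carrier := {u | u ∈ U ∧ Q u = 0}
      add_mem' := fun {a b} ha hb => ⟨U.add_mem ha.1 hb.1, by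
        simp [H13.Q_add, ha.2, hb.2, h1 a ha.1 b hb.1]⟩
      zero_mem' := ⟨U.zero_mem, by simp⟩
      smul_mem' := fun c a ha => ⟨U.smul_mem c ha.1, by simp [H13.Q_smul, ha.2]⟩ }
  rcases hirr W (fun w hw => hw.1) (fun w hw => ⟨hUx w hw.1, (H13.OG_map g w).trans hw.2⟩)
    with h2 | h2
  swap
  · exact Or.inr (Or.inl fun u hu => (h2.ge hu).2)
  have h3 : ∀ u ∈ U, Q u = 0 → u = 0 := fun u hu h0 => h2.le ⟨hu, h0⟩
  obtain ⟨u, hu, hu0⟩ := (Submodule.ne_bot_iff U).mp hU0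
  have h4 : Q u ≠ 0 := fun h0 => hu0 (h3 u hu h0)
  have h5 : (2 : F) = 0 := by simpa [H13.polar_self', h4] using h1 u hu u hu
  refine Or.inr (Or.inr ⟨?_, finrank_eq_one_iff'.mpr ⟨⟨u, hu⟩, by simpa using hu0, fun v => ?_⟩,
    ⟨u, hu, h4⟩, fun v hv => sub_eq_zero.mp (h3 _ (U.sub_mem (hUx v hv) hv) ?_)⟩)
  · exact (Nat.prime_dvd_prime_iff_eq Fact.out Nat.prime_two).mp
      ((CharP.cast_eq_zero_iff F p 2).mp (by exact_mod_cast h5))
  · obtain ⟨c, hc⟩ := H13.exists_sq_eq_of_two_eq_zero h5 (Q v / Q u)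
    refine ⟨c, Subtype.ext (sub_eq_zero.mp (h3 _ (U.sub_mem (U.smul_mem c hu) v.2) ?_))⟩
    change Q (c • u - v) = 0
    rw [H13.Q_sub, h1 _ (U.smul_mem c hu) _ v.2, H13.Q_smul, hc, div_mul_cancel₀ _ h4]
    linear_combination Q v * h5
  · rw [H13.Q_sub, h1 _ (hUx v hv) _ hv, show Q (Matrix.mulVec _ v) = Q v from H13.OG_map g v]
    linear_combination Q v * h5

end Cfsg.Agent.S2599
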