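import Cfsg.Statements.S2601
import Cfsg.Agent.H28.PSLOut

set_option autoImplicit false
open Cfsg

namespace Cfsg.Agent.S2601



/-- Structure of the outer automorphism group of PSL_n(q), n ≥ 3, q = p^f: it has a normal cyclic subgroup of order gcd(n, q − 1) (the diagonal automorphisms) whose quotient is the direct product of a cyclic group of order f (field automorphisms) and a group of order 2 (the inverse-transpose graph automorphism). -/
theorem result {F : Type*} [Field F] [Fintype F] {p f n : ℕ} [Fact p.Prime] (hf : 1 ≤ f) (hF : Fintype.card F = p ^ f) (hn : 3 ≤ n) : ∃ φ : Cfsg.Out (Matrix.ProjectiveSpecialLinearGroup (Fin n) F) →* Multiplicative (ZMod f × ZMod 2), Function.Surjective φ ∧ IsCyclic φ.ker ∧ Nat.card φ.ker = Nat.gcd n (p ^ f - 1) := by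
  obtain ⟨τ, h1, h3⟩ := H28.exists_typ_PSL (F := F) hn
  obtain ⟨e⟩ := H28.nonempty_ringAut_equiv hF
  have : Nonempty (Fin n) := ⟨⟨0, by omega⟩⟩
  let e' := (e.prodCongr (MulEquiv.refl (Multiplicative (ZMod 2)))).trans
    (MulEquiv.prodMultiplicative (ZMod f) (ZMod 2)).symm
  obtain ⟨φ, a, b, c⟩ := H28.exists_out_hom (H28.dPSL (Fin n) F) Matrix.GeneralLinearGroup.det
    Matrix.GeneralLinearGroup.det_surjective H28.inn_PSL_eq' (e'.toMonoidHom.comp τ)
    (e'.surjective.comp fun t => ⟨_, h3 t⟩) (by rw [← h1]; ext; simp)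
  refine ⟨φ, a, b, ?_⟩
  rw [c, H28.ker_dPSL, H28.map_det_center, IsCyclic.index_powMonoidHom_range,
    H12.card_units_of_card hF, Fintype.card_fin, Nat.gcd_comm]

end Cfsg.Agent.S2601
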