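import Cfsg.Statements.S2604
import Cfsg.Agent.H28.OField

set_option autoImplicit false
open Cfsg

namespace Cfsg.Agent.S2604



/-- Outer automorphism group of the simple orthogonal group Ω_(2m+1)(q), m ≥ 3, q = p^f odd: it is the direct product of a group of order 2 (diagonal automorphisms, from SO) and a cyclic group of order f (field automorphisms). -/
theorem result {F : Type*} [Field F] [Fintype F] {p f m : ℕ} [Fact p.Prime] (hf : 1 ≤ f) (hF : Fintype.card F = p ^ f) (hp : p ≠ 2) (hm : 3 ≤ m) : Nonempty (Cfsg.Out (Cfsg.POmega F (Cfsg.quadFormOdd m F)) ≃* Multiplicative (ZMod 2 × ZMod f)) := by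
  have hodd : Odd (Fintype.card F) := hF ▸ ((Fact.out : p.Prime).odd_of_ne_two hp).pow
  have hQ := H13.nd_QOdd (m := m) (H13.two_ne_zero_of_odd_card hodd)
  have hn : Module.finrank F (Unit ⊕ (Fin m ⊕ Fin m) → F) = 2 * m + 1 := by simp; ring
  have hk := H28.ker_out hQ (by omega)
  obtain ⟨c, h1, h2⟩ := H28.exists_map_odd hQ hn (by omega) hk
  obtain ⟨σ, -, h3, h4⟩ := H28.exists_frob hF
  exact H28.out_Z2 hk (H28.out_surjective hQ (by omega) (by omega)) h1 h2
    (s := H13.SemiSim.coord σ fun v => by simp [H13.QOdd_apply]) (H28.card_ringAut hF) h4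
    (H28.coord_pow _ (h3 ▸ pow_orderOf_eq_one σ))

end Cfsg.Agent.S2604
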