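import Cfsg.Statements.S2605
import Cfsg.Agent.H28.OPre

set_option autoImplicit false
open Cfsg

namespace Cfsg.Agent.S2605



/-- Outer automorphism group of PΩ⁻_2m(q), m ≥ 4, q = 2^f: cyclic of order 2f, generated by a semilinear map inducing the Frobenius automorphism of the field (its f-th power is a graph automorphism, an orthogonal transvection). -/
theorem result {F : Type*} [Field F] [Fintype F] {f m : ℕ} (hf : 1 ≤ f) (hF : Fintype.card F = 2 ^ f) (hm : 4 ≤ m) (a b : F) (hab : ∀ z₁ z₂ : F, z₁ ^ 2 + a * z₁ * z₂ + b * z₂ ^ 2 = 0 → z₁ = 0 ∧ z₂ = 0) : IsCyclic (Cfsg.Out (Cfsg.POmega F (Cfsg.quadFormMinus (m - 1) F a b))) ∧ Nat.card (Cfsg.Out (Cfsg.POmega F (Cfsg.quadFormMinus (m - 1) F a b))) = 2 * f := by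
  have h := H28.ev_QMinus (m := m - 1) (by omega) hab
  obtain ⟨s, g, h1, -, h3, h4⟩ := H28.exists_frob_QMinus hf hF hab h
  have := H28.charP_of_card hF
  exact h.out_minus_two (CharP.cast_eq_zero F 2) (H28.ker_out h.nd h.five)
    (H28.out_surjective h.nd (by rw [h.dim]; omega) fun _ => H13.not_isPlus_QMinus hab)
    (H28.card_ringAut hF) h1 h3 h4

end Cfsg.Agent.S2605
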