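import Cfsg.Statements.S2606
import Cfsg.Agent.H28.OPre

set_option autoImplicit false
open Cfsg

namespace Cfsg.Agent.S2606



/-- Outer automorphism group of PΩ⁻_2m(q), m ≥ 4, q = p^f odd: it is dihedral of order 8 times cyclic of order f when q ≡ 3 (mod 4) and m is odd, and otherwise the direct product of a group of order 2 with a cyclic group of order 2f. -/
theorem result {F : Type*} [Field F] [Fintype F] {p f m : ℕ} [Fact p.Prime] (hf : 1 ≤ f) (hF : Fintype.card F = p ^ f) (hp : p ≠ 2) (hm : 4 ≤ m) (a b : F) (hab : ∀ z₁ z₂ : F, z₁ ^ 2 + a * z₁ * z₂ + b * z₂ ^ 2 = 0 → z₁ = 0 ∧ z₂ = 0) : if p ^ f % 4 = 3 ∧ Odd m then Nonempty (Cfsg.Out (Cfsg.POmega F (Cfsg.quadFormMinus (m - 1) F a b)) ≃* DihedralGroup 4 × Multiplicative (ZMod f)) else Nonempty (Cfsg.Out (Cfsg.POmega F (Cfsg.quadFormMinus (m - 1) F a b)) ≃* Multiplicative (ZMod 2 × ZMod (2 * f))) := by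
  have h := H28.ev_QMinus (m := m - 1) (by omega) hab
  obtain ⟨s, g, h1, h5, h3, h4⟩ := H28.exists_frob_QMinus hf hF hab h
  have hodd : Odd (Fintype.card F) := hF ▸ ((Fact.out : p.Prime).odd_of_ne_two hp).pow
  have h2 := H13.two_ne_zero_of_odd_card hodd
  have hk := H28.ker_out h.nd h.five
  have hs := H28.out_surjective h.nd (by rw [h.dim]; omega) fun _ => H13.not_isPlus_QMinus hab
  have hd := H28.disc_QMinus_eq_one_iff (m := m - 1) hodd hab
  rw [hF, Nat.even_sub (by omega), and_comm, ← Nat.not_odd_iff_even] at hd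
  have hc : H28.mu _ s = 1 := by rw [H28.mu_apply, h5, H13.sgn_one]
  split_ifs with e
  · obtain ⟨e1⟩ := h.out_prod h2 hk hs (H28.card_ringAut hF) h1 hc (.inr ⟨by
      by_contra e2
      obtain ⟨k, rfl⟩ := Nat.not_odd_iff_even.1 e2
      have := e.1
      rw [pow_add, Nat.mul_mod] at this
      have h6 := Nat.mod_lt (p ^ k) (show 0 < 4 by norm_num)
      interval_cases p ^ k % 4 <;> simp at this, g, h4⟩)
    obtain ⟨e2⟩ := h.sim_D8 h2 hk (hd.2 (by simpa using e))
    exact ⟨e1.trans (e2.prodCongr (MulEquiv.refl _))⟩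
  · exact h.out_minus h2 hk hs (H28.units_ne_one (mt hd.1 (by simpa using e)))
      (H28.card_ringAut hF) h1 hc h3 h4

end Cfsg.Agent.S2606
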