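import Cfsg.Statements.S2607
import Cfsg.Agent.H13.Tri3

set_option autoImplicit false
open Cfsg

namespace Cfsg.Agent.S2607

/-- Outer automorphism group of PΩ⁺_2m(q), q = 2^f: for m ≥ 5 it is the direct product of a group of order 2 (graph automorphism, an orthogonal transvection) and a cyclic group of order f (field automorphisms); for m = 4 triality enlarges it to S_3 × C_f. -/
theorem result {F : Type*} [Field F] [Fintype F] {f m : ℕ} (hf : 1 ≤ f) (hF : Fintype.card F = 2 ^ f) (hm : 4 ≤ m) : if m = 4 then Nonempty (Cfsg.Out (Cfsg.POmega F (Cfsg.quadFormPlus m F)) ≃* Equiv.Perm (Fin 3) × Multiplicative (ZMod f)) else Nonempty (Cfsg.Out (Cfsg.POmega F (Cfsg.quadFormPlus m F)) ≃* Multiplicative (ZMod 2 × ZMod f)) := by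
  split_ifs with h4
  · subst h4
    exact H13.out_eight_two hf hF
  have h := H28.ev_QPlus (F := F) (m := m) (by omega)
  have := H28.charP_of_card hF
  have hk := H28.ker_out h.nd h.five
  obtain ⟨v, -, hv⟩ := h.exists_refl
  obtain ⟨h1, h2⟩ := h.mem_map_Sim_two (CharP.cast_eq_zero F 2) hk hv
  obtain ⟨σ, -, h3, h5⟩ := H28.exists_frob hF
  exact H28.out_Z2 hk (H28.out_surjective h.nd (by rw [h.dim]; omega) (by rw [h.dim]; omega)) h1 h2
    (s := H13.SemiSim.coord σ fun v => by simp [H13.QPlus_apply]) (H28.card_ringAut hF) h5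
    (H28.coord_pow _ (h3 ▸ pow_orderOf_eq_one σ))

end Cfsg.Agent.S2607
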