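import Cfsg.Statements.S2608
import Cfsg.Agent.H13.Tri3

set_option autoImplicit false
open Cfsg

namespace Cfsg.Agent.S2608

/-- Outer automorphism group of PΩ⁺_2m(q), q = p^f odd: for m = 4 it is S_4 × C_f (triality); for m ≥ 5 it is C_2 × C_2 × C_f when q ≡ 3 (mod 4) and m is odd, and D_8 × C_f otherwise. -/
theorem result {F : Type*} [Field F] [Fintype F] {p f m : ℕ} [Fact p.Prime] (hf : 1 ≤ f) (hF : Fintype.card F = p ^ f) (hp : p ≠ 2) (hm : 4 ≤ m) : if m = 4 then Nonempty (Cfsg.Out (Cfsg.POmega F (Cfsg.quadFormPlus m F)) ≃* Equiv.Perm (Fin 4) × Multiplicative (ZMod f)) else if p ^ f % 4 = 3 ∧ Odd m then Nonempty (Cfsg.Out (Cfsg.POmega F (Cfsg.quadFormPlus m F)) ≃* Multiplicative (ZMod 2 × ZMod 2 × ZMod f)) else Nonempty (Cfsg.Out (Cfsg.POmega F (Cfsg.quadFormPlus m F)) ≃* DihedralGroup 4 × Multiplicative (ZMod f)) := by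
  by_cases h4 : m = 4
  · subst h4
    exact H13.out_eight_odd hf hF hp
  have h := H28.ev_QPlus (F := F) (m := m) (by omega)
  have hodd : Odd (Fintype.card F) := hF ▸ ((Fact.out : p.Prime).odd_of_ne_two hp).pow
  have h2 := H13.two_ne_zero_of_odd_card hodd
  have hk := H28.ker_out h.nd h.five
  obtain ⟨σ, -, h3, h5⟩ := H28.exists_frob hF
  obtain ⟨e⟩ := h.out_prod h2 hk
    (H28.out_surjective h.nd (by rw [h.dim]; omega) (by rw [h.dim]; omega))
    (s := H13.SemiSim.coord σ fun v => by simp [H13.QPlus_apply]) (H28.card_ringAut hF) h5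
    H13.sgn_one (.inl (H28.coord_pow _ (h3 ▸ pow_orderOf_eq_one σ)))
  have hd := H28.disc_QPlus_eq_one_iff (m := m) hodd
  rw [hF, and_comm] at hd
  rw [if_neg h4]
  split_ifs with e1
  · obtain ⟨e2⟩ := h.sim_V4 h2 hk (H28.units_ne_one (mt hd.1 (not_not.mpr e1)))
    exact ⟨e.trans ((e2.prodCongr (MulEquiv.refl _)).trans ((MulEquiv.prodMultiplicative _ _).symm.trans
      (AddEquiv.toMultiplicative AddEquiv.prodAssoc)))⟩
  · obtain ⟨e2⟩ := h.sim_D8 h2 hk (hd.2 e1)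
    exact ⟨e.trans (e2.prodCongr (MulEquiv.refl _))⟩

end Cfsg.Agent.S2608
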