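import Cfsg.Statements.S2610
import Cfsg.Agent.H13.Levi

set_option autoImplicit false
open Cfsg

namespace Cfsg.Agent.S2610

/-- For a quadratic form Q on F^n with non-degenerate polar form, F finite of odd order and n ≥ 2 even, the isometry −1 lies in Ω (the commutator subgroup of the orthogonal group) if and only if the discriminant of Q (the determinant of the Gram matrix of its polar form) is a square. -/
theorem result {F : Type*} [Field F] [Fintype F] (h2 : (2 : F) ≠ 0) {n : ℕ} (hn : 2 ≤ n) (he : Even n) (Q : QuadraticForm F (Fin n → F)) (hQ : (QuadraticMap.polarBilin Q).Nondegenerate) : (∃ g : ↥(Cfsg.isometryGroup F ⇑Q), g ∈ Cfsg.Omega F ⇑Q ∧ ((g : Matrix.GeneralLinearGroup (Fin n) F) : Matrix (Fin n) (Fin n) F) = -1) ↔ IsSquare (Matrix.of (fun i j : Fin n => QuadraticMap.polar ⇑Q (Pi.single i 1) (Pi.single j 1))).det := by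
  have hQ' := H13.nd_iff.mpr hQ
  have h1 : ∀ g : ↥(Cfsg.isometryGroup F ⇑Q), H13.mat g = -1 ↔ H13.toOG Q g = H13.negOne Q :=
    fun g => by
      rw [H13.mat_eq_iff]
      exact ⟨fun h => H13.OG_ext fun v => by simp [h, H13.negOne_apply, Matrix.neg_mulVec],
        fun h v => by simp [h, H13.negOne_apply, Matrix.neg_mulVec]⟩
  have h3 := hQ'.negOne_mem_iff h2
  rw [hQ'.disc_eq (Pi.basisFun F _), H13.sgn_eq_one_iff] at h3
  simp only [Module.finrank_fintype_fun_eq_card, Fintype.card_fin, he, true_and, H13.gdet,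
    Pi.basisFun_apply, QuadraticMap.polarBilin_apply_apply] at h3
  rw [← h3]
  exact ⟨fun ⟨g, h4, h5⟩ => (h1 g).mp h5 ▸ (H13.mem_Omega_iff g).mp h4,
    fun h => ⟨(H13.toOG Q).symm _, (H13.mem_Omega_iff _).mpr (by rwa [MulEquiv.apply_symm_apply]),
      (h1 _).mpr (MulEquiv.apply_symm_apply _ _)⟩⟩

end Cfsg.Agent.S2610
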