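import Cfsg.Statements.S2612
import Cfsg.Agent.H13.Levi

set_option autoImplicit false
open Cfsg

namespace Cfsg.Agent.S2612

/-- For the hyperbolic quadratic form Σ x_i y_i on F^(2m) (F finite, m ≥ 1, excluding m = 2 over the field of two elements), Ω⁺_2m(F) (the commutator subgroup of the orthogonal group) contains an element interchanging the two complementary maximal totally singular subspaces {y = 0} and {x = 0} if and only if m is even (dimension divisible by 4). -/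
theorem result {F : Type*} [Field F] [Fintype F] {m : ℕ} (hm : 1 ≤ m) (h : Fintype.card F ≠ 2 ∨ m ≠ 2) : (∃ g : ↥(Cfsg.isometryGroup F (Cfsg.quadFormPlus m F)), g ∈ Cfsg.Omega F (Cfsg.quadFormPlus m F) ∧ (∀ v : Fin m ⊕ Fin m → F, (∀ i, v (Sum.inr i) = 0) → ∀ i, (((g : Matrix.GeneralLinearGroup (Fin m ⊕ Fin m) F) : Matrix (Fin m ⊕ Fin m) (Fin m ⊕ Fin m) F).mulVec v) (Sum.inl i) = 0) ∧ (∀ v : Fin m ⊕ Fin m → F, (∀ i, v (Sum.inl i) = 0) → ∀ i, (((g : Matrix.GeneralLinearGroup (Fin m ⊕ Fin m) F) : Matrix (Fin m ⊕ Fin m) (Fin m ⊕ Fin m) F).mulVec v) (Sum.inr i) = 0)) ↔ Even m := by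
  have hG : H13.Good (H13.QPlus m F) := H13.good_of_card (by simp; omega)
  obtain ⟨h1, h3⟩ := H13.ker_funLeft_inr (F := F) m
  have key : ∀ g : H13.OG (H13.QPlus m F), (∀ v : Fin m ⊕ Fin m → F, (∀ i, v (.inr i) = 0) →
      ∀ i, g.1 v (.inl i) = 0) → (Even m ↔ H13.dickson H13.nd_QPlus hG g = 1) := fun g hg => by
    rw [← H13.nd_QPlus.even_inf_map_iff hG (by simp; omega) h1 h3 g, Disjoint.eq_bot, finrank_bot,
      zero_add]
    rw [Submodule.disjoint_def]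
    rintro _ hx ⟨v, hv, rfl⟩
    ext (i | i)
    · exact hg v (congrFun hv) i
    · exact congrFun hx i
  refine (H13.exists_Omega_iff (Q := H13.QPlus m F) (p := fun A =>
    (∀ v : Fin m ⊕ Fin m → F, (∀ i, v (.inr i) = 0) → ∀ i, A.mulVec v (.inl i) = 0) ∧
    ∀ v : Fin m ⊕ Fin m → F, (∀ i, v (.inl i) = 0) → ∀ i, A.mulVec v (.inr i) = 0)).trans ?_
  simp only [H13.mat_symm_mulVec]
  refine ⟨fun ⟨g, h4, h5, _⟩ => (key g h5).mpr ((H13.nd_QPlus.mem_commutator_iff hG g).mp h4).1,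
    fun he => ?_⟩
  let s : H13.OG (H13.QPlus m F) := ⟨LinearEquiv.funCongrLeft F F (Equiv.sumComm _ _), fun v =>
    Finset.sum_congr (s₁ := Finset.univ) rfl fun i _ => mul_comm (v (.inr i)) (v (.inl i))⟩
  have hf := H13.hypFam_QPlus (F := F) m
  obtain ⟨x, ⟨h4, h5⟩, h6⟩ := H13.nd_QPlus.exists_mul_mem_Om_of_dickson hG (p := fun x =>
    (∀ v : Fin m ⊕ Fin m → F, (∀ i, v (.inr i) = 0) → ∀ i, x.1 v (.inr i) = 0) ∧
    ∀ v : Fin m ⊕ Fin m → F, (∀ i, v (.inl i) = 0) → ∀ i, x.1 v (.inl i) = 0)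
    ⟨fun _ h => h, fun _ h => h⟩ (fun h2 => by
      obtain ⟨c, hc, hc'⟩ := H13.exists_sgn_eq_neg_one h2
      refine ⟨hf.levi (H12.dilGL ⟨0, hm⟩ (Units.mk0 c hc)), ?_, by
        rw [hf.levi_dilGL]; exact ⟨H13.HP.dickson_torus .., (H13.HP.spinor_torus ..).trans hc'⟩⟩
      have h7 : ∀ A v, (hf.levi A).1 v = Sum.elim (A.1.mulVec (v ∘ Sum.inl))
          ((A⁻¹).1.transpose.mulVec (v ∘ Sum.inr)) := fun A v => by
        convert hf.levi_apply A (v ∘ Sum.inl) (v ∘ Sum.inr) (zero_mem _) using 2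
        · ext (i | i) <;> simp [Pi.single_apply, Finset.sum_apply]
        · ext (i | i) <;> simp [Pi.single_apply, Finset.sum_apply]
      exact ⟨fun v hv i => by rw [h7, show v ∘ Sum.inr = 0 from funext hv]; simp,
        fun v hv i => by rw [h7, show v ∘ Sum.inl = 0 from funext hv]; simp⟩)
    ((key s fun v hv i => hv i).mp he)
  exact ⟨_, h6, h4, h5⟩

end Cfsg.Agent.S2612
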