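import Cfsg.Statements.S2615
import Cfsg.Agent.H13.Levi

set_option autoImplicit false
open Cfsg

namespace Cfsg.Agent.S2615

/-- For an elliptic form Σ_(j<m−1) x_j y_j + (z₁² + a z₁z₂ + b z₂²) (anisotropic binary part) on F^(2m), F finite with q elements, q odd, and 1 ≤ i ≤ m − 1: the involution negating the first i hyperbolic pairs and fixing the rest lies in Ω⁻_2m(q) (commutator subgroup of the orthogonal group) if and only if q^i ≡ 1 (mod 4). -/
theorem result {F : Type*} [Field F] [Fintype F] {q : ℕ} (hF : Fintype.card F = q) (hq : Odd q) {m : ℕ} (a b : F) (hab : ∀ z₁ z₂ : F, z₁ ^ 2 + a * z₁ * z₂ + b * z₂ ^ 2 = 0 → z₁ = 0 ∧ z₂ = 0) (i : ℕ) (hi : 1 ≤ i) (him : i + 1 ≤ m) : (∃ g : ↥(Cfsg.isometryGroup F (Cfsg.quadFormMinus (m - 1) F a b)), g ∈ Cfsg.Omega F (Cfsg.quadFormMinus (m - 1) F a b) ∧ ((g : Matrix.GeneralLinearGroup ((Fin (m - 1) ⊕ Fin (m - 1)) ⊕ Fin 2) F) : Matrix ((Fin (m - 1) ⊕ Fin (m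 - 1)) ⊕ Fin 2) ((Fin (m - 1) ⊕ Fin (m - 1)) ⊕ Fin 2) F) = Matrix.diagonal (fun k : (Fin (m - 1) ⊕ Fin (m - 1)) ⊕ Fin 2 => if (Sum.elim (Sum.elim (fun j : Fin (m - 1) => (j : ℕ)) (fun j : Fin (m - 1) => (j : ℕ))) (fun _ : Fin 2 => i) k) < i then (-1 : F) else 1)) ↔ q ^ i % 4 = 1 := by
  subst hF
  have h2 := H13.two_ne_zero_of_odd_card hq
  have hf := H13.hypFam_QMinus (F := F) (m - 1) a b
  rw [← H13.isSquare_det_signGL hq (show i ≤ m - 1 by omega), ← hf.levi_mem_Om_iff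
    (H13.nd_QMinus hab) (H13.good_of_two_ne_zero h2)]
  refine H13.exists_Omega_mat_iff (Q := H13.QMinus (m - 1) F a b) _ fun v => ?_
  have := hf.levi_apply (H13.signGL (m - 1) i F) (v ∘ Sum.inl ∘ Sum.inl) (v ∘ Sum.inl ∘ Sum.inr)
    (w := Sum.elim 0 (v ∘ Sum.inr)) (by
      simp [H13.mem_hypPerp, H13.polar_QMinus, Pi.single_apply])
  rw [H13.signGL_inv, H13.coe_signGL] at this
  convert this using 2
  · ext ((i | i) | i) <;> simp [Pi.single_apply, Finset.sum_apply]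
  · ext ((i | i) | i) <;> simp [Pi.single_apply, Finset.sum_apply, Matrix.mulVec_diagonal, -ite_mul]
    all_goals exact Or.inl rfl

end Cfsg.Agent.S2615
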