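import Cfsg.Statements.S2616
import Cfsg.Agent.H13.Levi

set_option autoImplicit false
open Cfsg

namespace Cfsg.Agent.S2616

/-- Standard bases of a non-degenerate quadratic space of even dimension 2m over a finite field: either there is a hyperbolic basis e_i, f_i (Q(e_i) = Q(f_i) = 0, B(e_i, f_j) = δ_ij, the e's pairwise orthogonal and the f's pairwise orthogonal, B the polar form), or there is an elliptic basis: hyperbolic pairs e_i, f_i for i < m − 1 together with x, y orthogonal to them with Q(x) = 1, B(x, y) = 1, Q(y) = ζ where t² + t + ζ has no root in the field. -/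
theorem result {F V : Type*} [Field F] [Finite F] [AddCommGroup V] [Module F V] [FiniteDimensional F V] {m : ℕ} (hm : 1 ≤ m) (hV : Module.finrank F V = 2 * m) (Q : QuadraticForm F V) (hQ : (QuadraticMap.polarBilin Q).Nondegenerate) : (∃ b : Module.Basis (Fin m ⊕ Fin m) F V, (∀ i, Q (b (Sum.inl i)) = 0 ∧ Q (b (Sum.inr i)) = 0) ∧ (∀ i j, QuadraticMap.polar ⇑Q (b (Sum.inl i)) (b (Sum.inr j)) = if i = j then 1 else 0) ∧ (∀ i j, QuadraticMap.polar ⇑Q (b (Sum.inl i)) (b (Sum.inl j)) = 0 ∧ QuadraticMap.polar ⇑Q (b (Sum.inr i)) (b (Sum.inr j)) = 0)) ∨ (∃ (b : Module.Basis ((Fin (m - 1) ⊕ Fin (m - 1)) ⊕ Fin 2) F V) (ζ : F), (∀ t : F, t ^ 2 + t + ζ ≠ 0) ∧ (∀ i, Q (b (Sum.inl (Sum.inl i))) = 0 ∧ Q (b (Sum.inl (Sum.inr i))) = 0) ∧ (∀ i j, QuadraticMap.polar ⇑Q (b (Sum.inl (Sum.inl i))) (b (Sum.inl (Sum.inr j))) = if i = j then 1 else 0) ∧ (∀ i j, QuadraticMap.polar ⇑Q (b (Sum.inl (Sum.inl i))) (b (Sum.inl (Sum.inl j)))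 = 0 ∧ QuadraticMap.polar ⇑Q (b (Sum.inl (Sum.inr i))) (b (Sum.inl (Sum.inr j))) = 0) ∧ (∀ i (k : Fin 2), QuadraticMap.polar ⇑Q (b (Sum.inl (Sum.inl i))) (b (Sum.inr k)) = 0 ∧ QuadraticMap.polar ⇑Q (b (Sum.inl (Sum.inr i))) (b (Sum.inr k)) = 0) ∧ Q (b (Sum.inr 0)) = 1 ∧ QuadraticMap.polar ⇑Q (b (Sum.inr 0)) (b (Sum.inr 1)) = 1 ∧ Q (b (Sum.inr 1)) = ζ) := by
  have hQ' := H13.nd_iff.mpr hQ
  by_cases hP : H13.IsPlus Q
  · obtain ⟨e, he⟩ := hQ'.equiv_QPlus hP hV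
    have h1 : ∀ v, Q (e.symm v) = H13.QPlus m F v := fun v => by simp [← he]
    have h2 : ∀ v w, QuadraticMap.polar Q (e.symm v) (e.symm w) =
        QuadraticMap.polar (H13.QPlus m F) v w := fun v w => by
      simp only [QuadraticMap.polar, ← map_add, h1]
    refine Or.inl ⟨(Pi.basisFun F _).map e.symm, ?_⟩
    simp [h1, h2, H13.QPlus_apply, H13.polar_QPlus, Pi.single_apply, eq_comm]
  · obtain ⟨ζ, hζ⟩ : ∃ ζ : F, ∀ t : F, t ^ 2 + t + ζ ≠ 0 := by
      by_contra! h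
      have h1 : Function.Surjective fun t : F => -(t ^ 2 + t) := fun ζ => by
        obtain ⟨t, ht⟩ := h ζ
        exact ⟨t, by linear_combination -ht⟩
      have := Finite.injective_iff_surjective.mpr h1 (a₁ := 0) (a₂ := -1) (by simp)
      simp at this
    obtain ⟨e, he⟩ := hQ'.equiv_QMinus hP (m := m - 1) (by omega) (H13.aniso_of_no_root hζ)
    have h1 : ∀ v, Q (e.symm v) = H13.QMinus (m - 1) F 1 ζ v := fun v => by simp [← he]
    have h2 : ∀ v w, QuadraticMap.polar Q (e.symm v) (e.symm w) =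
        QuadraticMap.polar (H13.QMinus (m - 1) F 1 ζ) v w := fun v w => by
      simp only [QuadraticMap.polar, ← map_add, h1]
    refine Or.inr ⟨(Pi.basisFun F _).map e.symm, ζ, hζ, ?_⟩
    simp [h1, h2, H13.QMinus_apply, H13.polar_QMinus, Pi.single_apply, eq_comm]

end Cfsg.Agent.S2616
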