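import Cfsg.Statements.S2619
import Cfsg.Agent.H13.Levi

set_option autoImplicit false
open Cfsg

namespace Cfsg.Agent.S2619

/-- Over a finite field of characteristic two, given an alternating bilinear form B on a finite-dimensional space, a basis (v_i) and scalars (λ_i), there is exactly one quadratic form whose polar form is B and whose value at each v_i is λ_i. -/
theorem result {F V ι : Type*} [Field F] [Finite F] [CharP F 2] [AddCommGroup V] [Module F V] [Fintype ι] (b : Module.Basis ι F V) (B : LinearMap.BilinForm F V) (hB : B.IsAlt) (c : ι → F) : ∃! Q : QuadraticForm F V, QuadraticMap.polarBilin Q = B ∧ ∀ i, Q (b i) = c i := by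
  classical
  let _ : LinearOrder ι := LinearOrder.lift' (Fintype.equivFin ι) (Fintype.equivFin ι).injective
  let C : LinearMap.BilinForm F V := b.constr F fun i => b.constr F fun j =>
    if i = j then c i else if i < j then B (b i) (b j) else 0
  have hC : ∀ i j, C (b i) (b j) = if i = j then c i else if i < j then B (b i) (b j) else 0 :=
    fun i j => by simp only [C, Module.Basis.constr_basis]
  refine ⟨LinearMap.BilinMap.toQuadraticMap C, ⟨?_, fun i => by simp [hC]⟩, ?_⟩
  · refine b.ext fun i => b.ext fun j => ?_
    rw [QuadraticMap.polarBilin_apply_apply, LinearMap.BilinMap.polar_toQuadraticMap, hC, hC]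
    rcases lt_trichotomy i j with h | rfl | h
    · simp [h, h.ne, h.ne', h.not_gt]
    · simp [hB.self_eq_zero, CharTwo.add_self_eq_zero]
    · simp [h, h.ne, h.ne', h.not_gt, ← hB.neg_eq (b i), CharTwo.neg_eq]
  · rintro Q ⟨rfl, h2⟩
    have : Q.toBilin b = C := b.ext fun i => b.ext fun j => by
      rw [QuadraticMap.toBilin_apply, hC, h2, QuadraticMap.polarBilin_apply_apply]
    rw [← this, Q.toQuadraticMap_toBilin b]

end Cfsg.Agent.S2619
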