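import Cfsg.Statements.S2622
import Cfsg.Agent.H13.Levi

set_option autoImplicit false
open Cfsg

namespace Cfsg.Agent.S2622

/-- Over a finite field of characteristic two, a non-degenerate symmetric bilinear form that is not alternating (some vector v has B(v, v) ≠ 0) admits an orthonormal basis. -/
theorem result {F V : Type*} [Field F] [Finite F] [CharP F 2] [AddCommGroup V] [Module F V] [FiniteDimensional F V] {n : ℕ} (hV : Module.finrank F V = n) (B : LinearMap.BilinForm F V) (hS : B.IsSymm) (hB : B.Nondegenerate) (hna : ∃ v : V, B v v ≠ 0) : ∃ b : Module.Basis (Fin n) F V, ∀ i j, B (b i) (b j) = if i = j then 1 else 0 := by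
  have h2 : (2 : F) = 0 := CharTwo.two_eq_zero
  have hS' : ∀ x y, B x y = B y x := fun x y => hS.eq x y
  have key : ∀ (v : V) (k : ℕ) (e : Fin k → V), B v v ≠ 0 → (∀ i, B (e i) v = 0) →
      (∀ i j, B (e i) (e j) = if i = j then 1 else 0) →
      ∃ e : Fin (k + 1) → V, ∀ i j, B (e i) (e j) = if i = j then 1 else 0 := by
    intro v k e hv hv1 he
    obtain ⟨x, hx⟩ := H13.exists_sq_eq_of_two_eq_zero h2 (B v v)⁻¹
    refine ⟨Fin.cons (x • v) e, fun i j => ?_⟩
    refine Fin.cases ?_ (fun i => ?_) i <;> refine Fin.cases ?_ (fun j => ?_) j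
    · simp [← mul_assoc, ← pow_two, hx, hv]
    · simp [hS' v, hv1, (Fin.succ_ne_zero j).symm]
    · simp [hv1]
    · simp [he]
  obtain ⟨k, ⟨e, he⟩, hmax⟩ := H13.exists_nat_maximal
    (fun k => ∃ e : Fin (k + 1) → V, ∀ i j, B (e i) (e j) = if i = j then 1 else 0)
    (hna.elim fun v hv => key v 0 Fin.elim0 hv (fun i => i.elim0) fun i => i.elim0) n
    (fun k ⟨e, he⟩ => by
      have := (H13.linearIndependent_of_dual_family B e e he).fintype_card_le_finrank
      rw [Fintype.card_fin] at this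
      omega)
  have h0 : ∀ v, (∀ i, B (e i) v = 0) → B v v = 0 := fun v hv => by
    by_contra h
    exact hmax (key v _ e h hv he)
  have hproj : ∀ v j, B (e j) (v - ∑ i, B (e i) v • e i) = 0 := fun v j => by simp [he]
  have hW0 : ∀ u, (∀ i, B (e i) u = 0) → u = 0 := fun u hu => by
    by_contra hu0
    obtain ⟨y, hy⟩ : ∃ y, B u y ≠ 0 := by
      by_contra! h
      exact hu0 (hB.1 u h)
    obtain ⟨w, hw, huw⟩ : ∃ w, (∀ i, B (e i) w = 0) ∧ B u w = 1 :=
      ⟨(B u y)⁻¹ • (y - ∑ i, B (e i) y • e i), fun i => by rw [map_smul, hproj, smul_zero], by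
        simp [hS' u (e _), hu, hy]⟩
    refine hmax (key (e 0 + w) _ (Fin.cons (e 0 + u) fun i => e i.succ) ?_ (fun i => ?_)
      fun i j => ?_)
    · simp [he, hw, hS' w (e _), h0 w hw]
    · refine Fin.cases ?_ (fun i => ?_) i
      · simp [he, hw, hS' u (e _), hu, huw, CharTwo.add_self_eq_zero]
      · simp [he, hw]
    · refine Fin.cases ?_ (fun i => ?_) i <;> refine Fin.cases ?_ (fun j => ?_) j <;>
        simp [he, hS' u (e _), hu, h0 u hu, (Fin.succ_ne_zero _).symm]
  have hsp : ⊤ ≤ Submodule.span F (Set.range e) := fun v _ => by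
    rw [sub_eq_zero.mp (hW0 _ (hproj v))]
    exact Submodule.sum_mem _ fun i _ => Submodule.smul_mem _ _ (Submodule.subset_span ⟨i, rfl⟩)
  let b := Module.Basis.mk (H13.linearIndependent_of_dual_family B e e he) hsp
  obtain rfl : n = k + 1 := by simpa [hV] using Module.finrank_eq_card_basis b
  exact ⟨b, fun i j => by simp [b, he]⟩

end Cfsg.Agent.S2622
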