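import Cfsg.Statements.S2623
import Cfsg.Agent.H13.Levi

set_option autoImplicit false
open Cfsg

namespace Cfsg.Agent.S2623

/-- Over a finite field of odd order, two quadratic forms on F^n with non-degenerate polar forms are isometric (related by an invertible linear change of variables) if and only if their discriminants (determinants of the Gram matrices of their polar forms) lie in the same square class. -/
theorem result {F : Type*} [Field F] [Fintype F] (h2 : (2 : F) ≠ 0) {n : ℕ} (Q₁ Q₂ : QuadraticForm F (Fin n → F)) (h₁ : (QuadraticMap.polarBilin Q₁).Nondegenerate) (h₂ : (QuadraticMap.polarBilin Q₂).Nondegenerate) : (∃ g : (Fin n → F) ≃ₗ[F] (Fin n → F), ∀ v, Q₂ (g v) = Q₁ v) ↔ IsSquare ((Matrix.of (fun i j : Fin n => QuadraticMap.polar ⇑Q₁ (Pi.single i 1) (Pi.single j 1))).det * (Matrix.of (fun i j : Fin n => QuadraticMap.polar ⇑Q₂ (Pi.single i 1) (Pi.single j 1))).det) := by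
  have hQ₁ := H13.nd_iff.mpr h₁
  have hQ₂ := H13.nd_iff.mpr h₂
  have h3 := H13.sgn_mul (H13.gdet_ne_zero h₁ (Pi.basisFun F _)) (H13.gdet_ne_zero h₂ (Pi.basisFun F _))
  rw [← hQ₁.disc_eq, ← hQ₂.disc_eq] at h3
  simp only [H13.gdet, Pi.basisFun_apply, QuadraticMap.polarBilin_apply_apply] at h3
  rw [← H13.sgn_eq_one_iff, h3, mul_eq_one_iff_eq_inv, Int.units_inv_eq_self]
  exact ⟨fun ⟨g, hg⟩ => (hQ₁.disc_of_isometry g hg).symm,
    fun h => hQ₁.exists_isometry_of_disc_eq h2 hQ₂ rfl h⟩

end Cfsg.Agent.S2623
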