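import Cfsg.Statements.S2628
import Cfsg.Agent.H13.Levi

set_option autoImplicit false
open Cfsg

namespace Cfsg.Agent.S2628

/-- For the orthogonal direct sum Q ⊕ Q of two copies of a quadratic form Q with non-degenerate polar form on F^k (F finite), every isometry g of Q acting diagonally, diag(g, g), lies in Ω(Q ⊕ Q), the commutator subgroup of the orthogonal group of Q ⊕ Q. (Excluded: k = 2 over the field of two elements, where Q ⊕ Q is the hyperbolic 4-space whose orthogonal group's commutator subgroup is smaller than the group usually called Ω.) -/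
theorem result {F : Type*} [Field F] [Fintype F] {k : ℕ} (h : Fintype.card F ≠ 2 ∨ k ≠ 2) (Q : QuadraticForm F (Fin k → F)) (hQ : (QuadraticMap.polarBilin Q).Nondegenerate) (g : ↥(Cfsg.isometryGroup F ⇑Q)) : ∃ x : ↥(Cfsg.isometryGroup F (fun v : Fin k ⊕ Fin k → F => Q (v ∘ Sum.inl) + Q (v ∘ Sum.inr))), x ∈ Cfsg.Omega F (fun v : Fin k ⊕ Fin k → F => Q (v ∘ Sum.inl) + Q (v ∘ Sum.inr)) ∧ ((x : Matrix.GeneralLinearGroup (Fin k ⊕ Fin k) F) : Matrix (Fin k ⊕ Fin k) (Fin k ⊕ Fin k) F) = Matrix.fromBlocks ((g : Matrix.GeneralLinearGroup (Fin k) F) : Matrix (Fin k) (Fin k) F) 0 0 ((g : Matrix.GeneralLinearGroup (Fin k) F) : Matrix (Fin k) (Fin k) F) := by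
  have hQ' := H13.nd_iff.mpr hQ
  have hG : H13.Good (H13.sumQ Q Q) := H13.good_of_card (by simp; omega)
  refine (H13.exists_Omega_iff (Q := H13.sumQ Q Q) (p := fun A => A = _)).mpr
    ⟨_, ?_, (H13.mat_eq_fromBlocks_iff _ g g).mpr (MulEquiv.apply_symm_apply _ _)⟩
  let s : H13.OG (H13.sumQ Q Q) := ⟨LinearEquiv.funCongrLeft F F (Equiv.sumComm _ _), fun v =>
    add_comm (Q (v ∘ Sum.inr)) (Q (v ∘ Sum.inl))⟩
  have h1 : H13.sumOG Q Q (H13.toOG Q g, H13.toOG Q g) = H13.sumOG Q Q (H13.toOG Q g, 1) *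
      (s * H13.sumOG Q Q (H13.toOG Q g, 1) * s⁻¹) := H13.OG_ext fun v => by
    ext (i | i) <;> rfl
  have key : ∀ φ : H13.OG (H13.sumQ Q Q) →* ℤˣ,
      φ (H13.sumOG Q Q (H13.toOG Q g, H13.toOG Q g)) = 1 := fun φ => by
    rw [h1, map_mul, map_mul, map_mul, map_inv, mul_inv_cancel_comm, Int.units_mul_self]
  exact ((hQ'.sumQ hQ').mem_commutator_iff hG _).mpr ⟨key _, key _⟩

end Cfsg.Agent.S2628
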