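import Cfsg.Statements.S2634
import Cfsg.Agent.H13.Levi

set_option autoImplicit false
open Cfsg

namespace Cfsg.Agent.S2634

/-- Over a finite field of characteristic two, Ω (the commutator subgroup of the orthogonal group of a quadratic form Q on F^n with non-degenerate polar form; excluding dimension 4 over the field of two elements) acts transitively on the non-singular 1-spaces: for u, v with Q(u) ≠ 0 and Q(v) ≠ 0 some element of Ω carries the line through u to the line through v. -/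
theorem result {F : Type*} [Field F] [Fintype F] [CharP F 2] {n : ℕ} (h : Fintype.card F ≠ 2 ∨ n ≠ 4) (Q : QuadraticForm F (Fin n → F)) (hQ : (QuadraticMap.polarBilin Q).Nondegenerate) (u v : Fin n → F) (hu : Q u ≠ 0) (hv : Q v ≠ 0) : ∃ g : ↥(Cfsg.isometryGroup F ⇑Q), g ∈ Cfsg.Omega F ⇑Q ∧ (F ∙ ((g : Matrix.GeneralLinearGroup (Fin n) F) : Matrix (Fin n) (Fin n) F).mulVec u) = F ∙ v := by
  have hQ' := H13.nd_iff.mpr hQ
  have hG : H13.Good Q := H13.good_of_card (by simpa using h)
  obtain ⟨c, hc⟩ := H13.exists_sq_eq_of_two_eq_zero (F := F) CharTwo.two_eq_zero (Q u / Q v)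
  have hc0 : c ≠ 0 := by rintro rfl; exact div_ne_zero hu hv (by simp [← hc])
  have hu0 : u ≠ 0 := by rintro rfl; simp at hu
  have hv0 : v ≠ 0 := by rintro rfl; simp at hv
  obtain ⟨g, hg⟩ := hQ'.witt_one hu0 (smul_ne_zero hc0 hv0)
    (by rw [H13.Q_smul, hc, div_mul_cancel₀ _ hv])
  obtain ⟨x, hx, h1⟩ := hQ'.exists_mul_mem_Om hG (p := fun x => x.1 u = u) rfl
    (fun x y hx hy => by rw [H13.OG_mul_apply, hy, hx])
    ⟨u, hu, H13.refl_apply_of_perp (by rw [H13.polar_self', CharTwo.two_eq_zero, zero_mul])⟩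
    (fun h => absurd CharTwo.two_eq_zero h) g
  refine (H13.exists_Omega_iff (p := fun A => (F ∙ A.mulVec u) = F ∙ v)).mpr ⟨_, h1, ?_⟩
  rw [H13.mat_symm_mulVec, H13.OG_mul_apply, hx, hg, Submodule.span_singleton_smul_eq hc0.isUnit]

end Cfsg.Agent.S2634
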