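import Cfsg.Statements.S2635
import Cfsg.Agent.H13.Levi

set_option autoImplicit false
open Cfsg

namespace Cfsg.Agent.S2635

/-- Over a finite field of characteristic two, for a quadratic form Q on F^n with non-degenerate polar form, n ≥ 2, other than dimension 4 over the field of two elements, Ω (the commutator subgroup of the orthogonal group) is exactly the subgroup generated by the products of two reflections (orthogonal transvections) x ↦ x − Q(v)⁻¹ f(x, v) v, Q(v) ≠ 0: the products of an even number of reflections. -/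
theorem result {F : Type*} [Field F] [Fintype F] [CharP F 2] {n : ℕ} (hn : 2 ≤ n) (h : Fintype.card F ≠ 2 ∨ n ≠ 4) (Q : QuadraticForm F (Fin n → F)) (hQ : (QuadraticMap.polarBilin Q).Nondegenerate) : Cfsg.Omega F ⇑Q = Subgroup.closure {g : ↥(Cfsg.isometryGroup F ⇑Q) | ∃ u v : Fin n → F, Q u ≠ 0 ∧ Q v ≠ 0 ∧ ((g : Matrix.GeneralLinearGroup (Fin n) F) : Matrix (Fin n) (Fin n) F) = Cfsg.reflectionMatrix ⇑Q u * Cfsg.reflectionMatrix ⇑Q v} := by
  have hQ' := H13.nd_iff.mpr hQ
  have hG : H13.Good Q := H13.good_of_card (by simpa using h)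
  have hmem : ∀ g : ↥(Cfsg.isometryGroup F ⇑Q), g ∈ Cfsg.Omega F ⇑Q ↔
      H13.dickson hQ' hG (H13.toOG Q g) = 1 := fun g => by
    rw [H13.mem_Omega_iff, hQ'.mem_commutator_iff_two hG CharTwo.two_eq_zero,
      H13.dickson_eq_one_iff]
  apply le_antisymm
  · intro g hg
    rw [hmem] at hg
    rw [H13.closure_map_toOG]
    obtain ⟨l, hl, hl'⟩ := hQ'.exists_list hG (H13.toOG Q g)
    rw [hl', H13.dickson_list hQ' hG l hl, neg_one_pow_eq_one_iff_even (by decide)] at hg
    rw [hl']
    clear hl'
    induction l using List.twoStepInduction with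
    | nil => exact Subgroup.one_mem _
    | singleton x => simp at hg
    | cons_cons x y l ih _ =>
      simp only [List.map_cons, List.prod_cons, ← mul_assoc]
      refine Subgroup.mul_mem _ (Subgroup.subset_closure
        ⟨(H13.toOG Q).symm (H13.refl Q x * H13.refl Q y), ⟨x, y, hl x (by simp), hl y (by simp), ?_⟩,
          MulEquiv.apply_symm_apply _ _⟩) (ih ?_ (fun v hv => hl v (by simp [hv])))
      · rw [← H13.mat_symm_refl, ← H13.mat_symm_refl, map_mul]; rfl
      · simp only [List.length_cons] at hg
        grind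
  · rw [Subgroup.closure_le]
    rintro g ⟨u, v, hu, hv, hg⟩
    rw [← H13.mat_symm_refl, ← H13.mat_symm_refl, ← H13.mat_mul] at hg
    rw [SetLike.mem_coe, hmem, H13.mat_injective hg, map_mul, map_mul, MulEquiv.apply_symm_apply,
      MulEquiv.apply_symm_apply, H13.dickson_refl hQ' hG hu, H13.dickson_refl hQ' hG hv]
    simp

end Cfsg.Agent.S2635
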