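import Cfsg.Statements.S2636
import Cfsg.Agent.H28.PSLField

set_option autoImplicit false
open Cfsg

namespace Cfsg.Agent.S2636



/-- Centraliser of a field automorphism in PGL_n: let F be the field with q = q₀^r elements, σ a field automorphism of F of prime order r (so its fixed field has q₀ elements) and n ≥ 1. The invertible matrices g whose entrywise image under σ is a scalar multiple of g — those whose coset modulo scalars is fixed by σ — number (q − 1)/(q₀ − 1) · |GL_n(q₀)|; equivalently the centraliser in PGL_n(q) of the induced automorphism has the order of PGL_n(q₀). -/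
theorem result {F : Type*} [Field F] [Fintype F] {q₀ r n : ℕ} (hr : r.Prime) (hn : 1 ≤ n) (hF : Fintype.card F = q₀ ^ r) (σ : F ≃+* F) (hσ : orderOf σ = r) : Nat.card {g : GL (Fin n) F // ∃ c : F, c ≠ 0 ∧ (g : Matrix (Fin n) (Fin n) F).map σ = c • (g : Matrix (Fin n) (Fin n) F)} = (q₀ ^ r - 1) / (q₀ - 1) * ∏ i : Fin n, (q₀ ^ n - q₀ ^ (i : ℕ)) := by
  have : Nonempty (Fin n) := ⟨⟨0, hn⟩⟩
  have := Fintype.ofFinite (H28.fixF σ)
  have h0 : Fintype.card (H28.fixF σ) = q₀ := by
    have := H28.card_fixF_pow σ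
    rw [hσ, Nat.card_eq_fintype_card, Nat.card_eq_fintype_card, hF] at this
    exact Nat.pow_left_injective hr.ne_zero this
  have hc := H28.comap_centralizer_fPSL (ι := Fin n) (σ := σ) (H28.fixF σ).subtype
    (fun x => ⟨by rintro ⟨y, rfl⟩; exact y.2, fun h => ⟨⟨x, h⟩, rfl⟩⟩)
  obtain ⟨e⟩ := H28.nonempty_centralizer_equiv_PSL _ _ (Subgroup.center _) hc
      fun e => H28.map_mem_center_iff _
  have h1 := H28.card_comap_centralizer (H28.dPSL (Fin n) F) (H28.fPSL (Fin n) F σ)
  obtain ⟨a, b⟩ := H28.index_range_units_map (H28.fixF σ).subtype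
  rw [a, Nat.card_eq_fintype_card, Nat.card_eq_fintype_card, hF, h0] at b
  have h2 := H12.card_units_mul_card_PGL (ι := Fin n) (F := H28.fixF σ)
  rw [H12.card_units_of_card h0, H12.card_GL_fin h0] at h2
  rw [Nat.card_congr e.toEquiv, H28.ker_dPSL, H12.card_center_GL,
    H12.card_units_of_card hF] at h1
  rw [← h2, ← mul_assoc, b, mul_comm]
  refine Eq.trans (Nat.card_congr (Equiv.subtypeEquivRight fun g => ?_)) h1
  rw [Subgroup.mem_comap, Subgroup.mem_centralizer_singleton_iff]
  refine Iff.trans ?_ (H28.commute_iff_of_semiconj _ (H28.fPSL_mul_dPSL σ) g).symm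
  rw [eq_comm, H28.dPSL_eq_iff]
  constructor
  · rintro ⟨c, hc, h⟩
    exact ⟨Units.mk0 c hc, Units.ext (by rw [H28.coe_scalar_mul]; exact h)⟩
  · rintro ⟨u, h⟩
    exact ⟨u, u.ne_zero, by rw [← H28.coe_scalar_mul, ← h]; rfl⟩

end Cfsg.Agent.S2636
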