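import Cfsg.Statements.S2637
import Cfsg.Agent.H12.CfA

set_option autoImplicit false
open Cfsg

namespace Cfsg.Agent.S2637

abbrev KK (F : Type*) [Field F] := QuadraticAlgebra F (-1) (-1)

open Module H12 in
theorem aux {F V : Type*} [Field F] [Finite F] [AddCommGroup V] [Module F V] [FiniteDimensional F V]
    {B : V →ₛₗ[RingHom.id F] V →ₗ[F] F} (D : SD B) (hq : Nat.card F % 3 = 2) {m : ℕ} (hm : finrank F V = 2 * m) (x : UG B)
    (hx : ∀ v, x.1 (x.1 v) = -v - x.1 v) : Nat.card (Subgroup.centralizer {x}) = guOrd (Nat.card F) m := by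
  have : Fact (∀ r : F, r ^ 2 ≠ -1 + -1 * r) := ⟨fun r h => by
    have h1 : r ^ 3 = 1 := by linear_combination (r - 1) * h
    have := Fintype.ofFinite F
    have h2 := FiniteField.pow_card r
    rw [← Nat.card_eq_fintype_card, ← Nat.div_add_mod (Nat.card F) 3, pow_add, pow_mul, h1, hq, one_pow, one_mul] at h2
    have h3 : r = 1 := by linear_combination h1 - (r + 1) * h2
    have h4 : ((3 : ℕ) : F) = 0 := by rw [h3] at h; push_cast; linear_combination h
    have : CharP F 3 := (CharP.charP_iff_prime_eq_zero Nat.prime_three).2 h4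
    obtain ⟨n, -, h5⟩ := FiniteField.card F 3
    have := h5 ▸ dvd_pow_self 3 n.ne_zero
    rw [Nat.card_eq_fintype_card] at hq; omega⟩
  let φ : (KK F) →+* End F V :=
    { toFun := fun z => z.re • 1 + z.im • x.1.toLinearMap
      map_one' := by simp [QuadraticAlgebra.re_one, QuadraticAlgebra.im_one]
      map_zero' := by simp
      map_add' := fun a b => by simp only [QuadraticAlgebra.re_add, QuadraticAlgebra.im_add]; module
      map_mul' := fun a b => by ext v; simp [hx]; module }
  let _ : Module (KK F) V := Module.compHom V φ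
  have hs : ∀ (k : (KK F)) (v : V), k • v = k.re • v + k.im • x.1 v := fun _ _ => rfl
  have : IsScalarTower F (KK F) V := ⟨fun c k v => by simp [hs, mul_smul]⟩
  have : Finite (KK F) := Module.finite_of_finite F
  have : FiniteDimensional (KK F) V := Module.Finite.of_restrictScalars_finite F (KK F) V
  have hτ : starRingEnd (KK F) ≠ RingHom.id (KK F) := fun h => by
    have h1 := congrArg QuadraticAlgebra.re (RingHom.congr_fun h QuadraticAlgebra.omega)
    simp [starRingEnd_apply] at h1
  obtain ⟨β, h⟩ := exists_CF (τ := starRingEnd (KK F)) D star_star (fun c => by ext <;> simp [starRingEnd_apply]) (fun k u v => by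
    have h1 := UG_map x u (x.1 v)
    have h2 := UG_map x u v
    simp [hs, hx, starRingEnd_apply] at h1 ⊢
    have h3 := UG_map x u (x.1 (x.1 v))
    simp [hx, h2, UG_map] at h3
    linear_combination -k.im * h3) (Or.inl hτ)
  have h1 : finrank F (KK F) = 2 := by rw [finrank_eq_card_basis (QuadraticAlgebra.basis _ _)]; simp
  have h2 : finrank (KK F) V = m := by have := finrank_mul_finrank F (KK F) V; rw [h1, hm] at this; omega
  have h3 : q0 (starRingEnd (KK F)) = Nat.card F := Nat.pow_left_injective two_ne_zero (by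
    have := card_eq_q0_sq hτ star_star
    rw [Module.natCard_eq_pow_finrank (K := F), h1] at this
    exact this.symm)
  rw [← h2, ← h3, ← h.sdK.card_UG_unitary hτ]
  refine (Nat.card_congr (Equiv.ofBijective (fun g => ⟨h.res g, Subgroup.mem_centralizer_singleton_iff.2
    (UG_ext fun v => by simpa [hs] using map_smul g.1 (QuadraticAlgebra.omega : (KK F)) v)⟩)
    ⟨fun a b e => UG_ext fun v => congrArg (fun g : Subgroup.centralizer {x} => g.1.1 v) e, ?_⟩)).symm
  · rintro ⟨g, hg⟩
    have h4 : ∀ (k : (KK F)) v, g.1 (k • v) = k • g.1 v := fun k v => by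
      have := congrArg (fun g : UG B => g.1 v) (Subgroup.mem_centralizer_singleton_iff.1 hg)
      simp only [hs, map_add, map_smul]
      exact congrArg (_ + _ • ·) this
    refine ⟨⟨{ g.1 with map_smul' := h4 }, fun u v => sub_eq_zero.1 ((traceForm_nondegenerate F (KK F)).1 _ fun k => ?_)⟩, rfl⟩
    have := UG_map g u (k • v)
    rw [h4, h.smul_right, h.smul_right] at this
    simpa [sub_mul, mul_comm, sub_eq_zero] using this

/-- Centraliser of a fixed-point-free element of order three in Sp_2m(q) when q ≡ 2 (mod 3): if x ∈ Sp_2m(F) (|F| = q, m ≥ 1) satisfies x³ = 1 and x − 1 is invertible, then its centraliser in Sp_2m(F) has the order of the unitary group GU_m(q), namely q^(m(m−1)/2) Π_(i=1)^m (q^i − (−1)^i) (x lies in the centre of a subgroup GU_m(q) of Sp_2m(q)). -/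
theorem result {F : Type*} [Field F] [Fintype F] {q : ℕ} (hF : Fintype.card F = q) (hq : q % 3 = 2) {m : ℕ} (hm : 1 ≤ m) (x : Matrix.symplecticGroup (Fin m) F) (hx3 : x ^ 3 = 1) (hfpf : IsUnit ((x : Matrix (Fin m ⊕ Fin m) (Fin m ⊕ Fin m) F) - 1)) : (Nat.card ↥(Subgroup.centralizer ({x} : Set ↥(Matrix.symplecticGroup (Fin m) F))) : ℤ) = (q : ℤ) ^ (m * (m - 1) / 2) * ∏ i : Fin m, ((q : ℤ) ^ ((i : ℕ) + 1) - (-1) ^ ((i : ℕ) + 1)) := by
  subst hF
  have h1 : x.1 * x.1 = -1 - x.1 := by
    have h2 : x.1 ^ 3 = 1 := congrArg Subtype.val hx3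
    rw [← sub_eq_zero, ← hfpf.mul_right_eq_zero, ← sub_eq_zero.2 h2]; noncomm_ring
  let e := H12.spEquiv (Fin m) F
  have h2 := aux H12.sd_spB (by simpa) (m := m) (by simp [two_mul]) (e x) fun v => by
    change Matrix.mulVec x.1 (Matrix.mulVec x.1 v) = -v - Matrix.mulVec x.1 v
    rw [Matrix.mulVec_mulVec, h1]; simp [Matrix.sub_mulVec, Matrix.neg_mulVec]
  rw [Nat.card_congr (e.toEquiv.subtypeEquiv (q := (· ∈ Subgroup.centralizer {e x})) fun a => by
    simp [Subgroup.mem_centralizer_singleton_iff, ← map_mul]), h2, H12.guOrd, Nat.card_eq_fintype_card, Finset.prod_range]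
  push_cast
  refine congrArg _ (Finset.prod_congr rfl fun i _ => ?_)
  split_ifs with h
  · simp [h.add_one.neg_one_pow]
  · simp [(Nat.not_even_iff_odd.1 h).add_one.neg_one_pow, Nat.one_le_pow _ _ (Fintype.card_pos (α := F))]

end Cfsg.Agent.S2637
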