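import Cfsg.Statements.S2638
import Cfsg.Agent.H28.PrimeEl

set_option autoImplicit false
open Cfsg

namespace Cfsg.Agent.S2638



/-- If an element x of GL_n(q), n ≥ 1, has prime order r and the multiplicative order of q modulo r is n (r is a primitive prime divisor of q^n − 1, so x acts irreducibly), then the centraliser of x in GL_n(q) is cyclic of order q^n − 1 (the multiplicative group of the field with q^n elements, a Singer cycle). -/
theorem result {F : Type*} [Field F] [Fintype F] {p q : ℕ} [Fact p.Prime] [CharP F p] (hF : Fintype.card F = q) {n r : ℕ} (hn : 1 ≤ n) (hr : r.Prime) (hrp : r ≠ p) (hi : orderOf (q : ZMod r) = n) (x : GL (Fin n) F) (hx : orderOf x = r) : IsCyclic ↥(Subgroup.centralizer ({x} : Set (GL (Fin n) F))) ∧ Nat.card ↥(Subgroup.centralizer ({x} : Set (GL (Fin n) F))) = q ^ n - 1 := by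
  subst hF
  have := Fact.mk hr
  have h1 : Matrix.toLin' x.1 ^ r = 1 := by
    rw [← Matrix.toLin'_pow, ← Units.val_pow_eq_pow_val, ← hx, pow_orderOf_eq_one, Units.val_one, Matrix.toLin'_one]; rfl
  obtain ⟨h2, k, h3, h4⟩ := H28.ed_eq_ntr hr hrp h1
  have h5 : (H28.ntr (Matrix.toLin' x.1)).card ≠ 0 := fun h => by
    rw [Multiset.card_eq_zero, H28.ntr_eq_zero hr hrp h1, Module.End.one_eq_id, ← Matrix.toLin'_one,
      EmbeddingLike.apply_eq_iff_eq, Units.val_eq_one] at h
    exact hr.one_lt.ne (by rw [← hx, h, orderOf_one])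
  rw [hi, Module.finrank_fin_fun] at h4
  have h6 : (H28.ntr (Matrix.toLin' x.1)).card = 1 := by
    by_contra h
    obtain ⟨c, hc⟩ := Nat.exists_eq_add_of_le' (show 2 ≤ (H28.ntr (Matrix.toLin' x.1)).card by omega)
    rw [hc] at h4; nlinarith
  obtain ⟨y, hy⟩ := Multiset.card_eq_one.1 h6
  obtain rfl : k = 0 := by rw [h6] at h4; omega
  rw [hy] at h2 h3
  obtain ⟨h7, h8⟩ := h2 y (by simp)
  obtain ⟨e⟩ := H13.nonempty_centralizer_equiv (u := x) (g := y.poly) (H28.sim_iff_ed.2 (by rw [h3, H28.ed_cyc]; simp))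
  rw [H28.PP.poly, h7, pow_one] at e
  have := Fact.mk y.irred
  have := H28.finite_adjoinRoot y.irred.ne_zero
  have := Module.finite_of_finite F (M := AdjoinRoot y.f)
  refine ⟨e.isCyclic.1 inferInstance, ?_⟩
  rw [← Nat.card_congr e.toEquiv, Nat.card_units, Module.natCard_eq_pow_finrank (K := F), H28.finrank_adjoinRoot,
    H28.natDegree_of_dvd_cyc hr hrp y.irred h8, hi, Nat.card_eq_fintype_card]

end Cfsg.Agent.S2638
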