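import Cfsg.Statements.S2644
import Cfsg.Agent.H13.QEU

set_option autoImplicit false
open Cfsg

namespace Cfsg.Agent.S2644

/-- In the special unitary group SU_n(q) with n ≥ 3 (isometries of Σ u_i v_i^q of determinant one over the field with q² elements), any two transvections (elements t with t − 1 of rank one and square zero) are conjugate. -/
theorem result {K : Type*} [Field K] [Fintype K] {q n : ℕ} (hK : Fintype.card K = q ^ 2) (hn : 3 ≤ n) (s t : ↥(Cfsg.SU n K q)) (hs : Cfsg.IsTransvection (((s : GL (Fin n) K) : Matrix (Fin n) (Fin n) K))) (ht : Cfsg.IsTransvection (((t : GL (Fin n) K) : Matrix (Fin n) (Fin n) K))) : IsConj s t := by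
  rw [← H13.isConj_equiv_iff (H12.suEquiv hK n)]
  have h1 : ∀ x : Cfsg.SU n K q, Cfsg.IsTransvection ((x : GL (Fin n) K) : Matrix (Fin n) (Fin n) K) →
      H13.rk1 (H12.suEquiv hK n x).1 = 1 ∧
      ∀ v, H13.sub1 (H12.suEquiv hK n x).1 (H13.sub1 (H12.suEquiv hK n x).1 v) = 0 := fun x hx =>
    ⟨(H13.rk1_eq_rank (H12.suEquiv_apply hK x)).trans hx.1, fun v => by
      rw [H13.sub1_eq_toLin' (H12.suEquiv_apply hK x), H13.sub1_eq_toLin' (H12.suEquiv_apply hK x),
        Matrix.mulVec_mulVec]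
      exact (congrArg (fun A => Matrix.mulVec A v) hx.2).trans (Matrix.zero_mulVec v)⟩
  exact H13.sd_isConj_SUG_of_lt (H12.sd_uB hK n) (H12.frobq_ne_id hK) (h1 s hs).2 (h1 t ht).2
    ((h1 s hs).1.trans (h1 t ht).1.symm) (by rw [(h1 s hs).1]; simp; omega)

end Cfsg.Agent.S2644
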