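import Cfsg.Statements.S2653
import Cfsg.Agent.H13.Wag7

set_option autoImplicit false
open scoped MatrixGroups
open Cfsg

namespace Cfsg.Agent.S2653

/-- Alternating sections of finite linear groups. Let `F` be a finite field of characteristic `p` and `n` a natural number, and suppose some subgroup `H` of GL_n(F) has a normal subgroup `K` with `H ⧸ K` isomorphic to the alternating group of degree `r ≥ 9`. Then `n ≥ r - 2` when `p` divides `r`, and `n ≥ r - 1` otherwise (the smallest degree of a nontrivial projective representation of that alternating group in characteristic `p`). The same bound follows for every classical group with natural module of dimension `n` over `F`, since each is a section of a subgroup of GL_n(F). -/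
theorem result {F : Type*} [Field F] [Fintype F] (p : ℕ) [Fact p.Prime] [CharP F p]
    (n : ℕ) (r : ℕ) (H : Subgroup (GL (Fin n) F)) (K : Subgroup ↥H) [K.Normal]
    (h : Nonempty (↥H ⧸ K ≃* ↥(alternatingGroup (Fin r)))) (hr : 9 ≤ r) :
    r - 1 - (if p ∣ r then 1 else 0) ≤ n := by
  obtain ⟨e⟩ := h
  have : Finite H := inferInstance
  obtain ⟨G, _, _, ⟨f⟩⟩ := H27.exists_small_equiv.{_, 0} H
  letI := ZMod.algebra F p
  let φ : F →ₐ[ZMod p] AlgebraicClosure (ZMod p) := IsAlgClosed.lift
  let ρ : G →* Module.End F (Fin n → F) :=
    (Matrix.toLinAlgEquiv' (R := F) (n := Fin n)).toMulEquiv.toMonoidHom.comp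
      ((Units.coeHom _).comp (H.subtype.comp f.toMonoidHom))
  have hρ : Function.Injective ρ := (Matrix.toLinAlgEquiv' (R := F) (n := Fin n)).injective.comp
    (Units.val_injective.comp (H.subtype_injective.comp f.injective))
  obtain ⟨ρ', h'⟩ := H13.Wag.base_change φ.toRingHom ρ
  let σ : G →* alternatingGroup (Fin r) :=
    e.toMonoidHom.comp ((QuotientGroup.mk' K).comp f.toMonoidHom)
  have hs : Function.Surjective σ :=
    e.surjective.comp ((QuotientGroup.mk'_surjective _).comp f.surjective)
  have := H13.Wag.bd_all r (Fin r) (Fintype.card_fin r) hr G ((Subgroup.subtype _).comp σ)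
    ⟨fun s h => let ⟨g, hg⟩ := hs ⟨s, h⟩; ⟨g, congrArg Subtype.val hg⟩, fun g => (σ g).2⟩ p _ _ ρ'
    fun g hg => by rw [hρ (((h' g).1 hg).trans ρ.map_one.symm), map_one]
  simpa using this

end Cfsg.Agent.S2653
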