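import Cfsg.Statements.S2669
import Cfsg.Agent.H28.Shintani

set_option autoImplicit false
open Cfsg

namespace Cfsg.Agent.S2669

open Cfsg.Agent.H28

/-- Shintani descent preserves numbers of fixed points on coset spaces (abstract form). Let `σ` be an automorphism of a group `X` and `e ≥ 1`; write `G` for the fixed points of `σᵉ` and `H` for the fixed points of `σ`, and assume `G` is finite. Let `Y` be a `σ`-stable subgroup of `X` on which the maps `a ↦ a σ(a)⁻¹` and `a ↦ a σᵉ(a)⁻¹` are surjective (as for a closed connected `σ`-stable subgroup of an algebraic group). Let `g ∈ G`, let `a ∈ X` satisfy `g = a σ(a)⁻¹` and put `x = σᵉ(a)⁻¹ a` (the Shintani image, an element of `H`). The element `g σ` of the semidirect product acts on the cosets of `Y ∩ G` in `G` by `k (Y ∩ G) ↦ g σ(k) (Y ∩ G)`, fixing that coset exactly when `k⁻¹ g σ(k) ∈ Y`; and `x` fixes the coset `h (Y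 ∩ H)` of `H` exactly when `h⁻¹ x h ∈ Y`. Then the two numbers of fixed cosets agree; in cross-multiplied form, `#{k ∈ G : k⁻¹ g σ(k) ∈ Y} · |Y ∩ H| = #{h ∈ H : h⁻¹ x h ∈ Y} · |Y ∩ G|`. -/
theorem result {X : Type*} [Group X] (σ : MulAut X) (e : ℕ) (he : 1 ≤ e)
    [Finite ↥((MulEquiv.toMonoidHom (σ ^ e)).eqLocus (MonoidHom.id X))]
    (Y : Subgroup X) (hY : ∀ y : X, y ∈ Y ↔ σ y ∈ Y)
    (hYL : ∀ y ∈ Y, ∃ a ∈ Y, y = a * (σ a)⁻¹) (hYLe : ∀ y ∈ Y, ∃ a ∈ Y, y = a * ((σ ^ e) a)⁻¹)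
    (g : X) (hg : g ∈ (MulEquiv.toMonoidHom (σ ^ e)).eqLocus (MonoidHom.id X)) (a : X) (ha : g = a * (σ a)⁻¹) :
    Nat.card {k : ↥((MulEquiv.toMonoidHom (σ ^ e)).eqLocus (MonoidHom.id X)) // (k : X)⁻¹ * g * σ k ∈ Y} *
        Nat.card ↥(Y ⊓ (MulEquiv.toMonoidHom σ).eqLocus (MonoidHom.id X)) =
      Nat.card {h : ↥((MulEquiv.toMonoidHom σ).eqLocus (MonoidHom.id X)) // (h : X)⁻¹ * (((σ ^ e) a)⁻¹ * a) * h ∈ Y} *
        Nat.card ↥(Y ⊓ (MulEquiv.toMonoidHom (σ ^ e)).eqLocus (MonoidHom.id X)) := by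
  subst ha
  have hx := shintani_fix σ e a hg
  set x := ((σ ^ e) a)⁻¹ * a with hxdef
  have hta : (σ ^ e) a = a * x⁻¹ := by rw [hxdef]; group
  have hYe : ∀ (j : ℕ) (y : X), y ∈ Y → (σ ^ j) y ∈ Y := by
    intro j
    induction j with
    | zero => intro y hy; simpa using hy
    | succ n ih => intro y hy; rw [pow_succ, MulAut.mul_apply]; exact ih _ ((hY y).1 hy)
  let A := {k : ↥((MulEquiv.toMonoidHom (σ ^ e)).eqLocus (MonoidHom.id X)) //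
    (k : X)⁻¹ * (a * (σ a)⁻¹) * σ k ∈ Y}
  let B := {h : ↥((MulEquiv.toMonoidHom σ).eqLocus (MonoidHom.id X)) // (h : X)⁻¹ * x * h ∈ Y}
  let R : A → B → Prop := fun k h => ((h.1 : X))⁻¹ * a⁻¹ * k.1 ∈ Y
  have h1 := card_rel_eq (γ := ↥(Y ⊓ (MulEquiv.toMonoidHom σ).eqLocus (MonoidHom.id X))) R (by
    rintro ⟨⟨k, hk⟩, hkY⟩
    rw [mem_fix_iff] at hk
    obtain ⟨c, hc, hc'⟩ := hYL _ hkY
    simp only at hc'
    -- h0 = a⁻¹ k c
    have h0 : σ (a⁻¹ * k * c) = a⁻¹ * k * c := by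
      rw [map_mul, map_mul, map_inv]
      have : σ c = (k⁻¹ * (a * (σ a)⁻¹) * σ k)⁻¹ * c := by rw [hc']; group
      rw [this]; group
    have h0e := autPow_fix σ e _ h0
    rw [map_mul, map_mul, map_inv, hk, hta] at h0e
    have hcx : (a⁻¹ * k * c)⁻¹ * x * (a⁻¹ * k * c) = ((σ ^ e) c)⁻¹ * c * (c⁻¹ * (σ ^ e) c) * (((σ ^ e) c)⁻¹ * c) := by
      have : (σ ^ e) c = ((a * x⁻¹)⁻¹ * k)⁻¹ * (a⁻¹ * k * c) := by rw [← h0e]; group
      rw [this]; group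
    have hcx' : (a⁻¹ * k * c)⁻¹ * x * (a⁻¹ * k * c) ∈ Y := by
      rw [hcx]
      have := hYe e c hc
      exact Y.mul_mem (Y.mul_mem (Y.mul_mem (Y.inv_mem this) hc) (Y.mul_mem (Y.inv_mem hc) this))
        (Y.mul_mem (Y.inv_mem this) hc)
    refine ⟨⟨fun h => ⟨(a⁻¹ * k * c)⁻¹ * h.1.1, ?_, ?_⟩,
      fun y => ⟨⟨⟨(a⁻¹ * k * c) * y.1, ?_⟩, ?_⟩, ?_⟩, ?_, ?_⟩⟩
    · have := h.2
      simp only [R] at this
      have e1 : (a⁻¹ * k * c)⁻¹ * h.1.1 = c⁻¹ * (((h.1.1 : X))⁻¹ * a⁻¹ * k)⁻¹ := by group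
      rw [e1]; exact Y.mul_mem (Y.inv_mem hc) (Y.inv_mem this)
    · exact Subgroup.mul_mem _ (Subgroup.inv_mem _ h0) h.1.1.2
    · exact Subgroup.mul_mem _ h0 y.2.2
    · have e1 : ((a⁻¹ * k * c) * y.1)⁻¹ * x * ((a⁻¹ * k * c) * y.1) =
        (y.1)⁻¹ * ((a⁻¹ * k * c)⁻¹ * x * (a⁻¹ * k * c)) * y.1 := by group
      simp only
      rw [e1]; exact Y.mul_mem (Y.mul_mem (Y.inv_mem y.2.1) hcx') y.2.1
    · simp only [R]
      have e1 : ((a⁻¹ * k * c) * y.1)⁻¹ * a⁻¹ * k = (y.1)⁻¹ * c⁻¹ := by group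
      rw [e1]; exact Y.mul_mem (Y.inv_mem y.2.1) (Y.inv_mem hc)
    · intro h; ext; simp only; group
    · intro y; ext; simp only; group)
  have h2 := card_rel_eq (γ := ↥(Y ⊓ (MulEquiv.toMonoidHom (σ ^ e)).eqLocus (MonoidHom.id X)))
    (fun (h : B) (k : A) => R k h) (by
    rintro ⟨⟨h, hh⟩, hhY⟩
    rw [mem_fix_iff] at hh
    have hhe := autPow_fix σ e _ hh
    obtain ⟨c, hc, hc'⟩ := hYLe _ (Y.inv_mem hhY)
    simp only at hc'
    have h0 : (σ ^ e) (a * h * c) = a * h * c := by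
      rw [map_mul, map_mul, hta, hhe]
      have : (σ ^ e) c = (h⁻¹ * x * h) * c := by
        rw [← inv_inv (h⁻¹ * x * h), hc']; group
      rw [this]; group
    refine ⟨⟨fun k => ⟨(a * h * c)⁻¹ * k.1.1, ?_, ?_⟩,
      fun y => ⟨⟨⟨(a * h * c) * y.1, ?_⟩, ?_⟩, ?_⟩, ?_, ?_⟩⟩
    · have := k.2
      simp only [R] at this
      have e1 : (a * h * c)⁻¹ * k.1.1 = c⁻¹ * (h⁻¹ * a⁻¹ * k.1.1) := by group
      rw [e1]; exact Y.mul_mem (Y.inv_mem hc) this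
    · exact Subgroup.mul_mem _ (Subgroup.inv_mem _ h0) k.1.1.2
    · exact Subgroup.mul_mem _ h0 y.2.2
    · simp only
      rw [map_mul, map_mul, map_mul, hh]
      have e1 : (a * h * c * y.1)⁻¹ * (a * (σ a)⁻¹) * (σ a * h * σ c * σ y.1) =
        (c * y.1)⁻¹ * (σ c * σ y.1) := by group
      rw [e1]
      exact Y.mul_mem (Y.inv_mem (Y.mul_mem hc y.2.1)) (Y.mul_mem ((hY _).1 hc) ((hY _).1 y.2.1))
    · simp only [R]
      have e1 : h⁻¹ * a⁻¹ * (a * h * c * y.1) = c * y.1 := by group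
      rw [e1]; exact Y.mul_mem hc y.2.1
    · intro h; ext; simp only; group
    · intro y; ext; simp only; group)
  rw [← h1, ← h2]
  exact Nat.card_congr ⟨fun p => ⟨(p.1.2, p.1.1), p.2⟩, fun p => ⟨(p.1.2, p.1.1), p.2⟩,
    fun _ => rfl, fun _ => rfl⟩

end Cfsg.Agent.S2669
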