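import Cfsg.Statements.S2677
import Cfsg.Agent.H28.ClField
import Cfsg.Agent.H12.SBridge

set_option autoImplicit false
open Cfsg

namespace Cfsg.Agent.S2677

open H28 H12 Matrix

theorem cast_guOrd {q : ℕ} (hq : 0 < q) (n : ℕ) : (guOrd q n : ℤ) =
    (q : ℤ) ^ (n * (n - 1) / 2) * ∏ i : Fin n, ((q : ℤ) ^ ((i : ℕ) + 1) - (-1) ^ ((i : ℕ) + 1)) := by
  rw [guOrd, Finset.prod_range]
  push_cast
  congr 1
  refine Finset.prod_congr rfl fun i _ => ?_
  split_ifs with h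
  · rw [h.add_one.neg_one_pow]; ring
  · rw [(Nat.not_even_iff_odd.1 h).add_one.neg_one_pow, Nat.cast_sub (Nat.one_le_pow _ _ hq)]
    simp

theorem scalar_mem_GU {F : Type*} [Field F] [Fintype F] {q n : ℕ} (hF : Fintype.card F = q ^ 2)
    (hn : 1 ≤ n) (u : Fˣ) : GeneralLinearGroup.scalar (Fin n) u ∈ GU n F q ↔ u ^ (q + 1) = 1 := by
  obtain ⟨θ, hθ, -⟩ := exists_frob_two hF
  have : NeZero n := ⟨by omega⟩
  rw [mem_GU_iff_uniT hθ, uniT_scalar, scalar_injective.eq_iff, inv_eq_iff_mul_eq_one, pow_succ,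
    show unitsAut F θ u = u ^ q from Units.ext (by simp [coe_unitsAut, hθ])]

/-- Centraliser of a field automorphism of odd prime order in PGU_n(q): let q = q₀^r with r an odd prime, K the field with q² elements and σ a field automorphism of K of order r (fixed field of order q₀²). The elements g of GU_n(q) whose entrywise image under σ is a scalar multiple of g — those whose coset modulo the q + 1 unitary scalars is fixed by σ — number (q + 1)/(q₀ + 1) · |GU_n(q₀)|; equivalently the centraliser in PGU_n(q) of the induced automorphism has the order of PGU_n(q₀). -/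
theorem result {K : Type*} [Field K] [Fintype K] {q₀ q r n : ℕ} (hr : r.Prime) (hr2 : r ≠ 2) (hn : 1 ≤ n) (hq : q = q₀ ^ r) (hK : Fintype.card K = q ^ 2) (σ : K ≃+* K) (hσ : orderOf σ = r) : (Nat.card {g : ↥(Cfsg.GU n K q) // ∃ c : K, c ≠ 0 ∧ ((g : GL (Fin n) K) : Matrix (Fin n) (Fin n) K).map σ = c • ((g : GL (Fin n) K) : Matrix (Fin n) (Fin n) K)} : ℤ) = ((q + 1) / (q₀ + 1) : ℕ) * ((q₀ : ℤ) ^ (n * (n - 1) / 2) * ∏ i : Fin n, ((q₀ : ℤ) ^ ((i : ℕ) + 1) - (-1) ^ ((i : ℕ) + 1))) := by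
  classical
  have hro : Odd r := hr.odd_of_ne_two hr2
  have : NeZero n := ⟨by omega⟩
  have h0 : Fintype.card (H28.fixF σ) = q₀ ^ 2 := by
    have := card_fixF_pow σ
    rw [hσ, Nat.card_eq_fintype_card, Nat.card_eq_fintype_card, hK, hq, ← pow_mul, mul_comm, pow_mul] at this
    exact Nat.pow_left_injective hr.ne_zero this
  let j : H28.fixF σ →+* K := (H28.fixF σ).subtype
  have hj : ∀ x, x ∈ Set.range j ↔ σ x = x := fun x => by simp [j, H28.mem_fixF]
  have h : ∀ a : H28.fixF σ, a ^ q = a ^ q₀ := fun a => by rw [hq, pow_pow_odd h0 hro]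
  obtain ⟨θ, hθ, h1⟩ := exists_frob_two hK
  obtain ⟨τ, hτ, h2⟩ := exists_frob_two h0
  have h3 : ∀ a, θ (j a) = j (τ a) := fun a => by rw [hθ, hτ, ← map_pow, h]
  let μ : (powMonoidHom (q + 1) : Kˣ →* Kˣ).ker × GU n (H28.fixF σ) q₀ →* GL (Fin n) K :=
    ((GeneralLinearGroup.scalar (Fin n)).comp (Subgroup.subtype _)).noncommCoprod
      ((GeneralLinearGroup.map j).comp (Subgroup.subtype _)) fun z k =>
        (Subgroup.mem_center_iff.1 (scalar_mem_center z.1) _).symm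
  have hμ : ∀ z k, μ (z, k) = GeneralLinearGroup.scalar (Fin n) z.1 * GeneralLinearGroup.map j k.1 :=
    fun _ _ => rfl
  have hm : ∀ k : GU n (H28.fixF σ) q₀, GeneralLinearGroup.map j k.1 ∈ GU n K q := fun k =>
    (mem_GU_iff_uniT hθ).2 ((uniT_map h3 _).trans (congrArg _ ((mem_GU_iff_uniT hτ).1 k.2)))
  have h4 : Nat.card {g : ↥(Cfsg.GU n K q) // ∃ c : K, c ≠ 0 ∧
      ((g : GL (Fin n) K) : Matrix (Fin n) (Fin n) K).map σ =
        c • ((g : GL (Fin n) K) : Matrix (Fin n) (Fin n) K)} = Nat.card μ.range := by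
    refine Nat.card_congr ((Equiv.subtypeSubtypeEquivSubtypeInter _ fun g : GL (Fin n) K => ∃ c : K, c ≠ 0 ∧
      (g : Matrix (Fin n) (Fin n) K).map σ = c • (g : Matrix (Fin n) (Fin n) K)).trans
        (Equiv.subtypeEquivRight fun g => ⟨?_, ?_⟩))
    · rintro ⟨hg, c, hc, e⟩
      obtain ⟨z, k, e⟩ := exists_map_of_πGL_eq hj (g := g) (πGL_eq_iff.2 ⟨Units.mk0 c hc,
        Units.ext (by rw [coe_scalar_mul]; exact e)⟩).symm
      have h4 : πGL _ K (GeneralLinearGroup.map j k) = πGL _ K g := by rw [e]; simp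
      obtain ⟨u, hu⟩ := πGL_eq_iff.1 ((πGL_map_eq_iff j (g := k) (h := uniT _ τ k)).1 (by
        rw [← uniT_map h3, πGL_aut, h4, ← πGL_aut, (mem_GU_iff_uniT hθ).1 hg]))
      obtain ⟨w, k, hk, rfl⟩ := exists_uniT_fixed h2 hu
      rw [map_mul, GeneralLinearGroup.map_scalar, ← mul_assoc, ← map_mul] at e
      refine ⟨(⟨_, (scalar_mem_GU hK hn _).1 ?_⟩, ⟨k, (mem_GU_iff_uniT hτ).2 hk⟩), e.symm⟩
      exact (Subgroup.mul_mem_cancel_right _ (hm ⟨k, (mem_GU_iff_uniT hτ).2 hk⟩)).1 (e ▸ hg)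
    · rintro ⟨⟨z, k⟩, rfl⟩
      refine ⟨Subgroup.mul_mem _ ((scalar_mem_GU hK hn _).2 z.2) (hm k), σ z.1 * (z.1⁻¹ : Kˣ),
        by simp, ?_⟩
      rw [hμ, coe_scalar_mul]
      ext a b
      have : σ ((k.1 : Matrix (Fin n) (Fin n) (H28.fixF σ)) a b) = (k.1 : Matrix (Fin n) (Fin n) (H28.fixF σ)) a b :=
        H28.mem_fixF.1 (SetLike.coe_mem _)
      simp [j, mul_assoc, this]
  have h5 : Nat.card μ.ker = q₀ + 1 := by
    rw [← card_normOne h0]
    symm
    refine Nat.card_eq_of_bijective (fun w => ⟨(⟨(Units.map (j : H28.fixF σ →* K) w.1)⁻¹, ?_⟩,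
      ⟨GeneralLinearGroup.scalar _ w.1, (scalar_mem_GU h0 hn _).2 w.2⟩), ?_⟩) ⟨fun w w' e => ?_, ?_⟩
    · have := congrArg Units.val (MonoidHom.mem_ker.1 w.2)
      rw [powMonoidHom_apply, Units.val_pow_eq_pow_val, pow_succ, ← h, ← pow_succ] at this
      rw [MonoidHom.mem_ker, powMonoidHom_apply, inv_pow, ← map_pow, inv_eq_one,
        show w.1 ^ (q + 1) = 1 from Units.ext this, map_one]
    · rw [MonoidHom.mem_ker, hμ, GeneralLinearGroup.map_scalar, ← map_mul]; simp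
    · exact Subtype.ext (scalar_injective (congrArg (fun x : μ.ker => x.1.2.1) e))
    · rintro ⟨⟨z, k⟩, e⟩
      rw [MonoidHom.mem_ker, hμ, mul_eq_one_iff_inv_eq, ← map_inv] at e
      obtain ⟨w, hw⟩ : k.1 ∈ (GeneralLinearGroup.scalar (Fin n)).range := by
        rw [← GeneralLinearGroup.center_eq_range_scalar, ← map_mem_center_iff j, ← e]
        exact scalar_mem_center _
      refine ⟨⟨w, (scalar_mem_GU h0 hn _).1 (hw ▸ k.2)⟩, Subtype.ext (Prod.ext (Subtype.ext ?_)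
        (Subtype.ext hw))⟩
      rw [← hw, GeneralLinearGroup.map_scalar] at e
      exact inv_eq_iff_eq_inv.2 (scalar_injective e).symm
  have h6 := card_eq_card_range_mul_card_ker μ
  rw [Nat.card_prod, card_normOne hK, card_GU h0, h5] at h6
  obtain ⟨c, hc⟩ : q₀ + 1 ∣ q + 1 := by simpa [hq] using hro.nat_add_dvd_pow_add_pow q₀ 1
  rw [h4, ← cast_guOrd (by have := two_le_of_card_eq_sq h0; omega)]
  generalize Nat.card μ.range = N at h6
  rw [hc, Nat.mul_div_cancel_left _ q₀.succ_pos]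
  rw [hc, mul_assoc, mul_comm] at h6
  exact_mod_cast (Nat.eq_of_mul_eq_mul_right q₀.succ_pos h6).symm

end Cfsg.Agent.S2677
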