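import Cfsg.Statements.S2682
import Cfsg.Agent.H13.Inv2Sp

set_option autoImplicit false
open Cfsg

namespace Cfsg.Agent.S2682

/-- Centraliser order of an involution t of Sp_2m(q), q even, with s = rank(t − 1) even and f(v, tv) ≠ 0 for some v, f the symplectic form (type c_s): |C(t)| = q^(2ms − (3s² − 3s)/2 − 1) · |Sp_(s−2)(q)| · |Sp_(2m−2s)(q)|. -/
theorem result {F : Type*} [Field F] [Fintype F] [CharP F 2] {q : ℕ} (hF : Fintype.card F = q) {m s : ℕ} (t : Matrix.symplecticGroup (Fin m) F) (ht : t ^ 2 = 1) (hs : ((t : Matrix (Fin m ⊕ Fin m) (Fin m ⊕ Fin m) F) - 1).rank = s) (heven : Even s) (hna : ∃ v : Fin m ⊕ Fin m → F, Cfsg.sympForm m F v ((t : Matrix (Fin m ⊕ Fin m) (Fin m ⊕ Fin m) F).mulVec v) ≠ 0) : Nat.card ↥(Subgroup.centralizer ({t} : Set ↥(Matrix.symplecticGroup (Fin m) F))) = q ^ (2 * m * s - (3 * s ^ 2 - 3 * s) / 2 - 1) * ((q : ℕ) ^ (((s - 2) / 2) ^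 2) * ∏ i : Fin ((s - 2) / 2), (q ^ (2 * ((i : ℕ) + 1)) - 1)) * ((q : ℕ) ^ ((m - s) ^ 2) * ∏ i : Fin (m - s), (q ^ (2 * ((i : ℕ) + 1)) - 1)) := by
  have hna' : ¬ H13.Alt (H12.spB (Fin m) F) (H12.spEquiv _ F t) := by
    rw [H13.alt_sp]; exact not_forall.2 hna
  have h0 : s ≠ 0 := by
    rintro rfl
    rw [← H13.rk1_sp, H13.rk1_eq_zero_iff] at hs
    exact hna' fun v => by rw [hs, H13.sub1_eq_zero_iff.2 rfl]; simp
  obtain ⟨k, rfl⟩ : ∃ k, s = 2 * k + 2 := by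
    obtain ⟨k, rfl⟩ := heven
    exact ⟨k - 1, by omega⟩
  obtain ⟨h1, h2⟩ := H13.card_sp_fix ht hs
  rw [← H13.card_centralizer_equiv (H12.spEquiv (Fin m) F),
    (H13.isIsom_UG _).card_centralizer_nonalt H12.sd_spB.wittData (H13.sq_sp ht)
      hna' (k := k) ((H13.rk1_sp t).trans hs), h2, Nat.card_eq_fintype_card, hF,
    show (2 * k + 2 - 2) / 2 = k by omega, ← H13.spOrd_eq, ← H13.spOrd_eq]
  have h3 : 2 * m * (2 * k + 2) - (3 * (2 * k + 2) ^ 2 - 3 * (2 * k + 2)) / 2 - 1 =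
      2 * k + 1 + (2 * m * (2 * k + 2) - (3 * (2 * k + 2) ^ 2 - (2 * k + 2)) / 2) := by
    obtain ⟨r, rfl⟩ : ∃ r, m = 2 * k + 2 + r := ⟨m - (2 * k + 2), by omega⟩
    have h4 : (2 * k + 2) ^ 2 = 4 * (k * k) + 8 * k + 4 := by ring
    have h5 : 2 * (2 * k + 2 + r) * (2 * k + 2) = 8 * (k * k) + 16 * k + 8 + 4 * (r * k) + 4 * r := by
      ring
    omega
  rw [h3]; ring

end Cfsg.Agent.S2682
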