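import Cfsg.Statements.S2683
import Cfsg.Agent.H13.Inv2O

set_option autoImplicit false
open Cfsg

namespace Cfsg.Agent.S2683

/-- For the hyperbolic form Σ x_j y_j on F^(2m) over a finite field with q elements, q even (excluding m = 2 over the field of two elements), and an involution x of the orthogonal group with s = rank(x − 1) odd (type b_s; such x lie outside Ω): the elements of Ω (the commutator subgroup of the orthogonal group) commuting with x number q^(2m(s−1) − (3s² − 3s)/2) · |Sp_(s−1)(q)| · |Sp_(2m−2s)(q)|, where |Sp_2k(q)| = q^(k²) Π_(i=1)^k (q^(2i) − 1). -/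
theorem result {F : Type*} [Field F] [Fintype F] [CharP F 2] {q : ℕ} (hF : Fintype.card F = q) {m s : ℕ} (h : Fintype.card F ≠ 2 ∨ m ≠ 2) (x : ↥(Cfsg.isometryGroup F (Cfsg.quadFormPlus m F))) (hx : x ^ 2 = 1) (hs : (((x : Matrix.GeneralLinearGroup (Fin m ⊕ Fin m) F) : Matrix (Fin m ⊕ Fin m) (Fin m ⊕ Fin m) F) - 1).rank = s) (hodd : Odd s) : Nat.card {g : ↥(Cfsg.Omega F (Cfsg.quadFormPlus m F)) // (g : ↥(Cfsg.isometryGroup F (Cfsg.quadFormPlus m F))) * x = x * (g : ↥(Cfsg.isometryGroup F (Cfsg.quadFormPlus m F)))} = q ^ (2 * m * (s - 1) - (3 * s ^ 2 - 3 * s) / 2) * ((q : ℕ) ^ (((s - 1) / 2) ^ 2) * ∏ i : Fin ((s - 1) / 2), (q ^ (2 * ((i : ℕ) + 1)) - 1)) * ((q : ℕ) ^ ((m - s) ^ 2) * ∏ i : Fin (m - s), (q ^ (2 * ((i : ℕ) + 1)) - 1)) := by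
  have hG : H13.Good (H13.QPlus m F) :=
    H13.good_of_card (h.imp id fun h => by rw [H13.finrank_sp']; omega)
  have h1 := H13.sq_toOG (Q := H13.QPlus m F) hx
  have h3 := (H13.rk1_toOG (Q := H13.QPlus m F) x).trans hs
  have h4 := H13.nd_QPlus.two_mul_rk1_le h1
  rw [H13.finrank_sp', h3] at h4
  obtain ⟨k, rfl⟩ := hodd
  obtain ⟨r, rfl⟩ : ∃ r, m = 2 * k + 1 + r := ⟨m - (2 * k + 1), by omega⟩
  refine (H13.card_Omega_comm (Q := H13.QPlus _ F) x).trans ?_
  rw [H13.nd_QPlus.card_Om_odd hG h1 h3 (r := r) (by rw [H13.finrank_sp']; ring),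
    Nat.card_eq_fintype_card, hF, show (2 * k + 1 - 1) / 2 = k by omega, Nat.add_sub_cancel_left,
    ← H13.spOrd_eq, ← H13.spOrd_eq, Nat.add_sub_cancel]
  congr 3
  have h5 : (2 * k + 1) ^ 2 = 4 * (k * k) + 4 * k + 1 := by ring
  have h6 : 2 * (2 * k + 1 + r) * (2 * k) = 8 * (k * k) + 4 * k + 4 * (k * r) := by ring
  have h7 : 2 * k * (2 * r) + (2 * k + 1) * k = 2 * (k * k) + k + 4 * (k * r) := by ring
  omega

end Cfsg.Agent.S2683
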