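import Cfsg.Statements.S2684
import Cfsg.Agent.H13.Inv2O

set_option autoImplicit false
open Cfsg

namespace Cfsg.Agent.S2684

/-- For the hyperbolic form Q = Σ x_j y_j on F^(2m) over a finite field with q elements, q even (excluding m = 2 over the field of two elements), and an involution x ≠ 1 of the orthogonal group with s = rank(x − 1) even and Q vanishing on the image of x − 1 (equivalently f(v, xv) = 0 for all v, where f(u, w) = Q(u + w) − Q(u) − Q(w) is the bilinear form of Q; type a_s, which lies in Ω): its centraliser in Ω (the commutator subgroup of the orthogonal group) has order q^(2ms − (3s² + s)/2) · |Sp_s(q)| · |Ω⁺_(2m−2s)(q)|, where |Ω⁺_2k(q)| = q^(k(k−1)) (q^k − 1) Π_(i=1)^(k−1) (q^(2i) − 1) for k ≥ 1 and the last factor is 1 when s = m. -/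
theorem result {F : Type*} [Field F] [Fintype F] [CharP F 2] {q : ℕ} (hF : Fintype.card F = q) {m s : ℕ} (h : Fintype.card F ≠ 2 ∨ m ≠ 2) (x : ↥(Cfsg.isometryGroup F (Cfsg.quadFormPlus m F))) (hx : x ^ 2 = 1) (hx1 : x ≠ 1) (hs : (((x : Matrix.GeneralLinearGroup (Fin m ⊕ Fin m) F) : Matrix (Fin m ⊕ Fin m) (Fin m ⊕ Fin m) F) - 1).rank = s) (heven : Even s) (halt : ∀ v : Fin m ⊕ Fin m → F, Cfsg.quadFormPlus m F ((((x : Matrix.GeneralLinearGroup (Fin m ⊕ Fin m) F) : Matrix (Fin m ⊕ Fin m) (Fin m ⊕ Fin m) F) - 1).mulVec v) = 0) : Nat.card {g : ↥(Cfsg.Omega F (Cfsg.quadFormPlus m F)) // (g : ↥(Cfsg.isometryGroup F (Cfsg.quadFormPlus m F))) * x = x * (g : ↥(Cfsg.isometryGroup F (Cfsg.quadFormPlus m F)))} = q ^ (2 * m * s - (3 * s ^ 2 + s) / 2) * ((q : ℕ) ^ ((s / 2) ^ 2) * ∏ i : Fin (s / 2), (q ^ (2 * ((i : ℕ) + 1)) - 1)) * (if s = m then 1 else q ^ ((m - s) * (m - s - 1)) * (q ^ (m - s) - 1) * ∏ i : Fin (m - s - 1), (q ^ (2 * ((i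 : ℕ) + 1)) - 1)) := by
  have hG : H13.Good (H13.QPlus m F) :=
    H13.good_of_card (h.imp id fun h => by rw [H13.finrank_sp']; omega)
  have h1 := H13.sq_toOG (Q := H13.QPlus m F) hx
  have h3 := (H13.rk1_toOG (Q := H13.QPlus m F) x).trans hs
  have h4 := H13.nd_QPlus.two_mul_rk1_le h1
  rw [H13.finrank_sp', h3] at h4
  obtain ⟨k, rfl⟩ := heven.two_dvd
  obtain ⟨r, rfl⟩ : ∃ r, m = 2 * k + r := ⟨m - (2 * k), by omega⟩
  refine (H13.card_Omega_comm (Q := H13.QPlus _ F) x).trans ?_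
  rw [H13.nd_QPlus.card_Om_alt hG (H13.isPlus_QPlus _) h1 ((H13.altO_toOG _).2 halt) h3 (r := r)
      (by rw [H13.finrank_sp']; ring),
    Nat.card_eq_fintype_card, hF, show 2 * k / 2 = k by omega, Nat.add_sub_cancel_left,
    ← H13.spOrd_eq, Finset.prod_range]
  congr 2
  · congr 1
    have h5 := H13.two_mul_tri (2 * k)
    have h6 : 2 * (2 * k + r) * (2 * k) = 2 * (2 * k) ^ 2 + 2 * k * (2 * r) := by ring
    omega
  · simp

end Cfsg.Agent.S2684
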