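import Cfsg.Statements.S2685
import Cfsg.Agent.H13.Inv2O

set_option autoImplicit false
open Cfsg

namespace Cfsg.Agent.S2685

/-- For the hyperbolic form Q = Σ x_j y_j on F^(2m) over a finite field with q elements, q even (excluding m = 2 over the field of two elements), and an involution x of the orthogonal group with s = rank(x − 1) even and Q not vanishing on the image of x − 1 (f(v, xv) ≠ 0 for some v, where f(u, w) = Q(u + w) − Q(u) − Q(w) is the bilinear form of Q; type c_s, which lies in Ω): its centraliser in Ω (the commutator subgroup of the orthogonal group) has order q^(2m(s−1) − (3s² − 5s)/2 − 1) · |Sp_(s−2)(q)| · |Sp_(2m−2s)(q)|. -/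
theorem result {F : Type*} [Field F] [Fintype F] [CharP F 2] {q : ℕ} (hF : Fintype.card F = q) {m s : ℕ} (h : Fintype.card F ≠ 2 ∨ m ≠ 2) (x : ↥(Cfsg.isometryGroup F (Cfsg.quadFormPlus m F))) (hx : x ^ 2 = 1) (hs : (((x : Matrix.GeneralLinearGroup (Fin m ⊕ Fin m) F) : Matrix (Fin m ⊕ Fin m) (Fin m ⊕ Fin m) F) - 1).rank = s) (heven : Even s) (hna : ∃ v : Fin m ⊕ Fin m → F, Cfsg.quadFormPlus m F ((((x : Matrix.GeneralLinearGroup (Fin m ⊕ Fin m) F) : Matrix (Fin m ⊕ Fin m) (Fin m ⊕ Fin m) F) - 1).mulVec v) ≠ 0) : Nat.card {g : ↥(Cfsg.Omega F (Cfsg.quadFormPlus m F)) // (g : ↥(Cfsg.isometryGroup F (Cfsg.quadFormPlus m F))) * x = x * (g : ↥(Cfsg.isometryGroup F (Cfsg.quadFormPlus m F)))} = q ^ (2 * m * (s - 1) - (3 * s ^ 2 - 5 * s) / 2 - 1) * ((q : ℕ) ^ (((s - 2) / 2) ^ 2) * ∏ i : Fin ((s - 2) / 2), (q ^ (2 * ((i : ℕ) + 1)) - 1)) * ((q : ℕ) ^ ((m - s) ^ 2) * ∏ i : Fin (m - s), (q ^ (2 * ((i : ℕ) + 1)) - 1))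 := by
  have hG : H13.Good (H13.QPlus m F) :=
    H13.good_of_card (h.imp id fun h => by rw [H13.finrank_sp']; omega)
  have h1 := H13.sq_toOG (Q := H13.QPlus m F) hx
  have h3 := (H13.rk1_toOG (Q := H13.QPlus m F) x).trans hs
  have h4 := H13.nd_QPlus.two_mul_rk1_le h1
  rw [H13.finrank_sp', h3] at h4
  have ha : ¬ H13.AltO (H13.toOG (H13.QPlus m F) x) := fun h' =>
    not_forall.2 hna ((H13.altO_toOG _).1 h')
  have h0 : s ≠ 0 := by
    rintro rfl
    rw [H13.rk1_eq_zero_iff] at h3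
    exact ha fun v => by rw [h3, H13.sub1_eq_zero_iff.2 rfl]; simp
  obtain ⟨k, rfl⟩ : ∃ k, s = 2 * k + 2 := by
    obtain ⟨k, rfl⟩ := heven
    exact ⟨k - 1, by omega⟩
  obtain ⟨r, rfl⟩ : ∃ r, m = 2 * k + 2 + r := ⟨m - (2 * k + 2), by omega⟩
  refine (H13.card_Omega_comm (Q := H13.QPlus _ F) x).trans ?_
  rw [H13.nd_QPlus.card_Om_nonalt hG h1 ha h3 (r := r) (by rw [H13.finrank_sp']; ring),
    Nat.card_eq_fintype_card, hF, show (2 * k + 2 - 2) / 2 = k by omega, Nat.add_sub_cancel_left,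
    ← H13.spOrd_eq, ← H13.spOrd_eq, show 2 * k + 2 - 1 = 2 * k + 1 from rfl]
  congr 3
  have h5 : (2 * k + 2) ^ 2 = 4 * (k * k) + 8 * k + 4 := by ring
  have h6 : 2 * (2 * k + 2 + r) * (2 * k + 1) = 8 * (k * k) + 12 * k + 4 + 4 * (k * r) + 2 * r := by
    ring
  have h7 : (2 * k + 1) * (2 * r) + (k + 2) * (2 * k + 1) =
    2 * (k * k) + 5 * k + 2 + 4 * (k * r) + 2 * r := by ring
  omega

end Cfsg.Agent.S2685
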