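import Cfsg.Statements.S2697
import Cfsg.Agent.H28.PSLField

set_option autoImplicit false
open Cfsg

namespace Cfsg.Agent.S2697



/-- Let T = PSL_n(F) be simple over a finite field (n ≥ 2; |F| ≥ 4 when n = 2) and let x be a field automorphism or a graph-field automorphism of T of prime order r. Then an element y of the coset Inndiag(T)·x (that is, y = δ x with δ in the inner-diagonal group, the image of PGL_n(F)) has order r if and only if y is conjugate to x by an element of Inndiag(T). -/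
theorem result {F : Type*} [Field F] [Fintype F] {p f : ℕ} [Fact p.Prime] (hF : Fintype.card F = p ^ f) (hf : 1 ≤ f) {n : ℕ} (hn : 2 ≤ n) (hs : n = 2 → 4 ≤ Fintype.card F) (x δ : MulAut (Matrix.ProjectiveSpecialLinearGroup (Fin n) F)) (hx : Cfsg.IsFieldAutClassPSL x ∨ Cfsg.IsGraphFieldAutClassPSL x) {r : ℕ} (hr : r.Prime) (hxr : orderOf x = r) (hδ : δ ∈ Cfsg.inndiagPSL n F) :
    orderOf (δ * x) = r ↔ Cfsg.IsConjUnder (Cfsg.inndiagPSL n F) x (δ * x) := by
  have : Nontrivial (Fin n) := Fin.nontrivial_iff_two_le.2 hn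
  have := H28.normal_range_dPSL (F := F) hn
  rw [H28.inndiagPSL_eq] at hδ ⊢
  rcases hx with ⟨α, σ, hσ, h⟩ | ⟨h3, α, φ, γ, σ, hσ, h1, h2, h⟩
  · rw [H28.isStdFieldAutPSL_iff] at h
    refine H28.orderOf_iff_isConjUnder (α := α) hxr hδ fun d hd e => ?_
    rw [← H28.orderOf_conj' α, h, orderOf_injective _ H28.fPSL_injective] at hxr
    rw [h] at e ⊢
    exact H28.lang_fPSL σ hd (hxr ▸ e)
  · rw [H28.isStdFieldAutPSL_iff.1 h1, H28.isInverseTransposeAutPSL_iff.1 h2] at h
    refine H28.orderOf_iff_isConjUnder (α := α) hxr hδ fun d hd e => ?_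
    rw [← H28.orderOf_conj' α, h] at hxr
    obtain ⟨rfl, h4⟩ := H28.orderOf_fi h3 hσ hr (hxr ▸ pow_orderOf_eq_one _)
    rw [h] at e ⊢
    exact H28.lang_fiPSL h4 hd e

end Cfsg.Agent.S2697
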