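import Cfsg.Statements.S2698
import Cfsg.Agent.H28.PSLField

set_option autoImplicit false
open Cfsg

namespace Cfsg.Agent.S2698



/-- Let T = PSL_n(F) be simple over the field F with p^f elements (n ≥ 2; p^f ≥ 4 when n = 2), G = Inndiag(T) the image of PGL_n(F) in Aut(T), and x a field automorphism of T of prime order r. Then r divides f; the centralizer C_G(x) is isomorphic to PGL_n(F₀) for the subfield size |F₀| = p^(f/r); and the G-class of x is the union of exactly gcd(n, (p^f − 1)/(p^(f/r) − 1)) classes under conjugation by T (the inner automorphism group). -/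
theorem result {F : Type*} [Field F] [Fintype F] {p f : ℕ} [Fact p.Prime] (hF : Fintype.card F = p ^ f) (hf : 1 ≤ f) {n : ℕ} (hn : 2 ≤ n) (hs : n = 2 → 4 ≤ Fintype.card F) (x : MulAut (Matrix.ProjectiveSpecialLinearGroup (Fin n) F)) (hx : Cfsg.IsFieldAutClassPSL x) {r : ℕ} (hr : r.Prime) (hxr : orderOf x = r) (F₀ : Type*) [Field F₀] [Fintype F₀] (hF₀ : Fintype.card F₀ = p ^ (f / r)) :
    r ∣ f ∧ Nonempty (↥(Cfsg.inndiagPSL n F ⊓ Subgroup.centralizer {x}) ≃* Matrix.ProjGenLinGroup (Fin n) F₀) ∧ Cfsg.splitClassCount (Cfsg.inndiagPSL n F) (Cfsg.Inn (Matrix.ProjectiveSpecialLinearGroup (Fin n) F)) x = Nat.gcd n ((p ^ f - 1) / (p ^ (f / r) - 1)) := by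
  have : Nontrivial (Fin n) := Fin.nontrivial_iff_two_le.2 hn
  have := H28.normal_range_dPSL (F := F) hn
  rw [H28.inndiagPSL_eq]
  obtain ⟨α, σ, hσ, h⟩ := hx
  rw [H28.isStdFieldAutPSL_iff] at h
  rw [← H28.orderOf_conj' α, h, orderOf_injective _ H28.fPSL_injective] at hxr
  obtain ⟨h1, h2⟩ := H28.card_fixF hF σ
  rw [hxr] at h1 h2
  obtain ⟨j, hj⟩ := H28.exists_ringHom_range_fixF σ F₀ (by rw [h2, Nat.card_eq_fintype_card, hF₀])
  have hc := H28.comap_centralizer_fPSL (ι := Fin n) j hj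
  refine ⟨h1, ?_, ?_⟩
  · obtain ⟨e⟩ := H28.nonempty_centralizer_equiv_PSL _ _ (Subgroup.center _) hc
      fun e => H28.map_mem_center_iff j
    rw [← h] at e
    exact ⟨(H28.infCentralizerConj _ α x).trans e⟩
  · obtain ⟨a, b⟩ := H28.index_range_units_map j
    rw [← H28.splitClassCount_conj _ _ α, h, H28.splitClassCount_PSL _ _ hc,
      H28.map_det_range_map, ← b, Nat.gcd_comm _ (Fintype.card _), Nat.gcd_assoc,
      Nat.gcd_mul_right_left, a]
    simp [hF, hF₀]

end Cfsg.Agent.S2698
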