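import Cfsg.Statements.S2702
import Cfsg.Agent.H13.GA3

set_option autoImplicit false
open Cfsg

namespace Cfsg.Agent.S2702

/-- Let T = PSL_n(F) over the field with q = p^f elements, n ≥ 3, G = Inndiag(T) the image of PGL_n(F), and γ an involutory graph automorphism of T. The G-class of γ is the union of exactly c T-classes, where: if n is even and q is odd, c = gcd(n/2, q − 1) when C_G(γ) is isomorphic to the projective conformal symplectic group PGSp_n(F) (symplectic type) and c = gcd(n, q − 1)/2 otherwise; and c = gcd(n, q − 1) when n is odd or q is even. -/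
theorem result {F : Type*} [Field F] [Fintype F] {p f : ℕ} [Fact p.Prime] (hF : Fintype.card F = p ^ f) (hf : 1 ≤ f) {n : ℕ} (hn : 3 ≤ n) (γ : MulAut (Matrix.ProjectiveSpecialLinearGroup (Fin n) F)) (hγ : Cfsg.IsGraphAutClassPSL γ) (hγ2 : orderOf γ = 2) :
    ((Even n ∧ Odd p ∧ Nonempty (↥(Cfsg.inndiagPSL n F ⊓ Subgroup.centralizer {γ}) ≃* Cfsg.PGSp (n / 2) F)) → Cfsg.splitClassCount (Cfsg.inndiagPSL n F) (Cfsg.Inn (Matrix.ProjectiveSpecialLinearGroup (Fin n) F)) γ = Nat.gcd (n / 2) (p ^ f - 1)) ∧ ((Even n ∧ Odd p ∧ ¬ Nonempty (↥(Cfsg.inndiagPSL n F ⊓ Subgroup.centralizer {γ}) ≃* Cfsg.PGSp (n / 2) F)) → Cfsg.splitClassCount (Cfsg.inndiagPSL n F) (Cfsg.Inn (Matrix.ProjectiveSpecialLinearGroup (Fin n) F)) γ = Nat.gcd n (p ^ f - 1) / 2) ∧ (¬ (Even n ∧ Odd p) → Cfsg.splitClassCount (Cfsg.inndiagPSL n F) (Cfsg.Inn (Matrix.ProjectiveSpecialLinearGroup (Fin n) F)) γ = Nat.gcd n (p ^ f - 1)) :=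 by
  have : Nonempty (Fin n) := ⟨⟨0, by omega⟩⟩
  have hN : Nat.card Fˣ = p ^ f - 1 := by rw [Nat.card_units, Nat.card_eq_fintype_card, hF]
  have hP : Odd p ↔ (2 : F) ≠ 0 := by
    rw [← Nat.odd_pow_iff (e := f) (by omega), ← hF]
    exact ⟨H13.two_ne_zero_of_odd_card, H13.odd_card_of_two_ne_zero⟩
  have := (H13.gi_PSL hn).split (by simp; omega) hγ hγ2 hP (N := p ^ f - 1)
    (c := splitClassCount (inndiagPSL n F) (Inn _) γ) (fun M m h ha hm => ?_)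
    (fun M m h hs h2 hm => ?_) fun M h ho => ?_
  · rwa [Fintype.card_fin] at this
  · rw [H28.inndiagPSL_eq, h, H13.split_PSL, hm, ← hN]
    refine H13.cnt_S fun x => ⟨?_, ?_⟩
    · rintro ⟨g, hg, rfl⟩
      obtain ⟨c, hc⟩ := H13.mem_Sim.1 hg
      exact ⟨c, ha.det_of_sim hm hc⟩
    · rintro ⟨c, rfl⟩
      obtain ⟨g, hg, hd⟩ := ha.exists_mult hm c
      exact ⟨g, H13.mem_Sim.2 ⟨c, hg⟩, hd⟩
  · rw [H28.inndiagPSL_eq, h, H13.split_PSL, hm, ← hN]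
    refine H13.cnt_O (H13.orderOf_neg_one_units h2) fun x => ⟨?_, ?_⟩
    · rintro ⟨g, hg, rfl⟩
      obtain ⟨c, hc⟩ := H13.mem_Sim.1 hg
      exact ⟨c, by simpa using H13.det_of_sim_even hc hm⟩
    · rintro ⟨c, h⟩
      obtain ⟨⟨g, hg, hd⟩, g', hg', hd'⟩ := H13.exists_mult_det h2 hs hm c
      rcases h with rfl | rfl
      · exact ⟨g, H13.mem_Sim.2 ⟨c, hg⟩, hd⟩
      · exact ⟨g', H13.mem_Sim.2 ⟨c, hg'⟩, by simpa using hd'⟩
  · rw [H28.inndiagPSL_eq, h, H13.split_PSL, ← hN]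
    refine H13.cnt_T ?_
    rintro _ ⟨g, hg, rfl⟩
    obtain ⟨c, hc⟩ := H13.mem_Sim.1 hg
    exact (H13.exists_sq_of_sim hc ho).imp fun _ H => H.2

end Cfsg.Agent.S2702
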