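import Cfsg.Statements.S2704
import Cfsg.Agent.H28.PSLField

set_option autoImplicit false
open Cfsg

namespace Cfsg.Agent.S2704



/-- Let T = PSL_n(F) over the field F with p^f elements, n ≥ 3, and G = Inndiag(T) the image of PGL_n(F). If x is an involutory graph-field automorphism of T then f is even; x is G-conjugate to every other involutory graph-field automorphism; C_G(x) is isomorphic to the projective general unitary group PGU_n(q₀) with q₀² = p^f, realised over F itself through the Hermitian form Σ uᵢ vᵢ^{q₀}; and the G-class of x is the union of exactly gcd(n, q₀ − 1) T-classes. -/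
theorem result {F : Type*} [Field F] [Fintype F] {p f : ℕ} [Fact p.Prime] (hF : Fintype.card F = p ^ f) (hf : 1 ≤ f) {n : ℕ} (hn : 3 ≤ n) (x : MulAut (Matrix.ProjectiveSpecialLinearGroup (Fin n) F)) (hx : Cfsg.IsGraphFieldAutClassPSL x) (hx2 : orderOf x = 2) :
    Even f ∧ (∀ y : MulAut (Matrix.ProjectiveSpecialLinearGroup (Fin n) F), Cfsg.IsGraphFieldAutClassPSL y → orderOf y = 2 → Cfsg.IsConjUnder (Cfsg.inndiagPSL n F) x y) ∧ Nonempty (↥(Cfsg.inndiagPSL n F ⊓ Subgroup.centralizer {x}) ≃* Cfsg.PGU n F (p ^ (f / 2))) ∧ Cfsg.splitClassCount (Cfsg.inndiagPSL n F) (Cfsg.Inn (Matrix.ProjectiveSpecialLinearGroup (Fin n) F)) x = Nat.gcd n (p ^ (f / 2) - 1) := by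
  have : Nontrivial (Fin n) := Fin.nontrivial_iff_two_le.2 (by omega)
  have hN := H28.normal_range_dPSL (F := F) (n := n) (by omega)
  rw [H28.inndiagPSL_eq]
  have key : ∀ y : MulAut (Matrix.ProjectiveSpecialLinearGroup (Fin n) F),
      IsGraphFieldAutClassPSL y → orderOf y = 2 → ∃ α σ, orderOf σ = 2 ∧
        α * y * α⁻¹ = H28.fPSL (Fin n) F σ * H28.iPSL (Fin n) F := by
    rintro y ⟨h3, α, φ, γ, σ, hσ, h1, h2, h⟩ hy
    rw [H28.isStdFieldAutPSL_iff.1 h1, H28.isInverseTransposeAutPSL_iff.1 h2] at h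
    rw [← H28.orderOf_conj' α, h] at hy
    exact ⟨α, σ, (H28.orderOf_fi h3 hσ Nat.prime_two (hy ▸ pow_orderOf_eq_one _)).2, h⟩
  obtain ⟨α, σ, hσ, h⟩ := key x hx hx2
  have h1 := (H28.card_fixF hF σ).1
  rw [hσ] at h1
  have hq : Fintype.card F = (p ^ (f / 2)) ^ 2 := by rw [← pow_mul, Nat.div_mul_cancel h1, hF]
  have hc := H28.comap_centralizer_fiPSL (n := n) hσ (H28.apply_eq_pow_of_orderOf_two hq hσ)
  refine ⟨even_iff_two_dvd.2 h1, fun y hy hy2 => ?_, ?_, ?_⟩
  · obtain ⟨β, σ', hσ', h'⟩ := key y hy hy2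
    obtain ⟨τ, hτ, -⟩ := H28.exists_typ_PSL (F := F) hn
    rw [H28.eq_of_orderOf_two hσ' hσ, ← h] at h'
    have hcomm : ∀ a b : (F ≃+* F) × Multiplicative (ZMod 2), a * b = b * a := fun a b =>
      Prod.ext (H28.ringAut_comm _ _) (mul_comm _ _)
    have h2 : y * x⁻¹ ∈ (H28.dPSL (Fin n) F).range := by
      have := congrArg τ h'
      simp only [map_mul, map_inv] at this
      rw [hcomm (τ β), hcomm (τ α), mul_inv_cancel_right, mul_inv_cancel_right] at this
      rw [← hτ, MonoidHom.mem_ker, map_mul, map_inv, this, mul_inv_cancel]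
    have := (H28.orderOf_iff_isConjUnder (α := α) hx2 h2 fun d hd e => by
      rw [h] at e ⊢
      exact H28.lang_fiPSL hσ hd e).1 (by simpa using hy2)
    simpa using this
  · obtain ⟨e⟩ := H28.nonempty_centralizer_equiv_PSL _ (GU n F (p ^ (f / 2))).subtype
      ((Geo.scalars (Fin n) F).subgroupOf _) (by rw [hc, Subgroup.range_subtype])
      fun e => H28.mem_scalars_iff_center.symm
    rw [← h] at e
    exact ⟨(H28.infCentralizerConj _ α x).trans e⟩
  · have e : (p ^ (f / 2)) ^ 2 - 1 = (p ^ (f / 2) + 1) * (p ^ (f / 2) - 1) := by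
      simpa using Nat.sq_sub_sq (p ^ (f / 2)) 1
    rw [← H28.splitClassCount_conj _ _ α, h, H28.splitClassCount_PSL _ _ hc,
      H28.map_det_GU hq (by omega), H28.index_normOne hq, Nat.card_eq_fintype_card, hq, e,
      Nat.gcd_comm _ (Fintype.card _), Nat.gcd_assoc, Nat.gcd_mul_left_left, Fintype.card_fin]

end Cfsg.Agent.S2704
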