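import Cfsg.Statements.S2705
import Cfsg.Agent.H28.ClField

set_option autoImplicit false
open Cfsg

namespace Cfsg.Agent.S2705



/-- Let T = PSU_n(q) be simple (n ≥ 3, (n, q) ≠ (3, 2), q = p^f), realised over the field F with q² elements, G = Inndiag(T) the image of PGU_n(q) in Aut(T), and x a field automorphism of T (conjugate to a standard field automorphism of odd order) of odd prime order r. Then r divides f; C_G(x) is isomorphic to PGU_n(q₀) with q₀ = p^(f/r), realised over a field F₀ with q₀² elements; and the G-class of x is the union of exactly gcd(n, (q + 1)/(q₀ + 1)) T-classes. -/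
theorem result {F : Type*} [Field F] [Fintype F] {p f q : ℕ} [Fact p.Prime] (hq : q = p ^ f) (hf : 1 ≤ f) (hF : Fintype.card F = q ^ 2) {n : ℕ} (hn : 3 ≤ n) (hs : ¬ (n = 3 ∧ q = 2)) (x : MulAut (Cfsg.PSU n F q)) (hx : Cfsg.IsFieldAutClassPSU x) {r : ℕ} (hr : r.Prime) (hro : Odd r) (hxr : orderOf x = r) (F₀ : Type*) [Field F₀] [Fintype F₀] (hF₀ : Fintype.card F₀ = p ^ (2 * (f / r))) :
    r ∣ f ∧ Nonempty (↥(Cfsg.inndiagPSU n F q ⊓ Subgroup.centralizer {x}) ≃* Cfsg.PGU n F₀ (p ^ (f / r))) ∧ Cfsg.splitClassCount (Cfsg.inndiagPSU n F q) (Cfsg.Inn (Cfsg.PSU n F q)) x = Nat.gcd n ((q + 1) / (p ^ (f / r) + 1)) := by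
  have := (H28.triv_SU hF hn).normal (H28.surj_SU hF hn hs)
  rw [H28.inndiagPSU_eq hF]
  obtain ⟨α, φ, σ, hσ, -, rfl, h⟩ : ∃ α φ σ, σ ≠ RingEquiv.refl F ∧ Odd (orderOf σ) ∧
    φ = (H28.dataSU n hF).f σ ∧ α * x * α⁻¹ = φ := by
    simpa only [IsFieldAutClassPSU, H28.isFieldAutPSUOf_iff hF] using hx
  rw [← H28.orderOf_conj' α, h, orderOf_injective _ (H28.triv_SU hF hn).f_injective] at hxr
  obtain ⟨h1, h2⟩ := H28.card_fixF (p := p) (f := 2 * f) (by rw [hF, hq, ← pow_mul, mul_comm]) σ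
  rw [hxr] at h1 h2
  have h3 : r ∣ f := (Nat.coprime_two_right.2 hro).dvd_of_dvd_mul_left h1
  obtain ⟨j, hj⟩ := H28.exists_ringHom_range_fixF σ F₀
    (by rw [h2, Nat.card_eq_fintype_card, hF₀, Nat.mul_div_assoc _ h3])
  have hK : Fintype.card F₀ = (p ^ (f / r)) ^ 2 := by rw [hF₀, ← pow_mul, mul_comm]
  have h4 : ∀ a : F₀, a ^ q = a ^ p ^ (f / r) := fun a => by
    rw [← H28.pow_pow_odd hK hro, ← pow_mul, Nat.div_mul_cancel h3, hq]
  have hc := H28.comap_centralizer_SU hF hK hn h4 hj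
  refine ⟨h3, ?_, ?_⟩
  · obtain ⟨e⟩ := (H28.triv_SU hF hn).nonempty_centralizer_equiv _ _
      ((Geo.scalars _ F₀).subgroupOf _) hc
      fun e => (H28.map_mem_center_iff j).trans H28.mem_scalars_iff_center.symm
    rw [← h] at e
    exact ⟨(H28.infCentralizerConj _ α x).trans e⟩
  · have h5 := H28.index_map_range_mapGU hF hK (n := n) (by omega) j h4
    rw [← H28.splitClassCount_conj _ _ α, h, H28.MatData.splitClassCount_eq'' _
      (H28.detGU_surjective hF (by omega)) (H28.ker_detGU hF) _ _ hc, H28.index_map_ker_SU hF hn,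
      Nat.div_eq_of_eq_mul_left (by omega) h5.symm, Nat.gcd_assoc,
      Nat.gcd_eq_right (Dvd.intro _ h5)]

end Cfsg.Agent.S2705
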