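import Cfsg.Statements.S2709
import Cfsg.Agent.H13.GA4

set_option autoImplicit false
open Cfsg

namespace Cfsg.Agent.S2709

/-- Let T = PSU_n(q) be simple (n ≥ 3, (n,q) ≠ (3,2), q = p^f), realised over the field F with q² elements, G = Inndiag(T) the image of PGU_n(q), and γ an involutory graph automorphism of T. The G-class of γ is the union of exactly c T-classes, where: if n is even and q is odd, c = gcd(n/2, q + 1) when C_G(γ) is isomorphic to PGSp_n(F₀) for a field F₀ with q elements (symplectic type) and c = gcd(n, q + 1)/2 otherwise; and c = gcd(n, q + 1) when n is odd or q is even. -/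
theorem result {F : Type*} [Field F] [Fintype F] {p f q : ℕ} [Fact p.Prime] (hq : q = p ^ f) (hf : 1 ≤ f) (hF : Fintype.card F = q ^ 2) {n : ℕ} (hn : 3 ≤ n) (hs : ¬ (n = 3 ∧ q = 2)) (F₀ : Type*) [Field F₀] [Fintype F₀] (hF₀ : Fintype.card F₀ = q) (γ : MulAut (Cfsg.PSU n F q)) (hγ : Cfsg.IsGraphAutClassPSU γ) (hγ2 : orderOf γ = 2) :
    ((Even n ∧ Odd q ∧ Nonempty (↥(Cfsg.inndiagPSU n F q ⊓ Subgroup.centralizer {γ}) ≃* Cfsg.PGSp (n / 2) F₀)) → Cfsg.splitClassCount (Cfsg.inndiagPSU n F q) (Cfsg.Inn (Cfsg.PSU n F q)) γ = Nat.gcd (n / 2) (q + 1)) ∧ ((Even n ∧ Odd q ∧ ¬ Nonempty (↥(Cfsg.inndiagPSU n F q ⊓ Subgroup.centralizer {γ}) ≃* Cfsg.PGSp (n / 2) F₀)) → Cfsg.splitClassCount (Cfsg.inndiagPSU n F q) (Cfsg.Inn (Cfsg.PSU n F q)) γ = Nat.gcd n (q + 1) / 2) ∧ (¬ (Even n ∧ Odd q) → Cfsg.splitClassCount (Cfsg.inndiagPSU n F q) (Cfsg.Inn (Cfsg.PSU n F q)) γ = Nat.gcd n (q + 1)) := by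
  obtain ⟨θ, hθ, -⟩ := H28.exists_frob_two hF
  obtain ⟨j, hj⟩ := H13.exists_frob_emb hF F₀ hF₀ hθ
  have : Nonempty (Fin n) := ⟨⟨0, by omega⟩⟩
  have hN := H28.card_normOne hF
  have hP : Odd q ↔ (2 : F₀) ≠ 0 := by
    rw [← hF₀]
    exact ⟨H13.two_ne_zero_of_odd_card, H13.odd_card_of_two_ne_zero⟩
  have key : ∀ {w : Fˣ} {c : F₀ˣ}, w ^ (q + 1) * Units.map (j : F₀ →* F) c = 1 →
      w ^ 2 * Units.map (j : F₀ →* F) c ∈ (powMonoidHom (q + 1) : Fˣ →* Fˣ).ker := fun {w c} h => by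
    rw [MonoidHom.mem_ker, powMonoidHom_apply, mul_pow, H13.norm_mem hθ hj, ← pow_mul, mul_comm 2,
      pow_mul, ← mul_pow, h, one_pow]
  have := (H13.gi_PSU hF hn hθ hj).split (by simp; omega) hγ hγ2 hP
    (N := Nat.card (powMonoidHom (q + 1) : Fˣ →* Fˣ).ker)
    (c := splitClassCount (inndiagPSU n F q) (Inn _) γ) (fun M m h ha hm => ?_)
    (fun M m h hs h2 hm => ?_) fun M h ho => ?_
  · rwa [Fintype.card_fin, hN] at this
  · obtain ⟨D, h1, hD⟩ := H13.split_PSU hF hn hθ hj h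
    have hm' : n = 2 * m := by simpa using hm
    rw [h1]
    conv_lhs => rw [hm']
    refine H13.cnt_S fun x => (hD x).trans ⟨?_, ?_⟩
    · rintro ⟨y, c, w, hc, h3, h4⟩
      refine ⟨⟨_, key h3⟩, Subtype.ext ?_⟩
      rw [h4, ha.det_of_sim hm hc, hm', map_pow, pow_mul, ← mul_pow]; rfl
    · rintro ⟨u, rfl⟩
      obtain ⟨w, c, h3, h4⟩ := H13.exists_norm_mul hF hθ hj u
      obtain ⟨y, hy, hd⟩ := ha.exists_mult hm c
      refine ⟨y, c, w, hy, h3, ?_⟩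
      rw [hd, hm', map_pow, pow_mul, ← mul_pow, ← h4]; rfl
  · obtain ⟨D, h1, hD⟩ := H13.split_PSU hF hn hθ hj h
    have hm' : n = 2 * m := by simpa using hm
    have h2' : (2 : F) ≠ 0 := by
      rw [← map_ofNat j]; exact (map_ne_zero j).2 h2
    have hj1 : ∀ c : F₀ˣ, Units.map (j : F₀ →* F) (-c) = -Units.map (j : F₀ →* F) c := fun c =>
      Units.ext (by simp)
    rw [h1]
    conv_lhs => rw [hm']
    refine H13.cnt_O (s := ⟨-1, (hP.2 h2).add_one.neg_one_pow⟩)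
      ((Subgroup.orderOf_mk _ _).trans (H13.orderOf_neg_one_units h2'))
      fun x => (hD x).trans ⟨?_, ?_⟩
    · rintro ⟨y, c, w, hc, h3, h4⟩
      refine ⟨⟨_, key h3⟩, (H13.det_of_sim_even hc hm).imp (fun e => Subtype.ext ?_)
        fun e => Subtype.ext ?_⟩
      · rw [h4, e, hm', map_pow, pow_mul, ← mul_pow]; rfl
      · rw [h4, e, hm', hj1, map_pow, pow_mul, mul_neg, ← mul_pow, ← neg_one_mul]; rfl
    · rintro ⟨u, h⟩
      obtain ⟨w, c, h3, h4⟩ := H13.exists_norm_mul hF hθ hj u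
      obtain ⟨⟨y, hy, hd⟩, y', hy', hd'⟩ := H13.exists_mult_det h2 hs hm c
      rcases h with rfl | rfl
      · refine ⟨y, c, w, hy, h3, ?_⟩
        rw [hd, hm', map_pow, pow_mul, ← mul_pow, ← h4]; rfl
      · refine ⟨y', c, w, hy', h3, ?_⟩
        rw [hd', hm', hj1, map_pow, pow_mul, mul_neg, ← mul_pow, ← h4]
        exact neg_one_mul _
  · obtain ⟨D, h1, hD⟩ := H13.split_PSU hF hn hθ hj h
    rw [h1, Fintype.card_fin]
    refine H13.cnt_T fun x hx => ?_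
    obtain ⟨y, c, w, hc, h3, h4⟩ := (hD x).1 hx
    obtain ⟨a, rfl, ha⟩ := H13.exists_sq_of_sim hc ho
    refine ⟨⟨w * Units.map (j : F₀ →* F) a, ?_⟩, Subtype.ext ?_⟩
    · rw [MonoidHom.mem_ker, powMonoidHom_apply, mul_pow, H13.norm_mem hθ hj, ← map_pow, h3]
    · rw [h4, ha, Fintype.card_fin, map_pow, ← mul_pow]; rfl

end Cfsg.Agent.S2709
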