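import Cfsg.Statements.S2710
import Cfsg.Agent.H13.GA4

set_option autoImplicit false
open Cfsg

namespace Cfsg.Agent.S2710

/-- Let T = PSU_n(q) with n ≥ 4 divisible by 4 (n = 2m) and q odd, realised over the field F with q² elements, G = Inndiag(T) the image of PGU_n(q), and φ the standard field automorphism of T attached to the q-th power map of F (it induces inverse-transpose on the unitary matrices and is a graph automorphism). Its centralizer in G is isomorphic to the projective conformal orthogonal group of the plus-type form Σ xᵢ yᵢ in dimension n over a field F₀ with q elements. (Dimensions n ≡ 2 (mod 4) are not covered.) -/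
theorem result {F : Type*} [Field F] [Fintype F] {q : ℕ} (hodd : Odd q) (hF : Fintype.card F = q ^ 2) {n m : ℕ} (hm : 2 ≤ m) (hnm : n = 2 * m) (h4 : 4 ∣ n) (F₀ : Type*) [Field F₀] [Fintype F₀] (hF₀ : Fintype.card F₀ = q) (σ : F ≃+* F) (hσ : ∀ a : F, σ a = a ^ q) (φ : MulAut (Cfsg.PSU n F q)) (hφ : Cfsg.IsFieldAutPSUOf σ φ) :
    Nonempty (↥(Cfsg.inndiagPSU n F q ⊓ Subgroup.centralizer {φ}) ≃* Cfsg.PGO F₀ (Cfsg.quadFormPlus m F₀)) := by
  obtain ⟨j, hj⟩ := H13.exists_frob_emb hF F₀ hF₀ hσ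
  have ho : Odd (Fintype.card F₀) := hF₀ ▸ hodd
  have hn : Fintype.card (Fin n) = 2 * m := by simpa using hnm
  refine H13.Nonempty.mulEquiv_trans ((H13.gi_PSU hF (by omega) hσ hj).cent (M := 1)
    ⟨1, 1, 1, 1, by rw [(H28.isFieldAutPSUOf_iff hF).1 hφ, map_one, one_mul], by simp, by simp⟩)
    (H13.equiv_PGO_plus (H13.two_ne_zero_of_odd_card ho) (by simp) hn
      ((H13.isPlus_one_iff ho hn).2 ?_))
  obtain ⟨k, rfl⟩ : 2 ∣ m := by omega
  obtain ⟨r, hr⟩ := ho
  rw [hr, pow_mul, Nat.pow_mod, show (2 * r + 1) ^ 2 = 4 * (r * r + r) + 1 by ring]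
  simp [Nat.mul_add_mod]

end Cfsg.Agent.S2710
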