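import Cfsg.Statements.S2711
import Cfsg.Agent.H28.ClField

set_option autoImplicit false
open Cfsg

namespace Cfsg.Agent.S2711



/-- Let T = PSU_n(q) be simple (n ≥ 3, (n,q) ≠ (3,2)), realised over the field F with q² elements, and let x be a field automorphism of T (conjugate to a standard field automorphism of odd order) of prime order r. Then an element y of the coset Inndiag(T)·x (y = δ x with δ in the image of PGU_n(q)) has order r if and only if y is conjugate to x by an element of Inndiag(T). (T has no graph-field automorphisms.) -/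
theorem result {F : Type*} [Field F] [Fintype F] {p f q : ℕ} [Fact p.Prime] (hq : q = p ^ f) (hf : 1 ≤ f) (hF : Fintype.card F = q ^ 2) {n : ℕ} (hn : 3 ≤ n) (hs : ¬ (n = 3 ∧ q = 2)) (x δ : MulAut (Cfsg.PSU n F q)) (hx : Cfsg.IsFieldAutClassPSU x) {r : ℕ} (hr : r.Prime) (hxr : orderOf x = r) (hδ : δ ∈ Cfsg.inndiagPSU n F q) :
    orderOf (δ * x) = r ↔ Cfsg.IsConjUnder (Cfsg.inndiagPSU n F q) x (δ * x) := by
  have := (H28.triv_SU hF hn).normal (H28.surj_SU hF hn hs)
  rw [H28.inndiagPSU_eq hF] at hδ ⊢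
  obtain ⟨α, φ, σ, hσ, ho, rfl, h⟩ : ∃ α φ σ, σ ≠ RingEquiv.refl F ∧ Odd (orderOf σ) ∧
    φ = (H28.dataSU n hF).f σ ∧ α * x * α⁻¹ = φ := by
    simpa only [IsFieldAutClassPSU, H28.isFieldAutPSUOf_iff hF] using hx
  refine H28.orderOf_iff_isConjUnder (α := α) hxr hδ fun d hd e => ?_
  rw [← H28.orderOf_conj' α, h, orderOf_injective _ (H28.triv_SU hF hn).f_injective] at hxr
  rw [h] at e ⊢
  obtain ⟨h1, h2⟩ := H28.card_fixF (p := p) (f := 2 * f) (by rw [hF, hq, ← pow_mul, mul_comm]) σ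
  have h3 : orderOf σ ∣ f := (Nat.coprime_two_right.2 ho).dvd_of_dvd_mul_left h1
  have := Fintype.ofFinite (H28.fixF σ)
  obtain ⟨j, hj⟩ := H28.exists_ringHom_range_fixF σ (H28.fixF σ) rfl
  have hK : Fintype.card (H28.fixF σ) = (p ^ (f / orderOf σ)) ^ 2 := by
    rw [← Nat.card_eq_fintype_card, h2, ← pow_mul, Nat.mul_div_assoc _ h3, mul_comm]
  exact (H28.triv_SU hF hn).lang σ (H28.lang_GU hF hK (fun a => by
    rw [← H28.pow_pow_odd hK ho, ← pow_mul, Nat.div_mul_cancel h3, hq]) hj) hd (hxr ▸ e)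

end Cfsg.Agent.S2711
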