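import Cfsg.Statements.S2712
import Cfsg.Agent.H28.ClField

set_option autoImplicit false
open Cfsg

namespace Cfsg.Agent.S2712



/-- Let T = PSp_{2m}(F) be simple over the field F with p^f elements (m ≥ 2, (2m, |F|) ≠ (4, 2)), G = Inndiag(T) the image of the projective conformal symplectic group PGSp_{2m}(F), and x a field automorphism of T of prime order r. Then r divides f; C_G(x) is isomorphic to PGSp_{2m}(F₀) for a field F₀ with p^(f/r) elements; and the G-class of x is the union of exactly gcd(gcd(2, p^f − 1), r) T-classes. -/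
theorem result {F : Type*} [Field F] [Fintype F] {p f : ℕ} [Fact p.Prime] (hF : Fintype.card F = p ^ f) (hf : 1 ≤ f) {m : ℕ} (hm : 2 ≤ m) (hs : m = 2 → 3 ≤ Fintype.card F) (x : MulAut (Cfsg.PSp m F)) (hx : Cfsg.IsFieldAutClassPSp x) {r : ℕ} (hr : r.Prime) (hxr : orderOf x = r) (F₀ : Type*) [Field F₀] [Fintype F₀] (hF₀ : Fintype.card F₀ = p ^ (f / r)) :
    r ∣ f ∧ Nonempty (↥(Cfsg.inndiagPSp m F ⊓ Subgroup.centralizer {x}) ≃* Cfsg.PGSp m F₀) ∧ Cfsg.splitClassCount (Cfsg.inndiagPSp m F) (Cfsg.Inn (Cfsg.PSp m F)) x = Nat.gcd (Nat.gcd 2 (p ^ f - 1)) r := by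
  have : Fact (2 ≤ m) := ⟨hm⟩
  rw [H28.inndiagPSp_eq]
  obtain ⟨α, σ, hσ, h⟩ := hx
  rw [H28.isStdFieldAutPSp_iff] at h
  rw [← H28.orderOf_conj' α, h, orderOf_injective _ (H28.triv_Sp hm).f_injective] at hxr
  obtain ⟨h1, h2⟩ := H28.card_fixF hF σ
  rw [hxr] at h1 h2
  obtain ⟨j, hj⟩ := H28.exists_ringHom_range_fixF σ F₀ (by rw [h2, Nat.card_eq_fintype_card, hF₀])
  have hc := H28.comap_centralizer_Sp hm hj
  refine ⟨h1, ?_, ?_⟩
  · obtain ⟨e⟩ := (H28.triv_Sp hm).nonempty_centralizer_equiv _ _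
      ((Geo.scalars _ F₀).subgroupOf _) hc
      fun e => (H28.map_mem_center_iff j).trans H28.mem_scalars_iff_center.symm
    rw [← h] at e
    exact ⟨(H28.infCentralizerConj _ α x).trans e⟩
  · rw [← H28.splitClassCount_conj _ _ α, h, H28.MatData.splitClassCount_eq'' _
      (H28.multSp_surjective (by omega)) (H28.ker_multSp _) _ _ hc, H28.index_map_ker_Sp hm,
      H28.map_range_mapGSp, (H28.index_range_units_map j).1, Nat.card_eq_fintype_card,
      Nat.card_eq_fintype_card, hF]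
    have := H28.gcd_two_geom (Fintype.one_lt_card (α := F₀)) hr.ne_zero
    rwa [hF₀, ← pow_mul, Nat.div_mul_cancel h1, ← hF₀] at this

end Cfsg.Agent.S2712
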