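import Cfsg.Statements.S2714
import Cfsg.Agent.H28.OField

set_option autoImplicit false
open Cfsg

namespace Cfsg.Agent.S2714



/-- Let T = Ω_{2m+1}(F) (m ≥ 3, |F| = p^f odd; realised as PΩ of the form x₀² + Σ xᵢ yᵢ), G = Inndiag(T) the image of the conformal orthogonal group in Aut(T), and x a field automorphism of T of prime order r. Then r divides f; C_G(x) is isomorphic to Inndiag(Ω_{2m+1}(F₀)) for a field F₀ with p^(f/r) elements; and the G-class of x is a single T-class when r is odd and the union of exactly two T-classes when r = 2. -/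
theorem result {F : Type*} [Field F] [Fintype F] {p f : ℕ} [Fact p.Prime] (hF : Fintype.card F = p ^ f) (hf : 1 ≤ f) (hodd : Odd (Fintype.card F)) {m : ℕ} (hm : 3 ≤ m) (x : MulAut (Cfsg.POmega F (Cfsg.quadFormOdd m F))) (hx : Cfsg.IsFieldAutClassPOmega (Cfsg.quadFormOdd m F) x) {r : ℕ} (hr : r.Prime) (hxr : orderOf x = r) (F₀ : Type*) [Field F₀] [Fintype F₀] (hF₀ : Fintype.card F₀ = p ^ (f / r)) :
    r ∣ f ∧ Nonempty (↥(Cfsg.inndiagPOmegaOdd m F ⊓ Subgroup.centralizer {x}) ≃* ↥(Cfsg.inndiagPOmegaOdd m F₀)) ∧ (Odd r → Cfsg.splitClassCount (Cfsg.inndiagPOmegaOdd m F) (Cfsg.Inn (Cfsg.POmega F (Cfsg.quadFormOdd m F))) x = 1) ∧ (r = 2 → Cfsg.splitClassCount (Cfsg.inndiagPOmegaOdd m F) (Cfsg.Inn (Cfsg.POmega F (Cfsg.quadFormOdd m F))) x = 2) := by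
  have hQ := H13.nd_QOdd (m := m) (H13.two_ne_zero_of_odd_card hodd)
  have hn : ∀ (K : Type _) [Field K],
    Module.finrank K (Unit ⊕ (Fin m ⊕ Fin m) → K) = 2 * m + 1 := fun K _ => by simp; ring
  have hk := H28.ker_aut hQ (by rw [hn]; omega)
  obtain ⟨s, rfl, hs⟩ := H28.exists_of_field (H28.aut_surjective hQ (by rw [hn]; omega)
    (by rw [hn]; omega)) (fun σ v => by simp [H13.QOdd_apply]) hx
  obtain ⟨rfl, e⟩ := H28.orderOf_σ hk hr (hxr ▸ pow_orderOf_eq_one _) hs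
  obtain ⟨h1, h2⟩ := H28.card_fixF hF s.σ
  obtain ⟨j, hj⟩ := H28.exists_ringHom_range_fixF s.σ F₀ (by simp [h2, hF₀])
  obtain ⟨z, R, D, rfl, h3⟩ := H28.exists_desc hQ s e j hj
  obtain ⟨g, c, hc, hg⟩ := (D.nd hQ).equiv_QOdd (by simp; ring)
  let D' := D.pre (H13.SemiSim.ofLinear g c hc hg).symm
  have hQ₀ := D'.nd hQ
  have h4 := D.split_odd_dim hQ (hn F) (by omega) hk h3 hj
  have h5 := D'.centralizer_equiv hQ hk (H28.ker_aut hQ₀ (by simp; omega)) (fun v => h3 _) hj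
    le_rfl (fun z => (H28.zS _ z).2) le_rfl fun u => iff_of_true (D'.E u).2 u.2
  rw [H28.map_eq_of_scalar hk] at h4 h5
  rw [H28.inndiagOdd_eq, H28.inndiagOdd_eq]
  exact ⟨h1, h5, H28.inn_eq_ZΩ hQ (by simp; omega) ▸ h4⟩

end Cfsg.Agent.S2714
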