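import Cfsg.Statements.S2716
import Cfsg.Agent.H28.OField

set_option autoImplicit false
open Cfsg

namespace Cfsg.Agent.S2716



/-- Let T = PΩ⁻_{2m+2}(F) (m ≥ 3, |F| = p^f; the form Σ xᵢ yᵢ + z₁² + a z₁ z₂ + b z₂² with anisotropic binary part), G = Inndiag(T), and x a field automorphism of T of prime order r. Then r is odd and divides f; C_G(x) is isomorphic to Inndiag(PΩ⁻_{2m+2}(F₀)) for a field F₀ with p^(f/r) elements and some anisotropic binary part over F₀; and the G-class of x is a single T-class. -/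
theorem result {F : Type*} [Field F] [Fintype F] {p f : ℕ} [Fact p.Prime] (hF : Fintype.card F = p ^ f) (hf : 1 ≤ f) {m : ℕ} (hm : 3 ≤ m) (a b : F) (hab : (∀ z₁ z₂ : F, z₁ ^ 2 + a * z₁ * z₂ + b * z₂ ^ 2 = 0 → z₁ = 0 ∧ z₂ = 0)) (x : MulAut (Cfsg.POmega F (Cfsg.quadFormMinus m F a b))) (hx : Cfsg.IsFieldAutClassPOmegaMinus m x) {r : ℕ} (hr : r.Prime) (hxr : orderOf x = r) (F₀ : Type*) [Field F₀] [Fintype F₀] (hF₀ : Fintype.card F₀ = p ^ (f / r)) :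
    Odd r ∧ r ∣ f ∧ (∃ a₀ b₀ : F₀, (∀ z₁ z₂ : F₀, z₁ ^ 2 + a₀ * z₁ * z₂ + b₀ * z₂ ^ 2 = 0 → z₁ = 0 ∧ z₂ = 0) ∧ Nonempty (↥(Cfsg.inndiagPOmegaMinus m F a b ⊓ Subgroup.centralizer {x}) ≃* ↥(Cfsg.inndiagPOmegaMinus m F₀ a₀ b₀))) ∧ Cfsg.splitClassCount (Cfsg.inndiagPOmegaMinus m F a b) (Cfsg.Inn (Cfsg.POmega F (Cfsg.quadFormMinus m F a b))) x = 1 := by
  have h := H28.ev_QMinus (m := m) (by omega) hab
  have hk := H28.ker_aut h.nd h.five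
  obtain ⟨s, rfl, hs, ho⟩ := H28.exists_of_fieldMinus hm hab hx
  obtain ⟨rfl, e⟩ := H28.orderOf_σ hk hr (hxr ▸ pow_orderOf_eq_one _) hs
  obtain ⟨h1, h2⟩ := H28.card_fixF hF s.σ
  obtain ⟨j, hj⟩ := H28.exists_ringHom_range_fixF s.σ F₀ (by simp [h2, hF₀])
  obtain ⟨z, R, D, rfl, h3⟩ := H28.exists_desc h.nd s e j hj
  obtain ⟨a₀, b₀, hab₀⟩ := H13.exists_anisotropic_binary F₀
  obtain ⟨g, hg⟩ := (D.nd h.nd).equiv_QMinus (fun H => H13.not_isPlus_QMinus hab (D.isPlus H))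
    (m := m) (h.desc D).dim hab₀
  let D' := D.pre (H13.SemiSim.ofIsometry g hg).symm
  have h₀ := h.desc D'
  have h4 := D.split_of_odd h hk h3 hj (.inl ho)
  have h5 := D'.centralizer_equiv h.nd hk (H28.ker_aut h₀.nd h₀.five) (fun v => h3 _) hj
    h.Sp_le h.scalar_mem_Sp h₀.Sp_le fun u => by rw [h.mem_Sp, h₀.mem_Sp, h.dk_E h₀]
  rw [H28.map_eq_of_scalar hk] at h4 h5
  rw [H28.inndiagMinus_eq hab h]
  exact ⟨ho, h1, ⟨a₀, b₀, hab₀, H28.inndiagMinus_eq hab₀ h₀ ▸ h5⟩,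
    H28.inn_eq_ZΩ h.nd h.five ▸ h4⟩

end Cfsg.Agent.S2716
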