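import Cfsg.Statements.S2717
import Cfsg.Agent.H28.OField

set_option autoImplicit false
open Cfsg

namespace Cfsg.Agent.S2717



/-- Let T = PΩ⁺_{2m}(F) with m ≥ 5 (dimension 2m ≠ 8) and |F| = p^f, G = Inndiag(T), and x an involutory graph-field automorphism of T. Then f is even; any two involutory graph-field automorphisms of T are G-conjugate; C_G(x) is isomorphic to Inndiag(PΩ⁻_{2m}(F₀)) for a field F₀ with p^(f/2) elements (some anisotropic binary part over F₀); and the G-class of x is the union of exactly c T-classes with c = 1 if p = 2, c = 4 if p is odd, m is odd and p^(f/2) ≡ 1 (mod 4), and c = 2 otherwise. -/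
theorem result {F : Type*} [Field F] [Fintype F] {p f : ℕ} [Fact p.Prime] (hF : Fintype.card F = p ^ f) (hf : 1 ≤ f) {m : ℕ} (hm : 5 ≤ m) (x : MulAut (Cfsg.POmega F (Cfsg.quadFormPlus m F))) (hx : Cfsg.IsGraphFieldAutClassPOmegaPlus m x) (hx2 : orderOf x = 2) (F₀ : Type*) [Field F₀] [Fintype F₀] (hF₀ : Fintype.card F₀ = p ^ (f / 2)) :
    Even f ∧ (∀ y : MulAut (Cfsg.POmega F (Cfsg.quadFormPlus m F)), Cfsg.IsGraphFieldAutClassPOmegaPlus m y → orderOf y = 2 → Cfsg.IsConjUnder (Cfsg.inndiagPOmegaPlus m F) x y) ∧ (∃ a₀ b₀ : F₀, (∀ z₁ z₂ : F₀, z₁ ^ 2 + a₀ * z₁ * z₂ + b₀ * z₂ ^ 2 = 0 → z₁ = 0 ∧ z₂ = 0) ∧ Nonempty (↥(Cfsg.inndiagPOmegaPlus m F ⊓ Subgroup.centralizer {x}) ≃* ↥(Cfsg.inndiagPOmegaMinus (m - 1) F₀ a₀ b₀))) ∧ (p = 2 → Cfsg.splitClassCount (Cfsg.inndiagPOmegaPlus m F) (Cfsg.Inn (Cfsg.POmega F (Cfsg.quadFormPlus m F))) x = 1) ∧ ((p ≠ 2 ∧ Odd m ∧ p ^ (f / 2) % 4 = 1) → Cfsg.splitClassCount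 (Cfsg.inndiagPOmegaPlus m F) (Cfsg.Inn (Cfsg.POmega F (Cfsg.quadFormPlus m F))) x = 4) ∧ ((p ≠ 2 ∧ ¬ (Odd m ∧ p ^ (f / 2) % 4 = 1)) → Cfsg.splitClassCount (Cfsg.inndiagPOmegaPlus m F) (Cfsg.Inn (Cfsg.POmega F (Cfsg.quadFormPlus m F))) x = 2) := by
  have h := H28.ev_QPlus (F := F) (m := m) (by omega)
  have hk := H28.ker_aut h.nd h.five
  have : Nonempty (Fin m ⊕ Fin m) := ⟨.inl ⟨0, by omega⟩⟩
  obtain ⟨ε, e1, e2⟩ := H28.exists_eps h
  obtain ⟨s, rfl, hs, he⟩ := H28.exists_of_graphField hm h e1 e2 hx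
  have e3 := hx2 ▸ pow_orderOf_eq_one _
  obtain ⟨ho, e⟩ := H28.orderOf_σ hk Nat.prime_two e3 hs
  obtain ⟨h1, h2⟩ := H28.card_fixF hF s.σ
  obtain ⟨j, hj⟩ := H28.exists_ringHom_range_fixF s.σ F₀ (by simp [h2, hF₀, ho])
  obtain ⟨z, R, D, rfl, h3⟩ := H28.exists_desc h.nd s e j hj
  obtain ⟨a₀, b₀, hab₀⟩ := H13.exists_anisotropic_binary F₀
  have hP := H28.not_isPlus_of_eps h e2 (s := H13.SemiSim.scalar _ z * s) (by
    rw [map_mul, he, ← H28.coe_zS, e1]; simp) D h3 hj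
  generalize hk' : m - 1 = k
  replace hk' : m = k + 1 := by omega
  obtain ⟨g, hg⟩ := (D.nd h.nd).equiv_QMinus hP (m := k) (by simp; omega) hab₀
  let D' := D.pre (H13.SemiSim.ofIsometry g hg).symm
  have h₀ := h.desc D'
  have h5 := D'.centralizer_equiv h.nd hk (H28.ker_aut h₀.nd h₀.five) (fun v => h3 _) hj
    h.Sp_le h.scalar_mem_Sp h₀.Sp_le fun u => by rw [h.mem_Sp, h₀.mem_Sp, h.dk_E h₀]
  have := H28.charP_of_card hF
  have h4 : p = 2 → _ := fun hp => D.split_of_odd h hk h3 hj (.inr (by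
    subst hp; exact CharP.cast_eq_zero F 2))
  have h6 : p ≠ 2 → Odd (Fintype.card F₀) := fun hp =>
    hF₀ ▸ ((Fact.out : p.Prime).odd_of_ne_two hp).pow
  have h7 : p ≠ 2 → _ := fun hp => D'.split_of_two h hk (by
    rw [← map_ofNat D.j, map_ne_zero]; exact H13.two_ne_zero_of_odd_card (h6 hp)) (by
      have l1 := H28.card_eq_pow_of_fix hj
      simp only [ho, Nat.card_eq_fintype_card] at l1
      obtain ⟨n, hn⟩ := h6 hp
      rw [H28.disc_QPlus_eq_one_iff (l1 ▸ (h6 hp).pow), l1, hn,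
        show (2 * n + 1) ^ 2 = 1 + 4 * (n * n + n) by ring]
      omega) (fun v => h3 _) hj ho
  have h8 : p ≠ 2 → ((-1) ^ m * H13.disc (H13.QMinus k F₀ a₀ b₀) = 1 ↔
      Odd m ∧ p ^ (f / 2) % 4 = 1) := fun hp => by
    have l1 := H28.disc_QMinus_eq_one_iff (m := k) (h6 hp) hab₀
    have l2 := Nat.odd_iff.1 (h6 hp)
    rw [← hF₀, hk']
    rcases Nat.even_or_odd k with l | l
    · rw [l.add_one.neg_one_pow, neg_one_mul, neg_eq_iff_eq_neg, and_iff_right l.add_one,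
        ← not_iff_not, ← Ne, Int.units_ne_iff_eq_neg, neg_neg, l1, and_iff_right l]
      omega
    · simp [l.add_one.neg_one_pow, l1, Nat.not_even_iff_odd.2 l, Nat.not_odd_iff_even.2 l.add_one]
  rw [H28.map_eq_of_scalar hk] at h4 h5 h7
  rw [← H28.inn_eq_ZΩ h.nd h.five] at h4 h7
  rw [← H28.inndiagMinus_eq' hab₀ h₀] at h5
  rw [H28.inndiagPlus_eq h]
  refine ⟨even_iff_two_dvd.2 (ho ▸ h1), fun y hy hy2 => ?_,
    ⟨a₀, b₀, hab₀, h5⟩, h4,
    fun e => (h7 e.1).trans (if_pos ((h8 e.1).2 e.2)),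
    fun e => (h7 e.1).trans (if_neg (mt (h8 e.1).1 e.2))⟩
  obtain ⟨s', rfl, hs', he'⟩ := H28.exists_of_graphField hm h e1 e2 hy
  have e4 := hy2 ▸ pow_orderOf_eq_one _
  have e5 := H28.eq_of_orderOf_two (H28.orderOf_σ hk Nat.prime_two e4 hs').1 ho
  have := h.lang hk (ho ▸ Nat.prime_two) (ho ▸ e3) (δ := H28.aut _ (s' * s⁻¹))
    ⟨_, (h.mem_Sp (s := ⟨s' * s⁻¹, by
      rw [MonoidHom.mem_ker, map_mul, map_inv, mul_inv_eq_one]; exact e5⟩)).2 (by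
      rw [← e1]; simp [he, he']), rfl⟩ (by
      rw [ho, ← map_mul, inv_mul_cancel_right]; exact e4)
  rw [← map_mul, inv_mul_cancel_right] at this
  exact this

end Cfsg.Agent.S2717
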