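import Cfsg.Statements.S2722
import Cfsg.Agent.H28.OPre

set_option autoImplicit false
open Cfsg

namespace Cfsg.Agent.S2722



/-- Let T = PΩ⁺_{2m}(F) with m ≥ 4 and |F| = q odd. Inside Aut(T), the image G̃ of the conformal orthogonal group of the form modulo the image of the special orthogonal group is elementary abelian of order 4. -/
theorem result {F : Type*} [Field F] [Fintype F] (hodd : Odd (Fintype.card F)) {m : ℕ} (hm : 4 ≤ m) :
    (∃ φ : ↥(Cfsg.pgoAut F (Cfsg.quadFormPlus m F)) →* Multiplicative (ZMod 2 × ZMod 2), Function.Surjective φ ∧ φ.ker = (Cfsg.psoAut F (Cfsg.quadFormPlus m F)).subgroupOf (Cfsg.pgoAut F (Cfsg.quadFormPlus m F))) := by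
  have h := H28.ev_QPlus (F := F) (m := m) (by omega)
  have h2 := H13.two_ne_zero_of_odd_card hodd
  have : Nonempty (Fin m ⊕ Fin m) := ⟨.inl ⟨0, by omega⟩⟩
  rw [← H13.coe_QPlus, H28.pgoAut_eq, H28.psoAut_eq h.nd h.good h2]
  exact h.exists_hom_V4 h2 _ (H28.ker_aut h.nd h.five)

end Cfsg.Agent.S2722
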