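import Cfsg.Statements.S2723
import Cfsg.Agent.H28.OPre

set_option autoImplicit false
open Cfsg

namespace Cfsg.Agent.S2723



/-- Let T = PΩ⁺_{2m}(F) with m ≥ 4 and |F| = q odd. The image of the special orthogonal group in Aut(T) contains the inner automorphism group T with index 1 (they coincide) when m is odd and q ≡ 3 (mod 4), and with index 2 otherwise (the index is 2 exactly when the discriminant of the form is a square). -/
theorem result {F : Type*} [Field F] [Fintype F] (hodd : Odd (Fintype.card F)) {m : ℕ} (hm : 4 ≤ m) :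
    ((Odd m ∧ Fintype.card F % 4 = 3) → (Cfsg.Inn (Cfsg.POmega F (Cfsg.quadFormPlus m F))).relIndex (Cfsg.psoAut F (Cfsg.quadFormPlus m F)) = 1) ∧ (¬ (Odd m ∧ Fintype.card F % 4 = 3) → (Cfsg.Inn (Cfsg.POmega F (Cfsg.quadFormPlus m F))).relIndex (Cfsg.psoAut F (Cfsg.quadFormPlus m F)) = 2) := by
  have h := H28.ev_QPlus (F := F) (m := m) (by omega)
  have h2 := H13.two_ne_zero_of_odd_card hodd
  have : Nonempty (Fin m ⊕ Fin m) := ⟨.inl ⟨0, by omega⟩⟩
  rw [← H13.coe_QPlus, H28.psoAut_eq h.nd h.good h2, H28.relIndex_eq_of_equiv, ← H28.map_out,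
    h.card_SO h2 (H28.ker_out h.nd h.five)]
  simp only [H28.disc_QPlus_eq_one_iff hodd]
  exact ⟨fun e => if_neg (not_not.2 e), fun e => if_pos e⟩

end Cfsg.Agent.S2723
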