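import Cfsg.Statements.S2725
import Cfsg.Agent.H28.OPre

set_option autoImplicit false
open Cfsg

namespace Cfsg.Agent.S2725



/-- Let T = PΩ⁺_{2m}(F) with m ≥ 4 and |F| = q odd. The inner-diagonal group G = Inndiag(T) (image of the class-preserving similarities) taken modulo the inner automorphism group T is cyclic of order 2 when m is odd and q ≡ 3 (mod 4), cyclic of order 4 when m is odd and q ≡ 1 (mod 4), and elementary abelian of order 4 when m is even. -/
theorem result {F : Type*} [Field F] [Fintype F] (hodd : Odd (Fintype.card F)) {m : ℕ} (hm : 4 ≤ m) :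
    ((Odd m ∧ Fintype.card F % 4 = 3) → (∃ φ : ↥(Cfsg.inndiagPOmegaPlus m F) →* Multiplicative (ZMod 2), Function.Surjective φ ∧ φ.ker = (Cfsg.Inn (Cfsg.POmega F (Cfsg.quadFormPlus m F))).subgroupOf (Cfsg.inndiagPOmegaPlus m F))) ∧ ((Odd m ∧ Fintype.card F % 4 = 1) → (∃ φ : ↥(Cfsg.inndiagPOmegaPlus m F) →* Multiplicative (ZMod 4), Function.Surjective φ ∧ φ.ker = (Cfsg.Inn (Cfsg.POmega F (Cfsg.quadFormPlus m F))).subgroupOf (Cfsg.inndiagPOmegaPlus m F))) ∧ (Even m → (∃ φ : ↥(Cfsg.inndiagPOmegaPlus m F) →* Multiplicative (ZMod 2 × ZMod 2), Function.Surjective φ ∧ φ.ker = (Cfsg.Inn (Cfsg.POmega F (Cfsg.quadFormPlus m F))).subgroupOf (Cfsg.inndiagPOmegaPlus m F))) := by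
  have h := H28.ev_QPlus (F := F) (m := m) (by omega)
  have h2 := H13.two_ne_zero_of_odd_card hodd
  have hk := H28.ker_out h.nd h.five
  have hd := H28.disc_QPlus_eq_one_iff (m := m) hodd
  rw [H28.inndiagPlus_eq h]
  exact ⟨fun e => H28.exists_hom_out (S := h.Sp)
      (h.sp_Z2 h2 hk (H28.units_ne_one fun e' => hd.1 e' e)),
    fun e => H28.exists_hom_out (S := h.Sp) (h.sp_Z4 h2 hk (hd.2 (by omega)) e.1),
    fun e => H28.exists_hom_out (S := h.Sp) (h.sp_V4 h2 hk (hd.2 (by simp [e])) e)⟩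

end Cfsg.Agent.S2725
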