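import Cfsg.Statements.S2735
import Cfsg.Agent.H28.OField

set_option autoImplicit false
open Cfsg

namespace Cfsg.Agent.S2735



/-- Let T = Ω_{2m+1}(F) (m ≥ 3, |F| odd) and x a field automorphism of T of prime order r. Then an element y of the coset Inndiag(T)·x (y = δ x with δ induced by a similarity of the form) has order r if and only if y is conjugate to x by an element of Inndiag(T). (T has no graph or graph-field automorphisms.) -/
theorem result {F : Type*} [Field F] [Fintype F] (hodd : Odd (Fintype.card F)) {m : ℕ} (hm : 3 ≤ m) (x δ : MulAut (Cfsg.POmega F (Cfsg.quadFormOdd m F))) (hx : Cfsg.IsFieldAutClassPOmega (Cfsg.quadFormOdd m F) x) {r : ℕ} (hr : r.Prime) (hxr : orderOf x = r) (hδ : δ ∈ Cfsg.inndiagPOmegaOdd m F) :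
    orderOf (δ * x) = r ↔ Cfsg.IsConjUnder (Cfsg.inndiagPOmegaOdd m F) x (δ * x) := by
  have hQ := H13.nd_QOdd (m := m) (H13.two_ne_zero_of_odd_card hodd)
  have hn : Module.finrank F (Unit ⊕ (Fin m ⊕ Fin m) → F) = 2 * m + 1 := by simp; ring
  have hk := H28.ker_aut hQ (by omega)
  obtain ⟨s, rfl, hs⟩ := H28.exists_of_field (H28.aut_surjective hQ (by omega) (by omega))
    (fun σ v => by simp [H13.QOdd_apply]) hx
  have e := hxr ▸ pow_orderOf_eq_one _
  obtain ⟨rfl, -⟩ := H28.orderOf_σ hk hr e hs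
  rw [H28.inndiagOdd_eq] at hδ ⊢
  exact ⟨fun h => H28.lang_odd_dim hQ hn hk e hδ (h ▸ pow_orderOf_eq_one _),
    fun h => (H28.orderOf_eq_of_isConjUnder h).trans hxr⟩

end Cfsg.Agent.S2735
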