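import Cfsg.Statements.S2736
import Cfsg.Agent.H28.OField

set_option autoImplicit false
open Cfsg

namespace Cfsg.Agent.S2736



/-- Let T = PΩ⁺_{2m}(F) with m ≥ 5 (dimension ≠ 8) and x a field automorphism or a graph-field automorphism of T of prime order r. Then an element y of the coset Inndiag(T)·x (y = δ x with δ induced by a class-preserving similarity) has order r if and only if y is conjugate to x by an element of Inndiag(T). -/
theorem result {F : Type*} [Field F] [Fintype F] {m : ℕ} (hm : 5 ≤ m) (x δ : MulAut (Cfsg.POmega F (Cfsg.quadFormPlus m F))) (hx : Cfsg.IsFieldAutClassPOmega (Cfsg.quadFormPlus m F) x ∨ Cfsg.IsGraphFieldAutClassPOmegaPlus m x) {r : ℕ} (hr : r.Prime) (hxr : orderOf x = r) (hδ : δ ∈ Cfsg.inndiagPOmegaPlus m F) :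
    orderOf (δ * x) = r ↔ Cfsg.IsConjUnder (Cfsg.inndiagPOmegaPlus m F) x (δ * x) := by
  have h := H28.ev_QPlus (F := F) (m := m) (by omega)
  have hk := H28.ker_aut h.nd h.five
  obtain ⟨ε, h1, h2⟩ := H28.exists_eps h
  obtain ⟨s, rfl, hs⟩ : ∃ s, x = H28.aut (H13.QPlus m F) s ∧ s.σ ≠ 1 := hx.elim
    (H28.exists_of_field (H28.aut_surjective h.nd (by rw [h.dim]; omega) (by rw [h.dim]; omega))
      fun σ v => by simp [H13.QPlus_apply])
    fun hx => (H28.exists_of_graphField hm h h1 h2 hx).imp fun s e => ⟨e.1, e.2.1⟩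
  have e := hxr ▸ pow_orderOf_eq_one _
  obtain ⟨rfl, -⟩ := H28.orderOf_σ hk hr e hs
  rw [H28.inndiagPlus_eq h] at hδ ⊢
  exact ⟨fun H => h.lang hk hr e hδ (H ▸ pow_orderOf_eq_one _),
    fun h => (H28.orderOf_eq_of_isConjUnder h).trans hxr⟩

end Cfsg.Agent.S2736
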