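import Cfsg.Statements.S2738
import Cfsg.Agent.H13.Low6

set_option autoImplicit false
open Cfsg

namespace Cfsg.Agent.S2738

/-- The special linear group SL(3, 4) has centre of order 3 and does not split over it: no subgroup is a complement to the centre (so SL(3, 4) is a non-split central extension of PSL(3, 4) by a group of order 3). -/
theorem result (F : Type*) [Field F] [Fintype F] (hF : Fintype.card F = 4) : Nat.card ↥(Subgroup.center (Matrix.SpecialLinearGroup (Fin 3) F)) = 3 ∧ ¬ ∃ K : Subgroup (Matrix.SpecialLinearGroup (Fin 3) F), Subgroup.IsComplement' (Subgroup.center (Matrix.SpecialLinearGroup (Fin 3) F)) K := by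
  have hc : Nat.card (Subgroup.center (Matrix.SpecialLinearGroup (Fin 3) F)) = 3 := by
    rw [H12.card_center_SL, Nat.card_eq_fintype_card, hF]; rfl
  refine ⟨hc, fun ⟨K, hK⟩ => ?_⟩
  have h1 : ∀ g, ∃ z ∈ Subgroup.center (Matrix.SpecialLinearGroup (Fin 3) F), ∃ k ∈ K, z * k = g :=
    fun g => by
      obtain ⟨⟨z, k⟩, h⟩ := hK.2 g
      exact ⟨z, z.2, k, k.2, h⟩
  have h2 : commutator (Matrix.SpecialLinearGroup (Fin 3) F) ≤ K := by
    rw [commutator_def, Subgroup.commutator_le]
    intro a _ b _
    obtain ⟨z, hz, a, ha, rfl⟩ := h1 a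
    obtain ⟨w, hw, b, hb, rfl⟩ := h1 b
    rw [← Subgroup.mem_center_iff.1 hz, ← Subgroup.mem_center_iff.1 hw,
      H13.commutatorElement_center_mul hz hw]
    exact K.mul_mem (K.mul_mem (K.mul_mem ha hb) (K.inv_mem ha)) (K.inv_mem hb)
  rw [H12.commutator_SL_eq_top (by simp), top_le_iff] at h2
  have := hK.disjoint
  rw [h2, disjoint_top] at this
  simp [this] at hc

end Cfsg.Agent.S2738
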