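import Cfsg.Statements.S2739
import Cfsg.Agent.S2388
import Cfsg.Agent.H12.Lin

set_option autoImplicit false
open scoped Pointwise
open Cfsg

namespace Cfsg.Agent.S2739

open Polynomial in
theorem charpoly_eq {F : Type*} [Field F] [Fintype F] (hF : Fintype.card F = 4)
    (a : Matrix.SpecialLinearGroup (Fin 3) F) (h1 : a ∉ Subgroup.center _)
    (h2 : a ^ 3 ∈ Subgroup.center _) : a.1.charpoly = X ^ 3 - 1 := by
  obtain ⟨c, -, hc⟩ := Matrix.SpecialLinearGroup.mem_center_iff.1 h2
  have hi : IsIntegral F a.1 := Algebra.IsIntegral.isIntegral _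
  have hm := minpoly.monic hi
  obtain ⟨r, hr⟩ : minpoly F a.1 ∣ X ^ 3 - C c := minpoly.dvd _ _ (by
    simp only [map_sub, map_pow, aeval_X, aeval_C, sub_eq_zero]
    exact hc.symm)
  obtain ⟨s, hs⟩ := Matrix.minpoly_dvd_charpoly a.1
  have h3 : 2 ≤ (minpoly F a.1).natDegree := (minpoly.two_le_natDegree_iff hi).2 fun ⟨d, hd⟩ =>
    h1 (Subgroup.mem_center_iff.2 fun b => Subtype.ext (by
      change b.1 * a.1 = a.1 * b.1
      rw [← hd, Algebra.commutes]))
  have hr1 : r.Monic := hm.of_mul_monic_left (hr ▸ monic_X_pow_sub_C c (by norm_num))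
  have hs1 : s.Monic := hm.of_mul_monic_left (hs ▸ Matrix.charpoly_monic _)
  have hr2 := congrArg natDegree hr
  have hs2 := congrArg natDegree hs
  rw [natDegree_X_pow_sub_C, hm.natDegree_mul hr1] at hr2
  rw [Matrix.charpoly_natDegree_eq_dim, Fintype.card_fin, hm.natDegree_mul hs1] at hs2
  have h4 := H28.det_eq_of_charpoly a.1
  rw [a.2, Fintype.card_fin] at h4
  have h5 : r = s := by
    by_cases h : r.natDegree = 0
    · rw [hr1.natDegree_eq_zero.1 h, hs1.natDegree_eq_zero.1 (by omega)]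
    rw [hr1.eq_X_add_C (by omega), hs1.eq_X_add_C (by omega)]
    have h6 := congrArg (eval (-r.coeff 0)) hr
    have h7 := congrArg (coeff · 0) hr
    rw [hs, mul_coeff_zero] at h4
    rw [hr1.eq_X_add_C (by omega)] at h6
    simp at h6 h7
    have h8 : c ≠ 0 := by
      rintro rfl
      have := (a ^ 3).2
      rw [← hc] at this
      simp at this
    have h9 := FiniteField.pow_card_sub_one_eq_one (-r.coeff 0) (fun h => h8 (by
      rw [h] at h6; simpa using h6))
    rw [hF] at h9
    have h10 : (minpoly F a.1).coeff 0 ≠ 0 := fun h => by simp [h] at h4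
    congr 2
    refine mul_left_cancel₀ h10 ?_
    linear_combination -h4 - h7 + h6 - h9
  rw [hs, ← h5, ← hr] at h4 ⊢
  simp at h4
  rw [show c = 1 by linear_combination -h4, map_one]

/-- In the projective special linear group PSL(3, 4) all subgroups of order 3 are conjugate. -/
theorem result (F : Type*) [Field F] [Fintype F] (hF : Fintype.card F = 4) (X Y : Subgroup (Matrix.ProjectiveSpecialLinearGroup (Fin 3) F)) (hX : Nat.card ↥X = 3) (hY : Nat.card ↥Y = 3) : ∃ g : Matrix.ProjectiveSpecialLinearGroup (Fin 3) F, MulAut.conj g • X = Y := by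
  have h2 : CharP F 2 := charP_of_card_eq_prime_pow (p := 2) (f := 2) hF
  have hc : Nat.card (Subgroup.center (Matrix.SpecialLinearGroup (Fin 3) F)) = 3 := by
    rw [H12.card_center_SL, Nat.card_eq_fintype_card, hF]; rfl
  have : Fact (Nat.Prime 3) := ⟨Nat.prime_three⟩
  have key : ∀ X : Subgroup (Matrix.ProjectiveSpecialLinearGroup (Fin 3) F), Nat.card X = 3 →
      ∃ a : Matrix.SpecialLinearGroup (Fin 3) F, X = Subgroup.zpowers (QuotientGroup.mk a) ∧
        (orderOf a).Coprime 2 ∧ a.1.charpoly = Polynomial.X ^ 3 - 1 := fun X hX => by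
    have := isCyclic_of_prime_card hX
    obtain ⟨x, rfl⟩ := (Subgroup.isCyclic_iff_exists_zpowers_eq_top X).1 this
    obtain ⟨a, rfl⟩ := QuotientGroup.mk_surjective x
    rw [Nat.card_zpowers] at hX
    have h3 := orderOf_dvd_iff_pow_eq_one.1 hX.dvd
    rw [← QuotientGroup.mk_pow, QuotientGroup.eq_one_iff] at h3
    refine ⟨a, rfl, ?_, charpoly_eq hF a (fun h => ?_) h3⟩
    · have := pow_card_eq_one' (x := (⟨_, h3⟩ : Subgroup.center _))
      rw [hc] at this
      exact Nat.Coprime.coprime_dvd_left (orderOf_dvd_of_pow_eq_one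
        ((pow_mul a 3 3).trans (congrArg Subtype.val this))) (by norm_num)
    · rw [(QuotientGroup.eq_one_iff _).2 h] at hX
      simp at hX
  obtain ⟨a, rfl, ha, ha'⟩ := key X hX
  obtain ⟨b, rfl, hb, hb'⟩ := key Y hY
  obtain ⟨g, rfl⟩ := isConj_iff.1 (S2388.result 2 3 a b ha hb (ha'.trans hb'.symm))
  refine ⟨QuotientGroup.mk g, ?_⟩
  exact MonoidHom.map_zpowers _ _

end Cfsg.Agent.S2739
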