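import Cfsg.Statements.S2751
import Cfsg.Agent.H9.Amal11
import Cfsg.Agent.H9.Amal6

set_option autoImplicit false
open Cfsg

namespace Cfsg.Agent.S2751


open Subgroup H24 H9K

theorem edge_bound {G : Type*} [Group G] [Finite G] {M₁ M₂ : Subgroup G} (hE : Edge M₁ M₂) :
    Nat.card (M₁ ⊓ M₂ :) ≤ 128 := by
  by_cases hc : ¬ ∀ δ : CosetVertex M₁ M₂, CharP 2 (St δ)
  · obtain ⟨δ, hδ⟩ := not_forall.1 hc
    obtain ⟨β, h1⟩ := exists_adj δ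
    obtain ⟨γ₁, γ₂, a1, a2, n1, n2, n3⟩ := hE.exists_two h1.symm
    have k : ∀ γ, β ~ γ → 𝐎[St β] ⊓ (𝐎[St δ] ⊓ 𝐎[St γ₁] ⊓ 𝐎[St γ₂]) ≤ 𝐎[St γ] := fun γ a => by
      rcases hE.three h1.symm a1 a2 n1 n2 n3 a with rfl | rfl | rfl
      exacts [inf_le_right.trans (inf_le_left.trans inf_le_left),
        inf_le_right.trans (inf_le_left.trans inf_le_right), inf_le_right.trans inf_le_right]
    have hn : St β ≤ 𝐍[𝐎[St β] ⊓ (𝐎[St δ] ⊓ 𝐎[St γ₁] ⊓ 𝐎[St γ₂])] := fun g hg => by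
      have k2 : ∀ γ, β ~ γ → cj (𝐎[St β] ⊓ (𝐎[St δ] ⊓ 𝐎[St γ₁] ⊓ 𝐎[St γ₂])) g ≤ 𝐎[St γ] :=
        fun γ a => by
          rw [cj_le_iff, ← O_smul]
          exact k _ ((inv_mem hg : g⁻¹ • β = β) ▸ adj_smul a g⁻¹)
      exact cj_eq_self_iff.1 (eq_of_le_of_card_le (le_inf (((cj_le_cj_iff (g := g)).2
        inf_le_left).trans (cj_eq_of_mem_normalizer (St_le_O β hg)).le)
        (le_inf (le_inf (k2 _ h1.symm) (k2 _ a1)) (k2 _ a2))) (card_cj _ _).ge)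
    have e := hE.eq_bot h1 ((k _ h1.symm).trans (O_le_St δ)) (inf_le_left.trans (O_le_St β))
      ((hE.half h1).le_normalizer_of_res (((hE.half h1).res_le_centralizer hδ).trans
        (centralizer_anti (k _ h1.symm))) (inf_le_right.trans hn)) hn
    have ki : ∀ {γ}, β ~ γ → 𝐎[St γ].relIndex 𝐎[St β] ≤ 2 := fun a =>
      hE.relIndex_le a.symm ((hE.O_le a).trans (inf_comm _ _).le)
    have e2 := card_le_mul_of_relIndex (relIndex_inf_le.trans (Nat.mul_le_mul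
      (relIndex_inf_le.trans (Nat.mul_le_mul (ki h1.symm) (ki a1))) (ki a2)))
    rw [e, card_bot] at e2
    rw [hE.card_T β]
    omega
  rw [not_not] at hc
  have b := adj_base (M₁ := M₁) (M₂ := M₂) 1
  have c1 := hc (Sum.inl ((1 : G) : G ⧸ M₁))
  have c2 := hc (Sum.inr ((1 : G) : G ⧸ M₂))
  rw [St_inl, cj_one] at c1
  rw [St_inr, cj_one] at c2
  by_cases hz : ¬ M₁ ≤ 𝐂[𝐙[M₁]] ∧ ¬ M₂ ≤ 𝐂[𝐙[M₂]]
  · rcases hE.iso c1 c2 hz.1 hz.2 with ⟨a, -⟩ | ⟨a, -⟩ <;> omega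
  obtain ⟨c, hB, p, h1, h2⟩ := hE.exists_crit hc
  refine Mi.final ⟨⟨hE, hc, hB⟩, fun δ ε a n1 n2 => edge_transfer
    (P := fun A B => ¬ (¬ A ≤ 𝐂[𝐙[A]] ∧ ¬ B ≤ 𝐂[𝐙[B]])) hz (fun A B h h' => h h'.symm)
    (fun A B g h => by rwa [← cj_scc, ← cj_scc, ← cj_centralizer, ← cj_centralizer, cj_le_cj_iff,
      cj_le_cj_iff]) a ⟨n1, n2⟩⟩ ⟨h1, h2⟩

/-- Goldschmidt's bound for amalgams of index (3, 3): let M₁ and M₂ be finite subgroups of a group G such that M₁ ⊓ M₂ is a Sylow 2-subgroup of both M₁ and M₂, each quotient Mᵢ / O₂(Mᵢ) is isomorphic to the symmetric group of degree 3, and no nontrivial subgroup of M₁ ⊓ M₂ is normal in both M₁ and M₂. Then M₁ ⊓ M₂ has order at most 2^7. -/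
theorem result {G : Type*} [Group G] (M₁ M₂ : Subgroup G) [Finite M₁] [Finite M₂] (ha₁ : ∃ P : Sylow 2 M₁, (P : Subgroup M₁) = (M₁ ⊓ M₂).subgroupOf M₁) (ha₂ : ∃ P : Sylow 2 M₂, (P : Subgroup M₂) = (M₁ ⊓ M₂).subgroupOf M₂) (hb₁ : Nonempty (M₁ ⧸ Cfsg.pCore 2 M₁ ≃* Equiv.Perm (Fin 3))) (hb₂ : Nonempty (M₂ ⧸ Cfsg.pCore 2 M₂ ≃* Equiv.Perm (Fin 3))) (hc : ∀ N : Subgroup G, N ≤ M₁ ⊓ M₂ → (N.subgroupOf M₁).Normal → (N.subgroupOf M₂).Normal → N = ⊥) : Nat.card ↥(M₁ ⊓ M₂) ≤ 2 ^ 7 := by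
  obtain ⟨S₁, hS₁⟩ := ha₁
  obtain ⟨S₂, hS₂⟩ := ha₂
  obtain ⟨X, _, _, f₁, f₂, i1, i2, hE, e, -⟩ := exists_edge (hS₁ ▸ half_top S₁ hb₁)
    (hS₂ ▸ half_top S₂ hb₂) fun N a b c => hc N a (normal_subgroupOf_of_le_normalizer' b)
      (normal_subgroupOf_of_le_normalizer' c)
  have := edge_bound hE
  rwa [e, card_map_of_injective i1, Nat.card_congr (subgroupOfEquivOfLe inf_le_left).toEquiv] at this

end Cfsg.Agent.S2751
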