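import Cfsg.Statements.S2758
import Cfsg.Agent.H22.Inv

set_option autoImplicit false
set_option linter.style.haveILetI false
open Cfsg

namespace Cfsg.Agent.S2758

/-- For an odd prime p and a finite group G the following are equivalent: the dihedral group of order 2p is involved in G; some element of 2-power order normalizes but does not centralize some p-subgroup of G; some element of 2-power order inverts some nonidentity element of p-power order. -/
theorem result {G : Type*} [Group G] [Finite G] {p : ℕ} [Fact p.Prime] (hp : p ≠ 2) : (Cfsg.Involves (DihedralGroup p) G ↔ ∃ (x : G) (P : Subgroup G), (∃ k : ℕ, orderOf x = 2 ^ k) ∧ IsPGroup p ↥P ∧ x ∈ Subgroup.normalizer (P : Set G) ∧ x ∉ Subgroup.centralizer (P : Set G)) ∧ (Cfsg.Involves (DihedralGroup p) G ↔ ∃ x y : G, (∃ k : ℕ, orderOf x = 2 ^ k) ∧ (∃ k : ℕ, orderOf y = p ^ k) ∧ y ≠ 1 ∧ x * y * x⁻¹ = y⁻¹) := by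
  open Cfsg.Agent.H22I in
  have a := fun (h : ∃ x y : G, (∃ k : ℕ, orderOf x = 2 ^ k) ∧ (∃ k : ℕ, orderOf y = p ^ k) ∧ y ≠ 1 ∧
    x * y * x⁻¹ = y⁻¹) => let ⟨_, _, ⟨_, h1⟩, ⟨_, h2⟩, h3, h4⟩ := h; dih_of_inv hp h1 h2 h3 h4
  have b := fun (h : ∃ (x : G) (P : Subgroup G), (∃ k : ℕ, orderOf x = 2 ^ k) ∧ IsPGroup p ↥P ∧
    x ∈ Subgroup.normalizer (P : Set G) ∧ x ∉ Subgroup.centralizer (P : Set G)) =>
    let ⟨_, _, ⟨_, h1⟩, h2, h3, h4⟩ := h; inv_of_norm h1 h2 h3 h4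
  exact ⟨⟨norm_of_dih hp, fun h => a (b h)⟩, fun h => b (norm_of_dih hp h), a⟩

end Cfsg.Agent.S2758
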