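import Cfsg.Statements.S2760
import Cfsg.Agent.H24.Misc1

set_option autoImplicit false
open Cfsg

namespace Cfsg.Agent.S2760

/-- Let G be a finite group with C_G(O₂(G)) ≤ O₂(G) and H a subgroup of G such that H is normal in G, or the subgroup O²(H) generated by the elements of H of odd order is normal in G. Then C_H(O₂(H)) ≤ O₂(H). -/
theorem result {G : Type*} [Group G] [Finite G] (hchar : Subgroup.centralizer (Cfsg.pCore 2 G : Set G) ≤ Cfsg.pCore 2 G) (H : Subgroup G) (hH : H.Normal ∨ ((Cfsg.pResidual 2 ↥H).map H.subtype).Normal) : Subgroup.centralizer (Cfsg.pCore 2 ↥H : Set ↥H) ≤ Cfsg.pCore 2 ↥H := by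
  open Subgroup Cfsg.Agent.H24 in
  open scoped commutatorElement in
  open Cfsg.Agent.H10 (SubnormalIn OqOf) in
  open Cfsg.Agent.H9 (maxEA) in
  have h : CharP 2 (⊤ : Subgroup G) := charP_top_iff.mpr hchar
  rw [← H24.charP_iff]
  rcases hH with hH | hH
  · exact h.of_normal le_top (top_le_normalizer H)
  · rw [map_pResidual_subtype] at hH
    have h1 := h.of_normal le_top (top_le_normalizer (pResidualOf 2 H))
    exact charP_of_forall fun E h2 h3 h4 _ => h1.eq_bot_of_le_centralizer h2 (h2.ge.trans (pResidualOf_mono h3)) (h4.trans (centralizer_anti (pCoreOf_le_of_normal (pResidualOf_le 2 H) (le_normalizer_pResidualOf 2 H))))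

end Cfsg.Agent.S2760
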