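import Cfsg.Statements.S2763
import Cfsg.Agent.H24.PU9

set_option autoImplicit false
open Cfsg

namespace Cfsg.Agent.S2763

section
open Subgroup Cfsg.Agent.H24
open scoped commutatorElement
open Cfsg.Agent.H10 (SubnormalIn OqOf)
open Cfsg.Agent.H9 (maxEA)

theorem aux {F : Type*} [Field F] [Finite F] (p : ℕ) [Fact p.Prime] [_root_.CharP F p] {S : Subgroup (qdOver F)}
    (hS : SylIn p S ⊤) (T : Subgroup S) (h2 : T.Characteristic) (h3 : T ≠ ⊥) :
    𝐍[T.map S.subtype] = 𝐍[S] ∧ 𝐍[S] ≠ ⊤ := by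
  rw [← subgroupOf_map_subtype' T] at h2
  have h4 := normalizer_le_of_char (map_subtype_le T) h2
  have h5 : ¬ ⊤ ≤ 𝐍[T.map S.subtype] := fun e => h3 (map_subtype_eq_bot_iff.1
    (noChar_qdOver p hS _ (map_subtype_le T) h2 e))
  refine ⟨le_antisymm (fun g hg => ?_) h4, fun e => h5 (e.ge.trans h4)⟩
  obtain ⟨x, hx⟩ := qdNS_full.root_eq_of_sylIn hS
  rw [sup_eq_left.2 ((qdNS_ker.trans (pCore_qdOver p).symm).le.trans ((pCoreOf_top p).ge.trans hS.pCoreOf_le))] at hx
  subst hx
  refine (qdNS F).stab_le_norm_root x ⟨mem_top g, by_contra fun e => h5 ?_⟩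
  exact (qdNS_full.root_sup_root (Ne.symm e)).ge.trans (sup_le (le_normalizer.trans h4)
    (((qdNS F).cj_root (mem_top g) x).ge.trans (cj_le_of_mem (le_normalizer.trans h4) hg)))

end

/-- In the group Qd(p) (p prime; the natural semidirect product of an elementary abelian group of order p² by SL₂(p)), the normalizer of every nontrivial characteristic subgroup of a Sylow p-subgroup S equals the normalizer of S, which is a proper subgroup; in particular no such characteristic subgroup is normal. -/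
theorem result {p : ℕ} [Fact p.Prime] (S : Sylow p ↥(Cfsg.qd p)) (T : Subgroup ↥(S : Subgroup ↥(Cfsg.qd p))) (hT : T ≠ ⊥) (hTc : T.Characteristic) : Subgroup.normalizer ((T.map (S : Subgroup ↥(Cfsg.qd p)).subtype : Subgroup ↥(Cfsg.qd p)) : Set ↥(Cfsg.qd p)) = Subgroup.normalizer ((S : Subgroup ↥(Cfsg.qd p)) : Set ↥(Cfsg.qd p)) ∧ Subgroup.normalizer ((S : Subgroup ↥(Cfsg.qd p)) : Set ↥(Cfsg.qd p)) ≠ ⊤ := by
  open Subgroup Cfsg.Agent.H24 in
  open scoped commutatorElement in
  open Cfsg.Agent.H10 (SubnormalIn OqOf) in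
  open Cfsg.Agent.H9 (maxEA) in
  exact aux (F := ZMod p) p (sylIn_top S) T hTc hT

end Cfsg.Agent.S2763
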