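import Cfsg.Statements.S2765
import Cfsg.Agent.H24.PU7

set_option autoImplicit false
open Cfsg

namespace Cfsg.Agent.S2765

/-- In the same pushing-up situation (G finite, C_G(O_p(G)) ≤ O_p(G), G/K ≅ PSL₂(p^n) with n ≥ 1, a Sylow p-subgroup S in exactly one maximal subgroup, no nontrivial characteristic subgroup of S normal in G), one of the following holds: (I) S has nilpotency class 2, exponent 4 if p = 2 and exponent p otherwise, and G has exactly one noncentral chief factor inside O_p(G); or (II) p = 3, S has class 3 and exponent 9, and G has exactly two noncentral chief factors inside O_p(G). 'Exactly one' is phrased as: some noncentral chief factor U/W inside O_p(G) with G acting hypercentrally on W and on O_p(G)/U; 'exactly two' analogously with a chain. -/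
theorem result {G : Type*} [Group G] [Finite G] {p : ℕ} [Fact p.Prime] (S : Sylow p G) (hE₁ : Subgroup.centralizer (Cfsg.pCore p G : Set G) ≤ Cfsg.pCore p G) (hE₂ : ∃! M : Subgroup G, IsCoatom M ∧ (S : Subgroup G) ≤ M) (K : Subgroup G) [K.Normal] (F : Type) [Field F] [Fintype F] (n : ℕ) (hn : 1 ≤ n) (hF : Fintype.card F = p ^ n) (hE₃ : Nonempty (G ⧸ K ≃* Matrix.ProjectiveSpecialLinearGroup (Fin 2) F)) (hd : ∀ T : Subgroup ↥(S : Subgroup G), T ≠ ⊥ → T.Characteristic → ¬ (T.map (S : Subgroup G).subtype).Normal) : ((S : Subgroup G).lowerCentralSeries 2 = ⊥ ∧ (S : Subgroup G).lowerCentralSeries 1 ≠ ⊥ ∧ (p = 2 → Monoid.exponent ↥(S : Subgroup G) = 4) ∧ (p ≠ 2 → Monoid.exponent ↥(S : Subgroup G) = p) ∧ (∃ U W : Subgroup G, W ≤ U ∧ U ≤ (Cfsg.pCore p G) ∧ Cfsg.IsChiefFactor U W ∧ ¬ ⁅U, (⊤ : Subgroup G)⁆ ≤ W ∧ (∃ k : ℕ, Cfsg.iterCommutator W ⊤ k = ⊥) ∧ (∃ k : ℕ, Cfsg.iterCommutator (Cfsg.pCore p G)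 ⊤ k ≤ U))) ∨ (p = 3 ∧ (S : Subgroup G).lowerCentralSeries 3 = ⊥ ∧ (S : Subgroup G).lowerCentralSeries 2 ≠ ⊥ ∧ Monoid.exponent ↥(S : Subgroup G) = 9 ∧ (∃ U₁ W₁ U₂ W₂ : Subgroup G, W₁ ≤ U₁ ∧ U₁ ≤ W₂ ∧ W₂ ≤ U₂ ∧ U₂ ≤ (Cfsg.pCore p G) ∧ Cfsg.IsChiefFactor U₁ W₁ ∧ Cfsg.IsChiefFactor U₂ W₂ ∧ ¬ ⁅U₁, (⊤ : Subgroup G)⁆ ≤ W₁ ∧ ¬ ⁅U₂, (⊤ : Subgroup G)⁆ ≤ W₂ ∧ (∃ k : ℕ, Cfsg.iterCommutator W₁ ⊤ k = ⊥) ∧ (∃ k : ℕ, Cfsg.iterCommutator W₂ ⊤ k ≤ U₁) ∧ (∃ k : ℕ, Cfsg.iterCommutator (Cfsg.pCore p G) ⊤ k ≤ U₂))) := by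
  open Subgroup Cfsg.Agent.H24 in
  open scoped commutatorElement in
  open Cfsg.Agent.H10 (SubnormalIn OqOf) in
  open Cfsg.Agent.H9 (maxEA) in
  have hp : Fact p.Prime := ‹_›
  have hn := noChar_top hd
  have hS := sylIn_top S
  obtain ⟨hv, h1, h2⟩ := pushing_up_quot hF hE₁ hS hE₂ hE₃ hn
  obtain ⟨N, hN⟩ := hv.exists_ns hS h1
  have c1 := commutator_le_frattiniOf hS.pgrp
  have na : ⁅(S : Subgroup G), (S : Subgroup G)⁆ ≠ ⊥ := fun e =>
    hv.not_le hS ((hv.le_syl hS).trans (le_centralizer_iff_commutator.2 e))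
  have ex : ∀ m, (∀ a ∈ (S : Subgroup G), a ^ m = 1) ↔ Monoid.exponent (S : Subgroup G) ∣ m := fun m => by
    rw [Monoid.exponent_dvd_iff_forall_pow_eq_one]
    exact ⟨fun h a => Subtype.ext (h a a.2), fun h a ha => congrArg Subtype.val (h ⟨a, ha⟩)⟩
  have i1 : ∃ k, iterCommutator (sylowCenterClosure p ⊤ ⊓ 𝐂[(⊤ : Subgroup G)]) ⊤ k = ⊥ :=
    ⟨1, le_centralizer_iff_commutator.1 inf_le_right⟩
  haveI := top_le_normalizer_iff.1 N.norm
  rw [← pCoreOf_top]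
  rcases h2 with h | h
  · refine .inl ⟨le_bot_iff.1 ((commutator_mono c1 le_rfl).trans (hn.fc hS h.fc).le), na, fun e => ?_, fun e => ?_,
      _, _, N.le, hv.le_core, hN.isChiefFactor, hN.not_commutator_le, i1, exists_iter_le (isPGroup_pCoreOf p ⊤)
      (top_le_normalizer _) (top_le_normalizer _) (le_top.trans (top_le_normalizer _)) h.res⟩
    · subst e
      have h3 : Monoid.exponent (S : Subgroup G) ∣ 2 ^ 2 := (ex _).1 fun a ha => hn.pow_sq hS (h.f2 hv hS) ha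
      obtain ⟨k, hk, e⟩ := (Nat.dvd_prime_pow Nat.prime_two).1 h3
      rcases hk.lt_or_eq with hk | rfl
      · have h4 := (ex 2).2 (e ▸ pow_dvd_pow 2 (Nat.lt_succ_iff.1 hk))
        refine (na (le_centralizer_iff_commutator.1 fun a ha => mem_centralizer_iff'.2 fun b hb => ?_)).elim
        exact (Commute.of_orderOf_dvd_two (G := (S : Subgroup G)) (fun x => orderOf_dvd_of_pow_eq_one
          (Subtype.ext (h4 x x.2))) ⟨b, hb⟩ ⟨a, ha⟩).map (S : Subgroup G).subtype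
      · exact e
    · have h3 := (ex _).1 fun a ha => hn.pw hS (h.pw e) ha
      refine ((Nat.dvd_prime hp.out).1 h3).resolve_left fun e' => na (le_bot_iff.1 (commutator_le_of_le ?_ ?_)) <;>
        exact fun a ha => by simpa using (ex 1).2 e'.dvd a ha
  · obtain ⟨D, d1, d2, N', hN'⟩ := h.ex' hv hS h1
    haveI := top_le_normalizer_iff.1 N'.norm₀
    refine .inr ⟨h.three, le_bot_iff.1 ((commutator_mono (commutator_mono c1 le_rfl) le_rfl).trans (hn.fc2 hS h.fc).le),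
      h.cm, ?_, _, _, _, _, N.le, d1, N'.le, le_rfl, hN.isChiefFactor, hN'.isChiefFactor, hN.not_commutator_le,
      hN'.not_commutator_le, i1, exists_iter_le ((isPGroup_pCoreOf p ⊤).to_le N'.le)
      (top_le_normalizer _) (top_le_normalizer _) (le_top.trans (top_le_normalizer _)) d2, ⟨0, le_rfl⟩⟩
    obtain rfl := h.three
    have h3 : Monoid.exponent (S : Subgroup G) ∣ 3 ^ 2 := (ex _).1 fun a ha => hn.pow_sq hS h.f2 ha
    obtain ⟨k, hk, e⟩ := (Nat.dvd_prime_pow Nat.prime_three).1 h3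
    rcases hk.lt_or_eq with hk | rfl
    · obtain ⟨t, ht, h4⟩ := h.pw
      exact (h4 ((ex 3).2 (e ▸ pow_dvd_pow 3 (Nat.lt_succ_iff.1 hk)) t ht)).elim
    · exact e

end Cfsg.Agent.S2765
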