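import Cfsg.Statements.S2766
import Cfsg.Agent.H24.PU9

set_option autoImplicit false
open Cfsg

namespace Cfsg.Agent.S2766

/-- Let p ≥ 5 be prime and G a maximal p-local subgroup of a finite group H (G is the normalizer of a nontrivial p-subgroup and lies in no other such normalizer). Suppose C_G(O_p(G)) ≤ O_p(G), G/K ≅ PSL₂(p^n) for some normal K and n ≥ 1, a Sylow p-subgroup S of G lies in exactly one maximal subgroup of G, and N_H(S) is not contained in G. Then G = G₀ × E for subgroups G₀ ≅ Qd(p^n) (the natural semidirect product of the plane over the field with p^n elements by SL₂) and E an elementary abelian p-group. -/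
theorem result {H : Type*} [Group H] [Finite H] {p : ℕ} [Fact p.Prime] (hp : 5 ≤ p) (G : Subgroup H) (hloc : ∃ R : Subgroup H, IsPGroup p ↥R ∧ R ≠ ⊥ ∧ G = Subgroup.normalizer (R : Set H)) (hmax : ∀ R : Subgroup H, IsPGroup p ↥R → R ≠ ⊥ → G ≤ Subgroup.normalizer (R : Set H) → Subgroup.normalizer (R : Set H) = G) (S : Sylow p ↥G) (hE₁ : Subgroup.centralizer (Cfsg.pCore p ↥G : Set ↥G) ≤ Cfsg.pCore p ↥G) (hE₂ : ∃! M : Subgroup ↥G, IsCoatom M ∧ (S : Subgroup ↥G) ≤ M) (K : Subgroup ↥G) [K.Normal] (F : Type) [Field F] [Fintype F] (n : ℕ) (hn : 1 ≤ n) (hF : Fintype.card F = p ^ n) (hE₃ : Nonempty (↥G ⧸ K ≃* Matrix.ProjectiveSpecialLinearGroup (Fin 2) F)) (hN : ¬ Subgroup.normalizer (((S : Subgroup ↥G).map G.subtype : Subgroup H) : Set H) ≤ G) : ∃ G₀ E : Subgroup H, Cfsg.IsInternalDirectProduct G₀ E G ∧ Cfsg.IsElementaryAbelian p E ∧ Nonempty (↥G₀ ≃* ↥(Cfsg.qdOver F)) := by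
  open Subgroup Cfsg.Agent.H24 in
  open scoped commutatorElement in
  open Cfsg.Agent.H10 (SubnormalIn OqOf) in
  open Cfsg.Agent.H9 (maxEA) in
  have hp' : p ≠ 2 := by omega
  have hS : SylIn p ((S : Subgroup G).map G.subtype) G := sylIn_iff_exists.2 ⟨S, rfl⟩
  have key : ∀ U ≤ (S : Subgroup G).map G.subtype, G ≤ 𝐍[U] → U ≠ ⊥ → 𝐍[U] = G := fun U h1 h2 h3 =>
    hmax U (hS.pgrp.to_le h1) h3 h2
  have hne : ∀ U ≤ (S : Subgroup G).map G.subtype, G ≤ 𝐍[U] → 𝐍[(S : Subgroup G).map G.subtype] ≤ 𝐍[U] → U = ⊥ :=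
    fun U h1 h2 h3 => by_contra fun h4 => hN (key U h1 h2 h4 ▸ h3)
  have nc : NoChar G ((S : Subgroup G).map G.subtype) := fun U h1 h2 h3 => hne U h1 h3 (normalizer_le_of_char h1 h2)
  obtain ⟨hv, h1, -⟩ := pushing_up_quot hF hE₁ (sylIn_top S) hE₂ hE₃ fun U u1 u2 u3 => by
    rw [← map_subtype_eq_bot_iff]
    refine hne _ (map_mono u1) (by simpa only [map_subtype_top] using map_le_normalizer_map G.subtype u3) fun g hg => ?_
    refine mem_normalizer_of_conj_mem ?_
    rintro _ ⟨x, hx, rfl⟩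
    let e := (S : Subgroup G).equivMapOfInjective _ G.subtype_injective
    have := characteristic_iff_le_comap.1 u2 (e.trans ((Subgroup.normalizerMonoidHom _ ⟨g, hg⟩).trans e.symm))
      (x := ⟨x, u1 hx⟩) hx
    exact ⟨_, this, congrArg Subtype.val (e.apply_symm_apply _)⟩
  have hv' := hv.map G.subtype_injective
  rw [← relIndex_map_map_of_injective _ _ G.subtype_injective, map_pCoreOf G.subtype_injective] at h1
  rw [map_subtype_top] at hv' h1
  obtain ⟨g, h | h⟩ := amalgam_conj hv' hS le_rfl hne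
  swap; · have := h.eq_three; omega
  refine split_qdOver hv' hS h.o1 hp' h1 ?_ (by_contra fun e => h.crit ?_) h.v₁.comm (h.v₁.le_syl h.s₁) h.sup
  · rw [Nat.card_eq_fintype_card, hF]
    exact (by omega : 4 ≤ p).trans (Nat.le_self_pow (by omega) p)
  · have e1 := key _ ((frattiniOf_le _).trans hS.pCoreOf_le) (le_normalizer_frattiniOf (le_normalizer_pCoreOf p G)) e
    rw [h.frattini_eq] at e1
    have e2 : cj G g = G := eq_of_le_of_card_le ((le_normalizer_frattiniOf (le_normalizer_pCoreOf p _)).trans e1.le)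
      (card_cj G g).ge
    rw [e2]; exact hv'.le_core

end Cfsg.Agent.S2766
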