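import Cfsg.Statements.S2768
import Cfsg.Agent.H24.PU2

set_option autoImplicit false
open Cfsg

namespace Cfsg.Agent.S2768

/-- Let G be a finite group and p a prime with C_G(O_p(G)) ≤ O_p(G), such that a Sylow p-subgroup S lies in exactly one maximal subgroup of G and G/K ≅ PSL₂(p^n) for some normal K and n ≥ 1. Put J̃(S) = C_S(Z(J(S))), where J(S) is generated by the abelian subgroups of S of largest order. If Z(S) is not normal in G, then J̃(S) is a Sylow p-subgroup of its normal closure ⟨J̃(S)^G⟩. -/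
theorem result {G : Type*} [Group G] [Finite G] {p : ℕ} [Fact p.Prime] (S : Sylow p G) (hE₁ : Subgroup.centralizer (Cfsg.pCore p G : Set G) ≤ Cfsg.pCore p G) (hE₂ : ∃! M : Subgroup G, IsCoatom M ∧ (S : Subgroup G) ≤ M) (K : Subgroup G) [K.Normal] (F : Type) [Field F] [Fintype F] (n : ℕ) (hn : 1 ≤ n) (hF : Fintype.card F = p ^ n) (hE₃ : Nonempty (G ⧸ K ≃* Matrix.ProjectiveSpecialLinearGroup (Fin 2) F)) (hZ : ¬ ((S : Subgroup G) ⊓ Subgroup.centralizer ((S : Subgroup G) : Set G)).Normal) : ∃ P : Sylow p ↥(Subgroup.normalClosure (((S : Subgroup G) ⊓ Subgroup.centralizer (Cfsg.centerThompsonAOf (S : Subgroup G) : Set G)) : Set G)), (P : Subgroup ↥(Subgroup.normalClosure (((S : Subgroup G) ⊓ Subgroup.centralizer (Cfsg.centerThompsonAOf (S : Subgroup G) : Set G)) : Set G))) = (((S : Subgroup G) ⊓ Subgroup.centralizer (Cfsg.centerThompsonAOf (S : Subgroup G) : Set G))).subgroupOf (Subgroup.normalClosure (((S : Subgroup G) ⊓ Subgroup.centralizer (Cfsg.centerThompsonAOf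 (S : Subgroup G) : Set G)) : Set G)) := by
  open Subgroup Cfsg.Agent.H24 in
  open scoped commutatorElement in
  open Cfsg.Agent.H10 (SubnormalIn OqOf) in
  open Cfsg.Agent.H9 (maxEA) in
  obtain ⟨M, h⟩ := r1_of_quot hF hE₁ (sylIn_top S) hE₂ hE₃
  have key : (S : Subgroup G) ⊓ ncl ((S : Subgroup G) ⊓ 𝐂[centerThompsonAOf (S : Subgroup G)]) ⊤ =
      (S : Subgroup G) ⊓ 𝐂[centerThompsonAOf (S : Subgroup G)] := by
    rw [H9.centerThompsonAOf_eq, ← omegaOne_zero (centerThompsonOf 0 _)]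
    rcases h.cases 0 with h1 | ⟨h1, -⟩ | ⟨F, _, _, N, h1, A, hA, h2⟩
    · exact absurd (normal_of_le_centralizer_top (by rw [← omegaOneCenter_zero]; exact le_centralizer_iff.1 h1)) hZ
    · rw [ncl_eq_self h1]; simp
    · exact N.baumann_syl h.syl h1 hA h2
  have := h.syl.inf_normal le_top (le_normalizer_ncl ((S : Subgroup G) ⊓ 𝐂[centerThompsonAOf (S : Subgroup G)]) ⊤)
  rw [key, ncl_top] at this
  exact ⟨this.toSylow, this.coe_toSylow⟩

end Cfsg.Agent.S2768
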