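import Cfsg.Statements.S2770
import Cfsg.Agent.H24.PU2

set_option autoImplicit false
open Cfsg

namespace Cfsg.Agent.S2770

/-- Let G be a finite group and p a prime with C_G(O_p(G)) ≤ O_p(G), S a Sylow p-subgroup lying in exactly one maximal subgroup of G, and G/K ≅ PSL₂(p^n) for some normal K and n ≥ 1. If Z(S) is not elementary abelian, then either ℧¹(Z(S)) (the subgroup generated by the p-th powers of the elements of Z(S)) is normal in G or C_S(Z(J(S))) is normal in G, J(S) being generated by the abelian subgroups of S of largest order. -/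
theorem result {G : Type*} [Group G] [Finite G] {p : ℕ} [Fact p.Prime] (S : Sylow p G) (hE₁ : Subgroup.centralizer (Cfsg.pCore p G : Set G) ≤ Cfsg.pCore p G) (hE₂ : ∃! M : Subgroup G, IsCoatom M ∧ (S : Subgroup G) ≤ M) (K : Subgroup G) [K.Normal] (F : Type) [Field F] [Fintype F] (n : ℕ) (hn : 1 ≤ n) (hF : Fintype.card F = p ^ n) (hE₃ : Nonempty (G ⧸ K ≃* Matrix.ProjectiveSpecialLinearGroup (Fin 2) F)) (h : ¬ Cfsg.IsElementaryAbelian p ((S : Subgroup G) ⊓ Subgroup.centralizer ((S : Subgroup G) : Set G))) : (Cfsg.powerClosure p 1 ((S : Subgroup G) ⊓ Subgroup.centralizer ((S : Subgroup G) : Set G))).Normal ∨ (((S : Subgroup G) ⊓ Subgroup.centralizer (Cfsg.centerThompsonAOf (S : Subgroup G) : Set G))).Normal := by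
  open Subgroup Cfsg.Agent.H24 in
  open scoped commutatorElement in
  open Cfsg.Agent.H10 (SubnormalIn OqOf) in
  open Cfsg.Agent.H9 (maxEA) in
  obtain ⟨M, h'⟩ := r1_of_quot hF hE₁ (sylIn_top S) hE₂ hE₃
  rw [H9.centerThompsonAOf_eq, ← omegaOne_zero (centerThompsonOf 0 _), ← omegaOneCenter_zero]
  rcases h'.cases 0 with h1 | ⟨h1, -⟩ | ⟨F, _, _, N, h1, A, hA, h2⟩
  · refine .inl (normal_of_le_centralizer_top ((closure_le _).2 ?_))
    rintro _ ⟨x, hx, rfl⟩
    exact pow_mem (le_centralizer_iff.1 h1 hx) _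
  · exact .inr (top_le_normalizer_iff.1 h1)
  · refine .inl (normal_of_le_centralizer_top ((closure_le _).2 ?_))
    rintro _ ⟨x, hx, rfl⟩
    haveI := N.charF
    simpa using (N.pow_mem (p := p) (le_ncl _ _ hx)).2

end Cfsg.Agent.S2770
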