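import Cfsg.Statements.S2772
import Cfsg.Agent.H9.Amal5
import Cfsg.Agent.H9.S4F2

set_option autoImplicit false
open Cfsg

namespace Cfsg.Agent.S2772

open Subgroup H24 H9K
open scoped commutatorElement

section
variable {G : Type*} [Group G] [Finite G]

structure HalfQ (q : ℕ) (A B : Subgroup G) : Prop where
  prime : q.Prime
  syl : SylIn 2 B A
  idx : B.relIndex A = q
  idx2 : 𝐎[A].relIndex B = 2

namespace HalfQ

variable {q : ℕ} {A B H Y : Subgroup G} (h : HalfQ q A B) {g x : G}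
include h

theorem not_le : ¬ B ≤ 𝐎[A] := fun h0 => by
  have := h.idx2; rw [relIndex_eq_one.2 h0] at this; omega

theorem not_le' : ¬ A ≤ B := fun h0 => h.prime.ne_one (h.idx ▸ relIndex_eq_one.2 h0)

theorem le_of_not_mem (h1 : B ≤ H) (hx : x ∈ H) (hxA : x ∈ A) (hxB : x ∉ B) : A ≤ H := by
  have h2 := relIndex_mul_relIndex B (H ⊓ A) A (le_inf h1 h.syl.le) inf_le_right
  rw [h.idx] at h2
  rcases (Nat.dvd_prime h.prime).1 (Dvd.intro _ h2) with e | e
  · exact absurd (relIndex_eq_one.1 e ⟨hx, hxA⟩) hxB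
  · rw [e] at h2
    have h3 : (H ⊓ A).relIndex A = 1 :=
      Nat.eq_of_mul_eq_mul_left h.prime.pos (h2.trans (mul_one q).symm)
    exact (relIndex_eq_one.1 h3).trans inf_le_left

theorem conj_not_mem (hg : g ∈ A) (hgB : g ∉ B) (hx : x ∈ B) (hxO : x ∉ 𝐎[A]) :
    g * x * g⁻¹ ∉ B := fun h0 => by
  have h2 : g * x * g⁻¹ ∉ 𝐎[A] := fun h3 => hxO (by
    simpa [mul_assoc] using conj_mem_of_mem_normalizer' (le_normalizer_pCoreOf 2 A hg) h3)
  have h1 : B ≤ H24.cj B g := (le_sup_of_relIndex_two h.idx2 (zpowers_le.2 h0)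
    fun h3 => h2 (zpowers_le.1 h3)).trans
      (sup_le (zpowers_le.2 (conj_mem_cj hx g)) (h.syl.cj_of_mem hg).pCoreOf_le)
  exact h.not_le (h.syl.pCoreOf_eq_of_normal (h.le_of_not_mem le_normalizer (cj_eq_self_iff.1
    (eq_of_le_of_card_le h1 (card_cj _ _).le).symm) hg hgB)).ge

theorem mem_O (hz : ¬ A ≤ 𝐂[𝛀[B]]) (hx : x ∈ A) (hc : x ∈ 𝐂[𝐙[A]]) : x ∈ 𝐎[A] := by
  have key : ∀ y ∈ A, y ∈ 𝐂[𝐙[A]] → y ∈ B := fun y hy hyc => by
    by_contra h0
    exact hz (h.le_of_not_mem (le_centralizer_omegaOneCenter 2 B)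
      (centralizer_anti h.syl.omegaOneCenter_le_scc hyc) hy h0)
  by_contra h0
  obtain ⟨g, hg, hgB⟩ := SetLike.not_le_iff_exists.1 h.not_le'
  exact h.conj_not_mem hg hgB (key x hx hc) h0 (key _ (mul_mem (mul_mem hg hx) (inv_mem hg))
    (conj_mem_of_mem_normalizer (le_normalizer_centralizer (le_normalizer_scc 2 A) hg) hc))

theorem three (hc : CharP 2 A) (hz : ¬ A ≤ 𝐂[𝛀[B]]) (h1 : Y ≤ B) (h2 : ¬ Y ≤ 𝐎[A])
    (h3 : 𝐂[Y].relIndex 𝐙[A] ≤ 2) : q = 3 := by
  haveI := Fact.mk h.prime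
  have hO := O_le_centralizer_Z hc
  have hn := le_normalizer_scc 2 A
  have hEA := hc.isEA_scc
  have hV := isPGroup_of_isElementaryAbelian hEA
  have c1 : 𝐂[B].relIndex 𝐙[A] ≤ 2 := by
    rwa [← inf_relIndex_right, le_antisymm (inf_le_inf_right _ (centralizer_anti h1))
      (le_inf ((le_centralizer_sup inf_le_left (inf_le_right.trans (le_centralizer_iff.1 hO))).trans
        (centralizer_anti (le_sup_of_relIndex_two h.idx2 h1 h2))) inf_le_right), inf_relIndex_right]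
  obtain ⟨g, hg, hgB⟩ := SetLike.not_le_iff_exists.1 h.not_le'
  have c2 : (H24.cj 𝐂[B] g).relIndex 𝐙[A] ≤ 2 := by
    rw [← cj_eq_of_mem_normalizer (hn hg), relIndex_cj]; exact c1
  obtain ⟨r, hr, hro⟩ := exists_orderOf_eq_prime (p := q) (H := A) (h.idx ▸ relIndex_dvd_card' _ _)
  have hq : Odd q := h.prime.odd_of_ne_two fun e => h.syl.not_dvd_relIndex (by rw [h.idx, e])
  have hz' := zpowers_le.2 hr
  have c3 : 𝐂[zpowers r].relIndex 𝐙[A] ≤ 4 := by
    refine le_trans (relIndex_le_of_le_left (H := 𝐂[B] ⊓ H24.cj 𝐂[B] g) ?_ (relIndex_ne_zero _))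
      (relIndex_inf_le.trans (Nat.mul_le_mul c1 c2))
    obtain ⟨x, hx, hxO⟩ := SetLike.not_le_iff_exists.1 h.not_le
    rw [cj_centralizer, ← centralizer_sup]
    exact centralizer_anti (hz'.trans (h.le_of_not_mem le_sup_left (mem_sup_right (conj_mem_cj hx g))
      (mul_mem (mul_mem hg (h.syl.le hx)) (inv_mem hg)) (h.conj_not_mem hg hgB hx hxO)))
  have hcop : (Nat.card (zpowers r)).Coprime 2 := by
    rw [Nat.card_zpowers, hro]; exact odd_iff_coprime.2 hq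
  haveI := isMulCommutative_iff_le_centralizer.2 (isEA_iff.1 hEA).1
  have d1 := commutator_sup_inf_centralizer_of_isPGroup hV (hz'.trans hn) hcop
  have d2 := H1.inf_centralizer_inf_commutator_eq_bot (hz'.trans hn)
    (coprime_card_of_isPGroup hV hcop)
  have hW : ⁅𝐙[A], zpowers r⁆ ≤ 𝐙[A] := commutator_le_left_of_le_normalizer (hz'.trans hn)
  have c4 := card_sup_mul_card_inf (A := ⁅𝐙[A], zpowers r⁆) (B := 𝐙[A] ⊓ 𝐂[zpowers r])
    (le_normalizer_of_le_centralizer ((hW.trans (isEA_iff.1 hEA).1).trans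
      (centralizer_anti inf_le_left)))
  rw [d1, inf_comm, d2, card_bot, mul_one] at c4
  have c5 := card_inf_mul_relIndex 𝐂[zpowers r] 𝐙[A]
  rw [inf_comm] at c5
  have c6 := card_pos' (𝐙[A] ⊓ 𝐂[zpowers r])
  have key : ∀ n, r ^ n ∈ 𝐂[⁅𝐙[A], zpowers r⁆] → q ∣ n := fun n hn' => by
    have e1 : r ^ n ∈ 𝐂[𝐙[A]] := by
      rw [← d1, centralizer_sup]
      exact ⟨hn', le_centralizer_iff.1 inf_le_right (pow_mem (mem_zpowers r) n)⟩
    have e2 : r ^ n ∈ 𝐎[A] ⊓ zpowers r :=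
      ⟨h.mem_O hz (pow_mem hr n) e1, pow_mem (mem_zpowers r) n⟩
    rw [inf_eq_bot_of_isPGroup_of_coprime (isPGroup_pCoreOf 2 A) hcop, mem_bot] at e2
    exact hro ▸ orderOf_dvd_of_pow_eq_one e2
  have hrn := right_le_normalizer_commutator 𝐙[A] (zpowers r) (mem_zpowers r)
  have h4 := four_of_card_le (hV.to_le hW) (by nlinarith) hrn (hro ▸ hq) fun h0 =>
    h.prime.one_lt.ne' (Nat.dvd_one.1 (key 1 (by rwa [pow_one])))
  rcases h4.sq_or_cube hrn with h5 | h5
  · exact absurd ((Nat.prime_dvd_prime_iff_eq h.prime Nat.prime_two).1 (key 2 (by rwa [pow_two])))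
      (by rintro rfl; exact absurd hq (by decide))
  · exact (Nat.prime_dvd_prime_iff_eq h.prime Nat.prime_three).1 (key 3 h5)

end HalfQ

end

/-- Sims' Theorem in local form: let H be a finite non-abelian simple group and G a maximal subgroup of H with C_G(O₂(G)) ≤ O₂(G), such that N_H(S) is not contained in G for a Sylow 2-subgroup S of G and G/O₂(G) is dihedral of order 2q for a prime q. Then G is isomorphic to the symmetric group of degree 4 or to its direct product with a group of order 2. -/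
theorem result {H : Type*} [Group H] [Finite H] [IsSimpleGroup H] (hna : ¬ IsMulCommutative H) (G : Subgroup H) (hG : IsCoatom G) (hchar : Subgroup.centralizer (Cfsg.pCore 2 ↥G : Set ↥G) ≤ Cfsg.pCore 2 ↥G) (S : Sylow 2 ↥G) (hN : ¬ Subgroup.normalizer (((S : Subgroup ↥G).map G.subtype : Subgroup H) : Set H) ≤ G) (q : ℕ) (hq : q.Prime) (hD : Nonempty (↥G ⧸ Cfsg.pCore 2 ↥G ≃* DihedralGroup q)) : Nonempty (↥G ≃* Equiv.Perm (Fin 4)) ∨ Nonempty (↥G ≃* Equiv.Perm (Fin 4) × Multiplicative (ZMod 2)) := by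
  obtain ⟨e⟩ := hD
  haveI : NeZero q := ⟨hq.ne_zero⟩
  have hS := sylIn_map S
  set T := (S : Subgroup G).map G.subtype
  have hc : CharP 2 G := charP_iff.2 hchar
  have h1 : 𝐎[G].relIndex G = 2 * q := by
    rw [relIndex, pCoreOf_subgroupOf, index, Nat.card_congr e.toEquiv, Nat.card_eq_fintype_card,
      DihedralGroup.card]
  have h2 := relIndex_mul_relIndex _ _ _ hS.pCoreOf_le hS.le
  have h3 := hS.not_dvd_relIndex
  obtain ⟨n, h4⟩ := exists_relIndex_eq_pow hS.pgrp 𝐎[G]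
  rw [h1, h4] at h2
  have h5 : T.relIndex G ∣ q := (Nat.Coprime.dvd_mul_left
    ((Nat.Prime.coprime_iff_not_dvd Nat.prime_two).2 h3).symm).1 (Dvd.intro_left _ h2)
  have h6 : T.relIndex G = q := ((Nat.dvd_prime hq).1 h5).resolve_left fun h0 => by
    rw [(hS.pCoreOf_eq_of_normal (le_normalizer_of_le (relIndex_eq_one.1 h0))),
      h0] at h1
    have := hq.two_le
    omega
  have h : HalfQ q G T := ⟨hq, hS, h6, by
    rw [h6] at h2
    rw [h4]; exact Nat.eq_of_mul_eq_mul_right hq.pos h2⟩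
  obtain ⟨x, hx, hxG⟩ := SetLike.not_le_iff_exists.1 hN
  have key : ∀ N ≤ G, G ≤ 𝐍[N] → ¬ 𝐍[N] ≤ G → N = ⊥ := fun N a b c => by
    have : N.Normal := top_le_normalizer_iff.1 (hG.2 _ (lt_of_le_not_ge b c)).ge
    exact (this.eq_bot_or_eq_top).resolve_right fun h0 => hG.1 (top_le_iff.1 (h0 ▸ a))
  have hT : T ≠ ⊥ := fun h0 => h.not_le (h0.le.trans bot_le)
  have hz : ¬ G ≤ 𝐂[𝛀[T]] := fun h0 => omegaOneCenter_ne_bot hS.pgrp hT
    (key _ ((omegaOneCenter_le 2 T).trans hS.le) (le_normalizer_of_le_centralizer h0)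
      fun h7 => hxG (h7 (le_normalizer_omegaOneCenter le_rfl hx)))
  have hJ : ¬ 𝐉[T] ≤ 𝐎[G] := fun h0 => H9.thompsonOf_ne_bot dvd_rfl hS.pgrp hT
    (key _ ((H9.thompsonOf_le 2 T).trans hS.le) (H9.thompsonOf_eq_of_le h0 hS.pCoreOf_le ▸
      le_normalizer_thompsonOf (le_normalizer_pCoreOf 2 G))
      fun h7 => hxG (h7 (le_normalizer_thompsonOf le_rfl hx)))
  rw [H9.thompsonOf_le_iff] at hJ
  push Not at hJ
  obtain ⟨A, hA, hAO⟩ := hJ
  obtain rfl : q = 3 := h.three hc hz hA.1 hAO ((card_mul_card_le hA hc.isEA_scc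
    (hc.scc_le_pCoreOf.trans hS.pCoreOf_le)).trans ((relIndex_le_of_le_left
      (O_le_centralizer_Z hc) (relIndex_ne_zero _)).trans
        (relIndex_eq_two_of_not_le h.idx2 hA.1 hAO).le))
  have hH : Half G T := ⟨hS.le, hS.pgrp, h6, h.idx2⟩
  have hH' := hH.cj x
  rw [cj_eq_of_mem_normalizer hx] at hH'
  have hne : ¬ cj G x ≤ G := fun h0 => hT (le_bot_iff.1 (key G le_rfl le_normalizer
    (fun h7 => hxG (h7 (mem_normalizer_of_cj_le h0))) ▸ hS.le))
  have e1 : G ⊓ cj G x = T := by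
    refine le_antisymm (fun y hy => ?_) (le_inf hS.le hH'.le)
    by_contra h0
    exact hne (hH'.le_of_not_mem hS.le hy.1 hy.2 h0)
  have hE : Edge G (cj G x) := ⟨e1 ▸ hH, inf_comm G _ ▸ e1 ▸ hH', fun N a b c =>
    key N (a.trans inf_le_left) b fun h0 => hne (c.trans h0)⟩
  have z1 : ¬ G ≤ 𝐂[𝐙[G]] := fun h0 => hz (h0.trans (centralizer_anti hS.omegaOneCenter_le_scc))
  exact (hE.iso hc (hc.cj x) z1 (by rwa [← cj_scc, ← cj_centralizer, cj_le_cj_iff])).imp
    And.right And.right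

end Cfsg.Agent.S2772
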