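import Cfsg.Statements.S2779
import Cfsg.Agent.H24.Nat4
import Cfsg.Agent.H24.SPE

set_option autoImplicit false
open Cfsg

namespace Cfsg.Agent.S2779

/-- Let L act on the elementary abelian p-group V (inside a finite group, by conjugation, faithfully) as SL₂(F) on its natural module, F a field with p^n elements, and let S be a Sylow p-subgroup of L. Then [V, S, S] = 1; |V| = p^(2n) and |C_V(S)| = p^n; and for every nonidentity s ∈ S and every v ∈ V outside C_V(S): C_V(s) = C_V(S) = [V, S] = [V, s] = the subgroup generated by the commutators [v, t], t ∈ S. -/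
theorem result {G : Type*} [Group G] [Finite G] {p : ℕ} [Fact p.Prime] {F : Type*} [Field F] [Fintype F] (n : ℕ) (hF : Fintype.card F = p ^ n) (V L : Subgroup G) (hnat : Cfsg.IsNaturalSL2Module F V L) (hf : L ⊓ Subgroup.centralizer (V : Set G) = ⊥) (S : Sylow p ↥L) (T : Subgroup G) (hT : T = ((S : Subgroup ↥L).map L.subtype)) : ⁅⁅V, T⁆, T⁆ = ⊥ ∧ Nat.card V = p ^ (2 * n) ∧ Nat.card ↥(V ⊓ Subgroup.centralizer ((T : Subgroup G) : Set G)) = p ^ n ∧ ∀ s ∈ T, s ≠ 1 → (V ⊓ Subgroup.centralizer ({s} : Set G)) = (V ⊓ Subgroup.centralizer ((T : Subgroup G) : Set G)) ∧ ⁅V, T⁆ = (V ⊓ Subgroup.centralizer ((T : Subgroup G) : Set G)) ∧ ⁅V, Subgroup.zpowers s⁆ = (V ⊓ Subgroup.centralizer ((T : Subgroup G) : Set G)) ∧ ∀ v ∈ V, v ∉ Subgroup.centralizer (T : Set G) → Subgroup.closure {x : G | ∃ t ∈ T, x = v * t * v⁻¹ * t⁻¹} = (V ⊓ Subgroup.centralizer ((T : Subgroup G) : Set G)) := by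
  open Subgroup Cfsg.Agent.H24 in
  open scoped commutatorElement in
  open Cfsg.Agent.H10 (SubnormalIn OqOf) in
  open Cfsg.Agent.H9 (maxEA) in
  haveI : _root_.CharP F p := charP_of_card (n := n) (by simpa using hF)
  have hF' : Nat.card F = p ^ n := by simpa using hF
  obtain ⟨N, hN⟩ := isNatural_iff.1 hnat
  have hk : N.ker = ⊥ := by rw [N.ker_eq, centMod_bot, hf]
  obtain ⟨x, hx⟩ := hN.root_eq_of_sylIn (hT ▸ sylIn_map S)
  rw [hk, sup_bot_eq] at hx
  have h1 : ∀ s ∈ T, s ≠ 1 → ∀ v ∈ V, s * v = v * s → v ∈ N.line x := fun s hs h0 v hv e =>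
    N.mem_line_of_comm (hx ▸ hs) (by rwa [hk, mem_bot]) hv (by
      rw [commutatorElement_eq_one_iff_mul_comm.2 e.symm]; exact one_mem _)
  have h2 : N.line x ≤ 𝐂[T] := by
    rw [le_centralizer_iff_commutator, ← hx]; exact eq_bot_iff.2 (N.commutator_line_root_le x)
  have h3 : V ⊓ 𝐂[T] = N.line x := by
    refine le_antisymm (fun v hv => ?_) (le_inf (N.line_le x) h2)
    obtain ⟨s, hs, h0⟩ := SetLike.not_le_iff_exists.1 (hN.not_root_le_ker x)
    exact h1 s (hx ▸ hs) (by rwa [hk, mem_bot] at h0) v hv.1 (mem_centralizer_iff'.1 hv.2 s (hx ▸ hs))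
  have h4 : ⁅V, T⁆ = N.line x := by simpa [hx] using hN.commutator_root x
  rw [h3, h4]
  refine ⟨le_centralizer_iff_commutator.1 h2, ?_, ?_, fun s hs h0 => ⟨?_, rfl, ?_, fun v hv h5 => ?_⟩⟩
  · rw [← relIndex_bot_left, N.relIndex_eq, hF', ← pow_mul, mul_comm]
  · rw [← relIndex_bot_left, N.relIndex_line, hF']
  · refine le_antisymm (fun v hv => h1 s hs h0 v hv.1 (mem_centralizer_singleton_iff.1 hv.2).symm)
      (le_inf (N.line_le x) (h2.trans (centralizer_le (by simpa using hs))))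
  · simpa using N.commutator_sup_eq_line (X := zpowers s) (zpowers_le.2 (hx ▸ hs)) (by simpa [hk] using h0)
  · refine le_antisymm ((closure_le _).2 ?_) fun w hw => ?_
    · rintro _ ⟨t, ht, rfl⟩
      exact N.comm_mem_line (hx ▸ ht) hv
    · obtain ⟨t, ht, e⟩ := hN.exists_comm hv (fun h => h5 (h2 h)) hw
      rw [mem_bot, inv_mul_eq_one] at e
      exact subset_closure ⟨t, hx ▸ ht, e.symm⟩

end Cfsg.Agent.S2779
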