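import Cfsg.Statements.S2780
import Cfsg.Agent.H24.Nat4
import Cfsg.Agent.H24.SPE

set_option autoImplicit false
open Cfsg

namespace Cfsg.Agent.S2780

/-- Let L act on the elementary abelian p-group V (inside a finite group, faithfully) as SL₂(F) on its natural module, F a field with p^n elements, S a Sylow p-subgroup of L. Then: for every g ∈ L not normalizing S, V is the internal direct product of C_V(S) and C_V(gSg⁻¹); every nonidentity element of L of order prime to p acts on V without nonidentity fixed points; and C_V(S) and V/C_V(S) are irreducible for N_L(S): the only N_L(S)-invariant subgroups of C_V(S) are 1 and C_V(S), and the only N_L(S)-invariant subgroups between C_V(S) and V are those two. -/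
theorem result {G : Type*} [Group G] [Finite G] {p : ℕ} [Fact p.Prime] {F : Type*} [Field F] [Fintype F] (n : ℕ) (hF : Fintype.card F = p ^ n) (V L : Subgroup G) (hnat : Cfsg.IsNaturalSL2Module F V L) (hf : L ⊓ Subgroup.centralizer (V : Set G) = ⊥) (S : Sylow p ↥L) (T : Subgroup G) (hT : T = ((S : Subgroup ↥L).map L.subtype)) : (∀ g ∈ L, g ∉ Subgroup.normalizer (T : Set G) → Cfsg.IsInternalDirectProduct (V ⊓ Subgroup.centralizer ((T : Subgroup G) : Set G)) (V ⊓ Subgroup.centralizer ((T.map (MulAut.conj g).toMonoidHom : Subgroup G) : Set G)) V) ∧ (∀ x ∈ L, x ≠ 1 → (orderOf x).Coprime p → (V ⊓ Subgroup.centralizer ({x} : Set G)) = ⊥) ∧ (∀ U : Subgroup G, U ≤ (V ⊓ Subgroup.centralizer ((T : Subgroup G) : Set G)) → L ⊓ Subgroup.normalizer (T : Set G) ≤ Subgroup.normalizer (U : Set G) → U = ⊥ ∨ U = (V ⊓ Subgroup.centralizer ((T : Subgroup G) : Set G))) ∧ (∀ U : Subgroup G, (V ⊓ Subgroup.centralizer ((T : Subgroup G) : Set G)) ≤ U → U ≤ V → L ⊓ Subgroup.normalizer (T : Set G) ≤ Subgroup.normalizer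 (U : Set G) → U = (V ⊓ Subgroup.centralizer ((T : Subgroup G) : Set G)) ∨ U = V) := by
  open Subgroup Cfsg.Agent.H24 in
  open scoped commutatorElement in
  open Cfsg.Agent.H10 (SubnormalIn OqOf) in
  open Cfsg.Agent.H9 (maxEA) in
  haveI : _root_.CharP F p := charP_of_card (n := n) (by simpa using hF)
  obtain ⟨N, hN⟩ := isNatural_iff.1 hnat
  have hk : N.ker = ⊥ := by rw [N.ker_eq, centMod_bot, hf]
  obtain ⟨x, hx⟩ := hN.root_eq_of_sylIn (hT ▸ sylIn_map S)
  rw [hk, sup_bot_eq] at hx
  have h3 : ∀ x, V ⊓ 𝐂[N.root x] = N.line x := fun x => by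
    refine le_antisymm (fun v hv => ?_) (le_inf (N.line_le x) ?_)
    · obtain ⟨s, hs, h0⟩ := SetLike.not_le_iff_exists.1 (hN.not_root_le_ker x)
      exact N.mem_line_of_comm hs h0 hv.1 (by
        rw [commutatorElement_eq_one_iff_mul_comm.2 (mem_centralizer_iff'.1 hv.2 s hs).symm]; exact one_mem _)
    · rw [le_centralizer_iff_commutator]; exact eq_bot_iff.2 (N.commutator_line_root_le x)
  obtain ⟨y, hy, -⟩ := H12.exists_third_point x x
  have h4 : N.stab x ⊓ N.stab y ≤ L ⊓ 𝐍[N.root x] := inf_le_left.trans (le_inf (N.stab_le x) (N.stab_le_norm_root x))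
  have hV : V ≤ 𝐂[V] := le_centralizer_iff_commutator.2 (eq_bot_iff.2 N.commutator_le)
  rw [← hx, h3]
  refine ⟨fun g hg h1 => ?_, fun g hg h0 hc => eq_bot_iff.2 fun v hv => ?_, fun U h1 h2 => ?_, fun U h1 h2 h5 => ?_⟩
  · rw [map_conj_eq_cj, N.cj_root hg, h3]
    have h2 : x ≠ N.ρ g • x := fun e => h1 (N.stab_le_norm_root x ⟨hg, e.symm⟩)
    exact ⟨N.line_le _, N.line_le _, fun a ha b hb => mem_centralizer_iff'.1 (hV hb.1) a ha.1, N.line_inf_line h2, N.line_sup_line h2⟩
  · by_contra h1
    obtain ⟨z, hz⟩ := N.exists_mem_line hv.1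
    have := N.mem_root_of_comm hg hz h1 (by
      rw [commutatorElement_eq_one_iff_mul_comm.2 (mem_centralizer_singleton_iff.1 hv.2)]; exact one_mem _)
    exact h0 (by simpa [hk] using (N.pGrpMod_root (p := p) z).mem_of_coprime this hc)
  · by_cases h0 : U ≤ ⊥
    · exact .inl (le_bot_iff.1 h0)
    · exact .inr (le_antisymm h1 (by simpa using hN.line_le_sup hy h1 (h4.trans h2) h0))
  · by_cases h0 : U ⊓ N.line y ≤ ⊥
    · refine .inl (le_antisymm (fun u hu => ?_) h1)
      obtain ⟨a, ha, b, hb, rfl⟩ := N.exists_mul_line hy (h2 hu)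
      rw [mem_bot.1 (h0 ⟨by simpa using U.mul_mem (U.inv_mem (h1 ha)) hu, hb⟩), mul_one]; exact ha
    · have := hN.line_le_sup hy.symm inf_le_right (le_normalizer_inf (by rw [inf_comm]; exact h4.trans h5)
        (inf_le_left.trans (N.stab_le_norm_line y))) h0
      refine .inr (le_antisymm h2 ((N.line_sup_line hy).ge.trans (sup_le h1 (this.trans (by simp)))))

end Cfsg.Agent.S2780
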