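import Cfsg.Statements.S2787
import Cfsg.Agent.H14.NoQ
import Cfsg.Agent.H15.ReeM
import Cfsg.Agent.H15.Ree6

set_option autoImplicit false
open Cfsg

namespace Cfsg.Agent.S2787

/-- Let p be a prime and let H act by conjugation on the elementary abelian p-subgroup V of a finite group, irreducibly (no H-invariant subgroups of V other than 1 and V) and nontrivially, and suppose H/C_H(V) is isomorphic to PSL₂(F) for a field F with p^n elements, p^n odd, or p = 3 and H/C_H(V) is isomorphic to a Ree group ²G₂(3^(2m+1)), m ≥ 1. Then no subgroup A of H acting nontrivially on V acts quadratically: [V, A, A] = 1 forces [V, A] = 1. -/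
theorem result {G : Type*} [Group G] [Finite G] {p : ℕ} [Fact p.Prime] (V H : Subgroup G) (hV : Cfsg.IsElementaryAbelian p V) (hHV : H ≤ Subgroup.normalizer (V : Set G)) (hirr : ∀ U : Subgroup G, U ≤ V → H ≤ Subgroup.normalizer (U : Set G) → U = ⊥ ∨ U = V) (hnt : ¬ H ≤ Subgroup.centralizer (V : Set G)) [hn : ((Subgroup.centralizer (V : Set G)).subgroupOf H).Normal] (hq : (∃ (F : Type) (_ : Field F) (_ : Fintype F) (n : ℕ), Fintype.card F = p ^ n ∧ Odd (Fintype.card F) ∧ Nonempty (↥H ⧸ (Subgroup.centralizer (V : Set G)).subgroupOf H ≃* Matrix.ProjectiveSpecialLinearGroup (Fin 2) F)) ∨ (p = 3 ∧ Cfsg.Lie.IsoRee (↥H ⧸ (Subgroup.centralizer (V : Set G)).subgroupOf H))) (A : Subgroup G) (hA : A ≤ H) (hquad : ⁅⁅V, A⁆, A⁆ = ⊥) : ⁅V, A⁆ = ⊥ := by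
  rcases hq with ⟨F, _, _, n, h1, h2, ⟨e⟩⟩ | ⟨rfl, K, _, _, m, -, h1, ⟨e⟩⟩
  · have hp : p ≠ 2 := by
      rintro rfl
      have := Fintype.one_lt_card (α := F)
      rw [h1] at h2 this
      exact absurd (Nat.odd_pow_iff (by rintro rfl; simp at this) |>.1 h2) (by decide)
    refine H14.no_quadratic hp hV hHV hirr (fun h => (H14.dihLike_psl (F := F) (Ring.two_ne_zero fun h => ?_)).not_involves hp
      (H9.involves_of_injective e.toMonoidHom e.injective h)) hA hquad
    exact absurd (FiniteField.even_card_of_char_two h) (by rw [Nat.odd_iff] at h2; omega)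
  · obtain ⟨_, M, -⟩ := H15.exists_ree h1
    exact H14.no_quadratic (by decide) hV hHV hirr (fun h => H14.DihLike.not_involves
      (fun T hT x hx y _ h2 => absurd (M.sq_of_isPGroup hT hx) h2) (by decide) (H9.involves_of_injective e.toMonoidHom e.injective h)) hA hquad

end Cfsg.Agent.S2787
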