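import Cfsg.Statements.S2792
import Cfsg.Agent.H3.Wielandt
import Cfsg.Agent.H1.Generation

set_option autoImplicit false
open Cfsg

namespace Cfsg.Agent.S2792

open Cfsg.Agent.H3

/-- Let S be a Sylow p-subgroup of the finite group G and W a subgroup of S weakly closed in S with respect to G. If S ∩ G' ≠ S ∩ (N_G(W))', then there are x ∈ S, z ∈ W and a maximal subgroup W₀ of W such that the iterated commutator [x, z; p−1] (with [x, z] = x⁻¹z⁻¹xz and [x, z; i+1] = [[x, z; i], z]) lies in W₀ but not in the Frattini subgroup of W₀; in particular [x, z; p−1] ≠ 1. -/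
theorem result {G : Type*} [Group G] [Finite G] {p : ℕ} [Fact p.Prime] (S : Sylow p G) (W : Subgroup G) (hW : Cfsg.IsWeaklyClosed W (S : Subgroup G)) (h : (S : Subgroup G) ⊓ commutator G ≠ (S : Subgroup G) ⊓ ⁅Subgroup.normalizer (W : Set G), Subgroup.normalizer (W : Set G)⁆) : ∃ x ∈ (S : Subgroup G), ∃ z ∈ W, ∃ W₀ : Subgroup ↥W, IsCoatom W₀ ∧ (fun y : G => y⁻¹ * z⁻¹ * y * z)^[p - 1] x ∈ W₀.map W.subtype ∧ (fun y : G => y⁻¹ * z⁻¹ * y * z)^[p - 1] x ∉ ((frattini ↥W₀).map W₀.subtype).map W.subtype := by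
  have hPN : (S : Subgroup G) ≤ Subgroup.normalizer (W : Set G) := fun g hg =>
    mem_normalizer_iff_conj_smul.mpr
      (hW.2 g (conj_smul_le_iff.mpr fun x hx => mul_mem (mul_mem hg (hW.1 hx)) (inv_mem hg)))
  obtain ⟨v, z, R, K, h1, h2, h3, h4, h5, h6, h7, h8, h9, h10, h11⟩ : WObstruction p S W := by
    by_contra hne
    exact h (inf_commutator_eq_of_pResidual S hPN (pResidual_inf_eq_of_not_wObstruction S hW hne))
  have hp : p.Prime := Fact.out
  have h12 := iterate_commutator_mem (h7 (Subgroup.mem_sup_left h2)) h1 (p - 1)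
  have h13 : (fun y : G => y⁻¹ * z⁻¹ * y * z)^[p - 1] v ∈ W := by
    obtain ⟨j, hj⟩ := Nat.exists_eq_add_one_of_ne_zero (Nat.sub_ne_zero_of_lt hp.one_lt)
    rw [hj, Function.iterate_succ_apply]
    exact iterate_commutator_mem (Subgroup.le_normalizer h2) (mul_mem
      (H1.conj_mem_of_le_normalizer' hPN (h5 (h4.le h1)) (inv_mem h2)) h2) j
  have h14 : (R.subgroupOf W).index = p := by
    rw [← Subgroup.relIndex, ← H1.relIndex_sup_of_le_normalizer (le_sup_left.trans h7), ← h6]
    congr 1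
    exact le_antisymm (sup_le h4.le le_sup_left)
      (sup_le le_sup_right (le_sup_of_le_left (by simpa using h1)))
  refine ⟨v, h5 (h4.le h1), z, h2, R.subgroupOf W, H1.isCoatom_of_index_prime (h14 ▸ hp),
    ⟨⟨_, h13⟩, h12, rfl⟩, fun hm => h11 ?_⟩
  have h15 : (frattini (R.subgroupOf W)).map (R.subgroupOf W).subtype ≤ K.subgroupOf W :=
    frattiniOf_le (p := p) (Subgroup.commutator_le.mpr fun a ha b hb =>
      h9 (Subgroup.commutator_mem_commutator ha hb)) fun x hx => h10 x hx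
  obtain ⟨y, hy, he⟩ := hm
  exact he ▸ h15 hy

end Cfsg.Agent.S2792
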