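import Cfsg.Statements.S2794
import Cfsg.Agent.L0.Qd
import Cfsg.Agent.H9.Thompson

set_option autoImplicit false
open Cfsg

namespace Cfsg.Agent.S2794

open Subgroup Cfsg.Agent.H24 Cfsg.Agent.H3 Cfsg.Agent.L0


/-- For an odd prime p and a finite group G, the group Qd(p) is not involved in G if and only if in every section K/R of G, for every Sylow p-subgroup S* of K/R, the centre of J(S*) (J generated by the abelian subgroups of largest order) controls strong fusion in K/R. -/
theorem result {G : Type*} [Group G] [Finite G] {p : ℕ} [Fact p.Prime] (hp : p ≠ 2) : ¬ Cfsg.Involves ↥(Cfsg.qd p) G ↔ ∀ (K R : Subgroup G) [hR : (R.subgroupOf K).Normal], ∀ T : Sylow p (K ⧸ R.subgroupOf K), Cfsg.ControlsStrongFusion p (Cfsg.centerThompsonAOf (T : Subgroup (K ⧸ R.subgroupOf K))) := by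
  constructor
  · intro h K R _ T
    rw [H9.centerThompsonAOf_eq]
    refine csf_of_sf T (by rw [← ind_zjF]; exact ind_le _ _) (zj_sf hp (dvd_zero p)
      (fun Y _ hY => pStable_sec_of_qdFree hp h (hY.trans (Sec.kr K R))) (sylowIn_top T))
  · rintro h ⟨K, R, _, ⟨e⟩⟩
    obtain ⟨T, hT⟩ := not_csf_of_qd hp e (isCharPFunctor_zjF (dvd_zero p))
    rw [ind_zjF, ← H9.centerThompsonAOf_eq] at hT
    exact hT (h K R T)

end Cfsg.Agent.S2794
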