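import Cfsg.Statements.S2800
import Cfsg.Agent.L0.JThm

set_option autoImplicit false
open Cfsg

namespace Cfsg.Agent.S2800

open Subgroup Cfsg.Agent.H24 Cfsg.Agent.H3 Cfsg.Agent.L0


/-- Let S be a Sylow p-subgroup of the finite group G and J(S) the subgroup generated by the abelian subgroups of S of largest order. Suppose p is odd, or the symmetric group of degree 4 is not involved in G. If both C_G(Z(S)) and N_G(J(S)) have normal p-complements, then G has a normal p-complement. -/
theorem result {G : Type*} [Group G] [Finite G] {p : ℕ} [Fact p.Prime] (S : Sylow p G) (h : p ≠ 2 ∨ ¬ Cfsg.Involves (Equiv.Perm (Fin 4)) G) (hC : Cfsg.HasNormalPComplement p ↥(Subgroup.centralizer (((S : Subgroup G) ⊓ Subgroup.centralizer ((S : Subgroup G) : Set G) : Subgroup G) : Set G))) (hN : Cfsg.HasNormalPComplement p ↥(Subgroup.normalizer ((Cfsg.thompsonSubgroupAOf (S : Subgroup G)) : Set G))) : Cfsg.HasNormalPComplement p G := by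
  rw [H9.thompsonSubgroupAOf_eq] at hN
  have hSN := le_normalizer.trans (H9.normalizer_le_normalizer_thompsonOf 0 (S : Subgroup G))
  have h1 : ∀ z ∈ (S : Subgroup G) ⊓ centralizer ((S : Subgroup G) : Set G), ∀ g : G,
      g * z * g⁻¹ ∈ (S : Subgroup G) → g * z * g⁻¹ = z := fun z hz g hg => by
    refine j_wc (sylowIn_top S) hz.1 (mem_centralizer_iff'.2 fun n hn => ?_) (h.imp_right Or.inr) hg
    have hT := sylowIn_subgroupOf ((sylowIn_top S).of_le hSN le_top)
    obtain ⟨s, hs, e⟩ := (hasNormalPComplement_iff_fusion hT.toSylowTop).1 hN ⟨z, hSN hz.1⟩ hz.1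
      ⟨n, hn⟩ (show n * z * n⁻¹ ∈ (S : Subgroup G) from
        H9.thompsonOf_le 0 _ ((mem_normalizer_iff.1 hn z).1 (center_le_j _ hz)))
    have e' : (s : G) * z * (s : G)⁻¹ = n * z * n⁻¹ := congrArg Subtype.val e
    rw [mem_centralizer_iff'.1 hz.2 s hs, mul_inv_cancel_right] at e'
    exact mul_inv_eq_iff_eq_mul.1 e'.symm
  refine hasNormalPComplement_of_fusion_control S (le_centralizer_iff.1 inf_le_right) (fun x hx g hg => ?_) hC
  have h2 : ∀ g : G, cj ((S : Subgroup G) ⊓ centralizer ((S : Subgroup G) : Set G)) g ≤ S →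
      g ∈ centralizer (((S : Subgroup G) ⊓ centralizer ((S : Subgroup G) : Set G) : Subgroup G) : Set G) :=
    fun g hg => mem_centralizer_iff_conj.2 fun z hz => h1 z hz g (hg (conj_mem_cj hz g))
  obtain ⟨n, hn, e⟩ := exists_normalizer_conj_of_weaklyClosed S inf_le_right
    ⟨inf_le_left, fun g hg => cj_eq_of_mem_normalizer (centralizer_le_normalizer' _ (h2 g hg))⟩ g
  exact ⟨n, h2 n ((cj_eq_of_mem_normalizer hn).le.trans inf_le_left), e x hx hg⟩

end Cfsg.Agent.S2800
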