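import Cfsg.Statements.S3084
import Cfsg.Agent.H26.ES4
import Cfsg.Agent.H27.Schur

set_option autoImplicit false
open Cfsg

namespace Cfsg.Agent.S3084

open H26 Matrix

/-- the sign character -/
def ep (t : ZMod 2) : ℝ := if t = 0 then 1 else -1

theorem ep_add (s t : ZMod 2) : ep (s + t) = ep s * ep t := by
  rcases (by decide : ∀ s : ZMod 2, s = 0 ∨ s = 1) s with rfl | rfl <;>
  rcases (by decide : ∀ s : ZMod 2, s = 0 ∨ s = 1) t with rfl | rfl <;>
  simp [ep, show (1 + 1 : ZMod 2) = 0 from rfl]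

theorem two : (2 : ZMod 2) = 0 := rfl

theorem ep_zero : ep 0 = 1 := if_pos rfl

theorem ep_sq (t : ZMod 2) : ep t * ep t = 1 := by rw [← ep_add, CharTwo.add_self_eq_zero, ep_zero]

theorem ep_ne (t : ZMod 2) : ep t ≠ 0 := fun h => by simpa [h] using ep_sq t

theorem ep_inj {s t : ZMod 2} (h : ep s = ep t) : s = t := by
  rcases (by decide : ∀ s : ZMod 2, s = 0 ∨ s = 1) s with rfl | rfl <;>
  rcases (by decide : ∀ s : ZMod 2, s = 0 ∨ s = 1) t with rfl | rfl <;>
  simp [ep] at h ⊢ <;> norm_num at h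

variable {U : Type*} [AddCommGroup U] [Module (ZMod 2) U] [Fintype U] [DecidableEq U]
  {β : LinearMap.BilinForm (ZMod 2) U}

omit [Fintype U] [DecidableEq U] in
theorem add_self (v : U) : v + v = 0 := by
  rw [← two_smul (ZMod 2), show (2 : ZMod 2) = 0 from rfl, zero_smul]

/-- left multiplication -/
def LL : Heis β →* Matrix U U ℝ where
  toFun x := of fun i j => if i = x.v + j then ep (x.a + β x.v j) else 0
  map_one' := by ext i j; simp [one_apply, ep_zero]
  map_mul' x y := by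
    ext i j
    simp only [mul_apply, of_apply, mul_ite, mul_zero, Finset.sum_ite_eq', Finset.mem_univ, if_true,
      Heis.mul_v, Heis.mul_a, add_assoc, ite_mul, zero_mul, ← ep_add, map_add, LinearMap.add_apply]
    congr 2; ring

variable (β) in
/-- right multiplication -/
def RR (w : U) : Matrix U U ℝ := of fun i j => if i = j + w then ep (β j w) else 0

theorem LL_apply (x : Heis β) (i j : U) : LL x i j = if i = x.v + j then ep (x.a + β x.v j) else 0 := rfl

theorem LL_RR (x : Heis β) (w : U) : LL x * RR β w = RR β w * LL x := by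
  ext i j
  simp only [mul_apply, LL_apply, RR, of_apply, mul_ite, mul_zero, Finset.sum_ite_eq', Finset.mem_univ,
    if_true, add_assoc, ite_mul, zero_mul, ← ep_add, map_add, LinearMap.add_apply]
  congr 2; ring

theorem LL_tr (x : Heis β) : (LL x)ᵀ = LL x⁻¹ := by
  ext i j
  simp only [transpose_apply, LL_apply, Heis.inv_v, Heis.inv_a, eq_neg_add_iff_add_eq, eq_comm (a := j)]
  split_ifs with h
  · subst h; congr 1; simp [CharTwo.neg_eq, add_assoc, ← add_assoc (β x.v x.v), CharTwo.add_self_eq_zero]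
  · rfl

theorem RR_tr (w : U) : (RR β w)ᵀ = ep (β w w) • RR β w := by
  ext i j
  have : j = i + w ↔ i = j + w := by
    constructor <;> rintro rfl <;> rw [add_assoc, add_self, add_zero]
  simp only [transpose_apply, RR, of_apply, Matrix.smul_apply, smul_eq_mul, this]
  split_ifs with h
  · subst h; rw [← ep_add, map_add, LinearMap.add_apply, add_comm]
  · simp

theorem LL_a (a : ZMod 2) : LL (⟨0, a⟩ : Heis β) = ep a • 1 := by
  ext i j; simp [LL_apply, one_apply]

theorem LL_inj : Function.Injective (LL (β := β)) := fun x y h => by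
  have h1 := congrFun (congrFun h x.v) 0
  simp only [LL_apply, add_zero, if_true, map_zero] at h1
  split_ifs at h1 with h2
  · exact Heis.ext h2 (ep_inj h1)
  · exact absurd h1 (ep_ne _)

theorem col {X : Matrix U U ℝ} (h : ∀ w, X * RR β w = RR β w * X) (i w : U) :
    X (i + w) w = ep (β i w) * X i 0 := by
  have := congrFun (congrFun (h w) (i + w)) 0
  simpa [mul_apply, RR, ep_zero, eq_comm (a := i)] using this

theorem exists_smul (hβ : ∀ v, (∀ w, β v w = β w v) → v = 0) {X : Matrix U U ℝ}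
    (h : ∀ w, X * RR β w = RR β w * X) (t : U → ZMod 2) (h1 : ∀ v, X * LL (β := β) ⟨v, 0⟩ = LL (β := β) ⟨v, t v⟩ * X) :
    ∃ (c : ℝ) (v : U), X = c • LL (β := β) ⟨v, 0⟩ ∧ (t = 0 → v = 0) := by
  have h2 : ∀ i, X i 0 ≠ 0 → ∀ v, β i v = t v + β v i := fun i hi v => by
    have := congrFun (congrFun (h1 v) (i + v)) 0
    simp only [mul_apply, LL_apply, add_zero, map_zero, mul_ite, mul_zero, Finset.sum_ite_eq',
      Finset.mem_univ, if_true, ep_zero, mul_one, add_comm i v, add_right_inj, ite_mul, zero_mul,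
      Finset.sum_ite_eq] at this
    rw [add_comm v i, col h] at this
    exact ep_inj (mul_right_cancel₀ hi this)
  have h3 : ∀ {c v}, (∀ i, i ≠ v → X i 0 = 0) → X v 0 = c → X = c • LL (β := β) ⟨v, 0⟩ :=
    fun {c v} a b => by
      ext i j
      obtain ⟨i, rfl⟩ : ∃ k, i = k + j := ⟨i - j, by simp⟩
      rw [col h, Matrix.smul_apply, LL_apply]
      by_cases e : i = v
      · simp [e, b, mul_comm]
      · simp [e, a i e]
  by_cases h4 : ∀ i, X i 0 = 0
  · exact ⟨0, 0, h3 (fun i _ => h4 i) (h4 0), fun _ => rfl⟩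
  push Not at h4
  obtain ⟨v, hv⟩ := h4
  refine ⟨_, v, h3 (fun i hi => by_contra fun e => hi (sub_eq_zero.1 (hβ _ fun w => ?_))) rfl,
    fun e => hβ v fun w => by simpa [e] using h2 v hv w⟩
  simp [h2 i e w, h2 v hv w]

theorem exists_int (hβ : ∀ v, (∀ w, β v w = β w v) → v = 0) (α : Heis β →* Heis β)
    (h0 : ∀ a, α ⟨0, a⟩ = ⟨0, a⟩) : ∃ u : orthogonalGroup U ℝ, (∀ w, u.1 * RR β w = RR β w * u.1) ∧
      ∀ x, u.1 * LL x = LL (α x) * u.1 := by
  let P : U → Matrix U U ℝ := fun i => ∑ y : U, LL (α ⟨y, 0⟩ * ⟨i, 0⟩ * (⟨y, 0⟩ : Heis β)⁻¹)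
  have cen : ∀ (a) (x : Heis β), x * ⟨0, a⟩ = ⟨0, a⟩ * x := fun a x => Heis.ext (by simp) (by simp [add_comm])
  have ind : ∀ i (y : Heis β), α y * ⟨i, 0⟩ * y⁻¹ = α ⟨y.v, 0⟩ * ⟨i, 0⟩ * (⟨y.v, 0⟩ : Heis β)⁻¹ :=
    fun i y => by
      rw [show y = ⟨y.v, 0⟩ * ⟨0, y.a⟩ from Heis.ext (by simp) (by simp), map_mul, h0, mul_assoc (α _),
        ← cen, _root_.mul_inv_rev]
      simp [mul_assoc]
  have h1 : ∀ i x, P i * LL x = LL (α x) * P i := fun i x => by
    simp only [P, Finset.sum_mul, Finset.mul_sum, ← map_mul]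
    refine (Fintype.sum_equiv (Equiv.addLeft x.v) _ _ fun y => ?_).symm
    have := ind i (x * ⟨y, 0⟩)
    rw [Heis.mul_v] at this
    rw [Equiv.coe_addLeft, ← this, map_mul α x]
    simp [mul_assoc]
  have h2 : ∀ i w, P i * RR β w = RR β w * P i := fun i w => by
    simp only [P, Finset.sum_mul, Finset.mul_sum, LL_RR]
  obtain ⟨i, hi⟩ : ∃ i, P i ≠ 0 := by
    by_contra! h
    have : ∑ i, P i i 0 = 0 := by simp [h]
    simp only [P, Matrix.sum_apply] at this
    rw [Finset.sum_comm, Finset.sum_eq_single 0 (fun y _ hy => ?_) (by simp)] at this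
    · simp [h0, LL_apply, ep_zero] at this
    obtain ⟨w, hw⟩ : ∃ w, β y w ≠ β w y := not_forall.1 (mt (hβ y) hy)
    have hw' : ep (β y w + β w y) = -1 := if_neg fun e => hw (by
      rwa [add_eq_zero_iff_eq_neg, CharTwo.neg_eq] at e)
    refine Finset.sum_involution (fun i _ => i + w) (fun i _ => ?_) (fun i _ _ e => hw ?_) (by simp)
      fun i _ => by rw [add_assoc, add_self, add_zero]
    · simp only [LL_apply, Heis.mul_v, Heis.inv_v, Heis.mul_a, Heis.inv_a, add_zero, map_zero]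
      by_cases e : (α ⟨y, 0⟩).v = y
      · rw [e, if_pos (by abel), if_pos (by abel), add_eq_zero_iff_eq_neg, ← neg_one_mul (ep _), ← hw', ← ep_add]
        congr 1
        simp only [map_add, map_neg, LinearMap.add_apply, CharTwo.neg_eq]
        linear_combination -(β y w + β w y) * two
      · rw [if_neg, if_neg, add_zero] <;> intro e' <;> apply e
        · rw [← sub_eq_zero, ← neg_eq_zero, ← sub_eq_zero.2 e']; abel
        · rw [← sub_eq_zero, ← neg_eq_zero, ← sub_eq_zero.2 e']; abel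
    · rw [add_eq_left.1 e]; simp
  have h3 : ∀ x : Heis β, LL x * (P i)ᵀ = (P i)ᵀ * LL (α x) := fun x => by
    have := congrArg transpose (h1 i x⁻¹)
    simpa only [transpose_mul, LL_tr, map_inv, inv_inv] using this
  obtain ⟨c, v, h4, h5⟩ := exists_smul hβ (X := (P i)ᵀ * P i) (fun w => by
    have := congrArg transpose (h2 i w)
    rw [transpose_mul, transpose_mul, RR_tr, smul_mul_assoc, mul_smul_comm] at this
    rw [mul_assoc, h2, ← mul_assoc, ← smul_right_injective _ (ep_ne _) this, mul_assoc]) 0 fun v => by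
      rw [mul_assoc, h1, ← mul_assoc, ← h3, mul_assoc]; rfl
  rw [h5 rfl, LL_a, ep_zero, one_smul] at h4
  have h6 : 0 ≤ c := by
    have := congrFun (congrFun h4 0) 0
    simp only [mul_apply, transpose_apply, Matrix.smul_apply, one_apply_eq, smul_eq_mul, mul_one] at this
    exact this ▸ Finset.sum_nonneg fun _ _ => mul_self_nonneg _
  have h7 : c ≠ 0 := fun e => hi (by
    rw [e, zero_smul, ← conjTranspose_eq_transpose_of_trivial] at h4
    exact conjTranspose_mul_self_eq_zero.1 h4)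
  refine ⟨⟨(√c)⁻¹ • P i, (mem_orthogonalGroup_iff' U ℝ).2 ?_⟩, fun w => ?_, fun x => ?_⟩
  · rw [transpose_smul, smul_mul_assoc, mul_smul_comm, h4, smul_smul, smul_smul, ← mul_inv,
      Real.mul_self_sqrt h6, inv_mul_cancel₀ h7, one_smul]
  · simp only [smul_mul_assoc, mul_smul_comm, h2]
  · simp only [smul_mul_assoc, mul_smul_comm, h1]

omit [Fintype U] [DecidableEq U] in
theorem exists_eta [Module.Finite (ZMod 2) U] (γ : LinearMap.BilinForm (ZMod 2) U) (h : ∀ v, γ v v = 0) :
    ∃ δ : LinearMap.BilinForm (ZMod 2) U, ∀ v w, γ v w = δ v w + δ w v := by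
  let b := Module.finBasis (ZMod 2) U
  let δ := Matrix.toLinearMap₂ b b (of fun i j => if i < j then γ (b i) (b j) else 0)
  have : γ = δ + δ.flip := LinearMap.ext_basis b b fun i j => by
    have e : γ (b j) (b i) = γ (b i) (b j) := by
      have := h (b i + b j)
      simp only [map_add, LinearMap.add_apply, h, zero_add, add_zero] at this
      rwa [add_eq_zero_iff_eq_neg, CharTwo.neg_eq] at this
    simp only [δ, LinearMap.add_apply, LinearMap.flip_apply, Matrix.toLinearMap₂_apply_basis, of_apply]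
    rcases lt_trichotomy i j with h1 | rfl | h1
    · simp [h1, h1.not_gt]
    · simp [h]
    · simp [h1, h1.not_gt, e]
  exact ⟨δ, fun v w => by rw [this]; rfl⟩

variable {K : Type*} [Group K]

variable (β) in
/-- the extension -/
def RG (ρ : Representation (ZMod 2) K U) : Subgroup (orthogonalGroup U ℝ × K) where
  carrier := {g | (∀ w, g.1.1 * RR β w = RR β w * g.1.1) ∧
    ∀ x : Heis β, ∃ y : Heis β, y.v = ρ g.2 x.v ∧ g.1.1 * LL x = LL y * g.1.1}
  one_mem' := ⟨by simp, fun x => ⟨x, by simp, by simp⟩⟩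
  mul_mem' {g h} hg hh := ⟨fun w => by
    simp only [Prod.fst_mul, Submonoid.coe_mul]
    rw [mul_assoc, hh.1, ← mul_assoc, hg.1, mul_assoc], fun x => by
    obtain ⟨y, h1, h2⟩ := hh.2 x
    obtain ⟨z, h3, h4⟩ := hg.2 y
    refine ⟨z, by simp [h1, h3], ?_⟩
    simp only [Prod.fst_mul, Submonoid.coe_mul]
    rw [mul_assoc, h2, ← mul_assoc, h4, mul_assoc]⟩
  inv_mem' {g} hg := by
    have key : ∀ {A B : Matrix U U ℝ}, g.1.1 * A = B * g.1.1 → (g⁻¹).1.1 * B = A * (g⁻¹).1.1 :=
      fun {A B} h => by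
        have e1 : (g⁻¹).1.1 * g.1.1 = 1 := congrArg Subtype.val (inv_mul_cancel g.1)
        have e2 : g.1.1 * (g⁻¹).1.1 = 1 := congrArg Subtype.val (mul_inv_cancel g.1)
        rw [← mul_one (_ * B), ← e2, mul_assoc, ← mul_assoc B, ← h, ← mul_assoc, ← mul_assoc, e1, one_mul]
    refine ⟨fun w => key (hg.1 w), fun y => ?_⟩
    obtain ⟨z, h1, h2⟩ := hg.2 ⟨ρ g.2⁻¹ y.v, 0⟩
    refine ⟨⟨ρ g.2⁻¹ y.v, 0⟩ * ⟨0, y.a - z.a⟩, by simp, key ?_⟩
    have e : y = z * ⟨0, y.a - z.a⟩ := Heis.ext (by simp [h1]) (by simp)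
    rw [map_mul, LL_a, ← mul_assoc, h2, congrArg LL e, map_mul, LL_a]
    simp

theorem ext_exists (hβ : ∀ v, (∀ w, β v w = β w v) → v = 0) [Module.Finite (ZMod 2) U]
    (ρ : Representation (ZMod 2) K U) (hρ : ∀ k v, β (ρ k v) (ρ k v) = β v v) :
    ∃ (π : RG β ρ →* K) (ι : Heis β →* RG β ρ), Function.Surjective π ∧ Function.Injective ι ∧
      ι.range = π.ker ∧ ∀ r x, ∃ y, r * ι x * r⁻¹ = ι y ∧ y.v = ρ (π r) x.v := by
  let ι0 : Heis β →* orthogonalGroup U ℝ := LL.codRestrict _ fun x =>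
    (mem_orthogonalGroup_iff' U ℝ).2 (by rw [LL_tr, ← map_mul, inv_mul_cancel, map_one])
  let ι : Heis β →* RG β ρ := (ι0.prod 1).codRestrict _ fun x => ⟨LL_RR x, fun y =>
    ⟨x * y * x⁻¹, by simp, by
      change LL x * _ = _ * LL x
      rw [← map_mul, ← map_mul, inv_mul_cancel_right]⟩⟩
  refine ⟨(MonoidHom.snd _ _).comp (Subgroup.subtype _), ι, fun k => ?_,
    fun x y h => LL_inj (congrArg (·.1.1.1) h), le_antisymm ?_ fun g hg => ?_, fun r x => ?_⟩
  · obtain ⟨δ, hδ⟩ := exists_eta (β.comp (ρ k) (ρ k) + β) fun v => by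
      simp [hρ, CharTwo.add_self_eq_zero]
    obtain ⟨u, h1, h2⟩ := exists_int hβ (MonoidHom.mk' (fun x => ⟨ρ k x.v, x.a + δ x.v x.v⟩)
      fun x y => Heis.ext (by simp) (by
        have := hδ x.v y.v
        simp only [LinearMap.add_apply, LinearMap.BilinForm.comp_apply] at this
        simp only [Heis.mul_v, Heis.mul_a, map_add, LinearMap.add_apply]
        linear_combination -this + β x.v y.v * two)) (by simp)
    exact ⟨⟨(u, k), h1, fun x => ⟨_, rfl, h2 x⟩⟩, rfl⟩
  · rintro _ ⟨x, rfl⟩; rfl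
  · have hg' : g.1.2 = 1 := hg
    choose y h1 h2 using g.2.2
    obtain ⟨c, v, h3, -⟩ := exists_smul hβ g.2.1 (fun v => (y ⟨v, 0⟩).a) fun v => by
      rw [h2]; congr 2; exact Heis.ext (by simp [h1, hg']) rfl
    have h4 := (mem_orthogonalGroup_iff' U ℝ).1 g.1.1.2
    rw [h3, transpose_smul, smul_mul_assoc, mul_smul_comm, LL_tr, ← map_mul, inv_mul_cancel, map_one,
      smul_smul] at h4
    have h5 : c * c = 1 := by simpa using congrFun (congrFun h4 0) 0
    obtain ⟨a, rfl⟩ : ∃ a, ep a = c := by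
      rcases mul_self_eq_one_iff.1 h5 with rfl | rfl
      · exact ⟨0, ep_zero⟩
      · exact ⟨1, if_neg one_ne_zero⟩
    refine ⟨⟨0, a⟩ * ⟨v, 0⟩, Subtype.ext (Prod.ext (Subtype.ext ?_) hg'.symm)⟩
    change LL _ = _
    rw [map_mul, LL_a, h3, smul_one_mul]
  · obtain ⟨y, h1, h2⟩ := r.2.2 x
    exact ⟨y, mul_inv_eq_of_eq_mul (Subtype.ext (Prod.ext (Subtype.ext h2) ((mul_one _).trans (one_mul _).symm))), h1⟩

omit [AddCommGroup U] [Module (ZMod 2) U] [Fintype U] [DecidableEq U] [Group K] in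

/-- Let K be a group acting faithfully and linearly on a finite-dimensional vector space U of dimension 2n ≥ 2 over the field with two elements, preserving a quadratic form q whose polar bilinear form is non-degenerate and which vanishes on some n-dimensional subspace (a non-singular form of plus type). Then there is a finite group R with a normal extraspecial 2-subgroup Q of order 2^(2n+1), an isomorphism of R/Q with K, and a surjective homomorphism χ from Q onto (the additive group of) U with kernel the centre of Q, such that χ carries conjugation by any r in R to the action of the image of r in K, and an element a of Q squares to the identity exactly when q vanishes at χ(a). -/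
theorem result {K : Type*} [Group K] {U : Type*} [AddCommGroup U] [Module (ZMod 2) U] [Module.Finite (ZMod 2) U] (n : ℕ) (hn1 : 1 ≤ n) (hn : Module.finrank (ZMod 2) U = 2 * n) (ρ : Representation (ZMod 2) K U) (hρ : Function.Injective ρ) (q : QuadraticForm (ZMod 2) U) (hq : ∀ (k : K) (u : U), q (ρ k u) = q u) (hnd : (QuadraticMap.polarBilin q).Nondegenerate) (hplus : ∃ W : Submodule (ZMod 2) U, Module.finrank (ZMod 2) ↥W = n ∧ ∀ w ∈ W, q w = 0) : ∃ (R : Type) (_ : Group R) (_ : Finite R) (Q : Subgroup R) (hN : Q.Normal) (e : R ⧸ Q ≃* K) (χ : ↥Q →* Multiplicative U), Cfsg.IsExtraspecial 2 ↥Q ∧ Nat.card ↥Q = 2 ^ (2 * n + 1) ∧ Function.Surjective χ ∧ χ.ker = Subgroup.center ↥Q ∧ (∀ (r : R) (a : ↥Q), χ ⟨r * a * r⁻¹, hN.conj_mem (a : R) a.2 r⟩ = Multiplicative.ofAdd (ρ (e (r : R ⧸ Q)) (Multiplicative.toAdd (χ a)))) ∧ ∀ a : ↥Q, a * a = 1 ↔ q (Multiplicative.toAdd (χ a)) = 0 := by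
  classical
  have : Finite U := Module.finite_of_finite (ZMod 2)
  have := Fintype.ofFinite U
  have : Finite K := .of_injective _ (DFunLike.coe_injective.comp hρ)
  obtain ⟨β, hβ⟩ : ∃ β : LinearMap.BilinForm (ZMod 2) U, ∀ v, β v v = q v :=
    ⟨q.toBilin (Module.finBasis _ U), fun v => DFunLike.congr_fun (q.toQuadraticMap_toBilin _) v⟩
  have h1 : ∀ v, (∀ w, β v w = β w v) → v = 0 := fun v h => hnd.1 v fun w => by
    simp [QuadraticMap.polar, ← hβ, h w, add_assoc, ← add_assoc (β w v), CharTwo.add_self_eq_zero]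
  obtain ⟨π, ι, h2, h3, h4, h5⟩ := ext_exists h1 ρ fun k v => by rw [hβ, hβ, hq]
  have : Finite π.ker := h4 ▸ Finite.of_surjective _ ι.rangeRestrict_surjective
  have : Finite (RG β ρ) := (MonoidHom.finite_iff_finite_ker_range π).2 ⟨this, inferInstance⟩
  obtain ⟨R, _, _, ⟨e⟩⟩ := H27.exists_small_equiv.{_, 0} (RG β ρ)
  obtain ⟨π, ι, h2, h3, h4, h5⟩ : ∃ (π : R →* K) (ι : Heis β →* R), Function.Surjective π ∧
      Function.Injective ι ∧ ι.range = π.ker ∧ ∀ r x, ∃ y, r * ι x * r⁻¹ = ι y ∧ y.v = ρ (π r) x.v :=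
    ⟨π.comp e, (e.symm : _ →* R).comp ι, h2.comp e.surjective, e.symm.injective.comp h3, by
      ext x
      rw [MonoidHom.mem_ker, MonoidHom.comp_apply, ← MonoidHom.mem_ker, ← h4]
      simp [MulEquiv.symm_apply_eq], fun r x => by
      obtain ⟨y, a, b⟩ := h5 (e r) x
      exact ⟨y, by simp [← a], b⟩⟩
  let f : Heis β ≃* π.ker := (MonoidHom.ofInjective h3).trans (MulEquiv.subgroupCongr h4)
  have hf : ∀ x, (f x : R) = ι x := fun _ => rfl
  have hc : (Heis.es β).ND := fun v h => h1 v fun w => sub_eq_zero.1 (h w)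
  have : Nontrivial U := Module.nontrivial_of_finrank_pos (R := ZMod 2) (by omega)
  have := Fact.mk Nat.prime_two
  refine ⟨R, inferInstance, inferInstance, π.ker, inferInstance,
    QuotientGroup.quotientKerEquivOfSurjective π h2, (Heis.es β).πHom.comp f.symm,
    isExtraspecial_congr ((Heis.es β).isExtraspecial hc) f, ?_, (Heis.es β).πHom_surj.comp f.symm.surjective,
    ?_, fun r a => ?_, fun a => ?_⟩
  · rw [← Nat.card_congr f.toEquiv, (Heis.es β).card_eq_pow, hn]
  · ext a
    obtain ⟨a, rfl⟩ := f.surjective a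
    refine Iff.trans ?_ (MulEquivClass.apply_mem_center_iff f).symm
    change _ ↔ a ∈ Subgroup.center _
    rw [(Heis.es β).nd_iff.1 hc]
    simp [ES.mem_Z]
  · obtain ⟨a, rfl⟩ := f.surjective a
    obtain ⟨y, b1, b2⟩ := h5 r a
    rw [show (⟨r * f a * r⁻¹, _⟩ : π.ker) = f y from Subtype.ext b1]
    simp only [MonoidHom.comp_apply, MonoidHom.coe_coe, f.symm_apply_apply]
    exact congrArg Multiplicative.ofAdd b2
  · obtain ⟨a, rfl⟩ := f.surjective a
    rw [← map_mul, map_eq_one_iff _ f.injective, Heis.ext_iff]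
    simp [Heis.es, add_self, CharTwo.add_self_eq_zero, hβ]

end Cfsg.Agent.S3084
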