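import Cfsg.Statements.S3085
import Cfsg.Agent.H13.Griess

set_option autoImplicit false
open Cfsg

namespace Cfsg.Agent.S3085

/-- Let Q be an extraspecial 2-group of order 2^(2n+1) with n ≥ 3 that is of plus type (it contains an elementary abelian subgroup of order 2^(n+1)). Then the group of inner automorphisms of Q has no complement in the full automorphism group of Q: the extension of the inner automorphism group (elementary abelian of order 2^(2n)) by the outer automorphism group (the orthogonal group of plus type) does not split. -/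
theorem result {Q : Type*} [Group Q] [Finite Q] (n : ℕ) (hn : 3 ≤ n) (hQ : Cfsg.IsExtraspecial 2 Q) (hcard : Nat.card Q = 2 ^ (2 * n + 1)) (hplus : ∃ E : Subgroup Q, Cfsg.IsElementaryAbelian 2 E ∧ Nat.card ↥E = 2 ^ (n + 1)) (L : Subgroup (MulAut Q)) : ¬ (Cfsg.Inn Q).IsComplement' L := by
  open H12 H13.Gr Submodule in
  obtain ⟨m, c, hc⟩ := H26.exists_ES_of_isExtraspecial hQ
  have hm := c.card_eq_pow
  rw [hcard, Nat.pow_right_inj one_lt_two, Nat.add_right_cancel_iff] at hm
  obtain ⟨e, he⟩ := SD.exists_equiv_sp (B := c.B) ⟨fun _ => rfl, fun x y => c.B_swap y x, hc,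
    fun x => ⟨0, by simp [c.B_self]⟩⟩ hm.symm
  let a := fun i => e.symm (Pi.single (.inr i) 1)
  let b := fun i => e.symm (Pi.single (.inl i) 1)
  choose x y h1 h2 h3 h4 using fun i => exists_pair c (e := a i) (f := b i) (by
    simp [← he, a, b, spB_apply', Pi.single_apply])
  have h5 : ∀ i j, i ≠ j → ∀ u v, c.π u ∈ span (ZMod 2) {a i, b i} → c.π v ∈ span (ZMod 2) {a j, b j} → Commute u v :=
    fun i j h u v hu hv => c.commute_iff.2 (by
      obtain ⟨p, q, hu⟩ := mem_span_pair.1 hu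
      obtain ⟨r, s, hv⟩ := mem_span_pair.1 hv
      simp [← hu, ← hv, ← he, a, b, spB_apply', Pi.single_apply, h, h.symm])
  have h6 : ∀ t : ZMod 2, t = 0 ∨ t = 1 := by decide
  let i : Fin n := ⟨0, by omega⟩
  let j : Fin n := ⟨1, by omega⟩
  let k : Fin n := ⟨2, by omega⟩
  exact not_compl ⟨by rw [← c.ζ_add]; exact c.ζ_zero, c.ζ_comm 1, fun u v => (h6 (c.B (c.π u) (c.π v))).imp (fun h => c.commute_iff.2 h)
    fun h => by rw [c.comm u v, h]⟩ (c.ζ_eq_one.not.2 one_ne_zero) (h1 i) (h1 j) (h1 k)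
    (h5 i j (by simp [i, j]) _ _ (h3 _) (h3 _)) (h5 i k (by simp [i, k]) _ _ (h3 _) (h3 _))
    (h5 j k (by simp [j, k]) _ _ (h3 _) (h3 _)) (h2 i) (h2 j) (h2 k) (h5 i j (by simp [i, j]) _ _ (h3 _) (h4 _))
    (h5 i k (by simp [i, k]) _ _ (h3 _) (h4 _)) (h5 k j (by simp [j, k]) _ _ (h3 _) (h4 _)) L

end Cfsg.Agent.S3085
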