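import Cfsg.Statements.S3105
import Cfsg.Agent.L32.G
import Cfsg.Agent.H26.SRank2
import Cfsg.Agent.H9.PCons

set_option autoImplicit false
open Cfsg

namespace Cfsg.Agent.S3105

/-- Let X be a finite nonsolvable 2-constrained group with no nontrivial normal subgroup of odd order and of sectional 2-rank at most 4, and suppose X/O₂(X) is isomorphic to the projective special linear group of dimension 3 over the field with 2 elements. Then O₂(X) is elementary abelian of order 8 or 16, or is isomorphic to the direct product of a cyclic group of order 4 and an elementary abelian group of order 8. -/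
theorem result {X : Type*} [Group X] [Finite X] (hns : ¬ Group.IsSolvable X) (hc : Cfsg.IsPConstrained 2 X) (hO : Cfsg.oddCore X = ⊥)
    (h4 : Cfsg.SectionalPRankLE 2 4 X) {F : Type*} [Field F] [Fintype F] (hF : Fintype.card F = 2)
    (hQ : Nonempty (X ⧸ Cfsg.pCore 2 X ≃* Matrix.ProjectiveSpecialLinearGroup (Fin 3) F)) :
    (Cfsg.IsElementaryAbelian 2 (Cfsg.pCore 2 X) ∧ (Nat.card ↥(Cfsg.pCore 2 X) = 8 ∨ Nat.card ↥(Cfsg.pCore 2 X) = 16)) ∨
      Nonempty (↥(Cfsg.pCore 2 X) ≃* Multiplicative (ZMod 4) × (Fin 3 → Multiplicative (ZMod 2))) := by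
  obtain ⟨e⟩ := hQ
  have hC := (H9.isPConstrained_iff_of_pPrimeCore_eq_bot hO).1 hc
  have c168 : Nat.card (X ⧸ pCore 2 X) = 168 := by
    have := H12.card_PSL_fin hF 3 (by decide)
    rw [Nat.card_congr e.toEquiv]
    simpa [Fin.prod_univ_three] using this
  haveI := Fact.mk (by decide : Nat.Prime 7)
  obtain ⟨x, hx⟩ := exists_prime_orderOf_dvd_card' (G := X) 7
    (dvd_trans (by rw [c168]; decide) (Subgroup.card_quotient_dvd_card (pCore 2 X)))
  have k := QuotientGroup.ker_mk' (pCore 2 X)
  have h : L32.St (QuotientGroup.mk' (pCore 2 X)) x :=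
    ⟨haveI := H12.PSL_fin_simple (F := F) 3 (by decide) (by simp); e.isSimpleGroup, c168,
      QuotientGroup.mk'_surjective _, k.symm ▸ H1.isPGroup_pCore 2 X, H26.sr_of_sectional h4, hx⟩
  rw [← k]
  replace hC : Subgroup.centralizer ((QuotientGroup.mk' (pCore 2 X)).ker : Set X) ≤ (QuotientGroup.mk' (pCore 2 X)).ker :=
    k.symm ▸ hC
  exact L32.fin h hC

end Cfsg.Agent.S3105
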