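import Cfsg.Statements.S3106
import Cfsg.Agent.H22.Sr3
import Cfsg.Agent.H26.AutP
import Cfsg.Agent.H9.PCons
import Cfsg.Agent.H3.PGroup1

set_option autoImplicit false
set_option linter.style.haveILetI false
open Cfsg

namespace Cfsg.Agent.S3106

/-- Let X be a finite nonsolvable 2-constrained group with no nontrivial normal subgroup of odd order and of sectional 2-rank at most 4, and suppose X/O₂(X) contains a subgroup isomorphic to the alternating group of degree 5. Then O₂(X) is elementary abelian of order 16, or O₂(X) is a central product of a quaternion group of order 8 and a dihedral group of order 8 (it has order 32 and is generated by two elementwise-commuting subgroups, one quaternion of order 8 and one dihedral of order 8, meeting in the centre). -/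
theorem result {X : Type*} [Group X] [Finite X] (hns : ¬ Group.IsSolvable X) (hc : Cfsg.IsPConstrained 2 X) (hO : Cfsg.oddCore X = ⊥)
    (h4 : Cfsg.SectionalPRankLE 2 4 X)
    (hQ : ∃ A : Subgroup (X ⧸ Cfsg.pCore 2 X), Nonempty (↥A ≃* ↥(alternatingGroup (Fin 5)))) :
    (Cfsg.IsElementaryAbelian 2 (Cfsg.pCore 2 X) ∧ Nat.card ↥(Cfsg.pCore 2 X) = 16) ∨
      (Nat.card ↥(Cfsg.pCore 2 X) = 32 ∧ ∃ A B : Subgroup ↥(Cfsg.pCore 2 X),
        Nonempty (↥A ≃* QuaternionGroup 2) ∧ Nonempty (↥B ≃* DihedralGroup 4) ∧ (∀ a ∈ A, ∀ b ∈ B, a * b = b * a) ∧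
          A ⊔ B = ⊤ ∧ A ⊓ B = Subgroup.center ↥(Cfsg.pCore 2 X)) := by
  obtain ⟨A, ⟨eA⟩⟩ := hQ
  have hC := (H9.isPConstrained_iff_of_pPrimeCore_eq_bot hO).1 hc
  have hQ := H1.isPGroup_pCore 2 X
  set Q := pCore 2 X with hQd
  let Y := A.comap (QuotientGroup.mk' Q)
  let π : Y →* H22.Sr.A5 := eA.toMonoidHom.comp ((QuotientGroup.mk' Q).subgroupComap A)
  have hπ : ∀ y : Y, y ∈ π.ker ↔ (y : X) ∈ Q := fun y => by
    rw [MonoidHom.mem_ker, ← QuotientGroup.eq_one_iff]
    exact (map_eq_one_iff _ eA.injective).trans Subtype.ext_iff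
  have QY : Q ≤ Y := fun x hx => by
    rw [Subgroup.mem_comap, QuotientGroup.mk'_apply, (QuotientGroup.eq_one_iff x).2 hx]; exact one_mem _
  have hk : π.ker = Q.subgroupOf Y := Subgroup.ext hπ
  have hs : Function.Surjective π := eA.surjective.comp
    (MonoidHom.subgroupComap_surjective_of_surjective _ _ (QuotientGroup.mk'_surjective Q))
  have h2 : IsPGroup 2 π.ker := hk ▸ hQ.comap_subtype
  obtain ⟨r, hr⟩ := (hQ.to_quotient (frattini Q)).exists_card_eq
  have St : H22.Sr.St π := ⟨hs, h2, (H22.Sr.SR.of h4).sub Y, fun y hy => by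
    let K : Subgroup Y := ((H26.quotAut (frattini Q)).comp
      ((MulAut.conjNormal : X →* MulAut Q).comp Y.subtype)).ker
    have hK : IsPGroup 2 K := H9.isPGroup_of_forall_coprime fun g hg ho => by
      have h1 := H26.card_dvd_of_frattini hQ hr (Subgroup.zpowers (MulAut.conjNormal (g : X) : MulAut Q))
        (fun a ha => H26.mem_ker_quotAut _ |>.1 ((Subgroup.zpowers_le.2
          (show MulAut.conjNormal (g : X) ∈ (H26.quotAut (frattini Q)).ker from hg)) ha))
      obtain ⟨k, hk⟩ := (hQ.to_subgroup (frattini Q)).exists_card_eq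
      rw [Nat.card_zpowers, hk, ← pow_mul] at h1
      rw [← Subgroup.orderOf_coe] at ho
      have h2 := orderOf_eq_one_iff.1 (Nat.eq_one_of_dvd_coprimes (ho.pow_right _)
        (orderOf_map_dvd _ (g : X)) h1)
      have h3 : (g : X) ∈ Q := hC fun x hx => by
        have := congrArg Subtype.val (DFunLike.congr_fun h2 ⟨x, hx⟩)
        rw [MulAut.conjNormal_apply, mul_inv_eq_iff_eq_mul] at this
        exact this.symm
      obtain ⟨j, hj⟩ := hQ ⟨g, h3⟩
      exact Subtype.ext (orderOf_eq_one_iff.1 (Nat.eq_one_of_dvd_coprimes (ho.pow_right j) dvd_rfl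
        (orderOf_dvd_of_pow_eq_one (congrArg Subtype.val hj))))
    have yK : y ∈ K := show MulAut.conjNormal (y : X) ∈ (H26.quotAut (frattini Q)).ker from
        (H26.mem_ker_quotAut _).2 fun x => by
      obtain ⟨w, hw, e⟩ := (H22.Sr.Sq_le_iff (K := ((frattini Q).map Q.subtype).subgroupOf Y)).2
        (fun p hp => ⟨_, H3.pow_mem_frattini hQ ⟨p, (hπ p).1 hp⟩, rfl⟩) (hy ⟨x, QY x.2⟩ ((hπ _).2 x.2))
      exact (show w = MulAut.conjNormal (y : X) x * x⁻¹ from Subtype.ext e) ▸ hw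
    rcases ((inferInstance : K.Normal).map π hs).eq_bot_or_eq_top with e | e
    · exact Subgroup.mem_bot.1 (e ▸ Subgroup.mem_map_of_mem π yK)
    · obtain ⟨-, -, σ, -, -, -, hσ⟩ := H22.Sr.a5
      obtain ⟨k, hk⟩ := (hK.map π) ⟨σ, e ▸ Subgroup.mem_top σ⟩
      have := orderOf_dvd_of_pow_eq_one (congrArg Subtype.val hk)
      rw [Subgroup.coe_mk, hσ] at this
      exact absurd (Nat.prime_three.dvd_of_dvd_pow this) (by norm_num)⟩
  have hcard : Nat.card π.ker = Nat.card Q := by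
    rw [hk]; exact Nat.card_congr (Subgroup.subgroupOfEquivOfLe QY).toEquiv
  rcases St.fin with ⟨a, b⟩ | ⟨a, z, c, z0, z1, zc, sq, ⟨p, hp, pz⟩, c5, fx⟩
  · have e : ∀ x ∈ Q, x ^ 2 = 1 := fun x hx => congrArg Subtype.val (a ⟨x, QY hx⟩ ((hπ _).2 hx))
    exact .inl ⟨⟨⟨⟨fun u v => Subtype.ext (H22.Sr.comm_of_sq (e _ u.2) (e _ v.2) (e _ (u * v).2))⟩⟩, e⟩,
      hcard ▸ b⟩
  · have tr : ∀ {u : Q} {v : Y}, (u : X) = v → (v = 1 ∨ v = z) → u = 1 ∨ u = ⟨z, (hπ z).1 z0⟩ :=
      fun e h => h.imp (fun a => Subtype.ext (e.trans (congrArg Subtype.val a)))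
        fun a => Subtype.ext (e.trans (congrArg Subtype.val a))
    exact .inr ⟨hcard ▸ a, H22.Sr.rec32 (hcard ▸ a) (z := ⟨z, (hπ z).1 z0⟩)
      (fun e => z1 (Subtype.ext (congrArg (fun q : Q => (q : X)) e)))
      (Subgroup.mem_center_iff.2 fun g => Subtype.ext (congrArg (fun q : Y => (q : X))
        (Subgroup.mem_center_iff.1 zc ⟨g, QY g.2⟩)))
      (fun e => tr rfl (sq ⟨e, QY e.2⟩ ((hπ _).2 e.2)))
      ⟨⟨p, (hπ p).1 hp⟩, Subtype.ext (congrArg (fun q : Y => (q : X)) pz)⟩ (MulAut.conjNormal (c : X))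
      (by rw [← map_pow, ← Subgroup.coe_pow, c5, Subgroup.coe_one, map_one])
      fun e he => tr rfl (fx ⟨e, QY e.2⟩ ((hπ _).2 e.2) (Subtype.ext (congrArg (fun q : Q => (q : X)) he)))⟩

end Cfsg.Agent.S3106
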