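import Cfsg.Statements.S3109
import Cfsg.Agent.H11.SFc

set_option autoImplicit false
open Cfsg

namespace Cfsg.Agent.S3109

/-- Let G be a non-abelian finite simple group in which every 2-local subgroup is 2-constrained, and suppose some Sylow 2-subgroup S of G has a self-centralizing abelian normal subgroup A (C_S(A) = A) of 2-rank at least 3. Then the centralizer of every involution of G has no nontrivial normal subgroup of odd order. -/
theorem result {G : Type*} [Group G] [Finite G] [IsSimpleGroup G] (hG : ¬ IsMulCommutative G)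
    (h2c : ∀ T : Subgroup G, IsPGroup 2 T → T ≠ ⊥ → Cfsg.IsPConstrained 2 ↥(Subgroup.normalizer (T : Set G)))
    (S : Sylow 2 G) (A : Subgroup ↥(S : Subgroup G)) (hAn : A.Normal) (hAab : IsMulCommutative ↥A)
    (hAC : Subgroup.centralizer (A : Set ↥(S : Subgroup G)) = A) (hA3 : ¬ Cfsg.PRankLE 2 2 ↥A) :
    ∀ t : G, orderOf t = 2 → Cfsg.centralizerPPrimeCore 2 t = ⊥ := by
  obtain ⟨E, h1, h2, h3, h4⟩ := H11.exists_normalized_eight (S := (S : Subgroup G))
    (A := A.map (S : Subgroup G).subtype) (Subgroup.map_subtype_le _)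
    (fun s hs => H11.mem_normalizer_of_forall (by
      rintro _ ⟨a, ha, rfl⟩; exact ⟨_, hAn.conj_mem a ha ⟨s, hs⟩, rfl⟩))
    (by
      rintro _ ⟨a, ha, rfl⟩ _ ⟨b, hb, rfl⟩
      exact congrArg (fun x : A => ((x : (S : Subgroup G)) : G)) (hAab.1.1 ⟨a, ha⟩ ⟨b, hb⟩))
    (fun e => hA3 (H1.pRankLE_of_injective
      (A.equivMapOfInjective _ (S : Subgroup G).subtype_injective).toMonoidHom (MulEquiv.injective _) e))
  intro t ht
  refine eq_bot_iff.2 ((H11.core_cent_le h2c S h1 h2 h3 h4 ht).trans ?_)
  rcases IsSimpleGroup.eq_bot_or_eq_top_of_normal (oddCore G) inferInstance with e | e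
  · exact e.le
  · exact absurd (H11.even_card_of_invol (e.ge (Subgroup.mem_top t)) ht)
      (Nat.not_even_iff_odd.2 GW.odd_oddCore)

end Cfsg.Agent.S3109
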