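import Cfsg.Statements.S3110
import Cfsg.Agent.H11.SFc

set_option autoImplicit false
open Cfsg

namespace Cfsg.Agent.S3110

/-- Let G be a finite group in which every 2-local subgroup is 2-constrained and some Sylow 2-subgroup has a self-centralizing abelian normal subgroup of 2-rank at least 3, and let S be any Sylow 2-subgroup of G. Then there is a subgroup W of G of odd order such that, for every subgroup B of S of 2-rank at least 2, W is generated by the largest normal odd-order subgroups O(C_G(b)) of the centralizers of the non-identity elements b of B, and W is normalized by the normalizer of every such B. -/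
theorem result {G : Type*} [Group G] [Finite G]
    (h2c : ∀ T : Subgroup G, IsPGroup 2 T → T ≠ ⊥ → Cfsg.IsPConstrained 2 ↥(Subgroup.normalizer (T : Set G)))
    (S : Sylow 2 G) (A : Subgroup ↥(S : Subgroup G)) (hAn : A.Normal) (hAab : IsMulCommutative ↥A)
    (hAC : Subgroup.centralizer (A : Set ↥(S : Subgroup G)) = A) (hA3 : ¬ Cfsg.PRankLE 2 2 ↥A) (S' : Sylow 2 G) :
    ∃ W : Subgroup G, Odd (Nat.card ↥W) ∧
      ∀ B : Subgroup G, B ≤ (S' : Subgroup G) → ¬ Cfsg.PRankLE 2 1 ↥B →
        W = (⨆ b : {b : G // b ∈ B ∧ b ≠ 1}, Cfsg.centralizerPPrimeCore 2 (b : G)) ∧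
        Subgroup.normalizer (B : Set G) ≤ Subgroup.normalizer (W : Set G) := by
  obtain ⟨E, h1, h2, h3, h4⟩ := H11.exists_normalized_eight (S := (S : Subgroup G))
    (A := A.map (S : Subgroup G).subtype) (Subgroup.map_subtype_le _)
    (fun s hs => H11.mem_normalizer_of_forall (by
      rintro _ ⟨a, ha, rfl⟩; exact ⟨_, hAn.conj_mem a ha ⟨s, hs⟩, rfl⟩))
    (by
      rintro _ ⟨a, ha, rfl⟩ _ ⟨b, hb, rfl⟩
      exact congrArg (fun x : A => ((x : (S : Subgroup G)) : G)) (hAab.1.1 ⟨a, ha⟩ ⟨b, hb⟩))
    (fun e => hA3 (H1.pRankLE_of_injective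
      (A.equivMapOfInjective _ (S : Subgroup G).subtype_injective).toMonoidHom (MulEquiv.injective _) e))
  obtain ⟨W, hW, h⟩ := H11.exists_odd_W h2c S h1 h2 h3 h4 S'
  exact ⟨W, hW, fun B hB hr => ⟨h B hB hr, h B hB hr ▸ H11.normalizer_le_normalizer_Wc B⟩⟩

end Cfsg.Agent.S3110
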