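import Cfsg.Statements.S3357
import Cfsg.Agent.H1.FreeFun

set_option autoImplicit false
open Cfsg

namespace Cfsg.Agent.S3357

/-- Let G be a finite group that occurs as a Frobenius complement. Then G has a faithful irreducible representation over an algebraic closure of the rationals in which no non-identity element of G has 1 as an eigenvalue: there are n ≥ 1 and an injective homomorphism ρ from G to GL(n) over that field, with no invariant subspace other than 0 and the whole space, such that for g ≠ 1 the only vector fixed by ρ(g) is 0. -/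
theorem result {G : Type*} [Group G] [Finite G]
    (hFC : ∃ (L : Type) (_ : Group L) (_ : Finite L) (H : Subgroup L), Cfsg.IsFrobeniusComplement H ∧ Nonempty (G ≃* H)) :
    ∃ (n : ℕ) (ρ : G →* GL (Fin n) (AlgebraicClosure ℚ)), 0 < n ∧ Function.Injective ρ ∧
      (∀ W : Submodule (AlgebraicClosure ℚ) (Fin n → AlgebraicClosure ℚ),
        (∀ g : G, ∀ w ∈ W, ((ρ g : GL (Fin n) (AlgebraicClosure ℚ)) : Matrix (Fin n) (Fin n) (AlgebraicClosure ℚ)).mulVec w ∈ W) → W = ⊥ ∨ W = ⊤) ∧
      ∀ g : G, g ≠ 1 → ∀ v : Fin n → AlgebraicClosure ℚ,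
        ((ρ g : GL (Fin n) (AlgebraicClosure ℚ)) : Matrix (Fin n) (Fin n) (AlgebraicClosure ℚ)).mulVec v = v → v = 0 := by
  obtain ⟨L, _, _, H, hH, ⟨e⟩⟩ := hFC
  obtain ⟨f, h0, h⟩ := (H1.freeRep_of_frob hH e).exists_fun
  obtain ⟨n, ρ, hn, h1, h2⟩ := H1.exists_rep_of_fun (F := AlgebraicClosure ℚ) (f := fun x => f x)
    (fun e => h0 (by simpa using congrFun e 1)) fun x g hg => by
      exact_mod_cast h x g fun e => by simp [e, Nat.not_prime_one] at hg
  refine ⟨n, ρ, hn, (injective_iff_map_eq_one ρ).mpr fun g hg => ?_, h1, h2⟩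
  by_contra h3
  simpa using congrFun (h2 g h3 (fun _ => 1) (by simp [hg])) ⟨0, hn⟩

end Cfsg.Agent.S3357
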