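import Cfsg.Statements.S3358
import Cfsg.Agent.H1.FrobCompl3

set_option autoImplicit false
open Cfsg

namespace Cfsg.Agent.S3358

open Subgroup Cfsg.Agent.H20 Cfsg.Agent.H21 Cfsg.Agent.BG Cfsg.Agent.H1 Equiv

theorem conj_pow_pow {G : Type*} [Group G] {a b : G} {r : ℕ} (h : a⁻¹ * b * a = b ^ r) (k : ℕ) :
    (a ^ k)⁻¹ * b * a ^ k = b ^ r ^ k := by
  induction k with
  | zero => simp
  | succ k ih =>
    have : (a⁻¹ * b * a⁻¹⁻¹) ^ r ^ k = a⁻¹ * b ^ r ^ k * a⁻¹⁻¹ := conj_pow
    rw [pow_succ' r, pow_mul, ← h, ← inv_inv a, inv_inv a⁻¹, this, ← ih, pow_succ]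
    group

theorem card_le {G : Type*} [Group G] {a b : G} {n m r : ℕ} (hn : 0 < n) (hm : 0 < m)
    (ha : a ^ n = 1) (hb : b ^ m = 1) (h : a⁻¹ * b * a = b ^ r) :
    Finite (closure ({a, b} : Set G)) ∧ ♯(closure ({a, b} : Set G)) ≤ n * m := by
  have h1 : ∀ x, (∃ i j : ℕ, x = a ^ i * b ^ j) → ∀ y ∈ ({a, b} : Set G), ∀ k : ℕ,
      ∃ i j : ℕ, y ^ k * x = a ^ i * b ^ j := by
    rintro _ ⟨i, j, rfl⟩ y (rfl | rfl) k
    · exact ⟨k + i, j, by rw [pow_add, mul_assoc]⟩
    · refine ⟨i, r ^ i * k + j, ?_⟩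
      have : ((a ^ i)⁻¹ * y * (a ^ i)⁻¹⁻¹) ^ k = (a ^ i)⁻¹ * y ^ k * (a ^ i)⁻¹⁻¹ := conj_pow
      rw [pow_add, pow_mul, ← conj_pow_pow h, ← inv_inv (a ^ i), inv_inv (a ^ i)⁻¹, this]
      group
  have h2 : ∀ x ∈ closure ({a, b} : Set G), ∃ i j : ℕ, x = a ^ i * b ^ j := fun x hx => by
    induction hx using closure_induction_left with
    | one => exact ⟨0, 0, by simp⟩
    | mul_left y hy x _ ih => simpa using h1 x ih y hy 1
    | inv_mul_cancel y hy x _ ih =>
      have : y ^ (n * m - 1) * y = 1 := by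
        rw [← pow_succ, Nat.sub_add_cancel (Nat.mul_pos hn hm)]
        rcases hy with rfl | rfl
        · rw [pow_mul, ha, one_pow]
        · rw [mul_comm, pow_mul, hb, one_pow]
      rw [← eq_inv_of_mul_eq_one_left this]
      exact h1 x ih y hy _
  let f : Fin n × Fin m → closure ({a, b} : Set G) := fun p => ⟨a ^ (p.1 : ℕ) * b ^ (p.2 : ℕ),
    mul_mem (pow_mem (subset_closure (by simp)) _) (pow_mem (subset_closure (by simp)) _)⟩
  have hf : Function.Surjective f := fun x => by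
    obtain ⟨i, j, e⟩ := h2 x x.2
    exact ⟨(⟨i % n, Nat.mod_lt _ hn⟩, ⟨j % m, Nat.mod_lt _ hm⟩), Subtype.ext (by
      rw [e, pow_eq_pow_mod i ha, pow_eq_pow_mod j hb])⟩
  exact ⟨Finite.of_surjective f hf, by simpa using Nat.card_le_card_of_surjective f hf⟩

theorem zgroup_pres {X : Type*} [Group X] [Finite X] [IsZGroup X] (h : FreeRep X) :
    ∃ n m r : ℕ, 0 < n ∧ 0 < m ∧ Nat.Coprime (r - 1) m ∧ Nat.Coprime n m ∧ 1 ≤ r ∧
        r ^ (n / ∏ p ∈ n.primeFactors, p) % m = 1 % m ∧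
        Nonempty (X ≃* PresentedGroup
          ({FreeGroup.of (0 : Fin 2) ^ n, FreeGroup.of (1 : Fin 2) ^ m,
            (FreeGroup.of (0 : Fin 2))⁻¹ * FreeGroup.of 1 * FreeGroup.of 0 * (FreeGroup.of (1 : Fin 2) ^ r)⁻¹} :
            Set (FreeGroup (Fin 2)))) := by
  have hcop := IsZGroup.coprime_commutator_index (G := X)
  obtain ⟨H, hH⟩ := exists_right_complement'_of_coprime hcop
  have e1 : Abelianization X ≃* H := hH.symm.QuotientMulEquiv
  obtain ⟨x, rfl⟩ := (Subgroup.isCyclic_iff_exists_zpowers_eq_top H).mp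
    (isCyclic_of_surjective _ e1.surjective)
  obtain ⟨y, hy⟩ := (Subgroup.isCyclic_iff_exists_zpowers_eq_top _).mp (IsZGroup.isCyclic_commutator X)
  have hn : (zpowers y).Normal := hy ▸ inferInstance
  have hc := hH.card_mul
  have hgen : closure {x, y} = ⊤ := by
    rw [eq_top_iff, ← hH.sup_eq_top, ← hy]
    exact sup_le (zpowers_le.mpr (subset_closure (by simp))) (zpowers_le.mpr (subset_closure (by simp)))
  rw [hH.symm.index_eq_card] at hcop
  rw [← hy, Nat.card_zpowers, Nat.card_zpowers] at hcop hc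
  obtain ⟨k, hk⟩ := mem_powers_iff_mem_zpowers.mpr (hn.conj_mem' _ (mem_zpowers y) x)
  have hr : x⁻¹ * y * x = y ^ (k + orderOf y) := by rw [pow_add, pow_orderOf_eq_one, mul_one, ← hk]
  have hm := orderOf_pos y
  have hn0 := orderOf_pos x
  refine ⟨orderOf x, orderOf y, k + orderOf y, hn0, hm, ?_, hcop.symm, by omega, ?_, ?_⟩
  · obtain ⟨r, e⟩ : ∃ r, k + orderOf y = r + 1 := ⟨k + orderOf y - 1, by omega⟩
    rw [e] at hr ⊢
    rw [Nat.add_sub_cancel, Nat.Coprime, ← mem_zpowers_pow_iff]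
    haveI : (zpowers (y ^ r)).Normal := normalizer_eq_top_iff.mp (top_le_iff.mp
      (norm_of_le_cyclic inferInstance (zpowers_le.mpr (pow_mem (mem_zpowers y) _))
        le_normalizer_of_normal))
    let π := QuotientGroup.mk' (zpowers (y ^ r))
    have h1 : π x * π y = π y * π x := by
      have h2 : π (y ^ r) = 1 := (QuotientGroup.eq_one_iff _).mpr (mem_zpowers _)
      have h3 := congrArg π hr
      simp only [map_mul, map_inv, pow_succ, h2, one_mul] at h3
      rw [← h3, ← mul_assoc, ← mul_assoc, mul_inv_cancel, one_mul, h3]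
    have h2 : IsMulCommutative (closure {π x, π y}) := isMulCommutative_closure (by
      rintro a (rfl | rfl) b (rfl | rfl)
      exacts [rfl, h1, h1.symm, rfl])
    rw [← Set.image_pair, ← MonoidHom.map_closure, hgen, ← der_eq_bot_iff, ← map_commutator,
      Subgroup.map_eq_bot_iff, QuotientGroup.ker_mk', ← _root_.commutator_def, ← hy] at h2
    exact h2 (mem_zpowers y)
  · have hd := Nat.prod_primeFactors_dvd (orderOf x)
    set n' := ∏ p ∈ (orderOf x).primeFactors, p
    have hsq : Squarefree n' := Finset.squarefree_prod_of_pairwise_isCoprime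
      (fun p hp q hq h => Nat.coprime_iff_isRelPrime.mp ((Nat.coprime_primes
        (Nat.prime_of_mem_primeFactors hp) (Nat.prime_of_mem_primeFactors hq)).mpr h))
      fun p hp => (Nat.prime_of_mem_primeFactors hp).squarefree
    have ho : orderOf (x ^ (orderOf x / n')) = n' := orderOf_pow_orderOf_div hn0.ne' hd
    have : x ^ (orderOf x / n') ∈ C⟦zpowers y⟧ := H26.mem_of_forall_prime_pow fun p hp h1 => by
      obtain ⟨V, _, _, _, _, φ, h⟩ := h.exists_semireg
      have h2 := orderOf_pow_orderOf_div (orderOf_pos _).ne' h1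
      refine ⟨_, fun h3 => ?_, h.mem_centralizer (le_normalizer_of_normal (mem_top _)) (h2.symm ▸ hp) ?_⟩
      · rw [ho] at h1 h3
        exact hp.prime.not_unit (hsq p (by
          rwa [← Nat.dvd_div_iff_mul_dvd h1]))
      · rw [h2, Nat.card_zpowers]
        exact hcop.symm.coprime_dvd_left (h1.trans (ho.dvd.trans hd))
    have h1 := conj_pow_pow hr (orderOf x / n')
    rw [mul_assoc, this y (mem_zpowers y), inv_mul_cancel_left] at h1
    exact (pow_eq_pow_iff_modEq.mp ((pow_one y).trans h1)).symm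
  · generalize k + orderOf y = r at hr
    set rels : Set (FreeGroup (Fin 2)) := {FreeGroup.of (0 : Fin 2) ^ orderOf x,
      FreeGroup.of (1 : Fin 2) ^ orderOf y, (FreeGroup.of (0 : Fin 2))⁻¹ * FreeGroup.of 1 *
        FreeGroup.of 0 * (FreeGroup.of (1 : Fin 2) ^ r)⁻¹}
    let f : PresentedGroup rels →* X := PresentedGroup.toGroup (f := ![x, y]) (by
      rintro _ (rfl | rfl | rfl) <;> simp [hr])
    obtain ⟨g, g0, g1⟩ := H12.exists_hom_of_pair (a := (PresentedGroup.of 0 : PresentedGroup rels))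
      (b := PresentedGroup.of 1) hgen (by
        rw [← hc, mul_comm]
        refine card_le (r := r) hn0 hm (Prod.ext (pow_orderOf_eq_one x) ?_)
          (Prod.ext (pow_orderOf_eq_one y) ?_) (Prod.ext hr ?_)
        · exact PresentedGroup.one_of_mem (rels := rels) (Or.inl rfl)
        · exact PresentedGroup.one_of_mem (rels := rels) (Or.inr (Or.inl rfl))
        · exact mul_inv_eq_one.mp (PresentedGroup.one_of_mem (rels := rels) (Or.inr (Or.inr rfl))))
    refine ⟨MonoidHom.toMulEquiv g f (MonoidHom.eq_of_eqOn_dense hgen ?_) (PresentedGroup.ext ?_)⟩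
    · rintro _ (rfl | rfl) <;> simp [g0, g1, f]
    · intro i
      fin_cases i <;> simp [g0, g1, f]

/-- Structure of solvable Frobenius complements. Let G be a finite solvable group that occurs as a Frobenius complement. Then G has a normal subgroup G₀ such that G/G₀ is isomorphic to a subgroup of Sym(4) (G₀ is the kernel of a homomorphism to Sym(4)), all Sylow subgroups of G₀ are cyclic, and G₀ has a presentation ⟨x, y | x^n = 1, y^m = 1, x⁻¹ y x = y^r⟩ with n, m ≥ 1, gcd(r − 1, m) = gcd(n, m) = 1 and r^(n/n′) ≡ 1 (mod m), where n′ is the product of the distinct primes dividing n. -/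
theorem result {G : Type*} [Group G] [Finite G] (hsol : Group.IsSolvable G)
    (hFC : ∃ (L : Type) (_ : Group L) (_ : Finite L) (H : Subgroup L), Cfsg.IsFrobeniusComplement H ∧ Nonempty (G ≃* H)) :
    ∃ G₀ : Subgroup G, G₀.Normal ∧
      (∃ f : G →* Equiv.Perm (Fin 4), f.ker = G₀) ∧
      (∀ (p : ℕ) [Fact p.Prime] (P : Sylow p G₀), IsCyclic P) ∧
      ∃ n m r : ℕ, 0 < n ∧ 0 < m ∧ Nat.Coprime (r - 1) m ∧ Nat.Coprime n m ∧ 1 ≤ r ∧
        r ^ (n / ∏ p ∈ n.primeFactors, p) % m = 1 % m ∧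
        Nonempty (G₀ ≃* PresentedGroup
          ({FreeGroup.of (0 : Fin 2) ^ n, FreeGroup.of (1 : Fin 2) ^ m,
            (FreeGroup.of (0 : Fin 2))⁻¹ * FreeGroup.of 1 * FreeGroup.of 0 * (FreeGroup.of (1 : Fin 2) ^ r)⁻¹} :
            Set (FreeGroup (Fin 2)))) := by
  obtain ⟨L, _, _, H, hH, ⟨e⟩⟩ := hFC
  have h := freeRep_of_frob hH e
  obtain ⟨N, h1, h2⟩ := h.exists_kerOnto hsol
  have h3 : ∃ f : G →* Perm (Fin 4), f.ker = N := by
    rcases h2 with rfl | ⟨f, -, rfl⟩ | ⟨f, -, rfl⟩ | ⟨f, -, rfl⟩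
    · exact ⟨1, MonoidHom.ker_one⟩
    · let i : DihedralGroup 2 →* Perm (Fin 4) := MonoidHom.mk' (fun x =>
        if x = 1 then 1 else if x = .r 1 then swap 0 1 else if x = .sr 0 then swap 2 3
          else swap 0 1 * swap 2 3) (by decide)
      exact ⟨i.comp f, MonoidHom.ker_comp_of_injective _ _ (by decide)⟩
    · exact ⟨(alternatingGroup _).subtype.comp f,
        MonoidHom.ker_comp_of_injective _ _ (subtype_injective _)⟩
    · exact ⟨f, rfl⟩
  obtain ⟨f, rfl⟩ := h3
  exact ⟨_, inferInstance, ⟨f, rfl⟩, fun p _ P => inferInstance, zgroup_pres (h.subgroup _)⟩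

end Cfsg.Agent.S3358
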