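import Cfsg.Statements.S3362
import Cfsg.Agent.H16.FusSimple
import Cfsg.Agent.H16.PermEng2
-- import your own Cfsg.Agent.* helpers here

set_option autoImplicit false
open Cfsg

namespace Cfsg.Agent.S3362

open Cfsg.Agent.H16 Subgroup MulAction

def pt (i : ℕ) : Fin 12 := Fin.ofNat 12 i

noncomputable def code (g : Equiv.Perm (Fin 12)) : ℕ := pk 4 12 fun i => (g (pt i) : ℕ)

theorem pt_val (a : Fin 12) : pt a = a := by revert a; decide

theorem inj : Inj pt 12 := by unfold Inj; decide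

theorem faith (K : Subgroup (Equiv.Perm (Fin 12))) : Faith pt 12 K := fun g _ h =>
  Equiv.ext fun a => by have := h a a.2; rwa [pt_val] at this

theorem rep (g : Equiv.Perm (Fin 12)) : Rep pt 12 g (get 4 (code g)) := fun i hi => by
  rw [code, get_pk (fun j _ => (g (pt j)).2.trans (by norm_num)) hi, pt_val]
  exact ⟨(g _).2, rfl⟩

theorem gen (L : List (Equiv.Perm (Fin 12))) : Gen pt 12 4 (closure {x | x ∈ L}) (L.map code) := by
  refine ⟨fun p hp => ?_, fun K _ h => (closure_le _).2 fun g hg => ?_⟩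
  · obtain ⟨g, hg, rfl⟩ := List.mem_map.1 hp
    exact ⟨g, subset_closure hg, rep g⟩
  · obtain ⟨g', h1, h2⟩ := h _ (List.mem_map_of_mem hg)
    rw [Rep.eq_of_faith (faith ⊤) (mem_top g) (mem_top g') (rep g) h2]; exact h1


/-- An explicit construction of the Mathieu groups of degrees 11 and 12. On the points 0, …, 11 let s = (3 4 5)(6 7 8)(9 10 11), t = (3 6 9)(4 7 10)(5 8 11), u = (4 6 5 9)(7 8 11 10), v = (4 7 5 11)(6 10 9 8), w = (4 10 5 8)(6 11 9 7), x₁ = (0 3)(6 7)(8 10)(9 11), x₂ = (0 1)(6 9)(7 10)(8 11), x₃ = (1 2)(6 11)(7 9)(8 10) (each written as a product of transpositions). Then the group M₁₂ generated by all eight permutations is sharply 5-transitive on the 12 points and has order 95040, and the group M₁₁ generated by the first seven has order 7920 and is the stabilizer of the point 2 in M₁₂. -/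
theorem result
    (s t u v w x₁ x₂ x₃ : Equiv.Perm (Fin 12))
    (hs : s = Equiv.swap (3 : Fin 12) 5 * Equiv.swap (3 : Fin 12) 4 * Equiv.swap (6 : Fin 12) 8 * Equiv.swap (6 : Fin 12) 7 * Equiv.swap (9 : Fin 12) 11 * Equiv.swap (9 : Fin 12) 10) (ht : t = Equiv.swap (3 : Fin 12) 9 * Equiv.swap (3 : Fin 12) 6 * Equiv.swap (4 : Fin 12) 10 * Equiv.swap (4 : Fin 12) 7 * Equiv.swap (5 : Fin 12) 11 * Equiv.swap (5 : Fin 12) 8)
    (hu : u = Equiv.swap (4 : Fin 12) 9 * Equiv.swap (4 : Fin 12) 5 * Equiv.swap (4 : Fin 12) 6 * Equiv.swap (7 : Fin 12) 10 * Equiv.swap (7 : Fin 12) 11 * Equiv.swap (7 : Fin 12) 8) (hv : v = Equiv.swap (4 : Fin 12) 11 * Equiv.swap (4 : Fin 12) 5 * Equiv.swap (4 : Fin 12) 7 * Equiv.swap (6 : Fin 12) 8 * Equiv.swap (6 : Fin 12) 9 * Equiv.swap (6 : Fin 12) 10) (hw : w = Equiv.swap (4 : Fin 12) 8 * Equiv.swap (4 : Fin 12) 5 * Equiv.swap (4 : Fin 12) 10 * Equiv.swap (6 : Fin 12) 7 * Equiv.swap (6 : Fin 12) 9 * Equiv.swap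 (6 : Fin 12) 11)
    (hx₁ : x₁ = Equiv.swap (0 : Fin 12) 3 * Equiv.swap (6 : Fin 12) 7 * Equiv.swap (8 : Fin 12) 10 * Equiv.swap (9 : Fin 12) 11) (hx₂ : x₂ = Equiv.swap (0 : Fin 12) 1 * Equiv.swap (6 : Fin 12) 9 * Equiv.swap (7 : Fin 12) 10 * Equiv.swap (8 : Fin 12) 11)
    (hx₃ : x₃ = Equiv.swap (1 : Fin 12) 2 * Equiv.swap (6 : Fin 12) 11 * Equiv.swap (7 : Fin 12) 9 * Equiv.swap (8 : Fin 12) 10)
    (M₁₂ M₁₁ : Subgroup (Equiv.Perm (Fin 12))) (hM₁₂ : M₁₂ = Subgroup.closure {s, t, u, v, w, x₁, x₂, x₃})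
    (hM₁₁ : M₁₁ = Subgroup.closure {s, t, u, v, w, x₁, x₂}) :
    MulAction.IsMultiplyPretransitive M₁₂ (Fin 12) 5 ∧ (∀ y : Fin 5 ↪ Fin 12, MulAction.stabilizer M₁₂ y = ⊥) ∧
    Nat.card M₁₂ = 95040 ∧ Nat.card M₁₁ = 7920 ∧
    M₁₁ = M₁₂ ⊓ MulAction.stabilizer (Equiv.Perm (Fin 12)) (2 : Fin 12) := by
  have e1 : M₁₂ = closure {x | x ∈ [s, t, u, v, w, x₁, x₂, x₃]} := by rw [hM₁₂]; congr 1; ext; simp
  have e2 : M₁₁ = closure {x | x ∈ [s, t, u, v, w, x₁, x₂]} := by rw [hM₁₁]; congr 1; ext; simp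
  have g1 := gen [s, t, u, v, w, x₁, x₂, x₃]
  have g2 := gen [s, t, u, v, w, x₁, x₂]
  rw [← e1] at g1
  rw [← e2] at g2
  have hle : M₁₁ ≤ M₁₂ ⊓ stabilizer (Equiv.Perm (Fin 12)) (2 : Fin 12) := by
    refine le_inf (by rw [hM₁₁, hM₁₂]; exact closure_mono (by intro; simp; tauto)) ?_
    rw [e2, closure_le]
    subst hs ht hu hv hw hx₁ hx₂
    intro g hg
    simp only [List.mem_cons, List.not_mem_nil, or_false, Set.mem_setOf_eq] at hg
    change g (2 : Fin 12) = 2
    rcases hg with rfl | rfl | rfl | rfl | rfl | rfl | rfl <;> decide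
  have k1 : [s, t, u, v, w, x₁, x₂, x₃].map code = [171139535290896, 92615224025616, 183942805598736, 80841396400656, 164327252963856, 167926364897811, 148896472117761, 114875801284896] := by
    subst hs ht hu hv hw hx₁ hx₂ hx₃; decide +kernel
  have k2 : [s, t, u, v, w, x₁, x₂].map code = [171139535290896, 92615224025616, 183942805598736, 80841396400656, 164327252963856, 167926364897811, 148896472117761] := by
    subst hs ht hu hv hw hx₁ hx₂; decide +kernel
  rw [k1] at g1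
  rw [k2] at g2
  have c1 := card_of_ss (mulOk_pmul (by norm_num)) inj (B := [2, 1, 0, 3, 4]) (by decide) (faith _) g1
    (M := 95040) (by decide +kernel)
  have c2 := card_of_ss (mulOk_pmul (by norm_num)) inj (B := [1, 0, 3, 4]) (by decide) (faith _) g2
    (M := 7920) (by decide +kernel)
  have hD : ptSet pt 12 4095 = Set.univ := Set.eq_univ_of_forall fun a => ⟨a, a.2, by revert a; decide, pt_val a⟩
  have h5 : IsMultiplyPretransitive M₁₂ (Fin 12) 5 := ⟨fun x y => by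
    obtain ⟨g, hg, h⟩ := transB_tuple inj [2, 1, 0, 3, 4] (by decide) M₁₂ 4095
      (fun g _ => by rw [hD]; exact Set.smul_set_univ) g1.1 (by decide +kernel) rfl x y x.injective y.injective
      (fun _ => hD ▸ Set.mem_univ _) (fun _ => hD ▸ Set.mem_univ _)
    exact ⟨⟨g, hg⟩, Function.Embedding.ext h⟩⟩
  refine ⟨h5, fun y => ?_, c1, c2, eq_of_le_of_card_ge hle ?_⟩
  · have h := (stabilizer M₁₂ y).card_mul_index
    rw [@index_stabilizer_of_transitive _ _ _ _ y ⟨h5.1⟩, c1, Nat.card_eq_fintype_card (α := Fin 5 ↪ Fin 12),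
      Fintype.card_embedding_eq] at h
    exact card_eq_one.1 (by simp [Nat.descFactorial] at h ⊢; omega)
  · haveI := isMultiplyPretransitive_of_le (G := M₁₂) (α := Fin 12) (m := 1) (n := 5) (by norm_num) (by simp)
    haveI := is_one_pretransitive_iff.1 this
    have h := (stabilizer M₁₂ (2 : Fin 12)).card_mul_index
    rw [index_stabilizer_of_transitive, c1, card_inf_stabilizer, Nat.card_eq_fintype_card (α := Fin 12),
      Fintype.card_fin] at h
    omega

end Cfsg.Agent.S3362
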