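import Cfsg.Statements.S3374
import Cfsg.Agent.H1.FrobCompl2

set_option autoImplicit false
open Cfsg

namespace Cfsg.Agent.S3374

open Cfsg.Agent.H1 Matrix
open scoped MatrixGroups

def a11 : SL(2, ZMod 11) := ⟨!![0, 10; 1, 0], by decide⟩
def c11 : SL(2, ZMod 11) := ⟨!![0, 3; 7, 10], by decide⟩

theorem h120 : ((120 : ℕ) : ZMod 11) ≠ 0 := by decide

theorem rel11 : Rel25 a11 c11 := ⟨by decide, by decide, by decide, by decide⟩

theorem eq_one_of_fix {F : Type*} [Field F] (g : SL(2, F)) {n : ℕ} (hn : (n : F) ≠ 0) (h : g ^ n = 1)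
    {v : Fin 2 → F} (hv : v ≠ 0) (h1 : g.1 *ᵥ v = v) : g = 1 := by
  have h2 : (g.1 - 1).det = 0 := Matrix.exists_mulVec_eq_zero_iff.mp
    ⟨v, hv, by rw [Matrix.sub_mulVec, h1, Matrix.one_mulVec, sub_self]⟩
  have h3 := g.2
  rw [Matrix.det_fin_two] at h2 h3
  simp at h2
  have h4 : (g.1 - 1) * (g.1 - 1) = 0 := by
    ext i j
    fin_cases i <;> fin_cases j <;> simp [Matrix.mul_apply, Fin.sum_univ_two]
    · linear_combination (g.1 0 0 - 1) * (h3 - h2) - h2
    · linear_combination (g.1 0 1) * (h3 - h2)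
    · linear_combination (g.1 1 0) * (h3 - h2)
    · linear_combination (g.1 1 1 - 1) * (h3 - h2) - h2
  have h5 : ∀ k : ℕ, g.1 ^ k = 1 + (k : F) • (g.1 - 1) := fun k => by
    induction k with
    | zero => simp
    | succ k ih =>
      rw [pow_succ, ih, ← sub_add_cancel g.1 1]
      generalize g.1 - 1 = N at h4
      simp [add_mul, mul_add, h4, add_smul]
      abel
  have h6 := h5 n
  rw [← Matrix.SpecialLinearGroup.coe_pow, h, Matrix.SpecialLinearGroup.coe_one, left_eq_add,
    smul_eq_zero_iff_right hn, sub_eq_zero] at h6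
  exact Subtype.ext h6

/-- SL(2,5) occurs as a Frobenius complement: there is a finite group L with a subgroup H isomorphic to SL(2,5) which is a non-trivial proper subgroup meeting each conjugate gHg⁻¹ with g outside H trivially. -/
theorem result :
    ∃ (L : Type) (_ : Group L) (_ : Finite L) (H : Subgroup L),
      Cfsg.IsFrobeniusComplement H ∧ Nonempty (H ≃* Matrix.SpecialLinearGroup (Fin 2) (ZMod 5)) := by
  haveI := Fact.mk (by decide : Nat.Prime 11)
  obtain ⟨f, hf, -⟩ := rel11.exists_inj (by decide)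
  letI : DistribMulAction SL(2, ZMod 5) (Fin 2 → ZMod 11) := DistribMulAction.compHom _ f
  haveI : Nontrivial SL(2, ZMod 5) := ⟨⟨sl5a, 1, by decide⟩⟩
  obtain ⟨L, _, _, H, h1, ⟨e⟩⟩ := H26.exists_frob_of_fpf_action (A := SL(2, ZMod 5))
    (W := Fin 2 → ZMod 11) fun a ha w hw => by
      by_contra h0
      refine ha (hf ((eq_one_of_fix (f a) (n := 120) h120 ?_ h0 hw).trans f.map_one.symm))
      rw [← map_pow, ← card_sl25, pow_card_eq_one', map_one]
  exact ⟨L, _, inferInstance, H, h1, ⟨e.symm⟩⟩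

end Cfsg.Agent.S3374
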