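import Cfsg.Statements.S3375
-- import your own Cfsg.Agent.* helpers here

set_option autoImplicit false
open Cfsg

namespace Cfsg.Agent.S3375

open Subgroup

theorem inverted {H : Type*} [Group H] [Finite H] (γ : MulAut H) (h2 : ∀ h, γ (γ h) = h)
    (hC : Nat.card {h : H // γ h = h} = 2) (A : Subgroup H) (hA : A.index = 2)
    (hinv : ∀ a, γ a ∈ A ↔ a ∈ A) : ∀ a ∈ A, γ a = a⁻¹ := by
  let C : Subgroup H := γ.toMonoidHom.eqLocus (MonoidHom.id H)
  have hC' : Nat.card C = 2 := hC
  let f : H ⧸ C → A := fun q => Quotient.liftOn' q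
    (fun h => ⟨h * (γ h)⁻¹, (mul_mem_iff_of_index_two hA).2 (by rw [inv_mem_iff, hinv])⟩)
    (fun a b hab => by
      have h1 : γ (a⁻¹ * b) = a⁻¹ * b := QuotientGroup.leftRel_apply.1 hab
      rw [map_mul, map_inv, inv_mul_eq_iff_eq_mul] at h1
      refine Subtype.ext ?_
      simp only [h1]; group)
  have hf : Function.Injective f := by
    intro a b hab
    obtain ⟨a, rfl⟩ := QuotientGroup.mk_surjective a
    obtain ⟨b, rfl⟩ := QuotientGroup.mk_surjective b
    have h1 : a * (γ a)⁻¹ = b * (γ b)⁻¹ := congrArg Subtype.val hab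
    refine QuotientGroup.eq.2 ?_
    change γ (a⁻¹ * b) = a⁻¹ * b
    rw [map_mul, map_inv]
    calc (γ a)⁻¹ * γ b = a⁻¹ * (a * (γ a)⁻¹) * γ b := by group
      _ = a⁻¹ * b := by rw [h1]; group
  have hc : Nat.card (H ⧸ C) = Nat.card A := by
    have e1 := C.card_mul_index
    have e2 := A.card_mul_index
    rw [hC', index] at e1
    rw [hA] at e2
    omega
  have hs := ((Nat.bijective_iff_injective_and_card f).2 ⟨hf, hc⟩).2
  intro a ha
  obtain ⟨q, hq⟩ := hs ⟨a, ha⟩
  obtain ⟨h, rfl⟩ := QuotientGroup.mk_surjective q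
  have h1 : h * (γ h)⁻¹ = a := congrArg Subtype.val hq
  rw [← h1, map_mul, map_inv, h2]; group


/-- Let γ be an automorphism of order 2 of a finite group H. (i) If γ fixes only the identity, then H is abelian and γ inverts every element. (ii) If γ has exactly two fixed points and H has a subgroup of index 2, then H has a γ-invariant abelian subgroup of index 2 on which γ acts by inversion. -/
theorem result {H : Type*} [Group H] [Finite H] (γ : MulAut H) (hγ : orderOf γ = 2) :
    ((∀ h : H, γ h = h → h = 1) → (∀ a b : H, a * b = b * a) ∧ ∀ h : H, γ h = h⁻¹) ∧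
    ((Nat.card {h : H // γ h = h} = 2 ∧ ∃ M : Subgroup H, M.index = 2) →
      ∃ A : Subgroup H, A.index = 2 ∧ IsMulCommutative A ∧ (∀ a ∈ A, γ a ∈ A) ∧ ∀ a ∈ A, γ a = a⁻¹) := by
  have h2 : ∀ h, γ (γ h) = h := fun h => by
    have := pow_orderOf_eq_one γ
    rw [hγ, sq] at this
    exact congrArg (fun e : MulAut H => e h) this
  refine ⟨fun hf => ?_, fun ⟨hC, M, hM⟩ => ?_⟩
  · have hf' : MonoidHom.FixedPointFree γ := fun _ h => hf _ h
    exact ⟨fun a b => hf'.commute_all_of_involutive h2 a b,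
      fun h => congrFun (hf'.coe_eq_inv_of_involutive h2) h⟩
  · obtain ⟨A, hA, hinv⟩ : ∃ A : Subgroup H, A.index = 2 ∧ ∀ a, γ a ∈ A ↔ a ∈ A := by
      by_cases h : ∀ a, γ a ∈ M ↔ a ∈ M
      · exact ⟨M, hM, h⟩
      · obtain ⟨a, ha⟩ := not_forall.1 h
        refine ⟨{ carrier := {x | γ x ∈ M ↔ x ∈ M}
                  mul_mem' := fun {x y} hx hy => ?_
                  one_mem' := by simp
                  inv_mem' := fun {x} hx => by simpa using hx }, ?_, fun x => ?_⟩
        · simp only [Set.mem_setOf_eq, map_mul, mul_mem_iff_of_index_two hM] at hx hy ⊢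
          tauto
        · refine index_eq_two_iff.2 ⟨a, fun b => ?_⟩
          change Xor (γ (b * a) ∈ M ↔ b * a ∈ M) (γ b ∈ M ↔ b ∈ M)
          simp only [map_mul, mul_mem_iff_of_index_two hM, Xor]
          tauto
        · change (γ (γ x) ∈ M ↔ γ x ∈ M) ↔ (γ x ∈ M ↔ x ∈ M)
          rw [h2]; tauto
    have h3 := inverted γ h2 hC A hA hinv
    refine ⟨A, hA, ⟨⟨fun a b => Subtype.ext ?_⟩⟩, fun a ha => (hinv a).2 ha, h3⟩
    have := h3 _ (mul_mem a.2 b.2)
    rw [map_mul, h3 _ a.2, h3 _ b.2, ← mul_inv_rev, inv_inj] at this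
    exact this.symm

end Cfsg.Agent.S3375
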