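import Cfsg.Statements.S3377
import Mathlib
import Cfsg.Agent.H12.Triangle

set_option autoImplicit false
open Cfsg

namespace Cfsg.Agent.S3377

open H12 PresentedGroup

/-- The alternating group of degree 5 has the presentation ⟨x, y | x³ = 1, y⁵ = 1, (xy)² = 1⟩: the group so presented is isomorphic to Alt(5). -/
theorem result :
    Nonempty (PresentedGroup ({FreeGroup.of (0 : Fin 2) ^ 3, FreeGroup.of (1 : Fin 2) ^ 5,
        (FreeGroup.of (0 : Fin 2) * FreeGroup.of 1) ^ 2} : Set (FreeGroup (Fin 2))) ≃* alternatingGroup (Fin 5)) := by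
  set R : Set (FreeGroup (Fin 2)) := {.of 0 ^ 3, .of 1 ^ 5, (.of 0 * .of 1) ^ 2}
  let f : PresentedGroup R →* alternatingGroup (Fin 5) := toGroup (f := ![alt5b⁻¹, alt5b * alt5a]) (by
    simp only [R, Set.forall_mem_insert, Set.mem_singleton_iff, forall_eq, map_pow, map_mul, FreeGroup.lift_apply_of]
    decide +kernel)
  have h : ∀ r ∈ R, PresentedGroup.mk R r = 1 := fun r hr => one_of_mem hr
  simp only [R, Set.forall_mem_insert, Set.mem_singleton_iff, forall_eq, map_pow, map_mul] at h
  have e : Subgroup.closure {(of 0 * of 1 : PresentedGroup R), (of 0)⁻¹} = ⊤ := by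
    rw [eq_top_iff, ← closure_range_of, Subgroup.closure_le]
    have a := Subgroup.subset_closure (k := {(of 0 * of 1 : PresentedGroup R), (of 0)⁻¹})
    rintro _ ⟨i, rfl⟩
    fin_cases i
    · exact (Subgroup.inv_mem_iff _).1 (a (by simp))
    · simpa using Subgroup.mul_mem _ (a (.inr rfl)) (a (.inl rfl))
  obtain ⟨h1, h2⟩ := card_closure_235 (a := (of 0 * of 1 : PresentedGroup R)) (b := (of 0)⁻¹) h.2.2
    (by rw [inv_pow]; exact inv_eq_one.2 h.1) (by rw [conj_pow, show (of 1 : PresentedGroup R) ^ 5 = 1 from h.2.1]; simp)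
  rw [e] at h1 h2
  have := Finite.of_equiv _ (Subgroup.topEquiv (G := PresentedGroup R)).toEquiv
  refine ⟨.ofBijective f (Function.Surjective.bijective_of_nat_card_le ?_ (by rwa [card_alt5, ← Subgroup.card_top]))⟩
  rw [← MonoidHom.range_eq_top, MonoidHom.range_eq_map, ← e, MonoidHom.map_closure, Set.image_pair, ← closure_alt5]
  simp [f]

end Cfsg.Agent.S3377
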