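import Cfsg.Statements.S3379
import Cfsg.Agent.H26.AbCyc
-- import your own Cfsg.Agent.* helpers here

set_option autoImplicit false
open Cfsg

namespace Cfsg.Agent.S3379

open Cfsg.Agent.H26


/-- Let G be a finite group all of whose Sylow subgroups are cyclic. Then G is generated by two elements x and y of coprime orders n and m with x⁻¹yx = y^r, where gcd(r − 1, m) = 1 and r^n ≡ 1 (mod m). -/
theorem result {G : Type*} [Group G] [Finite G]
    (hZ : ∀ (p : ℕ) [Fact p.Prime] (P : Sylow p G), IsCyclic (P : Subgroup G)) :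
    ∃ (x y : G) (n m r : ℕ), Subgroup.closure {x, y} = ⊤ ∧ orderOf x = n ∧ orderOf y = m ∧
      x⁻¹ * y * x = y ^ r ∧ Nat.Coprime (r - 1) m ∧ Nat.Coprime n m ∧ 1 ≤ r ∧ r ^ n % m = 1 % m := by
  haveI : IsZGroup G := ⟨fun p hp P => by haveI := Fact.mk hp; exact hZ p P⟩
  haveI := IsZGroup.isCyclic_commutator G
  have hcop := IsZGroup.coprime_commutator_index G
  obtain ⟨H, hH⟩ := Subgroup.exists_right_complement'_of_coprime hcop
  haveI : IsCyclic (G ⧸ commutator G) := inferInstanceAs (IsCyclic (Abelianization G))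
  haveI : IsCyclic H := isCyclic_of_surjective _
    (hH.symm.QuotientMulEquiv : G ⧸ commutator G ≃* H).surjective
  obtain ⟨y, hy⟩ := (Subgroup.isCyclic_iff_exists_zpowers_eq_top (commutator G)).1 inferInstance
  obtain ⟨x, hx⟩ := (Subgroup.isCyclic_iff_exists_zpowers_eq_top H).1 inferInstance
  have hyC : y ∈ commutator G := hy ▸ Subgroup.mem_zpowers y
  obtain ⟨r₀, hr₀⟩ : x⁻¹ * y * x ∈ Submonoid.powers y := by
    rw [mem_powers_iff_mem_zpowers, hy]
    simpa using (inferInstance : (commutator G).Normal).conj_mem y hyC x⁻¹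
  have hr : x⁻¹ * y * x = y ^ (r₀ + orderOf y) := by
    rw [pow_add, pow_orderOf_eq_one, mul_one]; exact hr₀.symm
  have h1 : 1 ≤ r₀ + orderOf y := le_add_left (orderOf_pos y)
  generalize r₀ + orderOf y = r at hr h1
  refine ⟨x, y, _, _, r, ?_, rfl, rfl, hr, ?_, ?_, h1, ?_⟩
  · rw [eq_top_iff, ← hH.sup_eq_top, ← hx, ← hy]
    exact sup_le (Subgroup.zpowers_le.2 (Subgroup.subset_closure (by simp)))
      (Subgroup.zpowers_le.2 (Subgroup.subset_closure (by simp)))
  · have hc : ∀ a ∈ commutator G, ∀ b ∈ commutator G, a * b = b * a := fun a ha b hb =>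
      congrArg Subtype.val (IsCyclic.commutative.is_comm.comm (⟨a, ha⟩ : commutator G) ⟨b, hb⟩)
    have h2 := range_twistHom (commutator G) hc x⁻¹ (fun g => by
      obtain ⟨⟨a, h⟩, rfl⟩ := hH.symm.2 g
      obtain ⟨k, hk⟩ : (a : G) ∈ Subgroup.zpowers x := hx ▸ a.2
      exact ⟨-k, h, h.2, by simp [← hk]⟩)
    obtain ⟨⟨a, ha⟩, e⟩ : y ∈ (twistHom (commutator G) hc x⁻¹).range := by rw [h2]; exact hyC
    obtain ⟨k, rfl⟩ : a ∈ Submonoid.powers y := by rwa [mem_powers_iff_mem_zpowers, hy]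
    rw [twistHom_apply] at e
    simp only [inv_inv] at e
    have h3 : x⁻¹ * y ^ k * x = (y ^ k) ^ r := by
      have := conj_pow (i := k) (a := x⁻¹) (b := y)
      rw [inv_inv, hr] at this
      rw [← this, ← pow_mul, ← pow_mul, mul_comm]
    obtain ⟨s, rfl⟩ := Nat.exists_eq_add_of_le h1
    rw [h3, pow_add, pow_one, inv_mul_cancel_left, ← pow_mul, mul_comm, pow_mul] at e
    rw [Nat.add_sub_cancel_left, Nat.Coprime, ← mem_zpowers_pow_iff]
    have h4 := pow_mem (Subgroup.mem_zpowers (y ^ s)) k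
    rwa [e] at h4
  · rw [← Nat.card_zpowers, ← Nat.card_zpowers, hx, hy, ← hH.symm.index_eq_card]
    exact hcop.symm
  · have h2 : ∀ j : ℕ, (x ^ j)⁻¹ * y * x ^ j = y ^ r ^ j := by
      intro j
      induction j with
      | zero => simp
      | succ j ih =>
        have := conj_pow (i := r ^ j) (a := x⁻¹) (b := y)
        rw [inv_inv, hr, ← pow_mul, ← pow_succ', ← ih] at this
        rw [this]; group
    have h3 := h2 (orderOf x)
    rw [pow_orderOf_eq_one, inv_one, one_mul, mul_one] at h3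
    exact (pow_eq_pow_iff_modEq.1 ((pow_one y).trans h3)).symm

end Cfsg.Agent.S3379
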