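import Cfsg.Statements.S3380
import Cfsg.Agent.S0126
import Cfsg.Agent.S0519
import Cfsg.Agent.H1.SylowIn
import Cfsg.Agent.H1.Quaternion
import Cfsg.Agent.H11.TwoGp
import Cfsg.Agent.H19.Count
-- import your own Cfsg.Agent.* helpers here

set_option autoImplicit false
open Cfsg

namespace Cfsg.Agent.S3380

open Cfsg.Agent.H1 Subgroup

open scoped commutatorElement

theorem exists_E {G : Type*} [Group G] [Finite G] (p : ℕ) [Fact p.Prime] (hG : IsPGroup p G)
    (hnc : ¬ IsCyclic G) (hnq : ∀ n : ℕ, ¬ Nonempty (G ≃* QuaternionGroup n))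
    (hnd : ∀ n : ℕ, ¬ Nonempty (G ≃* DihedralGroup n)) (hnsd : ¬ Cfsg.IsQuasiDihedral G) :
    ∃ E : Subgroup G, E.Normal ∧ (∀ a ∈ E, a ^ p = 1) ∧ Nat.card E = p ^ 2 := by
  by_cases hp : p = 2
  · subst hp
    by_cases h : ∀ A : Subgroup G, A.Normal → IsMulCommutative A → IsCyclic A
    · by_cases h' : ∀ A : Subgroup G, IsMulCommutative A → IsCyclic A
      · rcases isCyclic_or_quaternion_of_forall_abelian_isCyclic hG h' with h | ⟨-, n, -, h⟩
        exacts [absurd h hnc, absurd h (hnq _)]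
      · push Not at h'
        rcases (S0519.result 2 hG h h').2 with ⟨n, h⟩ | ⟨n, -, h⟩ | h
        exacts [absurd h (hnq _), absurd h (hnd _), absurd h hnsd]
    · push Not at h
      obtain ⟨A, _, h1, h2⟩ := h
      obtain ⟨V, -, h3, h4⟩ := H11.exists_normal_klein_le hG (A := A) (fun a ha b hb =>
        congrArg Subtype.val (h1.is_comm.comm ⟨a, ha⟩ ⟨b, hb⟩)) h2
      exact ⟨V, h3, fun a ha => (sq a).trans (H11.klein_sq h4 ha), h4.card_four⟩
  · obtain ⟨A, h1, h2, h3⟩ := S0126.result hp hG hnc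
    exact ⟨A, h1, h2.2, h3⟩

/-- Fixed space of a group element. -/
def fix {F V G : Type*} [Field F] [AddCommGroup V] [Module F V] [Group G] (ρ : G →* (V ≃ₗ[F] V))
    (g : G) : Submodule F V := LinearMap.eqLocus (ρ g : V →ₗ[F] V) LinearMap.id

theorem norm_mem {F V G : Type*} [Field F] [AddCommGroup V] [Module F V] [Group G]
    (ρ : G →* (V ≃ₗ[F] V)) {y : G} {n : ℕ} (h : y ^ n = 1) (v : V) :
    ∑ k ∈ Finset.range n, ρ (y ^ k) v ∈ fix ρ y := by
  change ρ y _ = ∑ k ∈ Finset.range n, ρ (y ^ k) v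
  have := Finset.sum_range_succ' (fun k => ρ (y ^ k) v) n
  rw [Finset.sum_range_succ, h, pow_zero, add_left_inj] at this
  rw [map_sum]
  simpa only [pow_succ', map_mul, LinearEquiv.mul_apply] using this.symm


/-- Let a finite p-group G act faithfully and irreducibly on a non-trivial finite vector space V over the field with q elements (q prime), and suppose G is not cyclic, generalized quaternion, dihedral or semidihedral. Then G has a subgroup H of index p and V is the direct sum of p subspaces, each invariant under H, on none of which H acts faithfully, and which every element of G outside H permutes in a single p-cycle. -/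
theorem result
    (q : ℕ) [Fact q.Prime] {V : Type*} [AddCommGroup V] [Module (ZMod q) V] [Finite V] [Nontrivial V]
    {G : Type*} [Group G] [Finite G] (p : ℕ) [Fact p.Prime] (hG : IsPGroup p G)
    (ρ : G →* (V ≃ₗ[ZMod q] V)) (hρ : Function.Injective ρ)
    (hirr : ∀ W : Submodule (ZMod q) V, (∀ g : G, ∀ w ∈ W, ρ g w ∈ W) → W = ⊥ ∨ W = ⊤)
    (hnc : ¬ IsCyclic G) (hnq : ∀ n : ℕ, ¬ Nonempty (G ≃* QuaternionGroup n))
    (hnd : ∀ n : ℕ, ¬ Nonempty (G ≃* DihedralGroup n)) (hnsd : ¬ Cfsg.IsQuasiDihedral G) :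
    ∃ (H : Subgroup G) (W : Fin p → Submodule (ZMod q) V), H.index = p ∧
      iSup W = ⊤ ∧ iSupIndep W ∧
      (∀ h ∈ H, ∀ i, ∀ w ∈ W i, ρ h w ∈ W i) ∧
      (∀ i, ∃ h ∈ H, h ≠ 1 ∧ ∀ w ∈ W i, ρ h w = w) ∧
      ∀ g : G, g ∉ H → ∃ σ : Equiv.Perm (Fin p), orderOf σ = p ∧ ∀ i, (W i).map (ρ g : V →ₗ[ZMod q] V) = W (σ i) := by
  have hp : p.Prime := Fact.out
  haveI : NeZero p := ⟨hp.ne_zero⟩
  obtain ⟨E, _, hE, hc⟩ := exists_E p hG hnc hnq hnd hnsd
  have hcen : ∀ y ∈ center G, y ≠ 1 → fix ρ y = ⊥ := fun y hy h1 =>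
    (hirr _ fun g w (hw : ρ y w = w) => show ρ y _ = _ by
      rw [← LinearEquiv.mul_apply, ← map_mul, ← mem_center_iff.1 hy, map_mul, LinearEquiv.mul_apply, hw]
      rfl).resolve_right fun e => h1 (hρ (by
        ext v; exact (show v ∈ fix ρ y from e ▸ Submodule.mem_top).trans (by simp)))
  have hE0 : E ≠ ⊥ := fun e => by
    rw [e, card_bot] at hc; exact (Nat.one_lt_pow two_ne_zero hp.one_lt).ne hc
  obtain ⟨z, hzE, hzc, hz1, hD⟩ : ∃ z ∈ E, z ∈ center G ∧ z ≠ 1 ∧ ⁅E, ⊤⁆ ≤ zpowers z := by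
    have h0 : ∀ U : Subgroup G, U.Normal → U ≠ ⊥ → ∃ z ∈ U, z ∈ center G ∧ z ≠ 1 := fun U _ hU => by
      obtain ⟨⟨z, hz⟩, h1⟩ := ne_bot_iff_exists_ne_one.1 (inf_centralizer_ne_bot_of_isPGroup
        (hG.to_subgroup U) (hG.to_subgroup ⊤) le_normalizer_of_normal hU)
      exact ⟨z, hz.1, mem_center_iff.2 fun g => hz.2 g (mem_top g), fun e => h1 (Subtype.ext e)⟩
    by_cases h : ⁅E, (⊤ : Subgroup G)⁆ = ⊥
    · obtain ⟨z, h1, h2, h3⟩ := h0 E inferInstance hE0
      exact ⟨z, h1, h2, h3, h ▸ bot_le⟩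
    · obtain ⟨z, h1, h2, h3⟩ := h0 _ inferInstance h
      have h4 := commutator_lt_of_isPGroup (hG.to_subgroup E) (hG.to_subgroup ⊤) le_normalizer_of_normal hE0
      refine ⟨z, h4.le h1, h2, h3, (eq_of_le_of_card_ge (zpowers_le.2 h1) ?_).ge⟩
      obtain ⟨i, hi, h5⟩ := (Nat.dvd_prime_pow hp).1 (hc ▸ card_dvd_of_le h4.le)
      rw [Nat.card_zpowers, orderOf_eq_prime (hE z (h4.le h1)) h3, h5]
      interval_cases i
      · exact hp.one_le
      · simp
      · exact absurd (eq_of_le_of_card_ge h4.le (by rw [hc, h5])) h4.ne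
  have hzo : orderOf z = p := orderOf_eq_prime (hE z hzE) hz1
  obtain ⟨a, haE, ha⟩ : ∃ a ∈ E, a ∉ zpowers z := by
    by_contra h
    push Not at h
    have := card_le_of_le (show E ≤ zpowers z from h)
    rw [hc, Nat.card_zpowers, hzo] at this
    nlinarith [hp.two_le]
  have hpq : (p : ZMod q) ≠ 0 := fun h => by
    obtain rfl := (Nat.prime_dvd_prime_iff_eq Fact.out hp).1 ((ZMod.natCast_eq_zero_iff p q).1 h)
    letI : MulAction G V := MulAction.compHom V ρ
    obtain ⟨v, hv, h0⟩ := hG.exists_fixed_point_of_prime_dvd_card_of_fixed_point V (a := 0) (by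
      rw [Module.natCard_eq_pow_finrank (K := ZMod q), Nat.card_zmod]
      exact dvd_pow_self _ Module.finrank_pos.ne') (fun g => map_zero (ρ g))
    exact h0 ((Submodule.mem_bot _).1 (hcen z hzc hz1 ▸ (show v ∈ fix ρ z from hv z))).symm
  have hN : ∀ (k : ℤ) (v : V), ¬ (p : ℤ) ∣ k → ∑ i ∈ Finset.range p, ρ ((z ^ k) ^ i) v = 0 := fun k v hk =>
    (Submodule.mem_bot _).1 (hcen _ (zpow_mem hzc k) (by rwa [Ne, ← orderOf_dvd_iff_zpow_eq_one, hzo]) ▸
      norm_mem ρ (hE _ (zpow_mem hzE k)) v)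
  have hza : ∀ g, Commute g z := fun g => mem_center_iff.1 hzc g
  have hsup : ⨆ i : Fin p, fix ρ (a * z ^ (i : ℕ)) = ⊤ := by
    rw [eq_top_iff]
    intro v _
    have h1 : ∑ i : Fin p, ∑ k ∈ Finset.range p, ρ ((a * z ^ (i : ℕ)) ^ k) v = (p : ZMod q) • v := by
      rw [Finset.sum_comm, Finset.sum_eq_single_of_mem 0 (Finset.mem_range.2 hp.pos)]
      · simp [Nat.cast_smul_eq_nsmul]
      · intro k hk h0
        rw [← map_zero (ρ (a ^ k)), ← hN k v (fun h => by
          have := Nat.le_of_dvd (Nat.pos_of_ne_zero h0) (Int.natCast_dvd_natCast.1 h)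
          have := Finset.mem_range.1 hk
          omega), map_sum, Finset.sum_range]
        refine Finset.sum_congr rfl fun i _ => ?_
        rw [((hza a).pow_right _).mul_pow, map_mul, zpow_natCast, ← pow_mul, ← pow_mul, mul_comm k]
        rfl
    rw [← Submodule.smul_mem_iff _ hpq, ← h1]
    exact Submodule.sum_mem _ fun i _ => Submodule.mem_iSup_of_mem i
      (norm_mem ρ (hE _ (mul_mem haE (pow_mem hzE _))) v)
  have hne : ∀ i : ℕ, a * z ^ i ≠ 1 := fun i e =>
    ha (eq_inv_of_mul_eq_one_left e ▸ inv_mem (pow_mem (mem_zpowers z) i))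
  have hconj : ∀ g : G, ∃ c : Fin p, g * a * g⁻¹ = a * z ^ (c : ℕ) := fun g => by
    classical
    obtain ⟨c, hc, e⟩ := Finset.mem_image.1 (mem_zpowers_iff_mem_range_orderOf.1
      (hD (commutator_mem_commutator (inv_mem haE) (mem_top g))))
    exact ⟨⟨c, hzo ▸ Finset.mem_range.1 hc⟩, by rw [e, commutatorElement_def]; group⟩
  refine ⟨centralizer {a}, fun i => fix ρ (a * z ^ (i : ℕ)), ?_, hsup, ?_, ?_, ?_, ?_⟩
  · obtain ⟨k, hk⟩ := hG.index (centralizer {a})
    have h1 : (centralizer ({a} : Set G)).index ≤ p := by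
      rw [← H19.card_class_eq_index]
      conv_rhs => rw [← Nat.card_fin p]
      choose c hc using hconj
      refine Nat.card_le_card_of_injective (fun x => c (isConj_iff.1 x.2).choose) fun x y e => Subtype.ext ?_
      rw [← (isConj_iff.1 x.2).choose_spec, ← (isConj_iff.1 y.2).choose_spec, hc, hc]
      exact congrArg (fun i : Fin p => a * z ^ (i : ℕ)) e
    rw [hk] at h1 ⊢
    rcases k with _ | _ | k
    · rw [pow_zero, index_eq_one, centralizer_eq_top_iff_subset, Set.singleton_subset_iff] at hk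
      simp only [hcen _ (mul_mem hk (pow_mem hzc _)) (hne _), iSup_bot, bot_ne_top] at hsup
    · simp
    · have := Nat.pow_lt_pow_right hp.one_lt (show 1 < k + 1 + 1 by omega)
      rw [pow_one] at this; omega
  · refine iSupIndep_def.2 fun i => Submodule.disjoint_def.2 fun v hv hv' => ?_
    let T : V →ₗ[ZMod q] V := ∑ k ∈ Finset.range p, (ρ ((a * z ^ (i : ℕ)) ^ k) : V →ₗ[ZMod q] V)
    have hfix : ∀ (y : G) (w : V) (k : ℕ), w ∈ fix ρ y → ρ (y ^ k) w = w := fun y w k hw => by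
      induction k with
      | zero => simp
      | succ k ih => rw [pow_succ, map_mul, LinearEquiv.mul_apply, show ρ y w = w from hw, ih]
    have h1 : (⨆ j, ⨆ (_ : j ≠ i), fix ρ (a * z ^ (j : ℕ))) ≤ LinearMap.ker T := by
      refine iSup₂_le fun j hj w hw => ?_
      rw [LinearMap.mem_ker, ← hN ((i : ℕ) - (j : ℕ)) w (fun h => hj (Fin.ext (by
        have := (Nat.modEq_iff_dvd.2 h).eq_of_lt_of_lt j.2 i.2; exact this))), LinearMap.sum_apply]
      refine Finset.sum_congr rfl fun k _ => ?_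
      have : a * z ^ (i : ℕ) = z ^ (((i : ℕ) : ℤ) - (j : ℕ)) * (a * z ^ (j : ℕ)) := by
        rw [← mul_assoc, ← ((hza a).zpow_right _).eq]; group
      rw [this, ((hza _).symm.zpow_left _).mul_pow, map_mul]
      exact congrArg _ (hfix _ w k hw)
    have h2 := LinearMap.mem_ker.1 (h1 hv')
    simp only [T, LinearMap.sum_apply, LinearEquiv.coe_coe, fun k => hfix _ v k hv] at h2
    rw [Finset.sum_const, Finset.card_range, ← Nat.cast_smul_eq_nsmul (ZMod q)] at h2
    exact (smul_eq_zero.1 h2).resolve_left hpq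
  · intro h hh i w (hw : ρ _ w = w)
    have : Commute h (a * z ^ (i : ℕ)) :=
      Commute.mul_right (mem_centralizer_singleton_iff.1 hh) ((hza h).pow_right _)
    change ρ _ _ = ρ h w
    rw [← LinearEquiv.mul_apply, ← map_mul, ← this.eq, map_mul, LinearEquiv.mul_apply, hw]
  · exact fun i => ⟨_, mem_centralizer_singleton_iff.2
      (Commute.mul_left (Commute.refl a) ((hza a).symm.pow_left _)), hne i, fun w hw => hw⟩
  · intro g hg
    obtain ⟨c, hc⟩ := hconj g
    refine ⟨Equiv.addLeft c, orderOf_eq_prime ?_ fun e => hg ?_, fun i => ?_⟩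
    · rw [Equiv.nsmul_addLeft, show p • c = 0 by simpa using card_nsmul_eq_zero' (x := c)]; simp
    · have : c = 0 := by simpa using congrArg (fun σ : Equiv.Perm (Fin p) => σ 0) e
      rw [this, Fin.val_zero, pow_zero, mul_one, mul_inv_eq_iff_eq_mul] at hc
      exact mem_centralizer_singleton_iff.2 hc
    · have e : a * z ^ ((c + i : Fin p) : ℕ) = g * (a * z ^ (i : ℕ)) * g⁻¹ := by
        rw [Fin.val_add, ← pow_eq_pow_mod _ (hE z hzE), pow_add, ← mul_assoc, ← hc, ← mul_assoc, mul_assoc _ g⁻¹,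
          ((hza g⁻¹).pow_right _).eq, ← mul_assoc]
      ext w
      rw [Submodule.mem_map_equiv]
      change ρ _ _ = (ρ g).symm w ↔ ρ (a * z ^ ((c + i : Fin p) : ℕ)) w = w
      rw [e, map_mul _ _ g⁻¹, map_mul _ g, map_inv, LinearEquiv.eq_symm_apply]
      rfl

end Cfsg.Agent.S3380
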