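import Cfsg.Statements.S3381
-- import your own Cfsg.Agent.* helpers here

set_option autoImplicit false
open Cfsg

namespace Cfsg.Agent.S3381

open Subgroup

section
variable {F V : Type*} [Field F] [AddCommGroup V] [Module F V]
  {G : Type*} [Group G] (ρ : G →* (V ≃ₗ[F] V))

/-- Fixed space of a group element. -/
def fix (g : G) : Submodule F V := LinearMap.eqLocus (ρ g : V →ₗ[F] V) LinearMap.id

theorem mem_fix {g : G} {v : V} : v ∈ fix ρ g ↔ ρ g v = v := Iff.rfl

theorem card_mul_le [Finite V] {A B : Submodule F V} (h : ∀ v ∈ A, v ∈ B → v = 0) :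
    Nat.card A * Nat.card B ≤ Nat.card V := by
  rw [← Nat.card_prod]
  refine Nat.card_le_card_of_injective (fun x => (x.1 : V) + x.2) ?_
  rintro ⟨a, b⟩ ⟨c, d⟩ e
  have e' : (a : V) + b = c + d := e
  have h1 : (a : V) - c = d - b := by rw [sub_eq_sub_iff_add_eq_add, e', add_comm]
  have h2 := h (a - c) (sub_mem a.2 c.2) (h1 ▸ sub_mem d.2 b.2)
  rw [h2, eq_comm, sub_eq_zero] at h1
  rw [sub_eq_zero] at h2
  exact Prod.ext (Subtype.ext h2) (Subtype.ext h1.symm)

theorem le_card_mul [Finite V] {A B : Submodule F V} (h : ∀ v, ∃ a ∈ A, ∃ b ∈ B, a + b = v) :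
    Nat.card V ≤ Nat.card A * Nat.card B := by
  rw [← Nat.card_prod]
  refine Nat.card_le_card_of_surjective (fun x : A × B => (x.1 : V) + x.2) fun v => ?_
  obtain ⟨a, ha, b, hb, e⟩ := h v
  exact ⟨(⟨a, ha⟩, ⟨b, hb⟩), e⟩

theorem neg_of_central (hρ : Function.Injective ρ) (T : V → G)
    (hT : ∀ v, v ≠ 0 → ρ (T v) v = v ∧ T v ≠ 1 ∧ ∀ g, ρ g v = v → g ≠ 1 → g = T v)
    {z : G} (hz : orderOf z = 2) (hzc : z ∈ center G) (v : V) : ρ z v = -v := by
  have hz1 : z ≠ 1 := fun h => by simp [h] at hz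
  have hz2 : ∀ w, ρ z (ρ z w) = w := fun w => by
    rw [← LinearEquiv.mul_apply, ← map_mul, ← sq, ← hz, pow_orderOf_eq_one]; simp
  have key : ∀ w, ρ z w ≠ w → ρ z w = -w := fun w hw => by
    have hw0 : w ≠ 0 := by rintro rfl; simp at hw
    by_contra h
    have h0 : w + ρ z w ≠ 0 := fun e => h (eq_neg_of_add_eq_zero_right e)
    have h1 := (hT _ h0).2.2 z (by rw [map_add, hz2, add_comm]) hz1
    have h2 := (hT _ h0).2.2 (T w) (by
      rw [map_add, (hT w hw0).1, ← LinearEquiv.mul_apply, ← map_mul, mem_center_iff.1 hzc, map_mul,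
        LinearEquiv.mul_apply, (hT w hw0).1]) (hT w hw0).2.1
    exact hw (by rw [h1, ← h2]; exact (hT w hw0).1)
  obtain ⟨w, hw⟩ : ∃ w, ρ z w ≠ w := by
    by_contra h
    push Not at h
    exact hz1 (hρ (by ext w; simp [h]))
  by_cases hv : ρ z v = v
  · have h1 := key (v + w) (by rw [map_add, hv]; simpa using hw)
    rw [map_add, key w hw, neg_add] at h1
    exact add_right_cancel h1
  · exact key v hv
end


/-- Let G be a finite group acting faithfully and linearly on a non-trivial finite vector space V over the field with q elements (q prime) so that every non-zero vector has a stabilizer of order 2, and suppose G has a central involution. Then V has q^(2r) elements for some r and G contains exactly q^r + 1 non-central involutions. -/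
theorem result
    (q : ℕ) [Fact q.Prime] {V : Type*} [AddCommGroup V] [Module (ZMod q) V] [Finite V] [Nontrivial V]
    {G : Type*} [Group G] [Finite G] (ρ : G →* (V ≃ₗ[ZMod q] V)) (hρ : Function.Injective ρ)
    (hstab : ∀ v : V, v ≠ 0 → Nat.card {g : G // ρ g v = v} = 2)
    (z : G) (hz : orderOf z = 2) (hzc : z ∈ Subgroup.center G) :
    ∃ r : ℕ, Nat.card V = q ^ (2 * r) ∧
      Nat.card {g : G // orderOf g = 2 ∧ g ∉ Subgroup.center G} = q ^ r + 1 := by
  classical
  have h0 : ∀ v : V, ∃ t : G, v ≠ 0 → ρ t v = v ∧ t ≠ 1 ∧ ∀ g, ρ g v = v → g ≠ 1 → g = t := fun v => by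
    by_cases hv : v = 0
    · exact ⟨1, fun h => absurd hv h⟩
    obtain ⟨⟨t, ht⟩, h1, h2⟩ := (Nat.card_eq_two_iff' (⟨1, by simp⟩ : {g : G // ρ g v = v})).1 (hstab v hv)
    exact ⟨t, fun _ => ⟨ht, fun e => h1 (Subtype.ext e),
      fun g hg hg1 => congrArg Subtype.val (h2 ⟨g, hg⟩ fun e => hg1 (congrArg Subtype.val e))⟩⟩
  choose T hT using h0
  have hneg := neg_of_central ρ hρ T hT hz hzc
  have hz1 : z ≠ 1 := fun h => by simp [h] at hz
  have h2 : (2 : ZMod q) ≠ 0 := fun h => hz1 (hρ (by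
    ext v
    have : -v = v := neg_eq_iff_add_eq_zero.2 (by rw [← two_smul (ZMod q), h, zero_smul])
    rw [hneg, this]; simp))
  have hnz : ∀ v : V, -v = v → v = 0 := fun v h => by
    rw [neg_eq_iff_add_eq_zero, ← two_smul (ZMod q)] at h
    exact (smul_eq_zero.1 h).resolve_left h2
  have hI : ∀ t : G, (orderOf t = 2 ∧ t ∉ center G) ↔ (t * t = 1 ∧ t ≠ 1 ∧ t ≠ z) := fun t => by
    constructor
    · rintro ⟨h1, h3⟩
      exact ⟨by rw [← sq, ← h1, pow_orderOf_eq_one], fun h => by simp [h] at h1, fun h => h3 (h ▸ hzc)⟩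
    · rintro ⟨h1, h3, h4⟩
      have ho : orderOf t = 2 := orderOf_eq_prime (by rw [sq, h1]) h3
      refine ⟨ho, fun hc => h4 (hρ ?_)⟩
      ext v
      rw [hneg, neg_of_central ρ hρ T hT ho hc]
  have hTI : ∀ v, v ≠ 0 → T v * T v = 1 ∧ T v ≠ 1 ∧ T v ≠ z := fun v hv => by
    refine ⟨?_, (hT v hv).2.1, fun e => hv (hnz v (by rw [← hneg, ← e]; exact (hT v hv).1))⟩
    have := (hT v hv).2.2 (T v)⁻¹ (by
      rw [map_inv, ← LinearEquiv.symm_symm (ρ (T v))⁻¹, LinearEquiv.symm_apply_eq]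
      exact (hT v hv).1.symm) (by simpa using (hT v hv).2.1)
    rw [mul_eq_one_iff_eq_inv, this]
  have hzz : z * z = 1 := by rw [← sq, ← hz, pow_orderOf_eq_one]
  have hIz : ∀ t, t * t = 1 ∧ t ≠ 1 ∧ t ≠ z → t * z * (t * z) = 1 ∧ t * z ≠ 1 ∧ t * z ≠ z := by
    rintro t ⟨h1, h3, h4⟩
    refine ⟨?_, fun e => h4 ?_, by simpa using h3⟩
    · rw [mul_assoc, ← mul_assoc z, ← mem_center_iff.1 hzc t, mul_assoc, hzz, mul_one, h1]
    · rw [← mul_one t, ← hzz, ← mul_assoc, e, one_mul]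
  have hdis : ∀ s t : G, s ≠ 1 → t ≠ 1 → s ≠ t →
      Nat.card (fix ρ s) * Nat.card (fix ρ t) ≤ Nat.card V := fun s t hs ht hst =>
    card_mul_le fun v h1 h3 => by
      by_contra hv
      exact hst (((hT v hv).2.2 s h1 hs).trans ((hT v hv).2.2 t h3 ht).symm)
  have hmz : ∀ t v, ρ (t * z) v = -ρ t v := fun t v => by
    rw [map_mul, LinearEquiv.mul_apply, hneg, map_neg]
  have hsum : ∀ t : G, t * t = 1 → ∀ v, ∃ a ∈ fix ρ t, ∃ b ∈ fix ρ (t * z), a + b = v := by
    intro t ht v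
    have htt : ρ t (ρ t v) = v := by rw [← LinearEquiv.mul_apply, ← map_mul, ht]; simp
    refine ⟨(2 : ZMod q)⁻¹ • (v + ρ t v), ?_, (2 : ZMod q)⁻¹ • (v - ρ t v), ?_, ?_⟩
    · rw [mem_fix, map_smul, map_add, htt, add_comm]
    · rw [mem_fix, map_smul, hmz, map_sub, htt, neg_sub]
    · rw [← smul_add, add_add_sub_cancel, ← two_smul (ZMod q), smul_smul, inv_mul_cancel₀ h2, one_smul]
  have hex : ∀ t : G, t * t = 1 ∧ t ≠ 1 ∧ t ≠ z → ∃ a ∈ fix ρ t, a ≠ 0 := by
    intro t ht
    by_contra h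
    push Not at h
    refine (hIz t ht).2.1 (hρ ?_)
    ext v
    obtain ⟨a, ha, b, hb, rfl⟩ := hsum t ht.1 v
    rw [h a ha, zero_add, map_one]
    exact hb
  have hsq : ∀ t : G, t * t = 1 ∧ t ≠ 1 ∧ t ≠ z → Nat.card (fix ρ t) ^ 2 = Nat.card V := by
    intro t ht
    obtain ⟨a, ha, ha0⟩ := hex t ht
    obtain ⟨b, hb, hb0⟩ := hex _ (hIz t ht)
    rw [mem_fix] at ha hb
    have hb' : ρ t b = -b := by rw [hmz, neg_eq_iff_eq_neg] at hb; exact hb
    have hab : a + b ≠ 0 := fun e => by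
      have e1 : b = -a := eq_neg_of_add_eq_zero_right e
      rw [e1, map_neg, ha, neg_neg] at hb'
      exact ha0 (hnz a hb')
    have hs := hTI _ hab
    have hs' := (hT _ hab).1
    generalize T (a + b) = s at hs hs'
    have h1 : s ≠ t := by
      rintro rfl
      rw [map_add, ha, hb', add_right_inj] at hs'
      exact hb0 (hnz b hs')
    have h3 : s ≠ t * z := by
      rintro rfl
      rw [map_add, hb, hmz, ha, add_left_inj] at hs'
      exact ha0 (hnz a hs')
    have e1 := le_card_mul (hsum t ht.1)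
    have e2 := le_card_mul (hsum s hs.1)
    have e3 := hdis s t hs.2.1 ht.2.1 h1
    have e4 := hdis s (t * z) hs.2.1 (hIz t ht).2.1 h3
    have e5 := hdis (s * z) t (hIz s hs).2.1 ht.2.1 (fun e => h3 (by
      rw [← e, mul_assoc, hzz, mul_one]))
    have e6 := hdis (s * z) (t * z) (hIz s hs).2.1 (hIz t ht).2.1 (by simpa using h1)
    have e7 := hdis t (t * z) ht.2.1 (hIz t ht).2.1 (by simpa using hz1)
    have p1 : 0 < Nat.card (fix ρ s) := Nat.card_pos
    have p2 : 0 < Nat.card (fix ρ (s * z)) := Nat.card_pos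
    have p3 : 0 < Nat.card (fix ρ t) := Nat.card_pos
    have p4 : 0 < Nat.card (fix ρ (t * z)) := Nat.card_pos
    generalize Nat.card (fix ρ s) = x at *
    generalize Nat.card (fix ρ (s * z)) = y at *
    generalize Nat.card (fix ρ t) = u at *
    generalize Nat.card (fix ρ (t * z)) = w at *
    have f1 : u ≤ y := Nat.le_of_mul_le_mul_left (e3.trans e2) p1
    have f2 : w ≤ x := Nat.le_of_mul_le_mul_left (e6.trans (e2.trans_eq (mul_comm _ _))) p2
    have f3 : y ≤ w := Nat.le_of_mul_le_mul_right (e5.trans (e1.trans_eq (mul_comm _ _))) p3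
    have f4 : x ≤ u := Nat.le_of_mul_le_mul_right (e4.trans e1) p4
    have : w = u := by omega
    subst this
    nlinarith
  obtain ⟨v, hv⟩ := exists_ne (0 : V)
  haveI := Fintype.ofFinite V
  haveI := Fintype.ofFinite G
  obtain ⟨r, hr⟩ : ∃ r, Nat.card (fix ρ (T v)) = q ^ r :=
    ⟨Module.finrank (ZMod q) (fix ρ (T v)), by rw [Module.natCard_eq_pow_finrank (K := ZMod q), Nat.card_zmod]⟩
  have hV : Nat.card V = (q ^ r) ^ 2 := by rw [← hsq _ (hTI v hv), hr]
  refine ⟨r, by rw [hV, ← pow_mul, mul_comm], ?_⟩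
  have hcount := Finset.card_eq_sum_card_fiberwise (f := T) (s := Finset.univ.erase 0)
    (t := Finset.univ.filter fun t => orderOf t = 2 ∧ t ∉ center G) (fun w hw => by
      simpa using (hI _).2 (hTI w (by simpa using hw)))
  rw [Finset.sum_congr rfl (g := fun _ => q ^ r - 1)] at hcount
  · rw [Finset.sum_const, smul_eq_mul, Finset.card_erase_of_mem (Finset.mem_univ _), Finset.card_univ,
      ← Nat.card_eq_fintype_card, hV] at hcount
    rw [Nat.card_eq_fintype_card, Fintype.card_subtype]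
    have h1 : 1 < q ^ r := by
      rw [← hr, Finite.one_lt_card_iff_nontrivial]
      exact ⟨⟨⟨v, (hT v hv).1⟩, 0, fun e => hv (congrArg Subtype.val e)⟩⟩
    obtain ⟨m, hm⟩ : ∃ m, q ^ r = m + 1 := ⟨q ^ r - 1, by omega⟩
    rw [hm] at hcount h1 ⊢
    refine Nat.eq_of_mul_eq_mul_right (show 0 < m by omega) ?_
    rw [Nat.add_sub_cancel] at hcount
    rw [← hcount]
    exact Nat.sub_eq_of_eq_add (by ring)
  · intro t ht
    have ht' := (hI t).1 (by simpa using ht)
    have e : Nat.card (fix ρ t) = q ^ r := by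
      refine Nat.pow_left_injective two_ne_zero ?_
      simp only [hsq t ht', hV]
    rw [← e, Nat.card_eq_fintype_card, Fintype.card_subtype,
      ← Finset.card_erase_of_mem (a := 0) (by simp)]
    congr 1
    ext w
    simp only [Finset.mem_filter, Finset.mem_erase, Finset.mem_univ, and_true, true_and]
    refine and_congr_right fun hw => ⟨?_, fun h => ((hT w hw).2.2 t h ht'.2.1).symm⟩
    rintro rfl
    exact (hT w hw).1

end Cfsg.Agent.S3381
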