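import Cfsg.Statements.S3382
import Cfsg.Agent.H11.OddAct
-- import your own Cfsg.Agent.* helpers here

set_option autoImplicit false
open Cfsg

namespace Cfsg.Agent.S3382

open Cfsg.Agent.H11 Subgroup

variable {K : Type*} [Field K]

def dg (p : Kˣ × Kˣ) : (Fin 2 → K) ≃ₗ[K] (Fin 2 → K) where
  toFun v := ![p.1 * v 0, p.2 * v 1]
  invFun v := ![↑p.1⁻¹ * v 0, ↑p.2⁻¹ * v 1]
  map_add' u v := by ext i; fin_cases i <;> simp [mul_add]
  map_smul' c v := by ext i; fin_cases i <;> simp [mul_left_comm]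
  left_inv v := by ext i; fin_cases i <;> simp
  right_inv v := by ext i; fin_cases i <;> simp

theorem dg_apply (p : Kˣ × Kˣ) (v : Fin 2 → K) : dg p v = ![p.1 * v 0, p.2 * v 1] := rfl

def δ : Kˣ × Kˣ →* ((Fin 2 → K) ≃ₗ[K] (Fin 2 → K)) :=
  MonoidHom.mk' dg fun p r => by ext v i; fin_cases i <;> simp [dg_apply, mul_assoc]

theorem δ_apply (p : Kˣ × Kˣ) (v : Fin 2 → K) : δ p v = ![p.1 * v 0, p.2 * v 1] := rfl

theorem δ_inj : Function.Injective (δ (K := K)) := (injective_iff_map_eq_one _).2 fun p h => by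
  have h1 := congrFun (LinearEquiv.congr_fun h 1) 0
  have h2 := congrFun (LinearEquiv.congr_fun h 1) 1
  simp [δ_apply] at h1 h2
  exact Prod.ext h1 h2

def sw : (Fin 2 → K) ≃ₗ[K] (Fin 2 → K) := LinearEquiv.funCongrLeft K K (Equiv.swap 0 1)

theorem sw_apply (v : Fin 2 → K) : sw v = ![v 1, v 0] := by ext i; fin_cases i <;> simp [sw]

theorem sw_δ (a b : Kˣ) : sw * (δ (a, b) * sw) = δ (b, a) := by
  ext v i; fin_cases i <;> simp [sw_apply, δ_apply]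

theorem δ_sq (a b : Kˣ) : (δ (a, b) * sw) ^ 2 = δ (a * b, a * b) := by
  rw [sq, mul_assoc, sw_δ, ← map_mul, Prod.mk_mul_mk, mul_comm b]

theorem pm {a b : Kˣ} (h : a ^ 2 = b ^ 2) : a = b ∨ a = -b := by
  simpa [Units.ext_iff] using sq_eq_sq_iff_eq_or_eq_neg.1 (show (a : K) ^ 2 = b ^ 2 by exact_mod_cast congrArg Units.val h)

theorem n3 : ¬ (-1 : ZMod 3) = 1 := by decide

theorem fin {G : Type*} [Group G] {T : Subgroup G} (hT : IsPGroup 2 T) {ψ : G → G} (h : OddAct T ψ) (R : Subgroup G)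
    (e : G) (h1 : ∀ x ∈ T, x ∈ R ∨ e * x ∈ R) (h2 : ∀ x ∈ T, x ∈ R → ψ x = x) : ∀ x ∈ T, ψ x = x := fun x hx => by
  rcases h1 x hx with a | a
  · exact h2 x hx a
  rcases h1 _ (h.mem x hx) with b | b
  · exact h.fix_of_fix hx (h2 _ (h.mem x hx) b)
  · exact h.fix_step hT hx (h2 _ (T.mul_mem (T.inv_mem hx) (h.mem x hx)) (by
      simpa [mul_assoc] using R.mul_mem (R.inv_mem a) b))


/-- Let q = 2^m + 1 be a prime other than 5. Then the automorphism group of the group of linear maps of F_q² of the forms (x, y) ↦ (a x, ± a⁻¹ y) and (x, y) ↦ (± a⁻¹ y, a x) with a ≠ 0 is itself a 2-group. -/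
theorem result (q m : ℕ) [Fact q.Prime] (hq : q = 2 ^ m + 1) (hq5 : q ≠ 5)
    (T : Subgroup ((Fin 2 → ZMod q) ≃ₗ[ZMod q] (Fin 2 → ZMod q)))
    (hT : ∀ f, f ∈ T ↔ ∃ a s : ZMod q, a ≠ 0 ∧ (s = 1 ∨ s = -1) ∧
      ((∀ v, f v = ![a * v 0, s * a⁻¹ * v 1]) ∨ (∀ v, f v = ![s * a⁻¹ * v 1, a * v 0]))) :
    IsPGroup 2 (MulAut T) := by
  have hq' : q.Prime := Fact.out
  haveI : Finite ((Fin 2 → ZMod q) ≃ₗ[ZMod q] (Fin 2 → ZMod q)) := DFunLike.finite _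
  have hm : ∀ f, f ∈ T ↔ ∃ a b : (ZMod q)ˣ, (a * b) ^ 2 = 1 ∧ (f = δ (a, b) ∨ f = δ (a, b) * sw) := fun f => by
    rw [hT]
    constructor
    · rintro ⟨a, s, ha, hs, h⟩
      have hs2 : s ^ 2 = 1 := by rcases hs with rfl | rfl <;> simp
      have hb : s * a⁻¹ ≠ 0 := mul_ne_zero (by rintro rfl; simp at hs2) (inv_ne_zero ha)
      have h3 : (Units.mk0 a ha * Units.mk0 _ hb) ^ 2 = 1 := Units.ext (by
        simp only [Units.val_pow_eq_pow_val, Units.val_mul, Units.val_mk0, Units.val_one]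
        rw [← hs2]; congr 1; field_simp)
      rcases h with h | h
      · exact ⟨_, _, h3, Or.inl (LinearEquiv.ext h)⟩
      · exact ⟨_, _, mul_comm (Units.mk0 a ha) _ ▸ h3, Or.inr (LinearEquiv.ext fun v => by
          rw [h, LinearEquiv.mul_apply, sw_apply]; rfl)⟩
    · rintro ⟨a, b, h1, h⟩
      have hs : ((a * b : (ZMod q)ˣ) : ZMod q) = 1 ∨ ((a * b : (ZMod q)ˣ) : ZMod q) = -1 :=
        sq_eq_one_iff.1 (by rw [← Units.val_pow_eq_pow_val, h1, Units.val_one])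
      rcases h with rfl | rfl
      · exact ⟨a, _, a.ne_zero, hs, Or.inl fun v => by rw [δ_apply, Units.val_mul, mul_comm (a : ZMod q) b, mul_inv_cancel_right₀ a.ne_zero]⟩
      · exact ⟨b, _, b.ne_zero, hs, Or.inr fun v => by
          rw [LinearEquiv.mul_apply, sw_apply, δ_apply, Units.val_mul, mul_inv_cancel_right₀ b.ne_zero]; rfl⟩
  have hu : ∀ a : (ZMod q)ˣ, a ^ 2 ^ m = 1 := fun a => by
    have := ZMod.units_pow_card_sub_one_eq_one q a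
    rwa [show q - 1 = 2 ^ m from Nat.sub_eq_of_eq_add hq] at this
  have h4 : ∀ a b : (ZMod q)ˣ, (a * b) ^ 2 = 1 → (δ (a, b) * sw) ^ 4 = 1 := fun a b h => by
    rw [show 4 = 2 * 2 from rfl, pow_mul, δ_sq, ← map_pow, Prod.pow_mk, h]; exact map_one _
  have hP : IsPGroup 2 T := fun x => by
    obtain ⟨a, b, h1, h | h⟩ := (hm _).1 x.2
    · exact ⟨m, Subtype.ext (by rw [coe_pow, h, ← map_pow, Prod.pow_mk, hu, hu]; exact map_one _)⟩
    · exact ⟨2, Subtype.ext (by rw [coe_pow, h]; exact h4 a b h1)⟩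
  refine isPGroup_mulAut_of_oddAct fun ψ hψ => ?_
  let R : Subgroup ((Fin 2 → ZMod q) ≃ₗ[ZMod q] (Fin 2 → ZMod q)) :=
    ((powMonoidHom 2).comp (MonoidHom.fst _ _ * MonoidHom.snd _ _)).ker.map δ
  have hR : ∀ x, x ∈ R ↔ ∃ a b : (ZMod q)ˣ, (a * b) ^ 2 = 1 ∧ x = δ (a, b) := fun x =>
    ⟨fun ⟨p, h1, h2⟩ => ⟨p.1, p.2, h1, h2.symm⟩, fun ⟨a, b, h1, h2⟩ => ⟨(a, b), h1, h2.symm⟩⟩
  have hRT : R ≤ T := fun x hx => let ⟨a, b, h1, h2⟩ := (hR x).1 hx; (hm x).2 ⟨a, b, h1, Or.inl h2⟩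
  have hw : ∀ x ∈ T, x ∈ R ∨ sw * x ∈ R := fun x hx => by
    obtain ⟨a, b, h1, h | h⟩ := (hm _).1 hx
    · exact Or.inl ((hR x).2 ⟨a, b, h1, h⟩)
    · exact Or.inr ((hR _).2 ⟨b, a, mul_comm a b ▸ h1, by rw [h, sw_δ]⟩)
  rcases m with _ | _ | _ | m
  · refine fin hP hψ R sw hw fun x _ hx => ?_
    obtain ⟨a, b, -, rfl⟩ := (hR x).1 hx
    rw [show (a, b) = 1 from Prod.ext (by simpa using hu a) (by simpa using hu b), map_one, hψ.one]
  · have h1 : ∀ a : (ZMod q)ˣ, a = 1 ∨ a = -1 := fun a => pm (by simpa using hu a)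
    have hr : δ (1, -1) * sw ∈ T := (hm _).2 ⟨1, -1, by simp, Or.inr rfl⟩
    have r2 : δ (-1, -1) ∈ zpowers (δ ((1, -1) : (ZMod q)ˣ × (ZMod q)ˣ) * sw) := ⟨(2 : ℕ), by
      simp only [zpow_natCast, δ_sq, one_mul]⟩
    have r3 : δ (-1, 1) * sw ∈ zpowers (δ ((1, -1) : (ZMod q)ˣ × (ZMod q)ˣ) * sw) := by
      have := mul_mem r2 (mem_zpowers _)
      rwa [← mul_assoc, ← map_mul, Prod.mk_mul_mk, mul_one, neg_mul_neg, mul_one] at this
    have r0 : δ (1, 1) ∈ zpowers (δ ((1, -1) : (ZMod q)ˣ × (ZMod q)ˣ) * sw) := by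
      rw [Prod.mk_one_one, map_one]; exact one_mem _
    have hn : (δ ((1, -1) : (ZMod q)ˣ × (ZMod q)ˣ) * sw) ^ 2 ≠ 1 := fun h => by
      rw [δ_sq, map_eq_one_iff _ δ_inj, Prod.mk_eq_one, one_mul, Units.ext_iff] at h
      subst hq
      exact n3 h.1
    have hf := hψ.fix_of_zpowers (k := 2) hr (h4 1 (-1) (by simp)) (by
      have h2 := hψ.pow hr 2
      obtain ⟨a, b, -, h | h⟩ := (hm _).1 (hψ.mem _ hr)
      · rw [h, ← map_pow, Prod.pow_mk, show a ^ 2 = 1 by simpa using hu a, show b ^ 2 = 1 by simpa using hu b,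
          Prod.mk_one_one, map_one, ← hψ.one] at h2
        exact absurd (hψ.inj (T.pow_mem hr 2) T.one_mem h2) hn
      · rw [h] at h2 ⊢
        rcases h1 a with rfl | rfl <;> rcases h1 b with rfl | rfl
        · rw [δ_sq 1 1, mul_one, Prod.mk_one_one, map_one, ← hψ.one] at h2
          exact absurd (hψ.inj (T.pow_mem hr 2) T.one_mem h2) hn
        · exact mem_zpowers _
        · exact r3
        · rw [δ_sq (-1) (-1), neg_mul_neg, mul_one, Prod.mk_one_one, map_one, ← hψ.one] at h2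
          exact absurd (hψ.inj (T.pow_mem hr 2) T.one_mem h2) hn)
    refine fin hP hψ (zpowers (δ (1, -1) * sw)) (δ (1, -1)) (fun x hx => ?_) fun x _ hx => hψ.fix_zpowers hr hf hx
    obtain ⟨a, b, -, rfl | rfl⟩ := (hm _).1 hx <;> rcases h1 a with rfl | rfl <;> rcases h1 b with rfl | rfl <;>
      simp only [← mul_assoc, ← map_mul, Prod.mk_mul_mk, mul_one, neg_mul_neg, one_mul, r0, r2, r3, mem_zpowers,
        true_or, or_true]
  · exact absurd hq hq5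
  obtain ⟨g, hg⟩ := IsCyclic.exists_generator (α := (ZMod q)ˣ)
  have hd : δ (g, g⁻¹) ∈ R := (hR _).2 ⟨g, g⁻¹, by simp, rfl⟩
  have hd4 : δ (g, g⁻¹) ^ 4 ≠ 1 := fun h => by
    rw [← map_pow, map_eq_one_iff _ δ_inj, Prod.pow_mk, Prod.mk_eq_one, ← orderOf_dvd_iff_pow_eq_one,
      orderOf_eq_card_of_forall_mem_zpowers hg, Nat.card_eq_fintype_card, ZMod.card_units] at h
    have := Nat.le_of_dvd (by norm_num) h.1
    have := Nat.one_le_two_pow (n := m)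
    simp only [pow_succ] at *
    omega
  have hc : ∀ x ∈ R, ∀ y ∈ R, x * y = y * x := by
    rintro _ ⟨p, -, rfl⟩ _ ⟨r, -, rfl⟩; rw [← map_mul, ← map_mul, mul_comm]
  have h5 : ∀ x ∈ T, x ^ 4 ≠ 1 → ψ x ∈ R := fun x hx h => by
    obtain ⟨a, b, h1, h2 | h2⟩ := (hm _).1 (hψ.mem x hx)
    · exact (hR _).2 ⟨a, b, h1, h2⟩
    · exact absurd (hψ.inj (T.pow_mem hx 4) T.one_mem (by rw [hψ.pow hx, h2, h4 a b h1, hψ.one])) h
  have h6 : ∀ x ∈ R, ψ x ∈ R := fun x hx => by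
    by_cases h : x ^ 4 = 1
    · have := h5 _ (hRT (R.mul_mem hx hd)) (by rwa [Commute.mul_pow (hc _ hx _ hd), h, one_mul])
      rw [hψ.mul _ (hRT hx) _ (hRT hd)] at this
      exact (R.mul_mem_cancel_right (h5 _ (hRT hd) hd4)).1 this
    · exact h5 x (hRT hx) h
  have hψ' : OddAct R ψ := ⟨h6, fun x hx y hy => hψ.mul x (hRT hx) y (hRT hy),
    let ⟨k, h1, h2⟩ := hψ.iter; ⟨k, h1, fun x hx => h2 x (hRT hx)⟩⟩
  have h7 : ∀ x ∈ R, x ^ 2 ∈ zpowers (δ (g, g⁻¹) ^ 2) := fun x hx => by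
    obtain ⟨a, b, h1, rfl⟩ := (hR x).1 hx
    obtain ⟨j, rfl⟩ := hg a
    refine ⟨j, ?_⟩
    have : b ^ 2 = ((g ^ j) ^ 2)⁻¹ := eq_inv_of_mul_eq_one_right (by rw [← mul_pow]; exact h1)
    simp only [← map_pow, ← map_zpow, Prod.pow_mk, this]
    simp only [← zpow_natCast, ← zpow_mul, mul_comm, inv_zpow]
  have h8 : ψ (δ (g, g⁻¹) ^ 2) = δ (g, g⁻¹) ^ 2 := by
    obtain ⟨k, hk⟩ := hP ⟨_, hRT (R.pow_mem hd 2)⟩
    exact hψ'.fix_of_zpowers (R.pow_mem hd 2) (congrArg Subtype.val hk) (hψ'.pow hd 2 ▸ h7 _ (h6 _ hd))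
  have h9 : ∀ c : (ZMod q)ˣ, c ^ 2 = 1 → ψ (δ (c, c)) = δ (c, c) := fun c h => by
    rcases pm (h.trans (one_pow 2).symm) with rfl | rfl
    · rw [Prod.mk_one_one, map_one, hψ.one]
    obtain ⟨i, hi⟩ := (ZMod.exists_sq_eq_neg_one_iff (p := q)).2 (by simp only [hq, pow_succ]; omega)
    have h0 : i ≠ 0 := by rintro rfl; simp at hi
    have h1 : Units.mk0 i h0 ^ 2 = -1 := Units.ext (by simp [sq, hi])
    have := hψ'.fix_zpowers (R.pow_mem hd 2) h8 (h7 _ ((hR _).2 ⟨Units.mk0 i h0, (Units.mk0 i h0)⁻¹, by simp, rfl⟩))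
    rwa [← map_pow, Prod.pow_mk, inv_pow, h1, inv_neg_one] at this
  refine fin hP hψ R sw hw fun x _ hx => hψ'.fix_of_comm (hP.to_le hRT) hc (fun x hx h => ?_) hx
  have h' : ψ x * ψ x = 1 := by rw [← hψ'.mul x hx x hx, h, hψ.one]
  obtain ⟨a, b, -, rfl⟩ := (hR x).1 hx
  obtain ⟨c, d, -, e⟩ := (hR _).1 (h6 _ hx)
  rw [e] at h'
  rw [← map_mul, map_eq_one_iff _ δ_inj, Prod.mk_mul_mk, Prod.mk_eq_one, ← sq, ← sq] at h h'
  rcases pm (h.1.trans h.2.symm) with rfl | rfl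
  · exact h9 a h.1
  rcases pm (h'.1.trans h'.2.symm) with rfl | rfl
  · exact hψ'.fix_of_fix hx (by rw [e, h9 c h'.1])
  refine hψ'.fix_step (hP.to_le hRT) hx ?_
  rw [e, ← map_inv, ← map_mul, Prod.inv_mk, Prod.mk_mul_mk, inv_neg, neg_mul_neg]
  exact h9 _ (by rw [mul_pow, inv_pow, h.2, h'.2]; simp)

end Cfsg.Agent.S3382
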