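import Cfsg.Statements.S3383
import Cfsg.Agent.H1.Frobenius
import Cfsg.Agent.S0035
-- import your own Cfsg.Agent.* helpers here

set_option autoImplicit false
open Cfsg

namespace Cfsg.Agent.S3383

open Subgroup


/-- Let H be a Frobenius complement in a finite group L and K the Frobenius kernel (as a subgroup). Then K is characteristic in L, and every normal subgroup of L either contains K or is contained in K. -/
theorem result {L : Type*} [Group L] [Finite L]
    (H : Subgroup L) (hH : Cfsg.IsFrobeniusComplement H)
    (K : Subgroup L) (hK : (K : Set L) = Cfsg.frobeniusKernel H) :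
    K.Characteristic ∧ ∀ N : Subgroup L, N.Normal → K ≤ N ∨ N ≤ K := by
  obtain ⟨N, hN, hn, hc⟩ := S0035.result H hH
  obtain rfl : K = N := SetLike.coe_injective (hK.trans hN.symm)
  have key : ∀ N : Subgroup L, N.Normal → K ≤ N ∨ N ≤ K := fun N hN =>
    (H1.le_or_le_of_isFrobeniusComplement hH hK hc.disjoint).symm
  refine ⟨characteristic_iff_map_eq.2 fun φ => ?_, key⟩
  have h1 : Nat.card (K.map φ.toMonoidHom) = Nat.card K := card_map_of_injective φ.injective
  rcases key _ (hn.map φ.toMonoidHom φ.surjective) with h | h
  · exact (eq_of_le_of_card_ge h h1.le).symm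
  · exact eq_of_le_of_card_ge h h1.ge

end Cfsg.Agent.S3383
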