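import Cfsg.Statements.S3431
import Cfsg.Agent.H22.Nse2
import Cfsg.Agent.H22.Nse3

set_option autoImplicit false
set_option linter.style.haveILetI false
open Cfsg

namespace Cfsg.Agent.S3431

/-- Let n be 4, 5 or 6 and let G be a finite group whose set of sizes of same-order classes (the set of numbers #{g : o(g) = m} over the element orders m of G) equals that of the alternating group of degree n. Then G is isomorphic to that alternating group. -/
theorem result {G : Type*} [Group G] [Finite G] (n : ℕ) (hn : n = 4 ∨ n = 5 ∨ n = 6)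
    (h : ((fun m : ℕ => Nat.card {g : G // orderOf g = m}) '' Set.range (orderOf : G → ℕ)) = ((fun m : ℕ => Nat.card {g : ↥(alternatingGroup (Fin n)) // orderOf g = m}) '' Set.range (orderOf : ↥(alternatingGroup (Fin n)) → ℕ))) :
    Nonempty (G ≃* ↥(alternatingGroup (Fin n))) := by
  have P : ∀ (H : Type) [Group H] [Fintype H] [DecidableEq H] (p : ℕ), p.Prime →
      Nat.card {g : H // orderOf g = p} = Fintype.card {g : H // g ^ p = 1 ∧ g ≠ 1} := by
    intro H _ _ _ p hp
    haveI := Fact.mk hp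
    rw [← Nat.card_eq_fintype_card]
    exact Nat.card_congr (Equiv.subtypeEquivRight fun g => orderOf_eq_prime_iff)
  have Q : ∀ (H : Type) [Group H] [Finite H] (T : List (ℕ × ℕ)), (∀ g : H, orderOf g ∈ T.map Prod.fst) →
      (∀ t ∈ T, t.2 ≠ 0 ∧ Nat.card {g : H // orderOf g = t.1} = t.2) →
      (fun m : ℕ => Nat.card {g : H // orderOf g = m}) '' Set.range (orderOf : H → ℕ) =
        {v | v ∈ T.map Prod.snd} := by
    intro H _ _ T h1 h2
    ext v
    simp only [Set.mem_image, Set.mem_range, Set.mem_setOf_eq, List.mem_map] at h1 ⊢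
    constructor
    · rintro ⟨_, ⟨g, rfl⟩, rfl⟩
      obtain ⟨t, ht, e⟩ := h1 g
      exact ⟨t, ht, by rw [← e, (h2 t ht).2]⟩
    · rintro ⟨t, ht, rfl⟩
      exact ⟨t.1, H22.Nse.sg_ne.1 (by rw [H22.Nse.sg, (h2 t ht).2]; exact (h2 t ht).1), (h2 t ht).2⟩
  have D : ∀ {a m : ℕ}, a ∣ m → m ≠ 0 → a ∈ m.divisors := fun h h' => Nat.mem_divisors.2 ⟨h, h'⟩
  rcases hn with rfl | rfl | rfl
  · rw [Q _ [(1, 1), (2, 3), (3, 8)] (fun g => by
      rcases H22.Nse.a4 g with a | a <;> have := D (orderOf_dvd_of_pow_eq_one a) (by norm_num) <;>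
        revert this <;> generalize orderOf g = k <;> revert k <;> decide) (by
      simp only [List.forall_mem_cons, List.not_mem_nil, false_imp_iff, implies_true, and_true]
      exact ⟨⟨by norm_num, H22.Nse.sg_one⟩, ⟨by norm_num, (P _ 2 Nat.prime_two).trans H22.Nse.a42⟩,
        ⟨by norm_num, (P _ 3 Nat.prime_three).trans H22.Nse.a43⟩⟩)] at h
    have H := H22.Nse.hyp (o := 3) (by decide) (by decide) (by decide) h
    obtain ⟨a, b⟩ := H22.Nse.main H (by norm_num) (by norm_num) H22.Nse.p4 H22.Nse.f4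
    have z : ∀ d, ¬ d ∣ 12 → H22.Nse.sg G d = 0 := fun d hd => by
      by_contra c
      obtain ⟨g, rfl⟩ := H22.Nse.sg_ne.1 c
      exact hd (a ▸ orderOf_dvd_natCard g)
    exact (H22.Nse.ncn (.inl a) (b (6, 0) (by simp)) (z _ (by norm_num)) (z _ (by norm_num))).equiv_alt4 a
  · rw [Q _ [(1, 1), (2, 15), (3, 20), (5, 24)] (fun g => by
      rcases H22.Nse.a5 g with a | a | a <;> have := D (orderOf_dvd_of_pow_eq_one a) (by norm_num) <;>
        revert this <;> generalize orderOf g = k <;> revert k <;> decide) (by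
      simp only [List.forall_mem_cons, List.not_mem_nil, false_imp_iff, implies_true, and_true]
      exact ⟨⟨by norm_num, H22.Nse.sg_one⟩, ⟨by norm_num, (P _ 2 Nat.prime_two).trans H22.Nse.a52⟩,
        ⟨by norm_num, (P _ 3 Nat.prime_three).trans H22.Nse.a53⟩,
        ⟨by norm_num, (P _ 5 Nat.prime_five).trans H22.Nse.a55⟩⟩)] at h
    have H := H22.Nse.hyp (o := 15) (by decide) (by decide) (by decide) h
    obtain ⟨a, b⟩ := H22.Nse.main H (by norm_num) (by norm_num) H22.Nse.p5 H22.Nse.f5
    exact (H22.Nse.ncn (.inr a) (b (6, 0) (by simp)) (b (10, 0) (by simp))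
      (b (15, 0) (by simp))).equiv_alt5 a
  · rw [Q _ [(1, 1), (2, 45), (3, 80), (4, 90), (5, 144)] (fun g => by
      rcases H22.Nse.a6 g with a | a | a <;> have := D (orderOf_dvd_of_pow_eq_one a) (by norm_num) <;>
        revert this <;> generalize orderOf g = k <;> revert k <;> decide) (by
      simp only [List.forall_mem_cons, List.not_mem_nil, false_imp_iff, implies_true, and_true]
      refine ⟨⟨by norm_num, H22.Nse.sg_one⟩, ⟨by norm_num, (P _ 2 Nat.prime_two).trans H22.Nse.a62⟩,
        ⟨by norm_num, (P _ 3 Nat.prime_three).trans H22.Nse.a63⟩, ⟨by norm_num, ?_⟩,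
        ⟨by norm_num, (P _ 5 Nat.prime_five).trans H22.Nse.a65⟩⟩
      rw [← H22.Nse.a64, ← Nat.card_eq_fintype_card]
      refine Nat.card_congr (Equiv.subtypeEquivRight fun g => ⟨fun e => ⟨e ▸ pow_orderOf_eq_one g,
        fun c => ?_⟩, fun e => orderOf_eq_prime_pow (p := 2) (n := 1) e.2 e.1⟩)
      have := orderOf_dvd_of_pow_eq_one c
      rw [e] at this
      norm_num at this)] at h
    have H := H22.Nse.hyp (o := 45) (by decide) (by decide) (by decide) h
    obtain ⟨a, b⟩ := H22.Nse.main H (by norm_num) (by norm_num) H22.Nse.p6 H22.Nse.f6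
    haveI := H22.Nse.simple a (b (6, 0) (by simp)) (b (10, 0) (by simp)) (b (15, 0) (by simp))
      (b (3, 80) (by simp)) (b (5, 144) (by simp))
    exact S0497.result a

end Cfsg.Agent.S3431
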