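import Cfsg.Statements.S3704
import Mathlib
import Cfsg.Agent.H2.Perm1

set_option autoImplicit false
open Cfsg

namespace Cfsg.Agent.S3704

open H2.Pm MulAction Subgroup Matrix

/-- Let G be a finite group acting faithfully and 2-transitively on a finite set Ω of size n, and let H be a subgroup of index n in G which is not transitive on Ω and fixes no point of Ω. Then H has exactly two orbits on Ω. -/
theorem result {G Ω : Type*} [Group G] [Finite G] [MulAction G Ω] [FaithfulSMul G Ω] [Finite Ω] (h2 : MulAction.IsMultiplyPretransitive G Ω 2) (H : Subgroup G) (hidx : H.index = Nat.card Ω) (hnt : ¬ MulAction.IsPretransitive H Ω) (hfix : ∀ a : Ω, ∃ h : H, h • a ≠ a) : Nat.card (MulAction.orbitRel.Quotient H Ω) = 2 := by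
  classical
  have := Fintype.ofFinite Ω
  have := Fintype.ofFinite (G ⧸ H)
  let A : Ω → Matrix (G ⧸ H) Ω ℚ := fun c y x => if ∃ g : G, (g : G ⧸ H) = y ∧ g • c = x then 1 else 0
  have hA : ∀ c (g : G) y x, A c (g • y) (g • x) = A c y x := fun c g y x => by
    simp only [A]
    congr 1
    refine propext ⟨fun ⟨k, h1, h2⟩ => ⟨g⁻¹ * k, ?_, ?_⟩, fun ⟨k, h1, h2⟩ => ⟨g * k, ?_, ?_⟩⟩
    · rw [← smul_eq_mul, ← Quotient.smul_coe, h1, inv_smul_smul]
    · rw [mul_smul, h2, inv_smul_smul]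
    · rw [← smul_eq_mul, ← Quotient.smul_coe, h1]
    · rw [mul_smul, h2]
  have hA0 : ∀ c y x, 0 ≤ A c y x := fun c y x => by simp only [A]; split_ifs <;> simp
  have hA1 : ∀ c, A c ((1 : G) : G ⧸ H) c = 1 := fun c => if_pos ⟨1, rfl, one_smul _ _⟩
  have hdis : ∀ c d, ¬ orbitRel H Ω c d → ∀ y x, A c y x * A d y x = 0 := fun c d h y x => by
    simp only [A]
    split_ifs with h1 h2 <;> simp
    obtain ⟨g, rfl, rfl⟩ := h1
    obtain ⟨k, h2, h3⟩ := h2
    exact h ⟨⟨g⁻¹ * k, QuotientGroup.eq.1 h2.symm⟩, by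
      change (g⁻¹ * k) • d = c
      rw [mul_smul, h3, inv_smul_smul]⟩
  have hinv : ∀ c d (g : G) x z, ((A c)ᵀ * A d) (g • x) (g • z) = ((A c)ᵀ * A d) x z :=
    fun c d g x z => by
      simp only [mul_apply, transpose_apply]
      exact (Fintype.sum_equiv (toPerm g) _ _ fun y => by simp [hA]).symm
  obtain ⟨a, b, hab⟩ : ∃ a b : Ω, ¬ orbitRel H Ω a b := by
    by_contra! h
    exact hnt ⟨fun a b => h b a⟩
  have hne : a ≠ b := fun e => hab (e ▸ (orbitRel H Ω).refl _)
  have hform : ∀ c d, (A c)ᵀ * A d = (((A c)ᵀ * A d) a a - ((A c)ᵀ * A d) a b) • (1 : Matrix Ω Ω ℚ) +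
      of fun _ _ => ((A c)ᵀ * A d) a b := fun c d => by
    ext x z
    by_cases h : x = z
    · obtain ⟨g, rfl⟩ := (mt_le h2 one_le_two (Finite.one_lt_card_iff_nontrivial.2 ⟨_, _, hne⟩)
        |> is_one_pretransitive_iff.1).exists_smul_eq a x
      simp [← h, hinv]
    · obtain ⟨g, rfl, rfl⟩ := mt_two_iff.1 h2 a b x z hne h
      simp [h, hinv]
  have hlt : ((A a)ᵀ * A a) a b < ((A a)ᵀ * A a) a a := by
    simp only [mul_apply, transpose_apply]
    refine Finset.sum_lt_sum (fun y _ => ?_) ⟨((1 : G) : G ⧸ H), Finset.mem_univ _, ?_⟩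
    · simp only [A]; split_ifs <;> simp
    · have := hdis a b hab ((1 : G) : G ⧸ H) b
      rw [hA1, mul_one] at this
      simp [this, hA1]
  have hinj : ∀ v, A a *ᵥ v = 0 → v = 0 := fun v hv => by
    have h3 : v ⬝ᵥ ((A a)ᵀ * A a) *ᵥ v = 0 := by rw [← mulVec_mulVec, hv]; simp
    rw [hform, add_mulVec, dotProduct_add, smul_mulVec, one_mulVec, dotProduct_smul] at h3
    have h4 : v ⬝ᵥ (of fun _ _ => ((A a)ᵀ * A a) a b) *ᵥ v = ((A a)ᵀ * A a) a b * (∑ x, v x) ^ 2 := by
      simp only [mulVec, dotProduct, of_apply, ← Finset.mul_sum, ← Finset.sum_mul]; ring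
    have h5 : 0 ≤ ((A a)ᵀ * A a) a b := Finset.sum_nonneg fun y _ => mul_nonneg (hA0 ..) (hA0 ..)
    have h6 : 0 ≤ v ⬝ᵥ v := Finset.sum_nonneg fun y _ => mul_self_nonneg _
    rw [h4, smul_eq_mul] at h3
    exact dotProduct_self_eq_zero.1 (by nlinarith [mul_nonneg h5 (sq_nonneg (∑ x, v x))])
  have hinj' : Function.Injective (A a)ᵀ.mulVecLin := by
    have h3 : (A a).rank = Fintype.card Ω := by
      have := (A a).mulVecLin.finrank_range_of_inj ((injective_iff_map_eq_zero _).2 hinj)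
      rwa [Module.finrank_fintype_fun_eq_card] at this
    rw [← rank_transpose] at h3
    have h4 := (A a)ᵀ.mulVecLin.finrank_range_add_finrank_ker
    rw [show Module.finrank ℚ (A a)ᵀ.mulVecLin.range = _ from h3, Module.finrank_fintype_fun_eq_card,
      ← Nat.card_eq_fintype_card, ← Nat.card_eq_fintype_card, ← index_eq_card, hidx] at h4
    exact LinearMap.ker_eq_bot.1 (Submodule.finrank_eq_zero.1 (by omega))
  have hcanc : ∀ M : Matrix (G ⧸ H) Ω ℚ, (A a)ᵀ * M = 0 → M = 0 := fun M hM => by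
    ext y x
    exact congrFun ((injective_iff_map_eq_zero _).1 hinj' (fun y => M y x)
      (funext fun z => congrFun (congrFun hM z) x)) y
  have hdiag : ∀ c, ¬ orbitRel H Ω a c → ((A a)ᵀ * A c) a a = 0 := fun c hc =>
    Finset.sum_eq_zero fun y _ => hdis a c hc y a
  rw [Nat.card_eq_two_iff]
  refine ⟨Quotient.mk _ a, Quotient.mk _ b, fun e => hab (Quotient.exact e), ?_⟩
  rw [Set.eq_univ_iff_forall]
  rintro ⟨c⟩
  by_contra hc
  have hac : ¬ orbitRel H Ω a c := fun h => hc (Or.inl (Quotient.sound h).symm)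
  have hbc : ¬ orbitRel H Ω b c := fun h => hc (Or.inr (Quotient.sound h).symm)
  have h3 := hcanc (((A a)ᵀ * A c) a b • A b - ((A a)ᵀ * A b) a b • A c) (by
    rw [Matrix.mul_sub, Matrix.mul_smul, Matrix.mul_smul, hform a b, hform a c, hdiag b hab, hdiag c hac]
    ext x z
    by_cases h : x = z <;> simp [h, hne]; ring)
  have h4 := congrFun (congrFun h3 ((1 : G) : G ⧸ H)) c
  have h5 := hdis b c hbc ((1 : G) : G ⧸ H) c
  rw [hA1, mul_one] at h5
  simp only [Matrix.sub_apply, Matrix.smul_apply, h5, hA1, smul_eq_mul, mul_zero, mul_one, zero_sub, Matrix.zero_apply,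
    neg_eq_zero] at h4
  have h6 := hcanc (A b) (by rw [hform, hdiag b hab, h4]; ext; simp)
  simpa [hA1] using congrFun (congrFun h6 ((1 : G) : G ⧸ H)) b

end Cfsg.Agent.S3704
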