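import Cfsg.Statements.S3732
import Cfsg.Agent.H19.ONp

set_option autoImplicit false
open Cfsg

namespace Cfsg.Agent.S3732

/-- The Ostrom–Wagner Theorem. Let Π be a finite projective plane (points P, lines L) whose collineation group is 2-transitive on points: for any two ordered pairs of distinct points there is a permutation of the points, together with a compatible permutation of the lines preserving incidence, carrying the first pair to the second. Then Π is Desarguesian: there is a finite field F and a bijection from P onto the points of the projective plane over F (the 1-dimensional subspaces of F³) under which the lines of Π correspond exactly to the 2-dimensional subspaces of F³. -/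
theorem result
    {P L : Type*} [Membership P L] [Fintype P] [Fintype L] [Configuration.ProjectivePlane P L]
    (h2t : ∀ p₁ p₂ q₁ q₂ : P, p₁ ≠ p₂ → q₁ ≠ q₂ →
      ∃ (σ : Equiv.Perm P) (τ : Equiv.Perm L), (∀ (p : P) (l : L), σ p ∈ τ l ↔ p ∈ l) ∧ σ p₁ = q₁ ∧ σ p₂ = q₂) :
    ∃ (F : Type) (_ : Field F) (_ : Fintype F) (φ : P ≃ Projectivization F (Fin 3 → F)),
      (∀ l : L, ∃ W : Submodule F (Fin 3 → F), Module.finrank F W = 2 ∧
          ∀ p : P, p ∈ l ↔ (φ p).submodule ≤ W) ∧
      (∀ W : Submodule F (Fin 3 → F), Module.finrank F W = 2 →
          ∃ l : L, ∀ p : P, p ∈ l ↔ (φ p).submodule ≤ W) := by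
  classical
  have hD : H19.ON.Des (fun (p : P) (l : L) => p ∈ l) (Configuration.ProjectivePlane.order P L + 1) 1 := by
    refine ⟨Configuration.ProjectivePlane.card_points_eq_card_lines P L, fun l => ?_, fun p => ?_,
      fun p q hpq => ?_, by have := Configuration.ProjectivePlane.one_lt_order P L; omega⟩
    · rw [← Configuration.ProjectivePlane.pointCount_eq P l, Configuration.pointCount,
        Nat.card_eq_fintype_card, Fintype.card_subtype]
    · rw [← Configuration.ProjectivePlane.lineCount_eq L p, Configuration.lineCount,
        Nat.card_eq_fintype_card, Fintype.card_subtype]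
    · obtain ⟨l, hl, hu⟩ := Configuration.HasLines.existsUnique_line P L p q hpq
      exact Finset.card_eq_one.2 ⟨l, Finset.eq_singleton_iff_unique_mem.2
        ⟨by simpa using hl, fun m hm => hu m (by simpa using hm)⟩⟩
  obtain ⟨G, _, _, h, hG⟩ := hD.exists_aut (Configuration.ProjectivePlane.one_lt_order P L)
    (Fintype.card_pos_iff.1 (by rw [Configuration.ProjectivePlane.card_points P L]; omega))
  refine h.desarg ⟨fun {x y u v} hxy huv => ?_, h.fp⟩
  obtain ⟨σ, τ, h1, h2, h3⟩ := h2t x y u v hxy huv
  obtain ⟨g, hg, -⟩ := hG σ τ h1
  exact ⟨g, (hg x).trans h2, (hg y).trans h3⟩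

end Cfsg.Agent.S3732
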