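import Cfsg.Statements.S3733
import Cfsg.Agent.H1.Frobenius

set_option autoImplicit false
open Cfsg

namespace Cfsg.Agent.S3733

/-- Let A and V be subgroups of a finite group with V abelian and nontrivial and A normalizing V. Suppose a nonempty finite family of proper subgroups of A partitions A: every non-identity element of A lies in exactly one member. If the number of members minus one is coprime to the order of V, then some member B of the family has a non-identity fixed point on V, that is V ∩ C(B) ≠ 1. -/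
theorem result {G : Type*} [Group G] [Finite G] (A V : Subgroup G) (hVab : IsMulCommutative V) (hV : V ≠ ⊥) (hAV : A ≤ Subgroup.normalizer (V : Set G)) (𝒜 : Finset (Subgroup G)) (hne : 𝒜.Nonempty) (hprop : ∀ B ∈ 𝒜, B < A) (hpart : ∀ a ∈ A, a ≠ 1 → ∃! B, B ∈ 𝒜 ∧ a ∈ B) (hk : (𝒜.card - 1).Coprime (Nat.card V)) : ∃ B ∈ 𝒜, V ⊓ Subgroup.centralizer (B : Set G) ≠ ⊥ := by
  have := (Subgroup.nontrivial_iff_ne_bot V).mpr hV
  let _ : CommGroup V := { (inferInstance : Group V) with mul_comm := fun a b => mul_comm' a b }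
  obtain ⟨B, hB, v, hv, h⟩ := H1.exists_fixed_of_partition (H1.conjHom hAV) 𝒜
    (fun B => B.subgroupOf A) hne (fun a ha => hpart a a.2 fun h => ha (Subtype.ext h)) hk
  refine ⟨B, hB, Subgroup.ne_bot_iff_exists_ne_one.mpr ⟨⟨v, v.2, fun b hb => ?_⟩,
    fun h1 => hv (Subtype.ext (by have h2 := congrArg Subtype.val h1; exact h2))⟩⟩
  exact ((H1.conjHom_eq_self_iff hAV ⟨b, (hprop B hB).le hb⟩ v).mp (h _ hb)).symm

end Cfsg.Agent.S3733
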