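import Cfsg.Statements.S3734
import Cfsg.Agent.H1.Generation

set_option autoImplicit false
open Cfsg

namespace Cfsg.Agent.S3734

/-- Let A and G be subgroups of a finite group with A abelian, A normalizing G and the orders of A and G coprime. Then G is generated by the fixed-point subgroups C_G(B) of those subgroups B of A for which A/B is cyclic (that is, A = ⟨B, a⟩ for some a), and [G, A] is generated by the commutator subgroups [C_G(B), A] over the same subgroups B. -/
theorem result {X : Type*} [Group X] [Finite X] (A G : Subgroup X) (hAab : IsMulCommutative A) (hAG : A ≤ Subgroup.normalizer (G : Set X)) (hcop : (Nat.card A).Coprime (Nat.card G)) : (⨆ B ∈ {B : Subgroup X | B ≤ A ∧ ∃ a ∈ A, B ⊔ Subgroup.zpowers a = A}, G ⊓ Subgroup.centralizer (B : Set X)) = G ∧ (⨆ B ∈ {B : Subgroup X | B ≤ A ∧ ∃ a ∈ A, B ⊔ Subgroup.zpowers a = A}, ⁅G ⊓ Subgroup.centralizer (B : Set X), A⁆) = ⁅G, A⁆ := by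
  exact ⟨le_antisymm (iSup₂_le fun _ _ => inf_le_left)
    (H1.le_of_forall_centralizer_le hAG hcop fun B hB h1 => le_iSup₂_of_le B ⟨hB, h1⟩ le_rfl),
    le_antisymm (iSup₂_le fun _ _ => Subgroup.commutator_mono inf_le_left le_rfl)
    (H1.commutator_le_of_forall_centralizer hAG hcop fun B hB h1 =>
      le_iSup₂_of_le B ⟨hB, h1⟩ le_rfl)⟩

end Cfsg.Agent.S3734
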