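import Cfsg.Statements.S3735
import Cfsg.Agent.H2.Subnormal
import Cfsg.Agent.H1.Basic

set_option autoImplicit false
open Cfsg

namespace Cfsg.Agent.S3735

open scoped Pointwise

/-- Clifford's Theorem for actions on finite abelian groups, first part. Let H and V be subgroups of a finite group with V abelian and H normalizing V, and let A be a normal subgroup of H. If every H-invariant subgroup of V has an H-invariant complement in V, then every A-invariant subgroup of V has an A-invariant complement in V. -/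
theorem result {G : Type*} [Group G] [Finite G] (H A V : Subgroup G) (hVab : IsMulCommutative V) (hHV : H ≤ Subgroup.normalizer (V : Set G)) (hAH : A ≤ H) (hAn : H ≤ Subgroup.normalizer (A : Set G)) (hss : ∀ U : Subgroup G, U ≤ V → H ≤ Subgroup.normalizer (U : Set G) → ∃ W : Subgroup G, W ≤ V ∧ H ≤ Subgroup.normalizer (W : Set G) ∧ U ⊓ W = ⊥ ∧ U ⊔ W = V) (U : Subgroup G) (hUV : U ≤ V) (hAU : A ≤ Subgroup.normalizer (U : Set G)) : ∃ W : Subgroup G, W ≤ V ∧ A ≤ Subgroup.normalizer (W : Set G) ∧ U ⊓ W = ⊥ ∧ U ⊔ W = V := by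
  have hcomm : ∀ a ∈ V, ∀ b ∈ V, a * b = b * a := fun a ha b hb => H2.mul_comm_of_mem ha hb
  have hn : ∀ X Y : Subgroup G, X ≤ V → Y ≤ V → X ≤ Subgroup.normalizer (Y : Set G) :=
    fun X Y hX hY => hX.trans (H2.le_normalizer_of_le_of_isMulCommutative hY)
  let 𝓘 : Set (Subgroup G) := {X | X ≤ V ∧ A ≤ Subgroup.normalizer (X : Set G) ∧ X ≠ ⊥}
  let 𝓜 : Set (Subgroup G) := {X | Minimal (· ∈ 𝓘) X}
  have hconjI : ∀ X ∈ 𝓘, ∀ h ∈ H, MulAut.conj h • X ∈ 𝓘 := by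
    rintro X ⟨h1, h2, h3⟩ h hh
    refine ⟨H2.conj_smul_le_of_mem_normalizer h1 (hHV hh), ?_, ?_⟩
    · rw [H1.conj_smul_eq_map, ← H10.conj_normalizer, ← H10.mem_normalizer_iff_conj_eq.1 (hAn hh)]
      exact Subgroup.map_mono h2
    · rwa [H1.conj_smul_eq_map, Ne, Subgroup.map_eq_bot_iff_of_injective _ (H10.conj_injective h)]
  have hconjM : ∀ X ∈ 𝓜, ∀ h ∈ H, MulAut.conj h • X ∈ 𝓜 := by
    intro X hX h hh
    refine ⟨hconjI X hX.1 h hh, fun Y hY hle => ?_⟩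
    have h1 := hX.2 (hconjI Y hY h⁻¹ (H.inv_mem hh)) (by
      rw [map_inv, ← Subgroup.pointwise_smul_le_pointwise_smul_iff (a := MulAut.conj h),
        smul_inv_smul]; exact hle)
    rw [map_inv, ← Subgroup.pointwise_smul_le_pointwise_smul_iff (a := MulAut.conj h),
        smul_inv_smul] at h1
    exact h1
  have hS : sSup 𝓜 = V := by
    have hSV : sSup 𝓜 ≤ V := sSup_le fun X hX => hX.1.1
    obtain ⟨W, hWV, hHW, h1, h2⟩ := hss (sSup 𝓜) hSV
      (fun h hh => H2.mem_normalizer_sSup fun X hX => hconjM X hX h hh)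
    by_cases hW : W = ⊥
    · rwa [hW, sup_bot_eq] at h2
    · obtain ⟨X, hXW, hX⟩ := (Set.toFinite 𝓘).exists_le_minimal (a := W) ⟨hWV, hAH.trans hHW, hW⟩
      exact absurd (le_bot_iff.1 (h1 ▸ le_inf (le_sSup (s := 𝓜) hX) hXW)) hX.1.2.2
  obtain ⟨W, -, hW⟩ := (Set.toFinite {W : Subgroup G | W ≤ V ∧ A ≤ Subgroup.normalizer (W : Set G) ∧
    U ⊓ W = ⊥}).exists_le_maximal (a := ⊥)
    ⟨bot_le, by rw [Subgroup.normalizer_eq_top]; exact le_top, inf_bot_eq U⟩
  obtain ⟨hWV, hAW, hUW⟩ := hW.1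
  refine ⟨W, hWV, hAW, hUW, le_antisymm (sup_le hUV hWV) ?_⟩
  rw [← hS]
  refine sSup_le fun X hX => ?_
  by_cases h0 : X ⊓ (U ⊔ W) = ⊥
  · have h1 := hW.2 (y := W ⊔ X) ⟨sup_le hWV hX.1.1, H1.le_normalizer_sup hAW hX.1.2.1, ?_⟩ le_sup_left
    · exact (le_sup_right.trans h1).trans le_sup_right
    · rw [eq_bot_iff]
      rintro u ⟨hu1, hu2⟩
      obtain ⟨w, hw, x, hx, rfl⟩ := (H1.mem_sup_of_le_normalizer_left (hn _ _ hX.1.1 hWV)).1 hu2
      have h2 : x ∈ X ⊓ (U ⊔ W) := ⟨hx, by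
        have := Subgroup.mul_mem _ (Subgroup.mem_sup_right (S := U) (W.inv_mem hw))
          (Subgroup.mem_sup_left hu1)
        simpa using this⟩
      rw [h0, Subgroup.mem_bot] at h2
      rw [h2, mul_one] at hu1 ⊢
      rw [← hUW]; exact ⟨hu1, hw⟩
  · exact (hX.2 (y := X ⊓ (U ⊔ W)) ⟨inf_le_left.trans hX.1.1,
      H1.le_normalizer_inf hX.1.2.1 (H1.le_normalizer_sup hAU hAW), h0⟩ inf_le_left).trans inf_le_right

end Cfsg.Agent.S3735
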