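import Cfsg.Statements.S3736
import Cfsg.Agent.H1.HallHigman

set_option autoImplicit false
open Cfsg

namespace Cfsg.Agent.S3736

/-- The Hall–Higman reduction for a minimal non-trivial action. Let B, A and P be subgroups of a finite group with P a p-group, B normalizing P, and A a normal subgroup of B of order prime to p. Suppose A does not centralize P but centralizes every proper B-invariant subgroup of P. Then [P, A] = P; P is elementary abelian or special; B acts irreducibly on P/Φ(P), that is, the only B-invariant subgroups of P containing Φ(P) are Φ(P) and P; and if p is odd then every element of P has order dividing p. -/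
theorem result {X : Type*} [Group X] [Finite X] {p : ℕ} [Fact p.Prime] (B A P : Subgroup X) (hP : IsPGroup p P) (hBP : B ≤ Subgroup.normalizer (P : Set X)) (hAB : A ≤ B) (hAn : B ≤ Subgroup.normalizer (A : Set X)) (hAp : (Nat.card A).Coprime p) (hnt : ⁅P, A⁆ ≠ ⊥) (hmin : ∀ U : Subgroup X, U < P → B ≤ Subgroup.normalizer (U : Set X) → ⁅U, A⁆ = ⊥) : ⁅P, A⁆ = P ∧ (Cfsg.IsElementaryAbelian p P ∨ Cfsg.IsSpecial p ↥P) ∧ (∀ U : Subgroup X, (frattini ↥P).map P.subtype ≤ U → U ≤ P → B ≤ Subgroup.normalizer (U : Set X) → U = (frattini ↥P).map P.subtype ∨ U = P) ∧ (p ≠ 2 → ∀ x ∈ P, x ^ p = 1) := by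
  obtain ⟨h1, h2, h3, h4, h5, h6⟩ := H1.hall_higman_reduction hP hBP hAB hAn hAp hnt hmin
  refine ⟨h1, h5.imp (fun h => ⟨h, fun x hx => ?_⟩) fun h => ?_, fun U hU hUP hBU => ?_, h6⟩
  · have h7 := H1.pow_mem_map_frattini hP hx
    rwa [h3, Subgroup.commutator_eq_bot_iff_le_centralizer.mpr 
      (Subgroup.le_centralizer_iff_isMulCommutative.mpr h),
      Subgroup.mem_bot] at h7
  · have h7 : (Subgroup.center P).map P.subtype = P ⊓ Subgroup.centralizer (P : Set X) := by
      ext x
      constructor
      · rintro ⟨y, hy, rfl⟩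
        exact ⟨y.2, fun z hz => congrArg Subtype.val (Subgroup.mem_center_iff.mp hy ⟨z, hz⟩)⟩
      · rintro ⟨hx, hx'⟩
        exact ⟨⟨x, hx⟩, Subgroup.mem_center_iff.mpr fun z => Subtype.ext (hx' z z.2), rfl⟩
    refine ⟨hP, Subgroup.map_injective P.subtype_injective ?_,
      Subgroup.map_injective P.subtype_injective ?_⟩
    · rw [h3, h7, h]
    · rw [Subgroup.map_subtype_commutator, h7, h]
  · refine or_iff_not_imp_right.mpr fun hne => le_antisymm ?_ hU
    rw [h3, ← h2]
    exact le_inf hUP (Subgroup.commutator_eq_bot_iff_le_centralizer.mp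
      (hmin U (hUP.lt_of_ne hne) hBU))

end Cfsg.Agent.S3736
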