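import Cfsg.Statements.S3740
import Cfsg.Agent.H12.DicksonSL
import Cfsg.Agent.H9.FF2
import Cfsg.Agent.L0.Sup
import Cfsg.Agent.H1.Coprime

set_option autoImplicit false
open Cfsg

namespace Cfsg.Agent.S3740

open Subgroup Cfsg.Agent.H24 Cfsg.Agent.H12
open scoped MatrixGroups commutatorElement

theorem quat_card {R : Type*} [Group R] [Finite R] (hR : IsPGroup 2 R) (h : ¬ IsPGroup 2 (MulAut R))
    (h1 : IsCyclic R ∨ ∃ k : ℕ, 1 ≤ k ∧ Nonempty (R ≃* QuaternionGroup (2 ^ k))) : Nonempty (R ≃* QuaternionGroup 2) := by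
  have hm : IsMetacyclic R := by
    rcases h1 with h1 | ⟨k, -, ⟨e⟩⟩
    · exact ⟨⊤, inferInstance, inferInstance, isCyclic_of_surjective _ (QuotientGroup.mk'_surjective _)⟩
    · have i : (zpowers (e.symm (QuaternionGroup.a 1))).index = 2 := by
        have := (zpowers (e.symm (QuaternionGroup.a 1))).card_mul_index
        rw [Nat.card_zpowers, MulEquiv.orderOf_eq, QuaternionGroup.orderOf_a_one, Nat.card_congr e.toEquiv,
          Nat.card_eq_fintype_card, QuaternionGroup.card] at this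
        exact Nat.eq_of_mul_eq_mul_left (by positivity : 0 < 2 * 2 ^ k) (by omega)
      haveI := normal_of_index_eq_two i
      exact ⟨_, this, inferInstance, isCyclic_of_prime_card (p := 2) i⟩
  rcases L0.autT_meta hR hm with h2 | h2 | ⟨n, hn, ⟨f⟩⟩
  · exact absurd h2.isPGroup h
  · exact h2.2
  rcases h1 with h1 | ⟨k, hk, ⟨e⟩⟩
  · have := (coprime_card_of_isCyclic_prod _ _ (cyc := (f.isCyclic.1 h1)))
    simp at this
    omega
  · have := (e.symm.trans f).injective.eq_iff.1 ((map_mul _ (QuaternionGroup.a 1) (QuaternionGroup.xa 0)).trans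
      ((mul_comm _ _).trans (map_mul _ _ _).symm))
    simp only [QuaternionGroup.a_mul_xa, QuaternionGroup.xa_mul_a, QuaternionGroup.xa.injEq, zero_sub, zero_add] at this
    have h3 : ((2 : ℕ) : ZMod (2 * 2 ^ k)) = 0 := by push_cast; linear_combination -this
    have := Nat.le_of_dvd two_pos ((ZMod.natCast_eq_zero_iff _ _).1 h3)
    have := Nat.one_lt_two_pow (show k ≠ 0 by omega)
    omega

variable {F : Type} [Field F] [Fintype F] {p : ℕ} [Fact p.Prime] [CharP F p]

theorem cent {a g : SL(2, F)} {x : P1 F} (ha : a ∈ rootSL x) (h1 : a ≠ 1) (h : Commute g a) : g ^ (2 * p) = 1 := by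
  obtain ⟨k, rfl⟩ := MulAction.exists_smul_eq SL(2, F) (inf F) x
  obtain ⟨b, hb⟩ := mem_rootSL_inf.1 (mem_rootSL_smul.1 ha)
  have b0 : b ≠ 0 := fun e => h1 (by rw [e, upper_zero] at hb; simpa [mul_assoc, inv_mul_eq_one] using hb)
  have h2 : Commute (k⁻¹ * g * k) (upper b) := hb ▸ (by simpa using h.map (MulAut.conj k⁻¹))
  suffices (k⁻¹ * g * k) ^ 2 ∈ rootSL (inf F) by
    have := pow_char_of_mem_rootSL p this
    rw [← pow_mul, show k⁻¹ * g * k = k⁻¹ * g * k⁻¹⁻¹ by simp, conj_pow, conj_eq_one_iff] at this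
    exact this
  generalize k⁻¹ * g * k = u at h2
  have e := congrArg (fun M : SL(2, F) => (M : Matrix (Fin 2) (Fin 2) F)) h2.eq
  have e0 := congrFun (congrFun e 0) 0
  have e1 := congrFun (congrFun e 0) 1
  have d := u.det_coe
  rw [Matrix.det_fin_two] at d
  simp [Matrix.mul_apply, Fin.sum_univ_two, b0] at e0 e1
  have e2 : u.1 0 0 = u.1 1 1 := mul_left_cancel₀ b0 (by linear_combination e1)
  refine mem_rootSL_inf.2 ⟨2 * u.1 0 0 * u.1 0 1, Matrix.SpecialLinearGroup.ext _ _ fun i j => ?_⟩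
  fin_cases i <;> fin_cases j <;> simp [sq, Matrix.mul_apply, Fin.sum_univ_two, e0] <;> grind

theorem key (hp : p ≠ 2) {a : SL(2, F)} {x : P1 F} (ha : a ∈ rootSL x) {R : Subgroup SL(2, F)}
    (hR : (Nat.card R).Coprime p) (haR : a ∈ 𝐍[R]) (hnt : ⁅R, zpowers a⁆ ≠ ⊥) :
    ∃ f : SL(2, ZMod p) →* SL(2, F), Function.Injective f ∧ f.range ≤ R ⊔ zpowers a := by
  have a1 : a ≠ 1 := fun e => hnt (by simp [e])
  obtain ⟨r, hr, h⟩ : ∃ r ∈ R, r • x ≠ x := by
    by_contra! c
    refine hnt (eq_bot_iff.2 ((le_inf (commutator_le_left_of_le_normalizer (zpowers_le.2 haR))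
      ((commutator_mono le_rfl (zpowers_le.2 ha)).trans (commutator_le_right_of_le_normalizer fun r hr =>
        mem_normalizer_rootSL.2 (c r hr)))).trans (inf_eq_bot_of_coprime ?_).le))
    obtain ⟨k, hk⟩ := IsPGroup.iff_card.1 (isPGroup_rootSL p x)
    rw [hk]; exact hR.pow_right k
  have am : a ∈ R ⊔ zpowers a := mem_sup_right (mem_zpowers a)
  refine exists_sl2_prime_le p hp h (fun e => a1 ?_) fun e => a1 (mem_bot.1 (e.le ⟨am, ha⟩))
  exact conj_eq_one_iff.1 (mem_bot.1 (e.le ⟨Subgroup.mul_mem _ (Subgroup.mul_mem _ (mem_sup_left hr) am) (Subgroup.inv_mem _ (mem_sup_left hr)),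
    mem_rootSL_smul.2 (by simpa [mul_assoc] using ha)⟩))



/-- Let F be a finite field of odd characteristic p and let a be a p-element of SL₂(F) normalizing a subgroup R of order prime to p with [R, a] ≠ 1. Then p = 3, R is a quaternion group of order 8, and R⟨a⟩ is isomorphic to SL₂(3). -/
theorem result (F : Type) [Field F] [Fintype F] {p : ℕ} [Fact p.Prime] [CharP F p] (hp : p ≠ 2) (a : Matrix.SpecialLinearGroup (Fin 2) F) (ha : IsPGroup p ↥(Subgroup.zpowers a)) (R : Subgroup (Matrix.SpecialLinearGroup (Fin 2) F)) (hR : (Nat.card R).Coprime p) (haR : a ∈ Subgroup.normalizer (R : Set (Matrix.SpecialLinearGroup (Fin 2) F))) (hnt : ⁅R, Subgroup.zpowers a⁆ ≠ ⊥) : p = 3 ∧ Nonempty (↥R ≃* QuaternionGroup 2) ∧ Nonempty (↥(R ⊔ Subgroup.zpowers a) ≃* Matrix.SpecialLinearGroup (Fin 2) (ZMod 3)) := by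
  obtain ⟨x, hx⟩ := le_rootSL_of_isPGroup p ha
  have ax := hx (mem_zpowers a)
  have a1 : a ≠ 1 := fun e => hnt (by simp [e])
  have oa : Nat.card (zpowers a) = p := by
    rw [Nat.card_zpowers]; exact orderOf_eq_prime (pow_char_of_mem_rootSL p ax) a1
  have cs : ∀ T : Subgroup SL(2, F), (Nat.card T).Coprime p → a ∈ 𝐍[T] →
      Nat.card (T ⊔ zpowers a : Subgroup _) = Nat.card T * p := fun T h1 h2 => by
    have := card_sup_mul_card_inf (zpowers_le.2 h2 : zpowers a ≤ 𝐍[T])
    rw [inf_eq_bot_of_coprime (oa ▸ h1.symm), card_bot, mul_one, oa, sup_comm] at this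
    rw [this, mul_comm]
  obtain ⟨f, f1, f2⟩ := key hp ax hR haR hnt
  have p3 : p = 3 := by
    by_contra c
    have h4 : 4 ≤ p := by have := (Fact.out : p.Prime).two_le; omega
    have h5 : f.range ≤ R := by
      rw [MonoidHom.range_eq_map, ← commutator_SL_fin_eq_top (F := ZMod p) 2 le_rfl fun _ => by simpa using h4,
        commutator_def, map_commutator, ← MonoidHom.range_eq_map]
      refine (commutator_mono f2 f2).trans ?_
      have hn : R ⊔ zpowers a ≤ 𝐍[R] := sup_le le_normalizer (zpowers_le.2 haR)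
      refine commutator_sup_left_le le_normalizer (zpowers_le.2 haR) (commutator_le_left_of_le_normalizer hn)
        (commutator_sup_right_le le_normalizer (zpowers_le.2 haR) (commutator_le_right_of_le_normalizer (zpowers_le.2 haR)) ?_)
      exact (commutator_eq_bot_iff_le_centralizer.2 (le_centralizer _)).le.trans bot_le
    have := card_dvd_of_le h5
    rw [← Nat.card_congr (MonoidHom.ofInjective f1).toEquiv, H9.card_SL2_zmod] at this
    exact (Fact.out : p.Prime).one_lt.ne' (hR.symm.eq_one_of_dvd ((dvd_mul_right _ _).trans this))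
  subst p3
  have h2 : IsPGroup 2 R := by
    refine IsPGroup.of_card (Nat.eq_prime_pow_of_unique_prime_dvd Nat.card_pos.ne' fun {r} hr hd => ?_)
    by_contra r2
    haveI := Fact.mk hr
    obtain ⟨T, hT, hn⟩ := H1.exists_invariant_isSylowIn r (zpowers_le.2 haR) (oa ▸ hR.symm) (Or.inl (H1.isSolvable_zpowers a))
    have c1 := hR.coprime_dvd_left (card_dvd_of_le hT.le)
    have c2 : r ∣ Nat.card T := by
      rw [← card_mul_relIndex hT.le] at hd
      exact (hr.dvd_mul.1 hd).resolve_right hT.not_dvd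
    by_cases c : ⁅T, zpowers a⁆ = ⊥
    · obtain ⟨g, hg⟩ := exists_prime_orderOf_dvd_card' r c2
      have := orderOf_dvd_of_pow_eq_one (cent (p := 3) ax a1 (commutatorElement_eq_one_iff_commute.1
        (mem_bot.1 (c.le (commutator_mem_commutator g.2 (mem_zpowers a))))))
      rw [orderOf_coe, hg] at this
      rcases hr.dvd_mul.1 this with h | h
      · exact r2 ((Nat.prime_dvd_prime_iff_eq hr Nat.prime_two).1 h)
      · exact hr.one_lt.ne' ((c1.coprime_dvd_left c2).eq_one_of_dvd h)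
    · obtain ⟨f, f1, f2⟩ := key hp ax c1 (hn (mem_zpowers a)) c
      have := card_dvd_of_le f2
      obtain ⟨k, hk⟩ := IsPGroup.iff_card.1 hT.isPGroup
      rw [← Nat.card_congr (MonoidHom.ofInjective f1).toEquiv, H9.card_SL2_zmod, cs T c1 (hn (mem_zpowers a)), hk] at this
      have := (Nat.prime_two.dvd_mul.1 ((show 2 ∣ _ by norm_num).trans this)).resolve_right (by norm_num)
      exact r2 ((Nat.prime_dvd_prime_iff_eq Nat.prime_two hr).1 (Nat.prime_two.dvd_of_dvd_pow this)).symm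
  have h3 : ¬ IsPGroup 2 (MulAut R) := fun c => by
    obtain ⟨k, hk⟩ := IsPGroup.iff_orderOf.1 c (R.normalizerMonoidHom ⟨a, haR⟩)
    have h3 := orderOf_map_dvd R.normalizerMonoidHom ⟨a, haR⟩
    rw [hk, orderOf_mk, ← Nat.card_zpowers, oa] at h3
    rw [Nat.Coprime.eq_one_of_dvd (Nat.Coprime.pow_left k (by norm_num)) h3, orderOf_eq_one_iff, ← MonoidHom.mem_ker,
      normalizerMonoidHom_ker] at hk
    exact hnt (commutator_eq_bot_iff_le_centralizer.2 (le_centralizer_iff.2 (zpowers_le.2 hk)))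
  have h3 : ¬ IsPGroup 2 (MulAut R) := fun c => by
    obtain ⟨k, hk⟩ := IsPGroup.iff_orderOf.1 c (R.normalizerMonoidHom ⟨a, haR⟩)
    have h3 := orderOf_map_dvd R.normalizerMonoidHom ⟨a, haR⟩
    rw [hk, orderOf_mk, ← Nat.card_zpowers, oa] at h3
    rw [Nat.Coprime.eq_one_of_dvd (Nat.Coprime.pow_left k (by norm_num)) h3, orderOf_eq_one_iff, ← MonoidHom.mem_ker,
      normalizerMonoidHom_ker] at hk
    exact hnt (commutator_eq_bot_iff_le_centralizer.2 (le_centralizer_iff.2 (zpowers_le.2 hk)))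
  obtain ⟨e⟩ := quat_card h2 h3 (isCyclic_or_quaternion_sl2 (two_ne_zero_of_char_ne 3 hp) R.subtype R.subtype_injective h2)
  refine ⟨rfl, ⟨e⟩, ⟨(MulEquiv.subgroupCongr (eq_of_le_of_card_le f2 ?_).symm).trans (MonoidHom.ofInjective f1).symm⟩⟩
  rw [cs R hR haR, Nat.card_congr e.toEquiv, ← Nat.card_congr (MonoidHom.ofInjective f1).toEquiv, H9.card_SL2_zmod,
    Nat.card_eq_fintype_card, QuaternionGroup.card]
  norm_num

end Cfsg.Agent.S3740
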