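import Cfsg.Statements.S3741
import Cfsg.Agent.H25.Misc1
import Cfsg.Agent.H1.SylowIn

set_option autoImplicit false
open Cfsg

namespace Cfsg.Agent.S3741

/-- Let A and B be subgroups of a finite p-group with [A, B] ≤ A ∩ B and [A, B] of order at most p. Then |A : C_A(B)| = |B : C_B(A)|. -/
theorem result {G : Type*} [Group G] [Finite G] {p : ℕ} [Fact p.Prime] (hG : IsPGroup p G) (A B : Subgroup G) (hAB : ⁅A, B⁆ ≤ A ⊓ B) (hcard : Nat.card ↥⁅A, B⁆ ≤ p) : (A ⊓ Subgroup.centralizer (B : Set G)).relIndex A = (B ⊓ Subgroup.centralizer (A : Set G)).relIndex B := by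
  have hp : p.Prime := Fact.out
  have hA : A ≤ Subgroup.normalizer ((⁅A, B⁆ : Subgroup G) : Set G) :=
    H10.le_normalizer_commutator Subgroup.le_normalizer
      (Subgroup.le_normalizer_iff_commutator_le_right.2 (hAB.trans inf_le_right))
  have hB : B ≤ Subgroup.normalizer ((⁅A, B⁆ : Subgroup G) : Set G) :=
    H10.le_normalizer_commutator
      (Subgroup.le_normalizer_iff_commutator_le_left.2 (hAB.trans inf_le_left))
      Subgroup.le_normalizer
  obtain ⟨n, hn⟩ := IsPGroup.iff_card.1 (hG.to_subgroup ⁅A, B⁆)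
  have hn1 : n ≤ 1 := by
    rw [hn] at hcard
    by_contra h
    have := Nat.pow_lt_pow_right hp.one_lt (not_le.1 h)
    rw [pow_one] at this
    omega
  have hdvd : Nat.card ↥⁅A, B⁆ ∣ p := by
    rw [hn]; simpa using pow_dvd_pow p hn1
  have hcyc : IsCyclic ↥⁅A, B⁆ := isCyclic_of_card_dvd_prime hdvd
  have hc : ∀ X : Subgroup G, X ≤ Subgroup.normalizer ((⁅A, B⁆ : Subgroup G) : Set G) →
      X ≤ Subgroup.centralizer ((⁅A, B⁆ : Subgroup G) : Set G) := by
    intro X hX
    by_cases h0 : ⁅A, B⁆ = ⊥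
    · rw [h0]; intro x _; simp [Subgroup.mem_centralizer_iff]
    have h1 := H1.inf_centralizer_ne_bot_of_isPGroup (hG.to_subgroup _) (hG.to_subgroup X) hX h0
    have h2 : Nat.card ↥(⁅A, B⁆ ⊓ Subgroup.centralizer (X : Set G)) ∣ p :=
      (Subgroup.card_dvd_of_le inf_le_left).trans hdvd
    rcases (Nat.dvd_prime hp).1 h2 with h | h
    · exact absurd (Subgroup.card_eq_one.1 h) h1
    · have := H10.eq_of_le_of_card_le (inf_le_left : ⁅A, B⁆ ⊓ Subgroup.centralizer (X : Set G) ≤ _)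
        (h ▸ hcard)
      exact Subgroup.le_centralizer_iff.1 (this ▸ inf_le_right)
  rw [inf_comm A, inf_comm B, Subgroup.inf_relIndex_right, Subgroup.inf_relIndex_right]
  exact H25.relIndex_centralizer_eq_of_cyclic le_rfl (hc A hA) (hc B hB)

end Cfsg.Agent.S3741
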