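import Cfsg.Statements.S3746
import Cfsg.Agent.H10.Comp

set_option autoImplicit false
open Cfsg

namespace Cfsg.Agent.S3746

/-- Let Z ≤ Z(G) be a central subgroup of a finite group G and E a subgroup of G containing Z whose image E/Z is a component of G/Z (subnormal and quasisimple). Then the derived subgroup [E, E] is a component of G. -/
theorem result {G : Type*} [Group G] [Finite G] (Z : Subgroup G) (hZ : Z ≤ Subgroup.center G) [Z.Normal] (E : Subgroup G) (hZE : Z ≤ E) (hE : Cfsg.IsComponent (E.map (QuotientGroup.mk' Z))) : Cfsg.IsComponent ⁅E, E⁆ := by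
  have hk : ⁅E ⊓ (QuotientGroup.mk' Z).ker, E⁆ = ⊥ := by
    rw [QuotientGroup.ker_mk', Subgroup.commutator_eq_bot_iff_le_centralizer]
    intro x hx
    rw [Subgroup.mem_centralizer_iff]
    intro y _
    exact (Subgroup.mem_center_iff.1 (hZ hx.2)) y
  refine ⟨?_, (H10.isQuasisimple_commutator_of_map _ hk hE.2).2.2⟩
  have h1 : H10.SubnormalIn E ⊤ := by
    have := (H10.subnormalIn_top.2 hE.1).comap (QuotientGroup.mk' Z)
    rwa [Subgroup.comap_map_eq, QuotientGroup.ker_mk', sup_eq_left.2 hZE, Subgroup.comap_top] at this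
  refine H10.subnormalIn_top.1 (H10.SubnormalIn.step (B := E) ?_ ?_ h1)
  · exact H10.commutator_le_left_of_le_normalizer Subgroup.le_normalizer
  · exact H10.le_normalizer_commutator Subgroup.le_normalizer Subgroup.le_normalizer

end Cfsg.Agent.S3746
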