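import Cfsg.Statements.S3747
import Cfsg.Agent.H10.Comp
import Cfsg.Agent.H25.Misc1
import Cfsg.Agent.H2.Basic

set_option autoImplicit false
open Cfsg

namespace Cfsg.Agent.S3747

theorem part1 {G : Type*} [Group G] [Finite G] (K : Subgroup G) (hK : Cfsg.IsComponent K)
    (hZ : K ⊓ Subgroup.centralizer (K : Set G) = ⊥) :
    (Subgroup.normalClosure (K : Set G) ≠ ⊥ ∧ ∀ N : Subgroup G, N.Normal →
      N ≤ Subgroup.normalClosure (K : Set G) → N = ⊥ ∨ N = Subgroup.normalClosure (K : Set G)) := by
  have hK' := H10.compOf_top.2 hK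
  have hle : K ≤ Subgroup.normalClosure (K : Set G) := Subgroup.le_normalClosure
  refine ⟨fun h => hK'.ne_bot (le_bot_iff.1 (h ▸ hle)), fun N hN hNle => ?_⟩
  rcases hK'.le_or_of_normalizes (U := N) le_top
    (by rw [Subgroup.normalizer_eq_top N]; exact le_top) with h | h
  · exact Or.inr (le_antisymm hNle (Subgroup.normalClosure_le_normal h))
  left
  set S : Set (Subgroup G) := {L | ∃ g : G, L = K.map (MulAut.conj g).toMonoidHom} with hS
  have hcomp : ∀ L ∈ S, H10.CompOf L ⊤ := by
    rintro _ ⟨g, rfl⟩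
    exact hK'.conj (by rw [Subgroup.normalizer_eq_top]; trivial)
  have h1 := H25.sSup_inf_centralizer_eq_bot (Set.toFinite S)
    (fun A hA B hB hne => (hcomp A hA).commutator_eq_bot (hcomp B hB) hne) (by
      rintro _ ⟨g, rfl⟩
      rw [← H10.conj_centralizer, ← Subgroup.map_inf _ _ _ (H10.conj_injective g), hZ,
        Subgroup.map_bot])
  have h2 : Subgroup.normalClosure (K : Set G) ≤ sSup S := by
    rw [Subgroup.normalClosure, Subgroup.closure_le]
    intro z hz
    obtain ⟨b, hb, hc⟩ := Group.mem_conjugatesOfSet_iff.1 hz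
    obtain ⟨g, rfl⟩ := isConj_iff.1 hc
    exact (le_sSup (s := S) ⟨g, rfl⟩) (H10.conj_mem_conj g hb)
  have h3 : sSup S ≤ Subgroup.centralizer (N : Set G) := by
    refine sSup_le ?_
    rintro _ ⟨g, rfl⟩
    exact H10.conj_le_of_mem (Subgroup.commutator_eq_bot_iff_le_centralizer.1 h)
      (by rw [Subgroup.normalizer_eq_top]; trivial)
  rw [eq_bot_iff, ← h1]
  exact le_inf (hNle.trans h2) (Subgroup.le_centralizer_iff.1 h3)

/-- Let G be a finite group. (a) If K is a component of G with trivial centre, then the normal closure of K in G is a minimal normal subgroup of G. (b) If the Fitting subgroup of G is trivial, then the layer E(G) is generated by the minimal normal subgroups of G. -/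
theorem result {G : Type*} [Group G] [Finite G] : (∀ K : Subgroup G, Cfsg.IsComponent K → Subgroup.center ↥K = ⊥ → (Subgroup.normalClosure (K : Set G) ≠ ⊥ ∧ ∀ N : Subgroup G, N.Normal → N ≤ Subgroup.normalClosure (K : Set G) → N = ⊥ ∨ N = Subgroup.normalClosure (K : Set G))) ∧ (Cfsg.fittingSubgroup G = ⊥ → sSup {N : Subgroup G | N ≠ ⊥ ∧ N.Normal ∧ ∀ N' : Subgroup G, N'.Normal → N' ≤ N → N' = ⊥ ∨ N' = N} = Cfsg.layer G) := by
  constructor
  · intro K hK hZ
    refine part1 K hK ?_
    rw [← H10.center_map_subtype, hZ, Subgroup.map_bot]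
  · intro hF
    apply le_antisymm
    · refine sSup_le ?_
      rintro N ⟨h0, hN, hmin⟩
      have hall : ⊤ ≤ Subgroup.normalizer (N : Set G) := by rw [Subgroup.normalizer_eq_top N]
      rcases hmin (H10.FstarOf N) (H10.normal_of_normalizer_top (H10.le_normalizer_FstarOf hall))
        H10.FstarOf_le with h | h
      · exact absurd h (H10.FstarOf_ne_bot h0)
      · have := (H10.SubnormalIn.of_normal le_top hall).FstarOf_le
        rwa [h, H10.FstarOf_top, H10.fstar_def, hF, sup_bot_eq] at this
    · rw [H10.layer_le_iff]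
      intro K hK
      have hZ : K ⊓ Subgroup.centralizer (K : Set G) = ⊥ := by
        rw [eq_bot_iff, ← hF, ← H10.FitOf_top]
        exact (H10.subnormalIn_top.2 hK.1).center_le_FitOf
      obtain ⟨h1, h2⟩ := part1 K hK hZ
      exact Subgroup.le_normalClosure.trans (le_sSup ⟨h1, inferInstance, h2⟩)

end Cfsg.Agent.S3747
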