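import Cfsg.Statements.S3748
import Cfsg.Agent.H2.Subnormal
import Cfsg.Agent.H1.Cores

set_option autoImplicit false
open Cfsg

namespace Cfsg.Agent.S3748

open scoped Pointwise

/-- Call a proper subgroup M of G primitive when M = N_G(N) for every non-trivial normal subgroup N of M. If M is a primitive subgroup of the finite group G, then no non-trivial subnormal subgroup of G is contained in M; in particular M ∩ F(G) = 1. -/
theorem result {G : Type*} [Group G] [Finite G] (M : Subgroup G) (hM : M ≠ ⊤) (hprim : ∀ N : Subgroup G, N ≤ M → M ≤ Subgroup.normalizer (N : Set G) → N ≠ ⊥ → Subgroup.normalizer (N : Set G) = M) : (∀ L : Subgroup G, L.IsSubnormal → L ≤ M → L = ⊥) ∧ M ⊓ Cfsg.fittingSubgroup G = ⊥ := by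
  have key : ∀ L : Subgroup G, L.IsSubnormal → L ≤ M → L = ⊥ := by
    intro L hL hLM
    by_contra hne
    have hconj : ∀ U : Subgroup G, U.IsSubnormal → ∀ g : G, (MulAut.conj g • U).IsSubnormal := by
      intro U hU g
      have := H2.subnormalIn_conj (H10.subnormalIn_top.2 hU) g
      rw [H1.conj_smul_eq_iff_mem_normalizer.2
        (by rw [Subgroup.normalizer_eq_top]; trivial : g ∈ Subgroup.normalizer ((⊤ : Subgroup G) : Set G))] at this
      exact H10.subnormalIn_top.1 this
    obtain ⟨X, hX, hX0, hXn⟩ := H2.exists_not_mem_le_normalizer_sSup (V := ⊤)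
      (S := {U : Subgroup G | U.IsSubnormal}) (S₀ := {U : Subgroup G | U.IsSubnormal ∧ U ≤ M})
      (fun U hU => H10.subnormalIn_top.2 hU) (fun U hU g _ => hconj U hU g)
      ⟨fun U hU => hU.1, fun h => hM (top_le_iff.1 (h Subgroup.IsSubnormal.top).2)⟩
    have h1 := hprim (sSup {U : Subgroup G | U.IsSubnormal ∧ U ≤ M}) (sSup_le fun U hU => hU.2)
      (fun m hm => H2.mem_normalizer_sSup fun A hA => ⟨hconj A hA.1 m,
        H2.conj_smul_le_of_mem_normalizer hA.2 (Subgroup.le_normalizer hm)⟩)
      (fun h => hne (le_bot_iff.1 (h ▸ le_sSup ⟨hL, hLM⟩)))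
    exact hX0 ⟨hX, h1 ▸ hXn⟩
  refine ⟨key, key _ ?_ inf_le_left⟩
  refine (H2.subnormalIn_of_isNilpotent (H1.isNilpotent_fittingSubgroup G) inf_le_right).isSubnormal ?_
  exact H10.subnormalIn_top.1 (H10.SubnormalIn.of_normal le_top (by rw [Subgroup.normalizer_eq_top]))

end Cfsg.Agent.S3748
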