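import Cfsg.Statements.S3749
import Cfsg.Agent.H1.Coprime
import Cfsg.Agent.H10.Cores

set_option autoImplicit false
open Cfsg

namespace Cfsg.Agent.S3749

open scoped Pointwise

/-- Call a proper subgroup M of G primitive when M = N_G(N) for every non-trivial normal subgroup N of M. Let M be a primitive subgroup of the finite group G, p a prime with O_p(M) ≠ 1, and N a normal subgroup of G with M ∩ N = 1. Then p does not divide the order of N; for every prime q there is exactly one Sylow q-subgroup of N normalized by M; and if the order of N has at least two prime divisors then M is not a maximal subgroup of G. -/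
theorem result {G : Type*} [Group G] [Finite G] (M : Subgroup G) (hM : M ≠ ⊤) (hprim : ∀ N : Subgroup G, N ≤ M → M ≤ Subgroup.normalizer (N : Set G) → N ≠ ⊥ → Subgroup.normalizer (N : Set G) = M) {p : ℕ} [Fact p.Prime] (hOp : Cfsg.pCore p ↥M ≠ ⊥) (N : Subgroup G) [N.Normal] (hMN : M ⊓ N = ⊥) : ¬ p ∣ Nat.card N ∧ (∀ q : ℕ, [Fact q.Prime] → ∃! Q : Sylow q ↥N, M ≤ Subgroup.normalizer ((Q : Subgroup ↥N).map N.subtype : Set G)) ∧ ((∃ q r : ℕ, q.Prime ∧ r.Prime ∧ q ≠ r ∧ q ∣ Nat.card N ∧ r ∣ Nat.card N) → ¬ IsCoatom M) := by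
  set P := H10.OpOf p M with hP
  have hPM : P ≤ M := H10.OpOf_le
  have hPp : IsPGroup p P := H10.OpOf_isPGroup
  have hPne : P ≠ ⊥ := fun h => hOp ((H10.OpOf_eq_bot_iff M).1 h)
  have hMP : M ≤ Subgroup.normalizer (P : Set G) := H10.le_normalizer_OpOf Subgroup.le_normalizer
  have hNP := hprim P hPM hMP hPne
  have hC : N ⊓ Subgroup.centralizer (P : Set G) = ⊥ := by
    rw [eq_bot_iff, ← hMN]
    exact le_inf (inf_le_right.trans (hNP ▸ Subgroup.centralizer_le_normalizer _)) inf_le_left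
  have hall : ∀ A : Subgroup G, A ≤ Subgroup.normalizer (N : Set G) := fun A => by
    rw [Subgroup.normalizer_eq_top N]; exact le_top
  have h1 : ¬ p ∣ Nat.card N := by
    intro hd
    obtain ⟨T, hT, hPT⟩ := H1.exists_isSylowIn_ge (le_top (a := P)) hPp
    have hS := hT.inf (le_top (a := N)) (hall T)
    have := H1.inf_centralizer_ne_bot_of_isPGroup hS.isPGroup hPp
      (H1.le_normalizer_inf (hPT.trans Subgroup.le_normalizer) (hall P)) (hS.ne_bot hd)
    apply this
    rw [eq_bot_iff, ← hC]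
    exact inf_le_inf_right _ inf_le_right
  have hcop : (Nat.card P).Coprime (Nat.card N) := H1.coprime_card_of_isPGroup hPp h1
  have hsol : Group.IsSolvable P ∨ Group.IsSolvable N := Or.inl (H1.isSolvable_of_isPGroup hPp)
  have huniq : ∀ (q : ℕ) [Fact q.Prime] (Q R : Subgroup G), H1.IsSylowIn q Q N →
      P ≤ Subgroup.normalizer (Q : Set G) → H1.IsSylowIn q R N →
      P ≤ Subgroup.normalizer (R : Set G) → Q = R := by
    intro q _ Q R hQ hPQ hR hPR
    obtain ⟨c, hc, hcQ⟩ := H1.exists_centralizer_conj_eq_of_isSylowIn (hall P) hcop hsol hQ hPQ hR hPR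
    rw [hC, Subgroup.mem_bot] at hc
    rw [← hcQ, hc, map_one, one_smul]
  have hex : ∀ (q : ℕ) [Fact q.Prime], ∃ Q : Subgroup G, H1.IsSylowIn q Q N ∧
      M ≤ Subgroup.normalizer (Q : Set G) := by
    intro q _
    obtain ⟨Q, hQ, hPQ⟩ := H1.exists_invariant_isSylowIn q (hall P) hcop hsol
    refine ⟨Q, hQ, fun m hm => ?_⟩
    rw [← H1.conj_smul_eq_iff_mem_normalizer]
    refine huniq q _ _ (hQ.conj_smul (hall ⊤ trivial)) ?_ hQ hPQ
    rw [H1.conj_smul_eq_map, ← H10.conj_normalizer, ← H10.mem_normalizer_iff_conj_eq.1 (hMP hm)]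
    exact Subgroup.map_mono hPQ
  refine ⟨h1, fun q _ => ?_, ?_⟩
  · obtain ⟨Q, hQ, hMQ⟩ := hex q
    obtain ⟨Q', rfl⟩ := hQ.exists_sylow
    refine ⟨Q', hMQ, fun R hR => ?_⟩
    have := huniq q _ _ (H1.isSylowIn_map_subtype R) (hPM.trans hR) hQ (hPM.trans hMQ)
    exact Sylow.ext (Subgroup.map_injective N.subtype_injective this)
  · rintro ⟨q, r, hq, hr, hqr, hqN, hrN⟩ hco
    have : Fact q.Prime := ⟨hq⟩
    obtain ⟨Q, hQ, hMQ⟩ := hex q
    have hQM : ¬ Q ≤ M := fun h => hQ.ne_bot hqN (by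
      rw [eq_bot_iff, ← hMN]; exact le_inf h hQ.le)
    have htop : Q ⊔ M = ⊤ := by
      refine hco.2 _ (lt_of_le_of_ne le_sup_right fun h => hQM ?_)
      rw [h]; exact le_sup_left
    have h2 := H1.sup_inf_of_le_normalizer hMQ hQ.le
    rw [htop, top_inf_eq, hMN, sup_bot_eq] at h2
    have h3 := hQ.isPGroup
    rw [← h2] at h3
    obtain ⟨n, hn⟩ := IsPGroup.iff_card.1 h3
    rw [hn] at hrN
    exact hqr ((Nat.prime_dvd_prime_iff_eq hr hq).1 (hr.dvd_of_dvd_pow hrN)).symm

end Cfsg.Agent.S3749
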