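import Cfsg.Statements.S3750
import Cfsg.Agent.H10.Comp
import Cfsg.Agent.S3748

set_option autoImplicit false
open Cfsg

namespace Cfsg.Agent.S3750

/-- Call a proper subgroup M of G primitive when M = N_G(N) for every non-trivial normal subgroup N of M. Let M be a primitive subgroup of the finite group G and N a normal subgroup of G with M ∩ F*(N) ≠ 1. Then F(G) = 1 and F*(N) = F*(G) = E(G); in particular every minimal normal subgroup of G is contained in N. -/
theorem result {G : Type*} [Group G] [Finite G] (M : Subgroup G) (hM : M ≠ ⊤) (hprim : ∀ N : Subgroup G, N ≤ M → M ≤ Subgroup.normalizer (N : Set G) → N ≠ ⊥ → Subgroup.normalizer (N : Set G) = M) (N : Subgroup G) [N.Normal] (hMF : M ⊓ (Cfsg.generalizedFittingSubgroup ↥N).map N.subtype ≠ ⊥) : Cfsg.fittingSubgroup G = ⊥ ∧ (Cfsg.generalizedFittingSubgroup ↥N).map N.subtype = Cfsg.generalizedFittingSubgroup G ∧ Cfsg.generalizedFittingSubgroup G = Cfsg.layer G ∧ ∀ K : Subgroup G, K.Normal → K ≠ ⊥ → (∀ K' : Subgroup G, K'.Normal → K' ≤ K → K' = ⊥ ∨ K' = K) →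 K ≤ N := by
  obtain ⟨h1, h2⟩ := Cfsg.Agent.S3748.result M hM hprim
  change M ⊓ H10.FstarOf N ≠ ⊥ at hMF
  change _ ∧ H10.FstarOf N = _ ∧ _
  have hall : ∀ A : Subgroup G, A ≤ Subgroup.normalizer (N : Set G) := fun A => by
    rw [Subgroup.normalizer_eq_top N]; exact le_top
  have hNs : H10.SubnormalIn N ⊤ := H10.SubnormalIn.of_normal le_top (hall ⊤)
  have hD := hprim (M ⊓ H10.FstarOf N) inf_le_left
    (H10.le_normalizer_inf Subgroup.le_normalizer (H10.le_normalizer_FstarOf (hall M))) hMF
  have hC : ∀ K : Subgroup G, K.IsSubnormal → ⁅K, H10.FstarOf N⁆ = ⊥ → K = ⊥ := by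
    intro K hK hc
    refine h1 K hK ?_
    rw [← hD]
    exact H10.le_normalizer_of_commutator_eq_bot (H10.commutator_eq_bot_mono hc le_rfl inf_le_right)
  have hFN : H10.FitOf N = ⊥ := by
    by_contra hne
    have hZ := H2.inf_centralizer_ne_bot (H10.FitOf_nilpotent (H := N)) le_rfl
      Subgroup.le_normalizer hne
    apply hZ
    apply hC
    · refine H10.SubnormalIn.isSubnormal (H := ⊤) (H10.SubnormalIn.of_normal le_top ?_)
        Subgroup.IsSubnormal.top
      exact H10.le_normalizer_inf (H10.le_normalizer_FitOf (hall ⊤))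
        (H10.le_normalizer_centralizer (H10.le_normalizer_FitOf (hall ⊤)))
    · rw [H10.FstarOf_eq]
      apply H10.commutator_eq_bot_comm
      apply H10.commutator_sup_left_eq_bot
      · exact H10.commutator_eq_bot_mono H10.commutator_LayOf_FitOf le_rfl inf_le_left
      · apply H10.commutator_eq_bot_comm
        rw [Subgroup.commutator_eq_bot_iff_le_centralizer]
        exact inf_le_right
  have hE : H10.FstarOf N = H10.LayOf N := by rw [H10.FstarOf_eq, hFN, sup_bot_eq]
  have hF : Cfsg.fittingSubgroup G = ⊥ := by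
    apply hC
    · exact H10.subnormalIn_top.1 (H10.SubnormalIn.of_normal le_top
        (by rw [Subgroup.normalizer_eq_top]))
    · rw [hE]
      apply H10.commutator_eq_bot_comm
      refine H10.commutator_eq_bot_mono H10.commutator_layer_fitting ?_ le_rfl
      rw [← H10.LayOf_top]
      exact hNs.LayOf_le
  have hL : H10.LayOf N = Cfsg.layer G := by
    apply le_antisymm
    · rw [← H10.LayOf_top]; exact hNs.LayOf_le
    · rw [H10.layer_le_iff]
      intro K hK
      have hK' := H10.compOf_top.2 hK
      rcases hK'.le_or_of_subnormal hNs with h | h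
      · exact (hK'.of_le h le_top).le_LayOf
      · exact absurd (hC K hK.1 (H10.commutator_eq_bot_mono h le_rfl H10.FstarOf_le)) hK'.ne_bot
  have hG : Cfsg.generalizedFittingSubgroup G = Cfsg.layer G := by
    rw [H10.fstar_def, hF, sup_bot_eq]
  refine ⟨hF, by rw [hE, hL, hG], hG, fun K hK hne hmin => ?_⟩
  rcases hmin (K ⊓ N) inferInstance inf_le_left with h | h
  · refine absurd (hC K (H10.subnormalIn_top.1 (H10.SubnormalIn.of_normal le_top
      (by rw [Subgroup.normalizer_eq_top]))) ?_) hne
    rw [eq_bot_iff, ← h]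
    exact (Subgroup.commutator_mono le_rfl H10.FstarOf_le).trans (Subgroup.commutator_le_inf K N)
  · rw [← h]; exact inf_le_right

end Cfsg.Agent.S3750
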