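import Cfsg.Statements.S3751
import Cfsg.Agent.H1.SylowIn
import Cfsg.Agent.H1.Cores
import Cfsg.Agent.H10.Cores

set_option autoImplicit false
open Cfsg

namespace Cfsg.Agent.S3751

open scoped Pointwise

def MaxLoc (p : ℕ) {G : Type*} [Group G] (M : Subgroup G) : Prop :=
  (∃ T : Subgroup G, IsPGroup p T ∧ T ≠ ⊥ ∧ M = Subgroup.normalizer (T : Set G)) ∧
  (∀ L : Subgroup G, (∃ T : Subgroup G, IsPGroup p T ∧ T ≠ ⊥ ∧
    L = Subgroup.normalizer (T : Set G)) → M ≤ L → L = M)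

variable {G : Type*} [Group G] [Finite G] {p : ℕ} [Fact p.Prime]

theorem exists_maxLoc {T : Subgroup G} (h : IsPGroup p T) (hne : T ≠ ⊥) :
    ∃ M, MaxLoc p M ∧ Subgroup.normalizer (T : Set G) ≤ M := by
  obtain ⟨M, hM, hmax⟩ := (Set.toFinite {L : Subgroup G | ∃ T : Subgroup G, IsPGroup p T ∧ T ≠ ⊥ ∧
    L = Subgroup.normalizer (T : Set G)}).exists_le_maximal (a := Subgroup.normalizer (T : Set G))
      ⟨T, h, hne, rfl⟩
  exact ⟨M, ⟨hmax.1, fun L hL hML => le_antisymm (hmax.2 hL hML) hML⟩, hM⟩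

omit [Finite G] [Fact p.Prime] in
theorem MaxLoc.conj {M : Subgroup G} (h : MaxLoc p M) (g : G) :
    MaxLoc p (M.map (MulAut.conj g).toMonoidHom) := by
  have key : ∀ (g : G) (L : Subgroup G), (∃ T : Subgroup G, IsPGroup p T ∧ T ≠ ⊥ ∧
      L = Subgroup.normalizer (T : Set G)) → ∃ T : Subgroup G, IsPGroup p T ∧ T ≠ ⊥ ∧
      L.map (MulAut.conj g).toMonoidHom = Subgroup.normalizer (T : Set G) := by
    rintro g L ⟨T, h1, h2, rfl⟩
    refine ⟨T.map (MulAut.conj g).toMonoidHom, h1.map _, ?_, H10.conj_normalizer g T⟩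
    rwa [Ne, Subgroup.map_eq_bot_iff_of_injective _ (H10.conj_injective g)]
  refine ⟨key g M h.1, fun L hL hle => ?_⟩
  have := h.2 _ (key g⁻¹ L hL) (by
    rw [← H10.conj_inv_conj M g]; exact Subgroup.map_mono hle)
  rw [← this, H10.conj_conj_inv]

theorem MaxLoc.centralizer_le (hloc : Cfsg.IsOfLocalCharacteristic p G) {M : Subgroup G}
    (h : MaxLoc p M) : Subgroup.centralizer (Cfsg.pCore p ↥M : Set ↥M) ≤ Cfsg.pCore p ↥M := by
  obtain ⟨T, h1, h2, rfl⟩ := h.1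
  exact hloc.2 T h1 h2

theorem MaxLoc.normalizer_eq (hloc : Cfsg.IsOfLocalCharacteristic p G) {M : Subgroup G}
    (h : MaxLoc p M) {A : Subgroup G} (hne : A ≠ ⊥) (hA : A ≤ M)
    (hn : M ≤ Subgroup.normalizer (A : Set G)) : Subgroup.normalizer (A : Set G) = M := by
  have hc : M ⊓ Subgroup.centralizer (H10.OpOf p M : Set G) ≤ H10.OpOf p M := by
    rw [H10.OpOf_def, ← H10.map_subtype_centralizer]
    exact Subgroup.map_mono (h.centralizer_le hloc)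
  have hMO : M ≤ Subgroup.normalizer (H10.OpOf p M : Set G) :=
    H10.le_normalizer_OpOf Subgroup.le_normalizer
  have h1 : H10.OpOf p A ≠ ⊥ := by
    intro h0
    have h2 : A ⊓ H10.OpOf p M = ⊥ := by
      rw [eq_bot_iff, ← h0]; exact H10.inf_OpOf_le hA
    have h3 : ⁅A, H10.OpOf p M⁆ = ⊥ := by
      rw [eq_bot_iff, ← h2]
      exact le_inf (H10.commutator_le_left_of_le_normalizer (H10.OpOf_le.trans hn))
        (H10.commutator_le_right_of_le_normalizer (hA.trans hMO))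
    have h4 : A ≤ H10.OpOf p M :=
      (le_inf hA (Subgroup.commutator_eq_bot_iff_le_centralizer.1 h3)).trans hc
    exact hne (by rwa [inf_eq_left.2 h4] at h2)
  have h2 := h.2 _ ⟨H10.OpOf p A, H10.OpOf_isPGroup, h1, rfl⟩ (H10.le_normalizer_OpOf hn)
  exact le_antisymm (h2 ▸ H10.normalizer_le_normalizer_OpOf) hn

omit [Fact p.Prime] [Finite G] in
theorem MaxLoc.ne_bot {M : Subgroup G} (h : MaxLoc p M) : M ≠ ⊥ := by
  obtain ⟨T, -, h2, h3⟩ := h.1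
  intro h0
  exact h2 (le_bot_iff.1 (h0 ▸ h3 ▸ Subgroup.le_normalizer))

theorem OpOf_le_sylow {T M : Subgroup G} (h : H1.IsSylowIn p T M) : H10.OpOf p M ≤ T :=
  h.le_of_le_normalizer H10.OpOf_le H10.OpOf_isPGroup
    (h.le.trans (H10.le_normalizer_OpOf Subgroup.le_normalizer))

theorem exists_pair (hloc : Cfsg.IsOfLocalCharacteristic p G) (n : ℕ) :
    ∀ (M₁ M₂ T : Subgroup G), MaxLoc p M₁ → MaxLoc p M₂ → M₁ ≠ M₂ → T ≤ M₁ ⊓ M₂ → IsPGroup p T →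
      T ≠ ⊥ → T.index = n → ∃ (L₁ L₂ S : Subgroup G), MaxLoc p L₁ ∧ MaxLoc p L₂ ∧ L₁ ≠ L₂ ∧
        H1.IsSylowIn p S L₁ ∧ H1.IsSylowIn p S L₂ := by
  induction n using Nat.strong_induction_on with
  | _ n ih =>
  intro M₁ M₂ T h₁ h₂ hne hT hTp hT0 hn
  obtain ⟨M₃, h₃, hN⟩ := exists_maxLoc hTp hT0
  -- if T is not Sylow in M, we get a larger p-subgroup of M normalizing T
  have big : ∀ M : Subgroup G, T ≤ M → ¬ H1.IsSylowIn p T M →
      ∃ U : Subgroup G, T < U ∧ U ≤ M ∧ IsPGroup p U ∧ U ≤ Subgroup.normalizer (T : Set G) := by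
    intro M hM hs
    obtain ⟨S, hS, hTS⟩ := H1.exists_isSylowIn_ge hM hTp
    have hlt : T < S := lt_of_le_of_ne hTS (fun h => hs (h ▸ hS))
    exact ⟨_, H1.lt_normalizer_inf_of_isNilpotent hS.isPGroup.isNilpotent hlt,
      inf_le_right.trans hS.le, hS.isPGroup.to_le inf_le_right, inf_le_left⟩
  have step : ∀ (L₁ L₂ U : Subgroup G), MaxLoc p L₁ → MaxLoc p L₂ → L₁ ≠ L₂ → U ≤ L₁ ⊓ L₂ →
      IsPGroup p U → T < U → ∃ (L₁ L₂ S : Subgroup G), MaxLoc p L₁ ∧ MaxLoc p L₂ ∧ L₁ ≠ L₂ ∧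
        H1.IsSylowIn p S L₁ ∧ H1.IsSylowIn p S L₂ := by
    intro L₁ L₂ U a1 a2 a3 a4 a5 a6
    refine ih U.index ?_ L₁ L₂ U a1 a2 a3 a4 a5 (fun h => hT0 (le_bot_iff.1 (h ▸ a6.le))) rfl
    rw [← hn]
    exact Subgroup.index_strictAnti a6
  have one : ∀ (L₁ L₂ : Subgroup G), MaxLoc p L₁ → T ≤ L₂ → H1.IsSylowIn p T L₁ →
      ¬ H1.IsSylowIn p T L₂ → ∃ (L₁ L₂ S : Subgroup G), MaxLoc p L₁ ∧ MaxLoc p L₂ ∧ L₁ ≠ L₂ ∧
        H1.IsSylowIn p S L₁ ∧ H1.IsSylowIn p S L₂ := by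
    intro L₁ L₂ a1 a2 a3 a4
    obtain ⟨U, b1, b2, b3, b4⟩ := big L₂ a2 a4
    obtain ⟨x, hxU, hxT⟩ := SetLike.exists_of_lt b1
    have hx1 : x ∉ L₁ := by
      intro hx
      have := a3.eq_of_le (U := U ⊓ L₁) (le_inf b1.le a3.le) inf_le_right (b3.to_le inf_le_left)
      exact hxT (this ▸ ⟨hxU, hx⟩)
    refine ⟨L₁, L₁.map (MulAut.conj x).toMonoidHom, T, a1, a1.conj x, fun h => hx1 ?_, a3, ?_⟩
    · rw [← a1.normalizer_eq hloc a1.ne_bot le_rfl Subgroup.le_normalizer,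
        H10.mem_normalizer_iff_conj_eq]
      exact h.symm
    · have := a3.map (MulAut.conj x).toMonoidHom
      rwa [H10.mem_normalizer_iff_conj_eq.1 (b4 hxU)] at this
  by_cases s1 : H1.IsSylowIn p T M₁
  · by_cases s2 : H1.IsSylowIn p T M₂
    · exact ⟨M₁, M₂, T, h₁, h₂, hne, s1, s2⟩
    · exact one M₁ M₂ h₁ (hT.trans inf_le_right) s1 s2
  · by_cases s2 : H1.IsSylowIn p T M₂
    · exact one M₂ M₁ h₂ (hT.trans inf_le_left) s2 s1
    · obtain ⟨U, b1, b2, b3, b4⟩ := big M₁ (hT.trans inf_le_left) s1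
      obtain ⟨V, c1, c2, c3, c4⟩ := big M₂ (hT.trans inf_le_right) s2
      by_cases e1 : M₁ = M₃
      · exact step M₂ M₃ V h₂ h₃ (fun h => hne (e1.trans h.symm)) (le_inf c2 (c4.trans hN)) c3 c1
      · exact step M₁ M₃ U h₁ h₃ e1 (le_inf b2 (b4.trans hN)) b3 b1

/-- Two distinct subgroups M₁, M₂ of G form a primitive pair when, for {i, j} = {1, 2}, every non-trivial normal subgroup A of M_i contained in M₁ ∩ M₂ satisfies N_{M_j}(A) = M₁ ∩ M₂; the pair has characteristic p when moreover C_{M_i}(O_p(M_i)) ≤ O_p(M_i) for both i and O_p(M₁)O_p(M₂) ≤ M₁ ∩ M₂. Let G be a finite group, p a prime dividing its order, with O_p(G) = 1 and every p-local subgroup of characteristic p. Then either G has a primitive pair of characteristic p, or every maximal p-local subgroup M of G is strongly p-embedded in G: M is a proper subgroup, p divides its order, and for every g ∉ M the order of M ∩ gMg⁻¹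 is prime to p. -/
theorem result {G : Type*} [Group G] [Finite G] {p : ℕ} [Fact p.Prime] (hloc : Cfsg.IsOfLocalCharacteristic p G) (hOp : Cfsg.pCore p G = ⊥) : (∃ M₁ M₂ : Subgroup G, M₁ ≠ M₂ ∧ (∀ A : Subgroup G, A ≠ ⊥ → A ≤ M₁ ⊓ M₂ → (M₁ ≤ Subgroup.normalizer (A : Set G) → M₂ ⊓ Subgroup.normalizer (A : Set G) = M₁ ⊓ M₂) ∧ (M₂ ≤ Subgroup.normalizer (A : Set G) → M₁ ⊓ Subgroup.normalizer (A : Set G) = M₁ ⊓ M₂)) ∧ Subgroup.centralizer (Cfsg.pCore p ↥M₁ : Set ↥M₁) ≤ Cfsg.pCore p ↥M₁ ∧ Subgroup.centralizer (Cfsg.pCore p ↥M₂ : Set ↥M₂) ≤ Cfsg.pCore p ↥M₂ ∧ (Cfsg.pCore p ↥M₁).map M₁.subtype ⊔ (Cfsg.pCore p ↥M₂).map M₂.subtype ≤ M₁ ⊓ M₂) ∨ (∀ M : Subgroup G, (∃ T : Subgroup G, IsPGroup p T ∧ T ≠ ⊥ ∧ M = Subgroup.normalizer (T : Set G)) → (∀ L : Subgroup G, (∃ T : Subgroup G, IsPGroup p T ∧ T ≠ ⊥ ∧ L = Subgroup.normalizer (T : Set G)) → M ≤ L → L = M) → M ≠ ⊤ ∧ p ∣ Nat.card M ∧ ∀ g : G, g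 ∉ M → ¬ p ∣ Nat.card ↥(M ⊓ M.map (MulAut.conj g).toMonoidHom)) := by
  by_cases hex : ∃ (L₁ L₂ S : Subgroup G), MaxLoc p L₁ ∧ MaxLoc p L₂ ∧ L₁ ≠ L₂ ∧
        H1.IsSylowIn p S L₁ ∧ H1.IsSylowIn p S L₂
  · obtain ⟨L₁, L₂, S, h₁, h₂, hne, s1, s2⟩ := hex
    refine Or.inl ⟨L₁, L₂, hne, fun A hA hle => ⟨fun h => ?_, fun h => ?_⟩,
      h₁.centralizer_le hloc, h₂.centralizer_le hloc, ?_⟩
    · rw [h₁.normalizer_eq hloc hA (hle.trans inf_le_left) h, inf_comm]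
    · rw [h₂.normalizer_eq hloc hA (hle.trans inf_le_right) h]
    · exact (sup_le (OpOf_le_sylow s1) (OpOf_le_sylow s2)).trans (le_inf s1.le s2.le)
  · right
    intro M h1 h2
    have hM : MaxLoc p M := ⟨h1, h2⟩
    obtain ⟨T, t1, t2, t3⟩ := h1
    refine ⟨fun h => ?_, ?_, fun g hg hd => hex ?_⟩
    · have : T.Normal := H10.normal_of_normalizer_top (by rw [← t3, h])
      exact t2 (le_bot_iff.1 (hOp ▸ H1.le_pCore t1))
    · have := (H1.exists_isSylowIn_ge (t3 ▸ Subgroup.le_normalizer : T ≤ M) t1)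
      obtain ⟨n, hn⟩ := IsPGroup.iff_card.1 t1
      have hn0 : n ≠ 0 := by
        rintro rfl
        exact t2 (Subgroup.card_eq_one.1 (by simpa using hn))
      exact (hn ▸ dvd_pow_self p hn0).trans
        (Subgroup.card_dvd_of_le (t3 ▸ Subgroup.le_normalizer : T ≤ M))
    · obtain ⟨S, hS⟩ := H1.exists_isSylowIn p (M ⊓ M.map (MulAut.conj g).toMonoidHom)
      refine exists_pair hloc _ M _ S hM (hM.conj g) (fun h => hg ?_) hS.le hS.isPGroup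
        (hS.ne_bot hd) rfl
      rw [← hM.normalizer_eq hloc hM.ne_bot le_rfl Subgroup.le_normalizer,
        H10.mem_normalizer_iff_conj_eq]
      exact h.symm

end Cfsg.Agent.S3751
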