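import Cfsg.Statements.S3752
import Cfsg.Agent.H10.Bender

set_option autoImplicit false
open Cfsg

namespace Cfsg.Agent.S3752

/-- Bender's Theorem on primitive pairs. Two distinct subgroups M₁, M₂ of G form a primitive pair when, for {i, j} = {1, 2}, every non-trivial normal subgroup A of M_i contained in M₁ ∩ M₂ satisfies N_{M_j}(A) = M₁ ∩ M₂; the pair has characteristic p when moreover C_{M_i}(O_p(M_i)) ≤ O_p(M_i) for both i and O_p(M₁)O_p(M₂) ≤ M₁ ∩ M₂. If (M₁, M₂) is a primitive pair of the finite group G with F*(M₁) ≤ M₂ and F*(M₂) ≤ M₁, then for some prime p the pair has characteristic p. -/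
theorem result {G : Type*} [Group G] [Finite G] (M₁ M₂ : Subgroup G) (hne : M₁ ≠ M₂) (hP : ∀ A : Subgroup G, A ≠ ⊥ → A ≤ M₁ ⊓ M₂ → (M₁ ≤ Subgroup.normalizer (A : Set G) → M₂ ⊓ Subgroup.normalizer (A : Set G) = M₁ ⊓ M₂) ∧ (M₂ ≤ Subgroup.normalizer (A : Set G) → M₁ ⊓ Subgroup.normalizer (A : Set G) = M₁ ⊓ M₂)) (h₁ : (Cfsg.generalizedFittingSubgroup ↥M₁).map M₁.subtype ≤ M₂) (h₂ : (Cfsg.generalizedFittingSubgroup ↥M₂).map M₂.subtype ≤ M₁) : ∃ p : ℕ, p.Prime ∧ Subgroup.centralizer (Cfsg.pCore p ↥M₁ : Set ↥M₁) ≤ Cfsg.pCore p ↥M₁ ∧ Subgroup.centralizer (Cfsg.pCore p ↥M₂ : Set ↥M₂) ≤ Cfsg.pCore p ↥M₂ ∧ (Cfsg.pCore p ↥M₁).map M₁.subtype ⊔ (Cfsg.pCore p ↥M₂).map M₂.subtype ≤ M₁ ⊓ M₂ := by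
  open Subgroup Cfsg.Agent.H10 in
  rcases bender (large_of_FstarOf_le h₁) (large_of_FstarOf_le h₂)
    (fun Z h1 h2 h3 => (((hP Z h1 h2).1 h3).le.trans inf_le_left))
    (fun Z h1 h2 h3 => (((hP Z h1 (by rwa [inf_comm])).2 h3).le.trans inf_le_right)) with h | ⟨p, hp, e1, e2⟩
  · exact absurd h hne
  · haveI : Fact p.Prime := ⟨hp⟩
    refine ⟨p, hp, fstar_eq_pCore_iff.1 (FstarOf_eq_OpOf_iff_abs.1 e1),
      fstar_eq_pCore_iff.1 (FstarOf_eq_OpOf_iff_abs.1 e2), sup_le (le_inf OpOf_le (e1.ge.trans h₁))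
        (le_inf (e2.ge.trans h₂) OpOf_le)⟩

end Cfsg.Agent.S3752
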