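import Cfsg.Statements.S3753
import Cfsg.Agent.L0.KMain
import Cfsg.Agent.L0.PNil2

set_option autoImplicit false
open Cfsg

namespace Cfsg.Agent.S3753

open Subgroup H24 L0

theorem aux {G : Type*} [Group G] [Finite G] {p : ℕ} [Fact p.Prime] {M B : Subgroup G}
    (hc : 𝐂[pCore p M] ≤ pCore p M) (h : ∀ S : Sylow 2 M, IsMulCommutative S) (hB : IsPGroup p B)
    (h1 : pCoreOf p M ≤ B) (h2 : B ≤ M) : M ≤ 𝐍[inducedFunctor kInfLower B] := by
  have hS := isPGroup_subgroupOf hB M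
  have h3 : pCore p M ≤ B.subgroupOf M := pCoreOf_subgroupOf p M ▸ comap_mono h1
  rw [← map_subgroupOf_eq_of_le h2, ind_map_inj isCharPFunctor_kInfLower M.subtype_injective hS]
  suffices (inducedFunctor kInfLower (B.subgroupOf M)).Normal from map_subtype_le_normalizer _
  by_contra hn
  have h4 := not_kSeq_le_of_not_normal (isPGroup_pCore p M) h3 (Or.inl hn)
  by_cases hp : p = 2
  · subst hp
    obtain ⟨S, hS⟩ := hS.exists_le_sylow
    have h5 := (hS.trans ((isMulCommutative_iff_le_centralizer.1 (h S)).trans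
      (centralizer_anti (pCore_le_sylow S)))).trans hc
    exact h4 fun n => ⟨(kEven_le _ _).trans h5, (kOdd_le _ _).trans h5⟩
  obtain ⟨g, -, -, -, -, h5⟩ := kinf_local h3 h4
  obtain ⟨U, V, h6, hU, h7, h8⟩ := h5 hc
  have := h6.2.2.1
  exact not_pStable_of_chief h6 ((isPGroup_pCore p M).to_le hU) h7 h8
    (pStable_of_sylow_two_comm hp (sylow_comm_of_sec h (Sec.quotient V)))

/-- Two distinct subgroups M₁, M₂ of G form a primitive pair when, for {i, j} = {1, 2}, every non-trivial normal subgroup A of M_i contained in M₁ ∩ M₂ satisfies N_{M_j}(A) = M₁ ∩ M₂; the pair has characteristic p when moreover C_{M_i}(O_p(M_i)) ≤ O_p(M_i) for both i and O_p(M₁)O_p(M₂) ≤ M₁ ∩ M₂. If the finite group G has a primitive pair (M₁, M₂) of characteristic p for some prime p, then M₁ or M₂ has non-abelian Sylow 2-subgroups. In particular no group of odd order has a primitive pair of characteristic p. -/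
theorem result {G : Type*} [Group G] [Finite G] {p : ℕ} [Fact p.Prime] (M₁ M₂ : Subgroup G) (hne : M₁ ≠ M₂) (hP : ∀ A : Subgroup G, A ≠ ⊥ → A ≤ M₁ ⊓ M₂ → (M₁ ≤ Subgroup.normalizer (A : Set G) → M₂ ⊓ Subgroup.normalizer (A : Set G) = M₁ ⊓ M₂) ∧ (M₂ ≤ Subgroup.normalizer (A : Set G) → M₁ ⊓ Subgroup.normalizer (A : Set G) = M₁ ⊓ M₂)) (hc₁ : Subgroup.centralizer (Cfsg.pCore p ↥M₁ : Set ↥M₁) ≤ Cfsg.pCore p ↥M₁) (hc₂ : Subgroup.centralizer (Cfsg.pCore p ↥M₂ : Set ↥M₂) ≤ Cfsg.pCore p ↥M₂) (hO : (Cfsg.pCore p ↥M₁).map M₁.subtype ⊔ (Cfsg.pCore p ↥M₂).map M₂.subtype ≤ M₁ ⊓ M₂) : (∃ S : Sylow 2 ↥M₁, ¬ IsMulCommutative (S : Subgroup ↥M₁)) ∨ (∃ S : Sylow 2 ↥M₂, ¬ IsMulCommutative (S : Subgroup ↥M₂)) := by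
  by_contra! h
  rw [map_pCore_subtype, map_pCore_subtype] at hO
  have hB : IsPGroup p (pCoreOf p M₁ ⊔ pCoreOf p M₂ :) :=
    isPGroup_sup_of_le_normalizer_right (isPGroup_pCoreOf p _) (isPGroup_pCoreOf p _)
      ((le_sup_left.trans (hO.trans inf_le_right)).trans (le_normalizer_pCoreOf p _))
  have h1 := aux hc₁ h.1 hB le_sup_left (hO.trans inf_le_left)
  have h2 := aux hc₂ h.2 hB le_sup_right (hO.trans inf_le_right)
  by_cases h0 : pCoreOf p M₁ ⊔ pCoreOf p M₂ = ⊥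
  · rw [sup_eq_bot_iff] at h0
    exact hne ((not_not.1 fun a => (charP_iff.2 hc₁).pCoreOf_ne_bot a h0.1).trans
      (not_not.1 fun a => (charP_iff.2 hc₂).pCoreOf_ne_bot a h0.2).symm)
  obtain ⟨h3, h4⟩ := hP _ (fun e => (isCharPFunctor_kInfLower (p := p)).1 _ hB
    ((nontrivial_iff_ne_bot _).2 h0) (map_subtype_eq_bot_iff.1 e)) ((ind_le kInfLower _).trans hO)
  exact hne (le_antisymm ((le_inf le_rfl h1).trans ((h4 h2).le.trans inf_le_right))
    ((le_inf le_rfl h2).trans ((h3 h1).le.trans inf_le_left)))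

end Cfsg.Agent.S3753
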