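import Cfsg.Statements.S3754
import Cfsg.Agent.H9.S4F4

set_option autoImplicit false
open Cfsg

namespace Cfsg.Agent.S3754

open Subgroup H24 H9K
open scoped commutatorElement

theorem aux {M : Type*} [Group M] [Finite M] {p : ℕ} [Fact p.Prime] {A F : Subgroup M} [F.Normal]
    (hA : IsPGroup p A) (hΦ : frattiniOf A ≤ pCore p M)
    (hc : ((pCore p M).relIndex F).Coprime p) (hQ : pCore p M ≤ F) (h : ¬ ⁅A, F⁆ ≤ pCore p M) :
    ∃ x ∈ F, x ∈ pResidualOf p (A ⊔ cj A x) ∧ pResidualOf p (A ⊔ cj A x) ≤ F ∧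
      ⁅pResidualOf p (A ⊔ cj A x), A⁆ = pResidualOf p (A ⊔ cj A x) ∧
      (A ⊓ pCoreOf p (A ⊔ cj A x)).relIndex A = p ∧
      ⁅A ⊓ pCoreOf p (A ⊔ cj A x), A ⊔ cj A x⁆ ≤ pCore p M := by
  set Q := pCore p M
  have hn : ∀ {X}, X ≤ 𝐍[Q] := fun {_} => le_top.trans (top_le_normalizer Q)
  have hF : ∀ {X}, X ≤ 𝐍[F] := fun {_} => le_top.trans (top_le_normalizer F)
  have h1 := (commutator_le_frattiniOf hA).trans hΦ
  have k0 : ∀ x ∈ F, ∀ k, x ^ p ^ k ∈ Q → x ∈ Q := fun x hx k h2 => by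
    have := pow_relIndex_mem (H := Q) hx
    rw [← QuotientGroup.eq_one_iff, QuotientGroup.mk_pow] at this h2
    rw [← QuotientGroup.eq_one_iff, ← pow_one (x : M ⧸ Q), ← hc.pow_right k]
    exact pow_gcd_eq_one.2 ⟨this, h2⟩
  obtain ⟨B, hB, h2, f, hf, h3, h4⟩ := exists_hyper_mod le_rfl hn hn hn h1
    (fun a ha => hΦ (pow_mem_frattiniOf hA ha)) hF hc hn h
  have hAB : A ≤ centMod B Q := le_centMod_iff.2 ⟨hn, (commutator_mono hB le_rfl).trans h1⟩
  have hY : A ≤ 𝐍[F ⊓ centMod B Q] := le_normalizer_inf hF (le_normalizer_of_le hAB)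
  obtain ⟨x, ⟨hx, a, ha, h5⟩, h6⟩ := (measure fun x => Nat.card (A ⊔ cj A x :)).wf.has_min
    {x | x ∈ F ⊓ centMod B Q ∧ ∃ a ∈ A, ⁅a, x⁆ ∉ Q}
    ⟨f, ⟨hf, zpowers_le.1 (le_centMod_iff.2 ⟨hn, h3⟩)⟩, h4⟩
  obtain ⟨k, hk⟩ := isPGroup_iff.1 hA a ha
  obtain ⟨y, hy, hy1, hy2⟩ : ∃ y ∈ F ⊓ centMod B Q, y ∈ pResidualOf p (A ⊔ cj A x) ∧
      y ∉ centMod A Q := by
    by_contra! h0
    have hW : A ≤ 𝐍[(A ⊔ cj A x) ⊓ (F ⊓ centMod B Q)] :=
      le_normalizer_inf (le_normalizer_of_le le_sup_left) hY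
    have h7 : ⁅a, x⁆ ∈ (A ⊔ cj A x) ⊓ (F ⊓ centMod B Q) := ⟨commutatorElement_mem_sup_cj ha x,
      commutator_le_right_of_le_normalizer hY (commutator_mem_commutator ha hx)⟩
    rw [← inv_mem_iff, commutatorElement_inv] at h5 h7
    refine h5 (k0 _ h7.2.1 k (commutatorElement_mem_of_pow hn (hW ha) h7 (fun w hw => ?_) hk))
    obtain ⟨u, hu, v, hv, e, ⟨j, hj⟩, ho⟩ := exists_p_part (p := p) (isOfFinOrder_of_finite w)
    have h8 := zpowers_le.2 hw
    rw [← inv_mem_iff, commutatorElement_inv]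
    exact (mem_centMod.1 (e ▸ mul_mem (le_centMod_of_normalizes hn (k0 u (h8 hu).2.1 j
      (hj ▸ one_mem _))) (h0 v (h8 hv).2 (mem_pResidualOf (h8 hv).1 ho)))).2 a ha
  have h7 : A ⊔ cj A y = A ⊔ cj A x := eq_of_le_of_card_le
    (sup_le le_sup_left (cj_le_of_mem le_sup_left (pResidualOf_le _ _ hy1)))
    (not_lt.1 (h6 y ⟨hy, by by_contra! h0; exact hy2 (mem_centMod.2 ⟨hn (mem_top y), h0⟩)⟩))
  rw [← h7] at hy1
  have hyL := pResidualOf_le _ _ hy1
  have h8 : A ⊔ cj A y ≤ centMod B Q := sup_le hAB (cj_le_of_mem hAB hy.2)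
  have h9 := (le_centMod_iff.1 h8).2
  have h10 : B ≤ A ⊓ pCoreOf p (A ⊔ cj A y) := le_inf hB ((le_inf le_sup_left
    (hB.trans le_sup_left)).trans (le_pCoreOf inf_le_right
      ((isPGroup_sup_of_le_normalizer_right (hA.to_le hB) (isPGroup_pCore p M) hn).to_le
        inf_le_left) (le_normalizer_inf (le_normalizer_of_commutator_le le_rfl
      (commutator_sup_left_le (le_normalizer_of_le le_sup_left) (le_normalizer_of_le le_sup_right)
        (h9.trans le_sup_right) ((commutator_le_left _ _).trans le_sup_right))) le_normalizer)))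
  have h11 : (A ⊓ pCoreOf p (A ⊔ cj A y)).relIndex A = p := by
    refine ((Nat.dvd_prime Fact.out).1 ((relIndex_dvd_of_le_left A h10).trans h2.dvd)).resolve_left
      fun h0 => hy2 (mem_centMod.2 ⟨hn (mem_top y), fun b hb => ?_⟩)
    obtain ⟨j, hj⟩ := isPGroup_iff.1 (isPGroup_pCoreOf p _) _ (commutator_le_left_of_le_normalizer
      (le_normalizer_pCoreOf p _) (commutator_mem_commutator (relIndex_eq_one.1 h0 hb).2 hyL))
    exact k0 _ (commutator_le_right _ _ (commutator_mem_commutator hb hy.1)) j (hj ▸ one_mem _)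
  refine ⟨y, hy.1, hy1, (pResidualOf_le_of_le_sup hA hF (sup_le le_sup_left
    (cj_le_of_mem le_sup_left (mem_sup_right hy.1)))).trans (pResidualOf_le _ _),
    commutator_pResidualOf_of_ncl le_sup_left hA (sup_le (le_ncl _ _) (cj_le_ncl hyL)), h11, ?_⟩
  have h12 := relIndex_mul_relIndex _ _ _ h10 inf_le_left
  rw [h11, h2] at h12
  exact (commutator_mono (relIndex_eq_one.1 (Nat.eq_of_mul_eq_mul_right
    (Fact.out : p.Prime).pos (h12.trans (one_mul p).symm))) le_rfl).trans h9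

/-- Let M be a finite p-soluble group and A a p-subgroup of M with Φ(A) ≤ O_p(M) but A ≰ O_p(M). Then there is x ∈ O_{p,p'}(M) such that L = ⟨A, xAx⁻¹⟩ satisfies: x ∈ O^p(L) and O^p(L) ≤ O_{p,p'}(M); [O^p(L), A] = O^p(L); A ∩ O_p(L) has index p in A; and [A ∩ O_p(L), L] ≤ O_p(M). Here O^p(L) is the subgroup generated by the p'-elements of L and O_{p,p'}(M) the preimage of O_{p'}(M/O_p(M)). -/
theorem result {M : Type*} [Group M] [Finite M] {p : ℕ} [Fact p.Prime] (hM : Cfsg.IsPSolvable p M) (A : Subgroup M) (hA : IsPGroup p A) (hΦ : (frattini ↥A).map A.subtype ≤ Cfsg.pCore p M) (hnot : ¬ A ≤ Cfsg.pCore p M) : ∃ x ∈ (Cfsg.pPrimeCore p (M ⧸ Cfsg.pCore p M)).comap (QuotientGroup.mk' (Cfsg.pCore p M)), x ∈ (Cfsg.pResidual p ↥(A ⊔ A.map (MulAut.conj x).toMonoidHom)).map (A ⊔ A.map (MulAut.conj x).toMonoidHom).subtype ∧ (Cfsg.pResidual p ↥(A ⊔ A.map (MulAut.conj x).toMonoidHom)).map (A ⊔ A.map (MulAut.conj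 x).toMonoidHom).subtype ≤ (Cfsg.pPrimeCore p (M ⧸ Cfsg.pCore p M)).comap (QuotientGroup.mk' (Cfsg.pCore p M)) ∧ ⁅(Cfsg.pResidual p ↥(A ⊔ A.map (MulAut.conj x).toMonoidHom)).map (A ⊔ A.map (MulAut.conj x).toMonoidHom).subtype, A⁆ = (Cfsg.pResidual p ↥(A ⊔ A.map (MulAut.conj x).toMonoidHom)).map (A ⊔ A.map (MulAut.conj x).toMonoidHom).subtype ∧ (A ⊓ (Cfsg.pCore p ↥(A ⊔ A.map (MulAut.conj x).toMonoidHom)).map (A ⊔ A.map (MulAut.conj x).toMonoidHom).subtype).relIndex A = p ∧ ⁅A ⊓ (Cfsg.pCore p ↥(A ⊔ A.map (MulAut.conj x).toMonoidHom)).map (A ⊔ A.map (MulAut.conj x).toMonoidHom).subtype, A ⊔ A.map (MulAut.conj x).toMonoidHom⁆ ≤ Cfsg.pCore p M := by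
  have hk := QuotientGroup.ker_mk' (pCore p M)
  refine aux hA hΦ ?_ (fun x hx => ?_) fun h => hnot (le_trans ?_ hk.le)
  · have := relIndex_ker ((pPrimeCore p (M ⧸ pCore p M)).comap (QuotientGroup.mk' _))
      (QuotientGroup.mk' (pCore p M))
    rw [hk, map_comap_eq_self_of_surjective (QuotientGroup.mk'_surjective _)] at this
    exact this ▸ H1.coprime_card_pPrimeCore p _
  · rw [mem_comap, QuotientGroup.mk'_apply, (QuotientGroup.eq_one_iff x).2 hx]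
    exact one_mem _
  replace h := h.trans hk.ge
  rw [← Subgroup.map_eq_bot_iff] at h ⊢
  rw [map_commutator, map_comap_eq_self_of_surjective (QuotientGroup.mk'_surjective _),
    ← le_centralizer_iff_commutator] at h
  rw [← inf_eq_bot_of_isPGroup_of_coprime (hA.map _) (H1.coprime_card_pPrimeCore p _), left_eq_inf]
  exact h.trans (H9.centralizer_pPrimeCore_le_of_isPSolvable (H9.isPSolvable_of_surjective _
    (QuotientGroup.mk'_surjective _) hM) (pCore_quotient_pCore p M))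

end Cfsg.Agent.S3754
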