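import Cfsg.Statements.S3756
import Cfsg.Agent.H9.S4F5

set_option autoImplicit false
open Cfsg

namespace Cfsg.Agent.S3756

/-- Let G be a finite group of even order with O₂(G) = 1 such that every 2-local subgroup of G is solvable, of characteristic 2, and has no section isomorphic to the symmetric group of degree 4. Then every maximal 2-local subgroup of G is strongly embedded in G. -/
theorem result {G : Type*} [Group G] [Finite G] (heven : Even (Nat.card G)) (hO : Cfsg.pCore 2 G = ⊥) (hloc : ∀ M : Subgroup G, Cfsg.IsTwoLocal M → Group.IsSolvable M ∧ Cfsg.IsOfCharacteristicTwo ↥M ∧ ¬ Cfsg.Involves (Equiv.Perm (Fin 4)) ↥M) (M : Subgroup G) (hM : Cfsg.IsMaximalTwoLocal M) : Cfsg.IsStronglyEmbedded M := by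
  obtain ⟨a, b, c⟩ := H24.se_top_iff_card.1 (H9K.LocS4.se
    (fun L hL => ⟨(hloc L hL).1, H24.charP_iff.2 (hloc L hL).2.1, (hloc L hL).2.2⟩) hO hM)
  exact ⟨a, even_iff_two_dvd.2 b, fun g hg => Nat.not_even_iff_odd.1
    fun h => c g hg (even_iff_two_dvd.1 h)⟩

end Cfsg.Agent.S3756
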