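import Cfsg.Statements.S3763
import Cfsg.Agent.H26.ES3

set_option autoImplicit false
open Cfsg

namespace Cfsg.Agent.S3763


/-- Let E be an extraspecial 2-group of order 2^(2n+1). Then the largest elementary abelian subgroups of E have order 2^n or 2^(n+1); and two extraspecial 2-groups of the same order whose largest elementary abelian subgroups have the same order are isomorphic. -/
theorem result {E : Type*} [Group E] [Finite E] (hE : Cfsg.IsExtraspecial 2 E) (n : ℕ) (hn : Nat.card E = 2 ^ (2 * n + 1)) : ((Cfsg.PRankLE 2 n E ∧ ¬ Cfsg.PRankLE 2 (n - 1) E) ∨ (Cfsg.PRankLE 2 (n + 1) E ∧ ¬ Cfsg.PRankLE 2 n E)) ∧ ∀ (E' : Type*) [Group E'] [Finite E'], Cfsg.IsExtraspecial 2 E' → Nat.card E' = Nat.card E → (∀ k : ℕ, Cfsg.PRankLE 2 k E ↔ Cfsg.PRankLE 2 k E') → Nonempty (E ≃* E') := by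
  obtain ⟨k, c, hc⟩ := H26.exists_ES_of_isExtraspecial hE
  have hm : Module.finrank (ZMod 2) (Fin k → ZMod 2) = 2 * n := by
    rw [c.card_eq_pow] at hn
    exact Nat.succ_injective (Nat.pow_right_injective le_rfl hn)
  have := c.nontrivial_of_isExtraspecial hE
  have h1 : 0 < Module.finrank (ZMod 2) (Fin k → ZMod 2) := Module.finrank_pos
  refine ⟨?_, fun E' _ _ hE' h2 h3 => ?_⟩
  · by_cases h : PRankLE 2 n E
    · refine Or.inl ⟨h, fun h' => ?_⟩
      obtain ⟨m, rfl⟩ : ∃ m, n = m + 1 := ⟨n - 1, by omega⟩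
      obtain ⟨W, h4, h5⟩ := hc.exists_singular hm
      have := c.pRankLE_iff.mp h' W h5
      omega
    · exact Or.inr ⟨hc.pRankLE_succ hm, h⟩
  · obtain ⟨k', d, hd⟩ := H26.exists_ES_of_isExtraspecial hE'
    rw [c.card_eq_pow, d.card_eq_pow] at h2
    have e := Nat.succ_injective (Nat.pow_right_injective le_rfl h2)
    refine c.nonempty_mulEquiv_of_type d hc hd e.symm ?_
    rw [hc.isPlus_iff_not_pRankLE hm, hd.isPlus_iff_not_pRankLE (e.trans hm), h3]

end Cfsg.Agent.S3763
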