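import Cfsg.Statements.S3764
import Cfsg.Agent.H25.Comp2

set_option autoImplicit false
open Cfsg

namespace Cfsg.Agent.S3764

open Subgroup Cfsg.Agent.H20 Cfsg.Agent.H21 Cfsg.Agent.BG Cfsg.Agent.H25

/-- Let p, q, r be distinct primes and let X, Q, V be subgroups of a finite group with X of order r, Q an extraspecial q-group normalized by X with C_Q(X) = Z(Q), and V an elementary abelian p-group normalized by X and Q on which XQ acts faithfully ((X ⊔ Q) ∩ C(V) = 1). If C_V(X) = 1, then q = 2, r = 2^n + 1 for some n, and Q has order 2^(2n+1). -/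
theorem result {G : Type*} [Group G] [Finite G] {p q r : ℕ} (hp : p.Prime) (hq : q.Prime) (hr : r.Prime) (hpq : p ≠ q) (hpr : p ≠ r) (hqr : q ≠ r) (X Q V : Subgroup G) (hX : Nat.card X = r) (hQ : Cfsg.IsExtraspecial q ↥Q) (hXQ : X ≤ Subgroup.normalizer (Q : Set G)) (hCQ : Q ⊓ Subgroup.centralizer (X : Set G) = (Subgroup.center ↥Q).map Q.subtype) (hV : Cfsg.IsElementaryAbelian p V) (hXV : X ≤ Subgroup.normalizer (V : Set G)) (hQV : Q ≤ Subgroup.normalizer (V : Set G)) (hfaith : (X ⊔ Q) ⊓ Subgroup.centralizer (V : Set G) = ⊥) (hCV : V ⊓ Subgroup.centralizer (X : Set G) = ⊥) : q = 2 ∧ ∃ n : ℕ, r = 2 ^ n + 1 ∧ Nat.card Q = 2 ^ (2 * n + 1) := by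
  haveI := Fact.mk hp
  haveI := Fact.mk hq
  obtain ⟨⟨hQq, -, h2⟩, h3⟩ := hQ
  have hXp : (♯X).Prime := hX ▸ hr
  have h4 : ⁅Q, Q⁆ = centerOf Q := by rw [← center_map_subtype, ← h2, map_subtype_commutator]
  have h5 : ♯(centerOf Q) = q := by rw [← center_map_subtype, card_map_of_injective Q.subtype_injective, h3]
  rw [center_map_subtype] at hCQ
  have hcop : (♯Q).Coprime (♯X) := coprime_of_isPGroup hQq (hX ▸ (Nat.coprime_primes hr hq).2 hqr.symm)
  have hf : Q ⊓ C⟦V⟧ = ⊥ := eq_bot_iff.2 ((inf_le_inf_right _ le_sup_right).trans hfaith.le)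
  have h6 : centerOf Q ≠ ⊥ := ne_bot_of_card_prime (h5 ▸ hq)
  obtain ⟨R₁, N, Z, m, ψ, hR₁, hc, -, -, hN, -, h0, -⟩ := exists_comp hV hQV hXV hXQ
    (comm_of_cyclic (isCyclic_of_card_prime hXp)) hcop
    (coprime_of_isPGroup hQq ((Nat.coprime_primes hp hq).2 hpq)) (hX ▸ (Nat.coprime_primes hr hp).2 hpr.symm)
    (by rw [h4, commg_eq_bot.2 (centerOf_le_cent Q)]; exact bot_le) (centerOf_normalIn Q) (NormalIn.bot Q)
    (fun h => h6 (eq_bot_iff.2 (hf ▸ le_inf (centerOf_le Q) (cent_symm (by simpa [cent_bot] using h)))))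
  replace h0 := h0 hCV
  obtain rfl := eq_of_le_of_card_prime hXp hR₁ (hc.ne_bot h0)
  have hN1 : N = ⊥ := by
    by_contra h
    have h7 := inf_cent_ne_bot_of_nil hQq.isNilpotent ⟨hc.N_le.trans hc.Z_le, hc.normNK⟩ h
    have h8 := eq_of_le_of_card_prime (h5 ▸ hq) (A := N ⊓ C⟦Q⟧) (le_centerOf (inf_le_left.trans
      (hc.N_le.trans hc.Z_le)) inf_le_right) h7
    exact hN (h8.ge.trans inf_le_left)
  have hZ : Z = centerOf Q := le_antisymm (le_centerOf hc.Z_le (commg_eq_bot.1 (eq_bot_iff.2 (hN1 ▸ hc.centK))))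
    (h4 ▸ hc.der_le)
  obtain ⟨rfl, n, h7, h8⟩ := hc.fermat h0 hXQ hXp hcop hQq (hCQ.trans hZ.symm).le fun h =>
    h6 (h4 ▸ commg_eq_bot.2 (h.trans (hZ.le.trans (centerOf_le_cent Q))))
  refine ⟨rfl, n, hX ▸ h7, ?_⟩
  rw [← card_mul_relIndex hc.Z_le, ← hc.sq, hZ, h5, h8]; ring

end Cfsg.Agent.S3764
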