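import Cfsg.Statements.S3766
import Cfsg.Agent.H25.FitCrit
import Cfsg.Agent.H2.Basic

set_option autoImplicit false
open Cfsg

namespace Cfsg.Agent.S3766

open scoped commutatorElement

theorem chain {G : Type*} [Group G] [Finite G] {A F : Subgroup G}
    (h : ∀ U V : Subgroup G, (U.Normal ∧ V.Normal ∧ V < U ∧
      ∀ W : Subgroup G, W.Normal → V ≤ W → W ≤ U → W = V ∨ W = U) → U ≤ F → ⁅U, A⁆ ≤ V) (n : ℕ) :
    ∀ U : Subgroup G, Nat.card U = n → U.Normal → U ≤ F → (Nat.card A).Coprime (Nat.card U) →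
      A ≤ Subgroup.centralizer (U : Set G) := by
  induction n using Nat.strong_induction_on with
  | _ n ih =>
  intro U hn hU hUF hcop
  by_cases h0 : U = ⊥
  · rw [h0]; intro x _; simp [Subgroup.mem_centralizer_iff]
  obtain ⟨V, -, hV⟩ := (Set.toFinite {V : Subgroup G | V.Normal ∧ V < U}).exists_le_maximal
    (a := ⊥) ⟨inferInstance, bot_lt_iff_ne_bot.2 h0⟩
  have hc := hcop.coprime_dvd_right (Subgroup.card_dvd_of_le hV.1.2.le)
  refine H1.le_centralizer_of_commutator_le hc (h U V ⟨hU, hV.1.1, hV.1.2, fun W hW h1 h2 => ?_⟩ hUF)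
    (ih _ (hn ▸ H1.card_lt_of_lt hV.1.2) V rfl hV.1.1 (hV.1.2.le.trans hUF) hc)
  rcases h2.lt_or_eq with h3 | h3
  · exact Or.inl (le_antisymm (hV.2 ⟨hW, h3⟩ h1) h1)
  · exact Or.inr h3

/-- Let G be a finite solvable group and N a normal subgroup of G. Call a pair V < U of normal subgroups of G a chief factor of G when no normal subgroup of G lies strictly between them; an element g centralizes the chief factor U/V when u g u⁻¹ g⁻¹ ∈ V for all u ∈ U. Then an element of G lies in the Fitting subgroup F(N) if and only if it lies in N and centralizes every chief factor of G; and also if and only if it lies in N and centralizes every chief factor U/V of G with U ≤ F(N). -/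
theorem result {G : Type*} [Group G] [Finite G] (hG : Group.IsSolvable G) (N : Subgroup G) [N.Normal] (g : G) : (g ∈ (Cfsg.fittingSubgroup ↥N).map N.subtype ↔ g ∈ N ∧ ∀ U V : Subgroup G, (U.Normal ∧ V.Normal ∧ V < U ∧ ∀ W : Subgroup G, W.Normal → V ≤ W → W ≤ U → W = V ∨ W = U) → ∀ u ∈ U, u * g * u⁻¹ * g⁻¹ ∈ V) ∧ (g ∈ (Cfsg.fittingSubgroup ↥N).map N.subtype ↔ g ∈ N ∧ ∀ U V : Subgroup G, (U.Normal ∧ V.Normal ∧ V < U ∧ ∀ W : Subgroup G, W.Normal → V ≤ W → W ≤ U → W = V ∨ W = U) → U ≤ (Cfsg.fittingSubgroup ↥N).map N.subtype → ∀ u ∈ U, u * g * u⁻¹ * g⁻¹ ∈ V) := by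
  change (g ∈ H10.FitOf N ↔ _) ∧ (g ∈ H10.FitOf N ↔ g ∈ N ∧ ∀ U V, _ → U ≤ H10.FitOf N → _)
  have hall : ∀ A : Subgroup G, A ≤ Subgroup.normalizer (N : Set G) := fun A => by
    rw [Subgroup.normalizer_eq_top N]; exact le_top
  have hFn : (H10.FitOf N).Normal := H10.normal_of_normalizer_top (H10.le_normalizer_FitOf (hall ⊤))
  have h1 : ∀ g ∈ H10.FitOf N, ∀ U V : Subgroup G, (U.Normal ∧ V.Normal ∧ V < U ∧
      ∀ W : Subgroup G, W.Normal → V ≤ W → W ≤ U → W = V ∨ W = U) →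
      ∀ u ∈ U, u * g * u⁻¹ * g⁻¹ ∈ V := by
    rintro g hg U V ⟨hU, hV, hlt, hmin⟩ u hu
    have hsurj := QuotientGroup.mk'_surjective V
    have hM : H2.IsMinNormal (U.map (QuotientGroup.mk' V)) := by
      refine ⟨hU.map _ hsurj, ?_, fun K hK hle => ?_⟩
      · rw [Ne, Subgroup.map_eq_bot_iff, QuotientGroup.ker_mk']
        exact not_le_of_gt hlt
      · rcases hmin (K.comap (QuotientGroup.mk' V)) (hK.comap _) (QuotientGroup.le_comap_mk' V K)
          (by
            refine (Subgroup.comap_mono hle).trans ?_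
            rw [Subgroup.comap_map_eq, QuotientGroup.ker_mk', sup_eq_left.2 hlt.le]) with h | h
        · left
          rw [← Subgroup.map_comap_eq_self_of_surjective hsurj K, h, QuotientGroup.map_mk'_self]
        · right
          rw [← Subgroup.map_comap_eq_self_of_surjective hsurj K, h]
    have := (hFn.map _ hsurj)
    have h2 := hM.le_centralizer_of_isNilpotent (N := (H10.FitOf N).map (QuotientGroup.mk' V))
      (H10.isNilpotent_map _ _ H10.FitOf_nilpotent)
    have h3 := Subgroup.mem_centralizer_iff.1 (h2 (Subgroup.mem_map_of_mem _ hg)) _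
      (Subgroup.mem_map_of_mem _ hu)
    rw [← QuotientGroup.eq_one_iff]
    simp only [QuotientGroup.mk'_apply] at h3
    simp only [QuotientGroup.mk_mul, QuotientGroup.mk_inv, h3]
    group
  let D : Subgroup G :=
    { carrier := {g | g ∈ N ∧ ∀ U V : Subgroup G, (U.Normal ∧ V.Normal ∧ V < U ∧
        ∀ W : Subgroup G, W.Normal → V ≤ W → W ≤ U → W = V ∨ W = U) → U ≤ H10.FitOf N →
        ∀ u ∈ U, u * g * u⁻¹ * g⁻¹ ∈ V}
      one_mem' := ⟨N.one_mem, fun U V _ _ u _ => by simp⟩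
      mul_mem' := by
        rintro a b ⟨ha, ha'⟩ ⟨hb, hb'⟩
        refine ⟨N.mul_mem ha hb, fun U V h hU u hu => ?_⟩
        have : u * (a * b) * u⁻¹ * (a * b)⁻¹ =
          (u * a * u⁻¹ * a⁻¹) * (a * (u * b * u⁻¹ * b⁻¹) * a⁻¹) := by group
        rw [this]
        exact V.mul_mem (ha' U V h hU u hu) (h.2.1.conj_mem _ (hb' U V h hU u hu) a)
      inv_mem' := by
        rintro a ⟨ha, ha'⟩
        refine ⟨N.inv_mem ha, fun U V h hU u hu => ?_⟩
        have : u * a⁻¹ * u⁻¹ * a⁻¹⁻¹ = a⁻¹ * (u * a * u⁻¹ * a⁻¹)⁻¹ * a⁻¹⁻¹ := by group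
        rw [this]
        exact h.2.1.conj_mem _ (V.inv_mem (ha' U V h hU u hu)) _ }
  have hDn : D.Normal := ⟨by
    rintro x ⟨hx, hx'⟩ a
    refine ⟨Subgroup.Normal.conj_mem inferInstance x hx a, fun U V h hU u hu => ?_⟩
    have : u * (a * x * a⁻¹) * u⁻¹ * (a * x * a⁻¹)⁻¹ =
      a * ((a⁻¹ * u * a⁻¹⁻¹) * x * (a⁻¹ * u * a⁻¹⁻¹)⁻¹ * x⁻¹) * a⁻¹ := by group
    rw [this]
    exact h.2.1.conj_mem _ (hx' U V h hU _ (h.1.conj_mem u hu _)) a⟩
  have h2 : D ≤ H10.FitOf N := by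
    refine H25.le_FitOf_of_forall_coprime
      (H10.inf_centralizer_FitOf_le_of_solvable inferInstance) (fun x hx => hx.1)
      (by rw [Subgroup.normalizer_eq_top D]; exact le_top) ?_
    intro p hp x hx hcop
    have : Fact p.Prime := ⟨hp⟩
    rw [← Subgroup.zpowers_le]
    refine chain (F := H10.FitOf N) (fun U V h hU => ?_) _ _ rfl
      (H10.normal_of_normalizer_top (H10.le_normalizer_OpOf (hall ⊤))) (H10.OpOf_le_FitOf p) ?_
    · rw [Subgroup.commutator_le]
      intro u hu y hy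
      exact (Subgroup.zpowers_le.2 hx hy).2 U V h hU u hu
    · exact (H1.coprime_card_of_isPGroup_of_coprime H10.OpOf_isPGroup
        (by rwa [Nat.card_zpowers])).symm
  refine ⟨⟨fun h => ⟨H10.FitOf_le h, h1 g h⟩, fun h => h2 ⟨h.1, fun U V a _ => h.2 U V a⟩⟩,
    ⟨fun h => ⟨H10.FitOf_le h, fun U V a _ => h1 g h U V a⟩, fun h => h2 h⟩⟩

end Cfsg.Agent.S3766
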