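import Cfsg.Statements.S3768
import Cfsg.Agent.H25.Misc1
import Cfsg.Agent.H1.Coprime

set_option autoImplicit false
open Cfsg

namespace Cfsg.Agent.S3768

/-- Let G be a finite Frobenius group with Frobenius complement R and Frobenius kernel K (the identity together with the elements in no conjugate of R), and let N be a normal subgroup of G not containing K. Then G/N is a Frobenius group with Frobenius complement RN/N whose Frobenius kernel is the image of K. -/
theorem result {G : Type*} [Group G] [Finite G] (R : Subgroup G) (hR : Cfsg.IsFrobeniusComplement R) (N : Subgroup G) [N.Normal] (hKN : ¬ Cfsg.frobeniusKernel R ⊆ N) : Cfsg.IsFrobeniusComplement (R.map (QuotientGroup.mk' N)) ∧ Cfsg.frobeniusKernel (R.map (QuotientGroup.mk' N)) = QuotientGroup.mk' N '' Cfsg.frobeniusKernel R := by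
  obtain ⟨K, hK, hKn, hc⟩ := H4.frobenius_theorem R hR
  have hNK : N ≤ K := by
    rcases H1.le_or_le_of_isFrobeniusComplement (N := N) hR hK hc.disjoint with h | h
    · exact h
    · exact absurd (hK ▸ h) hKN
  have hfpf := H1.fpf_of_isFrobeniusComplement hR hc.disjoint
  have hall : ∀ A : Subgroup G, A ≤ Subgroup.normalizer (K : Set G) := fun A => by
    rw [Subgroup.normalizer_eq_top K]; exact le_top
  have hcop := H1.coprime_card_of_fpf (hall R) hfpf
  have hsurj := QuotientGroup.mk'_surjective N
  have hKn' : (K.map (QuotientGroup.mk' N)).Normal := hKn.map _ hsurj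
  have hc' : Subgroup.IsComplement' (K.map (QuotientGroup.mk' N)) (R.map (QuotientGroup.mk' N)) := by
    apply Subgroup.isComplement'_of_disjoint_and_mul_eq_univ
    · exact Subgroup.disjoint_of_coprime_natCard
        ((hcop.symm.coprime_dvd_left (Subgroup.card_map_dvd _ _)).coprime_dvd_right
          (Subgroup.card_map_dvd _ _))
    · rw [← Subgroup.normal_mul, ← Subgroup.map_sup, hc.sup_eq_top,
        Subgroup.map_top_of_surjective _ hsurj, Subgroup.coe_top]
  have hK0 : K.map (QuotientGroup.mk' N) ≠ ⊥ := by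
    rw [Ne, Subgroup.map_eq_bot_iff, QuotientGroup.ker_mk']
    intro h
    exact hKN (hK ▸ h)
  have hR0 : R.map (QuotientGroup.mk' N) ≠ ⊥ := by
    rw [Ne, Subgroup.map_eq_bot_iff, QuotientGroup.ker_mk']
    intro h
    exact hR.1 (hc.disjoint.symm.eq_bot_of_le (h.trans hNK))
  have hF : Cfsg.IsFrobeniusComplement (R.map (QuotientGroup.mk' N)) := by
    refine H1.isFrobeniusComplement_of_fpf hc' hK0 hR0 ?_
    rintro _ ⟨r, hr, rfl⟩ hne
    have hr1 : r ≠ 1 := by rintro rfl; exact hne (map_one _)
    have h1 := H1.inf_centralizer_map_mk'_eq (A := Subgroup.zpowers r) hNK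
      ((hcop.coprime_dvd_left (Subgroup.card_dvd_of_le (Subgroup.zpowers_le.2 hr))).coprime_dvd_right
        (Subgroup.card_dvd_of_le hNK)) (Or.inl (H1.isSolvable_zpowers r))
    rwa [H10.centralizer_zpowers, hfpf r hr hr1, Subgroup.map_bot, MonoidHom.map_zpowers,
      H10.centralizer_zpowers] at h1
  refine ⟨hF, ?_⟩
  rw [← H25.coe_eq_frobeniusKernel hc' hF, ← hK, Subgroup.coe_map]

end Cfsg.Agent.S3768
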