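import Cfsg.Statements.S3769
import Cfsg.Agent.BG.S03a

set_option autoImplicit false
open Cfsg

namespace Cfsg.Agent.S3769

open Subgroup Cfsg.Agent.H20 Cfsg.Agent.H21 Cfsg.Agent.BG

/-- Let G and V be subgroups of a finite group with G solvable of odd order normalizing V, V an elementary abelian ℓ-group for a prime ℓ not dividing the order of G, and suppose G has a normal Hall subgroup K with a complement R of prime order. If C_V(R) = 1, then [R, K] centralizes V. -/
theorem result {X : Type*} [Group X] [Finite X] (G : Subgroup X) (hsolv : Group.IsSolvable G) (hodd : Odd (Nat.card G)) (V : Subgroup X) {ℓ : ℕ} (hℓ : ℓ.Prime) (hV : Cfsg.IsElementaryAbelian ℓ V) (hℓG : ¬ ℓ ∣ Nat.card G) (hGV : G ≤ Subgroup.normalizer (V : Set X)) (K R : Subgroup X) (hKG : K ≤ G) (hKn : G ≤ Subgroup.normalizer (K : Set X)) (hHall : (Nat.card K).Coprime (K.relIndex G)) (hRG : R ≤ G) (hR : (Nat.card R).Prime) (hKR : K ⊓ R = ⊥) (hKRG : K ⊔ R = G) (hCV : V ⊓ Subgroup.centralizer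 (R : Set X) = ⊥) : ⁅R, K⁆ ≤ Subgroup.centralizer (V : Set X) := by
  haveI := Fact.mk hℓ
  have hRK : R ≤ N⟦K⟧ := hRG.trans hKn
  have h1 : K.relIndex G = Nat.card R := by
    rw [← hKRG, relIndex_sup_of_norm' (Or.inr hRK), ← inf_relIndex_right, hKR, relIndex_bot_left]
  rw [commutator_comm]
  obtain ⟨k, hk⟩ := IsPGroup.iff_card.1 (show IsPGroup ℓ V from fun x => ⟨1, Subtype.ext (by
    simpa using hV.2 x x.2)⟩)
  exact odd_prime_sdprod_cent1 (sol_of_le hsolv hKG) (odd_of_le hodd hKG) (odd_of_le hodd hRG) hRK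
    (h1 ▸ hHall) hR (solvable_of_comm hV.1) (hKG.trans hGV) (hRG.trans hGV)
    (by rw [hk]; exact ((hℓ.coprime_iff_not_dvd.2 hℓG).coprime_dvd_right
          (card_dvd_of_le hKG)).pow_left _) hCV

end Cfsg.Agent.S3769
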