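import Cfsg.Statements.S3770
import Cfsg.Agent.BG.S03a
import Cfsg.Agent.H26.Frob2

set_option autoImplicit false
open Cfsg

namespace Cfsg.Agent.S3770

open Subgroup Cfsg.Agent.H20 Cfsg.Agent.H21 Cfsg.Agent.BG

/-- Let G and V be subgroups of a finite group with G a Frobenius group with complement R of prime order and kernel K, G normalizing V, and V an elementary abelian ℓ-group for a prime ℓ not dividing the order of G. If C_V(R) has order ℓ, then the derived subgroup of K centralizes V. -/
theorem result {X : Type*} [Group X] [Finite X] (G : Subgroup X) (V : Subgroup X) {ℓ : ℕ} (hℓ : ℓ.Prime) (hV : Cfsg.IsElementaryAbelian ℓ V) (hℓG : ¬ ℓ ∣ Nat.card G) (hGV : G ≤ Subgroup.normalizer (V : Set X)) (R : Subgroup ↥G) (hR : Cfsg.IsFrobeniusComplement R) (hRp : (Nat.card R).Prime) (hCV : Nat.card ↥(V ⊓ Subgroup.centralizer ((R.map G.subtype : Subgroup X) : Set X)) = ℓ) : ⁅Subgroup.closure (Subtype.val '' Cfsg.frobeniusKernel R), Subgroup.closure (Subtype.val '' Cfsg.frobeniusKernel R)⁆ ≤ Subgroup.centralizer (V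 : Set X) := by
  haveI := Fact.mk hℓ
  obtain ⟨K, hK, hKn, -, -, hreg, -, -⟩ := H26.exists_frobeniusKernel hR
  have h1 : closure (Subtype.val '' Cfsg.frobeniusKernel R) = K.map G.subtype := by
    rw [← hK, ← closure_eq (K.map G.subtype)]; rfl
  rw [h1]
  have hc : (Nat.card G).Coprime ℓ := (hℓ.coprime_iff_not_dvd.2 hℓG).symm
  refine regular_cent_dvd_prime (R := R.map G.subtype) (norm_map _ le_normalizer_of_normal)
    (Semiregular.map G.subtype_injective hreg) hV ((map_subtype_le _).trans hGV)
    ((map_subtype_le _).trans hGV) (hc.coprime_dvd_left (card_dvd_of_le (map_subtype_le _)))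
    (hc.coprime_dvd_left (card_dvd_of_le (map_subtype_le _))) hCV.dvd

end Cfsg.Agent.S3770
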