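import Cfsg.Statements.S3772
import Cfsg.Agent.H26.ES4

set_option autoImplicit false
open Cfsg

namespace Cfsg.Agent.S3772

open Module QuadraticMap in
theorem count {V : Type*} [AddCommGroup V] [Module (ZMod 2) V] [Finite V]
    (Q : QuadraticForm (ZMod 2) V) (hQ : ∃ v, Q v ≠ 0) :
    2 * H13.nz Q = 2 ^ finrank (ZMod 2) V ∨ ∃ r : ℕ, 1 ≤ r ∧ 2 * r ≤ finrank (ZMod 2) V ∧
      (2 * r = finrank (ZMod 2) V → H13.ND Q) ∧
      (2 * H13.nz Q = 2 ^ finrank (ZMod 2) V + 2 ^ (finrank (ZMod 2) V - r) ∨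
        2 * H13.nz Q + 2 ^ (finrank (ZMod 2) V - r) = 2 ^ finrank (ZMod 2) V) := by
  have : Module.Finite (ZMod 2) V := Module.Finite.of_finite
  have hadd : ∀ x y, Q (x + y) = Q x + Q y + polar Q x y := fun x y => by rw [polar]; ring
  set R := LinearMap.ker (polarBilin Q)
  have hR : ∀ x, x ∈ R ↔ ∀ y, polar Q x y = 0 := fun x => LinearMap.ext_iff
  by_cases h : ∃ r ∈ R, Q r ≠ 0
  · left
    obtain ⟨r, hr, hr'⟩ := h
    have h1 : ∀ x, Q (r + x) = 0 ↔ ¬ Q x = 0 := fun x => by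
      rw [hadd, (hR r).mp hr, add_zero]
      revert hr'
      generalize Q r = a
      generalize Q x = b
      revert a b
      decide
    have e : {x // Q x = 0} ≃ {x // ¬ Q x = 0} :=
      ((Equiv.addLeft r).subtypeEquiv fun x => (h1 x).symm).symm
    classical
    have h2 := H13.card_eq_pow (F := ZMod 2) (V := V)
    rw [Nat.card_zmod] at h2
    rw [← h2, ← Nat.card_congr (Equiv.sumCompl fun x => Q x = 0),
      Nat.card_sum, ← Nat.card_congr e, two_mul]
    rfl
  right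
  push Not at h
  obtain ⟨U, hU⟩ := R.exists_isCompl
  have hdec : ∀ v, ∃ r ∈ R, ∃ u ∈ U, r + u = v := fun v =>
    Submodule.mem_sup.mp (hU.sup_eq_top ▸ Submodule.mem_top)
  have hQ' : ∀ r ∈ R, ∀ u, Q (r + u) = Q u := fun r hr u => by
    rw [hadd, h r hr, (hR r).mp hr, add_zero, zero_add]
  have hnd : H13.ND (Q.restrict U) := fun x hx => by
    refine Subtype.ext (Submodule.disjoint_def.mp hU.disjoint _ ((hR _).mpr fun y => ?_) x.2)
    obtain ⟨r, hr, u, hu, rfl⟩ := hdec y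
    rw [polar_add_right, polar_comm, (hR r).mp hr, zero_add]
    exact (H13.polar_restrict U x ⟨u, hu⟩).symm.trans (hx _)
  have hnz : H13.nz Q = 2 ^ finrank (ZMod 2) R * H13.nz (Q.restrict U) := by
    let f : R × {u : U // Q.restrict U u = 0} → {v // Q v = 0} := fun x =>
      ⟨x.1 + x.2, (hQ' _ x.1.2 _).trans x.2.2⟩
    have hf : Function.Bijective f := by
      constructor
      · rintro ⟨r, u⟩ ⟨r', u'⟩ e
        have e' : (r : V) + u = r' + u' := congrArg Subtype.val e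
        have := (Submodule.prodEquivOfIsCompl R U hU).injective (a₁ := (r, u)) (a₂ := (r', u')) e'
        exact Prod.ext (Prod.ext_iff.mp this).1 (Subtype.ext (Prod.ext_iff.mp this).2)
      · rintro ⟨v, hv⟩
        obtain ⟨r, hr, u, hu, rfl⟩ := hdec v
        exact ⟨(⟨r, hr⟩, ⟨⟨u, hu⟩, (hQ' r hr u).symm.trans hv⟩), rfl⟩
    rw [H13.nz, ← Nat.card_congr (Equiv.ofBijective f hf), Nat.card_prod, H13.card_eq_pow (F := ZMod 2),
      Nat.card_zmod]
    rfl
  obtain ⟨m, b, -⟩ := H13.exists_symplectic_basis (polarBilin (Q.restrict U))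
    (fun x => by simp [polar_self, CharTwo.two_eq_zero]) hnd
  have hm : finrank (ZMod 2) U = 2 * m := by rw [finrank_eq_card_basis b]; simp [two_mul]
  have hd := Submodule.finrank_add_eq_of_isCompl hU
  have hm1 : 1 ≤ m := by
    by_contra hc
    obtain ⟨v, hv⟩ := hQ
    obtain ⟨r, hr, u, hu, rfl⟩ := hdec v
    rw [Submodule.finrank_eq_zero.mp (show finrank (ZMod 2) U = 0 by omega), Submodule.mem_bot] at hu
    exact hv (by rw [hu, add_zero, h r hr])
  refine ⟨m, hm1, by omega, fun e x hx => ?_, ?_⟩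
  · have := (hR x).mpr hx
    rwa [Submodule.finrank_eq_zero.mp (show finrank (ZMod 2) R = 0 by omega), Submodule.mem_bot] at this
  obtain ⟨k, rfl⟩ := Nat.exists_eq_add_of_le' hm1
  rw [← hd, hm, hnz, show finrank (ZMod 2) R + 2 * (k + 1) - (k + 1) = finrank (ZMod 2) R + (k + 1) by omega,
    pow_add, pow_add, mul_left_comm, ← mul_add, ← mul_add]
  have h1 : 2 ^ (k + 1) ≤ 2 ^ (2 * k + 1) := Nat.pow_le_pow_right two_pos (by omega)
  have h2 : 2 ^ (2 * (k + 1)) = 2 * 2 ^ (2 * k + 1) := by ring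
  have h3 : 2 * (k + 1) - 1 = 2 * k + 1 := by omega
  by_cases hP : H13.IsPlus (Q.restrict U)
  · left
    congr 1
    rw [hnd.nz_plus hP hm1 hm, Nat.card_zmod, h3, h2, Nat.add_sub_cancel, pow_succ 2 k]
    omega
  · right
    congr 1
    rw [hnd.nz_minus hP hm1 hm, Nat.card_zmod, h3, h2, Nat.add_sub_cancel]
    rw [pow_succ 2 k] at h1 ⊢
    omega

/-- Let G be a finite 2-group whose Frattini subgroup Φ(G) has order 2, with |G : Φ(G)| = 2^d, and let j be the number of elements x of G with x² = 1. Then j = 2^d, or j = 2^d + 2^(d−r) or j = 2^d − 2^(d−r) for some positive integer r with 2r ≤ d. Moreover if d = 2r and j is 2^d + 2^r or 2^d − 2^r, then G is extraspecial. -/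
theorem result {G : Type*} [Group G] [Finite G] (hG : IsPGroup 2 G) (hΦ : Nat.card (frattini G) = 2) (d : ℕ) (hd : (frattini G).index = 2 ^ d) : (Nat.card {x : G // x ^ 2 = 1} = 2 ^ d ∨ ∃ r : ℕ, 1 ≤ r ∧ 2 * r ≤ d ∧ (Nat.card {x : G // x ^ 2 = 1} = 2 ^ d + 2 ^ (d - r) ∨ Nat.card {x : G // x ^ 2 = 1} + 2 ^ (d - r) = 2 ^ d)) ∧ (∀ r : ℕ, d = 2 * r → (Nat.card {x : G // x ^ 2 = 1} = 2 ^ d + 2 ^ r ∨ Nat.card {x : G // x ^ 2 = 1} + 2 ^ r = 2 ^ d) → Cfsg.IsExtraspecial 2 G) := by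
  have := hG.isNilpotent
  have hc : frattini G ≤ Subgroup.center G := by
    intro x hx
    refine Subgroup.mem_center_iff.mpr fun g => ?_
    by_cases h1 : x = 1
    · simp [h1]
    obtain ⟨y, -, hy⟩ := (Nat.card_eq_two_iff' (1 : frattini G)).mp hΦ
    have h2 := hy ⟨x, hx⟩ fun e => h1 (congrArg Subtype.val e)
    have h3 := hy ⟨g * x * g⁻¹, Subgroup.Normal.conj_mem inferInstance x hx g⟩ fun e =>
      h1 (conj_eq_one_iff.mp (congrArg Subtype.val e))
    exact mul_inv_eq_iff_eq_mul.mp (congrArg Subtype.val (h3.trans h2.symm))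
  obtain ⟨n, c, hZ⟩ := H26.exists_ES_of_card hΦ hc H1.commutator_le_frattini (H1.pow_mem_frattini hG)
  have hn : Module.finrank (ZMod 2) (Fin n → ZMod 2) = d := by
    rw [← hZ, c.index_Z, H13.card_eq_pow (F := ZMod 2), Nat.card_zmod] at hd
    exact Nat.pow_right_injective le_rfl hd
  have hQ : ∃ v, c.Q v ≠ 0 := by
    by_contra h
    push Not at h
    have h1 := (c.isElementaryAbelian_iff (A := ⊤)).mpr fun w _ => h w
    have := h1.1
    have h2 := (H1.frattini_eq_bot_iff hG).mpr ⟨⟨⟨fun x y =>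
      setLike_mul_comm (s := (⊤ : Subgroup G)) trivial trivial⟩⟩, fun x => h1.2 x trivial⟩
    rw [h2, Subgroup.card_bot] at hΦ
    omega
  have h := count c.Q hQ
  rw [hn, ← c.card_sq_eq_one] at h
  refine ⟨h.imp_right fun ⟨r, h1, h2, _, h3⟩ => ⟨r, h1, h2, h3⟩, fun r hr h1 => ?_⟩
  have h2 : 0 < 2 ^ r := by positivity
  rcases h with h | ⟨s, h3, h4, h5, h6⟩
  · omega
  have h7 : 0 < 2 ^ (d - s) := by positivity
  have h8 : d - s = r := Nat.pow_right_injective le_rfl (by dsimp only; omega)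
  have : Nontrivial (Fin n → ZMod 2) := Module.nontrivial_of_finrank_pos (R := ZMod 2) (by omega)
  exact c.isExtraspecial (c.nd_Q_iff.mp (h5 (by omega)))

end Cfsg.Agent.S3772
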