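import Cfsg.Statements.S3773
import Cfsg.Agent.H25.Rank2
import Cfsg.Agent.H3.PGroup1

set_option autoImplicit false
open Cfsg

namespace Cfsg.Agent.S3773

open Subgroup Cfsg.Agent.H20 Cfsg.Agent.H21 Cfsg.Agent.H25
open scoped commutatorElement

/-- Let G be a finite 2-group of nilpotency class at most 2 and exponent dividing 4 in which the elements x with x² = 1 form a subgroup N. Then |G| ≤ |N|³, and |G| < |N|³ unless G is special. -/
theorem result {G : Type*} [Group G] [Finite G] (hG : IsPGroup 2 G) (hcl : (⊤ : Subgroup G).lowerCentralSeries 2 = ⊥) (hexp : ∀ x : G, x ^ 4 = 1) (hN : ∀ x y : G, x ^ 2 = 1 → y ^ 2 = 1 → (x * y) ^ 2 = 1) : Nat.card G ≤ Nat.card {x : G // x ^ 2 = 1} ^ 3 ∧ (¬ Cfsg.IsSpecial 2 G → Nat.card G < Nat.card {x : G // x ^ 2 = 1} ^ 3) := by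
  classical
  haveI : Fact (Nat.Prime 2) := ⟨Nat.prime_two⟩
  let E : Subgroup G :=
    { carrier := {x | x ^ 2 = 1}
      mul_mem' := fun {a b} ha hb => hN a b ha hb
      one_mem' := by simp
      inv_mem' := fun {a} ha => by
        show a⁻¹ ^ 2 = 1
        rw [inv_pow, show a ^ 2 = 1 from ha, inv_one] }
  have hE : ∀ x, x ∈ E ↔ x ^ 2 = 1 := fun x => Iff.rfl
  have hcE : Nat.card {x : G // x ^ 2 = 1} = ♯E := rfl
  rw [hcE]
  have hcz : ∀ a b : G, ⁅a, b⁆ ∈ center G := by
    intro a b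
    rw [mem_center_iff]
    intro g
    have h1 : ⁅⁅a, b⁆, g⁆ ∈ (⊤ : Subgroup G).lowerCentralSeries 2 :=
      commutator_mem_commutator (commutator_mem_commutator (mem_top a) (mem_top b)) (mem_top g)
    rw [hcl, mem_bot, commutatorElement_eq_one_iff_mul_comm] at h1
    exact h1.symm
  have hsq : ∀ a b : G, (a * b) ^ 2 = a ^ 2 * b ^ 2 * ⁅b⁻¹, a⁻¹⁆ := by
    intro a b
    have h := mem_center_iff.mp (hcz b⁻¹ a⁻¹) b
    calc (a * b) ^ 2 = a * (a * b * (⁅b⁻¹, a⁻¹⁆ * b)) := by
          rw [commutatorElement_def, sq]; group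
      _ = _ := by rw [← h, sq, sq]; group
  have hc2 : ∀ a b : G, ⁅a, b⁆ ^ 2 = 1 := by
    have h0 : ∀ a b : G, ⁅a ^ 2, b⁆ = ⁅a, b⁆ ^ 2 := by
      intro a b
      have h := mem_center_iff.mp (hcz a b) a
      calc ⁅a ^ 2, b⁆ = a * ⁅a, b⁆ * a⁻¹ * ⁅a, b⁆ := by
            simp only [commutatorElement_def, sq]; group
        _ = _ := by rw [h, sq]; group
    have h1 : ∀ a b : G, ⁅a, b⁆ ^ 4 = 1 := fun a b => hexp _
    have h2 : ∀ a b : G, ⁅a ^ 2, b ^ 2⁆ = 1 := by
      intro a b
      rw [h0, ← commutatorElement_inv, h0, inv_pow, ← pow_mul, h1, inv_one]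
    intro a b
    have h3 := hexp (b⁻¹ * a⁻¹)
    rw [show (4 : ℕ) = 2 * 2 by norm_num, pow_mul, hsq, inv_inv, inv_inv] at h3
    have hc : Commute (b⁻¹ ^ 2 * a⁻¹ ^ 2) ⁅a, b⁆ := mem_center_iff.mp (hcz a b) _
    have hc' : Commute (b⁻¹ ^ 2) (a⁻¹ ^ 2) := commutatorElement_eq_one_iff_commute.mp (h2 _ _)
    rw [hc.mul_pow, hc'.mul_pow, ← pow_mul, ← pow_mul, hexp, hexp, one_mul, one_mul] at h3
    exact h3
  have hsz : ∀ a : G, a ^ 2 ∈ center G := by
    intro a
    rw [mem_center_iff]
    intro g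
    have h := mem_center_iff.mp (hcz a g) a
    have : ⁅a ^ 2, g⁆ = 1 := by
      calc ⁅a ^ 2, g⁆ = a * ⁅a, g⁆ * a⁻¹ * ⁅a, g⁆ := by
            simp only [commutatorElement_def, sq]; group
        _ = ⁅a, g⁆ ^ 2 := by rw [h, sq]; group
        _ = 1 := hc2 a g
    exact (commutatorElement_eq_one_iff_mul_comm.mp this).symm
  have hΦ : frattini G ≤ E ⊓ center G := by
    refine H3.frattini_le_of_commutator_le (p := 2) ?_ fun x => mem_inf.mpr ⟨?_, hsz x⟩
    · rw [_root_.commutator_def, commutator_le]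
      exact fun a _ b _ => mem_inf.mpr ⟨hc2 a b, hcz a b⟩
    · rw [hE, ← pow_mul]; exact hexp x
  obtain ⟨l, hl⟩ := (hG.to_subgroup (frattini G)).exists_card_eq
  obtain ⟨m, hm⟩ := hG.index E
  have h1 := index_le_of_sq (N := frattini G) (E := E) (hΦ.trans inf_le_right)
    (H3.pow_mem_frattini hG) (fun y hy => (hΦ hy).1) hE hl.le
  have h2 : m ≤ 2 * l := by
    rw [hm] at h1
    have := (Nat.pow_lt_pow_iff_right (by norm_num : 1 < 2)).mp h1
    omega
  have h3 : E.index ≤ ♯(frattini G) ^ 2 := by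
    rw [hm, hl, ← pow_mul, mul_comm]; exact Nat.pow_le_pow_right (by norm_num) h2
  have h4 : ♯(frattini G) ≤ ♯E := card_le (hΦ.trans inf_le_left)
  have h5 := E.card_mul_index
  have hpos := card_pos E
  refine ⟨?_, fun hns => ?_⟩
  · rw [← h5, pow_succ']
    exact Nat.mul_le_mul_left _ (h3.trans (Nat.pow_le_pow_left h4 2))
  by_contra hge
  rw [not_lt, ← h5, pow_succ'] at hge
  have h6 : ♯E ^ 2 ≤ E.index := Nat.le_of_mul_le_mul_left hge hpos
  have h7 : ♯E ≤ ♯(frattini G) := (Nat.pow_le_pow_iff_left (by norm_num)).mp (h6.trans h3)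
  have hΦE : frattini G = E := eq_of_le_card (hΦ.trans inf_le_left) h7
  have hEZ : E ≤ center G := hΦE ▸ hΦ.trans inf_le_right
  rw [hΦE] at hl
  have hidx : 2 ^ (2 * l) ≤ E.index := by rw [mul_comm, pow_mul, ← hl]; exact h6
  have hE2 : ∀ x : G, x ^ 2 ∈ E := fun x => by rw [hE, ← pow_mul]; exact hexp x
  haveI hEn : E.Normal := hΦE ▸ inferInstance
  have hZ : center G = E := by
    refine le_antisymm (fun z hz => ?_) hEZ
    by_contra hzE
    have ht : orderOf (z ^ 2) = 2 := orderOf_eq_prime (hE2 z) hzE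
    have hTE : zpowers (z ^ 2) ≤ E := zpowers_le.mpr (hE2 z)
    haveI : (zpowers (z ^ 2)).Normal := ⟨fun n hn g => by
      rw [mem_center_iff.mp (hEZ (hTE hn)) g]; simpa using hn⟩
    let π := QuotientGroup.mk' (zpowers (z ^ 2))
    have hπ : Function.Surjective π := QuotientGroup.mk'_surjective _
    have hk : π.ker = zpowers (z ^ 2) := QuotientGroup.ker_mk' _
    have hzn : z ∈ N⟦E⟧ := by rw [normalizer_eq_top]; trivial
    have hc1 := H3.card_sup_zpowers (p := 2) hzn hzE (hE2 z)
    obtain ⟨l', rfl⟩ : ∃ l', l = l' + 1 := by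
      have := card_dvd hTE
      rw [Nat.card_zpowers, ht, hl] at this
      cases l with
      | zero => simp at this
      | succ l' => exact ⟨l', rfl⟩
    have hc3 : ♯(E.map π) = 2 ^ l' := by
      have := card_mul_relIndex hTE
      rw [Nat.card_zpowers, ht, hl, ← hk, relIndex_ker, pow_succ' 2 l'] at this
      exact Nat.eq_of_mul_eq_mul_left (by norm_num) this
    have := index_le_of_sq (N := E.map π) (E := (E ⊔ zpowers z).map π) (l := l') ?_ ?_ ?_ ?_ hc3.le
    · rw [index_map, hk, sup_eq_left.mpr (hTE.trans le_sup_left), MonoidHom.range_eq_top.mpr hπ,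
        index_top, mul_one] at this
      have h8 := (E ⊔ zpowers z).card_mul_index
      rw [hc1, ← h5, mul_comm 2, mul_assoc] at h8
      have h9 := Nat.eq_of_mul_eq_mul_left hpos h8
      rw [← h9, show 2 * (l' + 1) = (2 * l' + 1) + 1 by ring, pow_succ] at hidx
      omega
    · rintro _ ⟨y, hy, rfl⟩
      rw [mem_center_iff]
      intro g
      obtain ⟨g, rfl⟩ := hπ g
      rw [← map_mul, ← map_mul, mem_center_iff.mp (hEZ hy) g]
    · intro x
      obtain ⟨x, rfl⟩ := hπ x
      exact ⟨x ^ 2, hE2 x, map_pow _ _ _⟩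
    · rintro _ ⟨y, hy, rfl⟩
      rw [← map_pow, (hE y).mp hy, map_one]
    · intro x
      obtain ⟨x, rfl⟩ := hπ x
      rw [← map_pow, ← MonoidHom.mem_ker, hk, ← mem_comap, comap_map_eq, hk,
        sup_eq_left.mpr (hTE.trans le_sup_left)]
      constructor
      · intro hx
        obtain ⟨n, hn, k, rfl⟩ := (H3.mem_sup_zpowers_iff hzn).mp hx
        have hc : Commute n (z ^ k) := (mem_center_iff.mp (hEZ hn) _).symm
        rw [hc.mul_pow, (hE n).mp hn, one_mul, ← zpow_natCast (z ^ k), ← zpow_mul, mul_comm, zpow_mul,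
          zpow_natCast]
        exact zpow_mem_zpowers _ _
      · intro hx
        rw [mem_zpowers_iff_mem_range_orderOf, ht] at hx
        simp only [Finset.mem_image, Finset.mem_range] at hx
        obtain ⟨i, hi, hx⟩ := hx
        interval_cases i
        · exact mem_sup_left ((hE x).mpr (by simpa using hx.symm))
        · have hc : Commute x z⁻¹ := mem_center_iff.mp ((center G).inv_mem hz) x
          have : x * z⁻¹ ∈ E := by
            rw [hE, hc.mul_pow, ← hx]; simp
          have h := mul_mem_sup this (mem_zpowers z)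
          simpa using h
  have hD : commutator G = E := by
    have hle : commutator G ≤ E := hΦE ▸ H3.commutator_le_frattini hG
    by_contra hne
    obtain ⟨W, x, hWn, hW, hx, hx2, -, hsup⟩ :=
      H3.exists_normal_sup_zpowers_eq hG (lt_of_le_of_ne hle hne)
    have hc1 := H3.card_sup_zpowers (p := 2) (by rw [normalizer_eq_top]; trivial) hx hx2
    rw [hsup] at hc1
    have hWE : W ≤ E := hsup ▸ le_sup_left
    let f : G →* G ⧸ W :=
      { toFun := fun y => QuotientGroup.mk (y ^ 2)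
        map_one' := by simp
        map_mul' := fun a b => by
          rw [hsq, QuotientGroup.mk_mul, QuotientGroup.mk_mul, (QuotientGroup.eq_one_iff _).mpr
            (hW (commutator_mem_commutator (mem_top _) (mem_top _))), mul_one] }
    have hK : ∀ y, y ∈ f.ker ↔ y ^ 2 ∈ W := fun y => QuotientGroup.eq_one_iff _
    have hEK : E ≤ f.ker := fun y hy => by rw [hK, (hE y).mp hy]; exact W.one_mem
    have hi : f.ker.index ≤ 2 := by
      rw [index_ker]
      have : f.range ≤ E.map (QuotientGroup.mk' W) := by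
        rintro _ ⟨y, rfl⟩
        exact ⟨y ^ 2, hE2 y, rfl⟩
      refine (card_le this).trans ?_
      have h := card_mul_relIndex hWE
      rw [hc1, mul_comm 2] at h
      rw [← relIndex_ker, QuotientGroup.ker_mk', Nat.eq_of_mul_eq_mul_left (card_pos W) h]
    obtain ⟨l', rfl⟩ : ∃ l', l = l' + 1 := by
      cases l with
      | zero => rw [hl] at hc1; omega
      | succ l' => exact ⟨l', rfl⟩
    have hc3 : ♯(W.subgroupOf f.ker) = 2 ^ l' := by
      rw [card_subgroupOf (hWE.trans hEK)]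
      rw [hl, pow_succ'] at hc1
      exact (Nat.eq_of_mul_eq_mul_left (by norm_num) hc1).symm
    have := index_le_of_sq (N := W.subgroupOf f.ker) (E := E.subgroupOf f.ker) (l := l') ?_ ?_ ?_ ?_ hc3.le
    · have h8 := relIndex_mul_index hEK
      change E.relIndex f.ker < _ at this
      rw [← h8, show 2 * (l' + 1) = (2 * l' + 1) + 1 by ring, pow_succ] at hidx
      have := Nat.mul_le_mul_left (E.relIndex f.ker) hi
      omega
    · intro y hy
      rw [mem_center_iff]
      intro g
      exact Subtype.ext (mem_center_iff.mp (hEZ (hWE hy)) g)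
    · intro y
      exact (hK y).mp y.2
    · intro y hy
      exact Subtype.ext ((hE y).mp (hWE hy))
    · intro y
      rw [mem_subgroupOf, hE, Subtype.ext_iff]; rfl
  exact hns ⟨hG, hΦE.trans hZ.symm, hD.trans hZ.symm⟩

end Cfsg.Agent.S3773
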