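import Cfsg.Statements.S3774
import Cfsg.Agent.H1.Basic

set_option autoImplicit false
open Cfsg

namespace Cfsg.Agent.S3774

open Subgroup

/-- Let G be a nontrivial finite 2-group whose automorphism group permutes the involutions of G transitively. Then every involution of G is central, so that the involutions together with 1 form the subgroup Ω₁(Z(G)), and if this subgroup has order q then |G| is a power of q. -/
theorem result {G : Type*} [Group G] [Finite G] [Nontrivial G] (hG : IsPGroup 2 G) (htrans : ∀ x y : G, x ≠ 1 → x ^ 2 = 1 → y ≠ 1 → y ^ 2 = 1 → ∃ a : MulAut G, a x = y) : (∀ x : G, x ^ 2 = 1 → x ∈ Subgroup.center G) ∧ ∃ m : ℕ, Nat.card G = Nat.card {z : G // z ^ 2 = 1} ^ m := by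
  classical
  haveI : Fact (Nat.Prime 2) := ⟨Nat.prime_two⟩
  haveI := Fintype.ofFinite G
  haveI := hG.center_nontrivial
  obtain ⟨z, hz⟩ := exists_prime_orderOf_dvd_card' (G := center G) 2
    ((hG.to_subgroup _).card_eq_or_dvd.resolve_left Finite.one_lt_card.ne')
  obtain ⟨h2, h1⟩ := (orderOf_eq_prime_iff (x := (z : G))).mp ((orderOf_coe z).trans hz)
  have hc : ∀ x : G, x ^ 2 = 1 → x ∈ center G := fun x hx => by
    by_cases h : x = 1
    · exact h ▸ one_mem _
    obtain ⟨a, rfl⟩ := htrans z x h1 h2 h hx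
    exact characteristic_iff_le_comap.mp inferInstance a z.2
  refine ⟨hc, ?_⟩
  let V : Subgroup G := ⟨⟨⟨{x | x ^ 2 = 1}, fun {a b} (ha : _ = _) (hb : _ = _) => show _ = _ by
    rw [Commute.mul_pow (mem_center_iff.mp (hc b hb) a), ha, hb, one_mul]⟩, one_pow 2⟩,
    fun {a} (ha : _ = _) => show _ = _ by rw [inv_pow, ha, inv_one]⟩
  obtain ⟨n, hn⟩ : ∃ n, Nat.card {z : G // z ^ 2 = 1} = 2 ^ n := (hG.to_subgroup V).exists_card_eq
  obtain ⟨N, hN⟩ := hG.exists_card_eq
  let f : G → G := fun x => x ^ (orderOf x / 2)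
  have hf : ∀ x ∈ Finset.univ.erase (1 : G), f x ∈ (Finset.univ.filter fun y : G => y ^ 2 = 1).erase 1 :=
    fun x hx => by
      have h3 : 2 ∣ orderOf x := by
        obtain ⟨k, hk⟩ := (Nat.dvd_prime_pow Nat.prime_two).mp (hN ▸ orderOf_dvd_natCard x)
        exact hk.2 ▸ dvd_pow_self 2 fun e => (Finset.mem_erase.mp hx).1 (orderOf_eq_one_iff.mp (by simp [hk.2, e]))
      have := (orderOf_eq_prime_iff (x := f x)).mp (orderOf_pow_orderOf_div (orderOf_pos x).ne' h3)
      simp [this]
  have h3 : 2 ^ n - 1 ∣ 2 ^ N - 1 := by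
    have h4 := Finset.card_eq_sum_card_fiberwise hf
    rw [Finset.sum_const_nat (m := ((Finset.univ.erase (1 : G)).filter fun x => f x = z).card) fun y hy => ?_,
      Finset.card_erase_of_mem (Finset.mem_univ _), Finset.card_erase_of_mem (by simp), Finset.card_univ,
      ← Fintype.card_subtype, ← Nat.card_eq_fintype_card, ← Nat.card_eq_fintype_card, hn, hN] at h4
    · exact ⟨_, h4⟩
    simp only [Finset.mem_erase, Finset.mem_filter, Finset.mem_univ, true_and] at hy
    obtain ⟨a, rfl⟩ := htrans z y h1 h2 hy.1 hy.2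
    refine (Finset.card_equiv a.toEquiv fun x => ?_).symm
    simp [f, ← map_pow]
  have h4 := Nat.pow_sub_one_gcd_pow_sub_one 2 n N
  rw [Nat.gcd_eq_left h3] at h4
  obtain ⟨m, rfl⟩ : n ∣ N := Nat.gcd_eq_left_iff_dvd.mp (Nat.pow_right_injective le_rfl (by
    have := Nat.two_pow_pos n
    have := Nat.two_pow_pos (n.gcd N)
    simp only
    omega))
  exact ⟨m, by rw [hN, hn, pow_mul]⟩

end Cfsg.Agent.S3774
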