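import Cfsg.Statements.S3775
import Cfsg.Agent.H26.InvMaschke
import Cfsg.Agent.H1.Quaternion

set_option autoImplicit false
open Cfsg

namespace Cfsg.Agent.S3775

open Subgroup Cfsg.Agent.H26

theorem mas {X A : Type*} [Group X] [Finite X] [CommGroup A] [Finite A] [MulDistribMulAction X A] {p : ℕ}
    [Fact p.Prime] (hX : (Nat.card X).Coprime p) {K U N : Subgroup A} (hK : ∀ a : X, ∀ x ∈ K, a • x ∈ K)
    (hU : ∀ a : X, ∀ x ∈ U, a • x ∈ U) (hN : ∀ a : X, ∀ x ∈ N, a • x ∈ N) (hNU : N ≤ U) (hUK : U ≤ K)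
    (h2 : ∀ x ∈ K, x ^ p ∈ N) : ∃ W : Subgroup A, U ⊓ W = N ∧ U ⊔ W = K ∧ ∀ a : X, ∀ x ∈ W, a • x ∈ W := by
  have := normal_map_ambL hN
  obtain ⟨W, h3, h4, h5⟩ := maschke_mod (p := p) (K := K.map (ambL X A)) (A := ambA X A)
    (N := N.map (ambL X A)) (U := U.map (ambL X A)) (by rwa [card_ambA]) (map_mono hNU)
    (map_mono hUK) (by
      rw [← map_commutator]
      exact map_mono ((commutator_eq_bot_iff_le_centralizer.mpr fun x _ y _ => mul_comm y x).trans_le bot_le))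
    (by rintro _ ⟨x, hx, rfl⟩; rw [← map_pow]; exact mem_map_of_mem _ (h2 x hx))
    (ambA_le_normalizer_iff.mpr hK) (ambA_le_normalizer_iff.mpr hU)
  obtain ⟨W, rfl⟩ := exists_eq_map_ambL (X := W) ((h4 ▸ le_sup_right).trans (map_mono le_top))
  rw [← map_inf _ _ _ ambL_inj] at h3
  rw [← Subgroup.map_sup] at h4
  exact ⟨W, map_injective ambL_inj h3, map_injective ambL_inj h4, ambA_le_normalizer_iff.mp h5⟩

/-- Let A be a finite abelian p-group and X a group of automorphisms of A of order prime to p. Call a subgroup of A invariant when every element of X maps it onto itself. Then the following are equivalent: (i) A is not the direct product of two nontrivial invariant subgroups; (ii) every invariant subgroup of A is one of the subgroups Ω_i(A) = {a : a^(p^i) = 1}; (iii) the subgroup Ω₁(A) of elements of order dividing p has no invariant subgroups other than 1 and itself. -/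
theorem result {A : Type*} [CommGroup A] [Finite A] {p : ℕ} [Fact p.Prime] (hA : IsPGroup p A) (X : Subgroup (MulAut A)) (hX : (Nat.card X).Coprime p) : ((¬ ∃ B C : Subgroup A, B ≠ ⊥ ∧ C ≠ ⊥ ∧ (∀ x ∈ X, B.map x.toMonoidHom = B) ∧ (∀ x ∈ X, C.map x.toMonoidHom = C) ∧ B ⊓ C = ⊥ ∧ B ⊔ C = ⊤) ↔ (∀ B : Subgroup A, (∀ x ∈ X, B.map x.toMonoidHom = B) → ∃ i : ℕ, ∀ a : A, a ∈ B ↔ a ^ p ^ i = 1)) ∧ ((∀ B : Subgroup A, (∀ x ∈ X, B.map x.toMonoidHom = B) → ∃ i : ℕ, ∀ a : A, a ∈ B ↔ a ^ p ^ i = 1) ↔ (∀ B : Subgroup A, (∀ x ∈ X, B.map x.toMonoidHom = B) → (∀ b ∈ B, b ^ p = 1) → B = ⊥ ∨ ∀ a : A, a ∈ B ↔ a ^ p = 1)) := by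
  have hp : p.Prime := Fact.out
  let I := fun B : Subgroup A => ∀ a : X, ∀ x ∈ B, a • x ∈ B
  have hI : ∀ B : Subgroup A, (∀ x ∈ X, B.map x.toMonoidHom = B) ↔ I B := fun B =>
    ⟨fun h a x hx => (h a a.2).le (mem_map_of_mem _ hx), fun h x hx => le_antisymm
      (map_le_iff_le_comap.mpr (h ⟨x, hx⟩)) fun b hb => ⟨_, h ⟨x, hx⟩⁻¹ b hb, x.apply_inv_self A b⟩⟩
  simp only [hI]
  have iinf : ∀ {B C}, I B → I C → I (B ⊓ C) := fun hB hC a x hx => ⟨hB a x hx.1, hC a x hx.2⟩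
  have isup : ∀ {B C}, I B → I C → I (B ⊔ C) := fun hB hC a x hx => by
    obtain ⟨b, hb, c, hc, rfl⟩ := mem_sup.mp hx
    exact smul_mul' a b c ▸ mul_mem_sup (hB a b hb) (hC a c hc)
  have imap : ∀ {B} n, I B → I (B.map (powMonoidHom n)) := fun n hB a _ ⟨x, hx, e⟩ =>
    ⟨a • x, hB a x hx, e ▸ (smul_pow' a x n).symm⟩
  have icomap : ∀ {B} n, I B → I (B.comap (powMonoidHom n)) := fun n hB a x hx =>
    show (a • x) ^ n ∈ _ from smul_pow' a x n ▸ hB a _ hx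
  have ibot : I ⊥ := fun a x hx => by simp [mem_bot.mp hx]
  have hex : ∀ B : Subgroup A, B = ⊥ ∨ ∃ e, (∃ b ∈ B, b ^ p ^ e ≠ 1) ∧ ∀ b ∈ B, b ^ p ^ (e + 1) = 1 := fun B => by
    classical
    have h : ∃ n, ∀ b ∈ B, b ^ p ^ n = 1 := by
      obtain ⟨n, hn⟩ := hA.exists_card_eq
      exact ⟨n, fun b _ => hn ▸ pow_card_eq_one'⟩
    have h1 := Nat.find_spec h
    have h2 := fun m => Nat.find_min h (m := m)
    generalize Nat.find h = n at *
    obtain _ | n := n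
    · exact .inl (eq_bot_iff.mpr fun b hb => by simpa using h1 b hb)
    · exact .inr ⟨n, by simpa using h2 n n.lt_succ_self, h1⟩
  have hmono : ∀ {a : A} {i j : ℕ}, i ≤ j → a ^ p ^ i = 1 → a ^ p ^ j = 1 := fun {a i j} h e => by
    obtain ⟨k, rfl⟩ := Nat.exists_eq_add_of_le h
    rw [pow_add, pow_mul, e, one_pow]
  have h32 : (∀ B : Subgroup A, I B → (∀ b ∈ B, b ^ p = 1) → B = ⊥ ∨ ∀ a : A, a ∈ B ↔ a ^ p = 1) →
      ∀ B : Subgroup A, I B → ∃ i : ℕ, ∀ a : A, a ∈ B ↔ a ^ p ^ i = 1 := fun h B hB => by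
    obtain rfl | ⟨e, ⟨b, hb, h1⟩, h2⟩ := hex B
    · exact ⟨0, by simp⟩
    suffices h3 : ∀ i ≤ e + 1, ∀ a : A, a ^ p ^ i = 1 → a ∈ B from ⟨e + 1, fun a => ⟨h2 a, h3 _ le_rfl a⟩⟩
    intro i
    induction i with
    | zero => exact fun _ a ha => by simp [show a = 1 by simpa using ha]
    | succ i ih =>
    intro hi a ha
    obtain ⟨k, rfl⟩ := Nat.exists_eq_add_of_le (Nat.le_of_succ_le_succ hi)
    obtain ⟨c, ⟨h3, h4⟩, h5⟩ := ((h _ (imap (p ^ i) (iinf hB (icomap (p ^ (i + 1)) ibot))) (by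
      rintro _ ⟨x, hx, rfl⟩
      exact (pow_mul x _ _).symm.trans hx.2)).resolve_left (fun h => h1 (mem_bot.mp (h.le ⟨b ^ p ^ k,
        ⟨pow_mem hb _, show (b ^ p ^ k) ^ p ^ (i + 1) = 1 by rw [← pow_mul, ← pow_add, ← h2 b hb]; congr 2; ring⟩,
        show (b ^ p ^ k) ^ p ^ i = _ by rw [← pow_mul, ← pow_add, add_comm]⟩))) (a ^ p ^ i)).mpr ((pow_mul a _ _).symm.trans ha)
    simpa using mul_mem (ih (by omega) (a * c⁻¹) (by
      rw [mul_pow, inv_pow, ← h5]; exact mul_inv_cancel _)) h3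
  refine ⟨⟨fun h => h32 fun B hB h1 => or_iff_not_imp_left.mpr fun h2 => ?_, fun h ⟨B, C, h1, h2, hB, hC, h3, _⟩ => ?_⟩,
    fun h B hB h1 => ?_, h32⟩
  rotate_left
  · obtain ⟨i, hi⟩ := h B hB
    obtain ⟨j, hj⟩ := h C hC
    exact (le_total i j).elim (fun e => h1 (h3 ▸ (inf_eq_left.mpr fun a ha => (hj a).mpr (hmono e ((hi a).mp ha))).symm))
      fun e => h2 (h3 ▸ (inf_eq_right.mpr fun a ha => (hi a).mpr (hmono e ((hj a).mp ha))).symm)
  · obtain ⟨_ | i, hi⟩ := h B hB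
    · exact .inl (eq_bot_iff.mpr fun a ha => by simpa using (hi a).mp ha)
    · exact .inr fun a => ⟨h1 a, fun e => (hi a).mpr (hmono i.succ_pos (by rwa [pow_one]))⟩
  obtain ⟨e, ⟨b, -, h3⟩, h4⟩ := (hex ⊤).resolve_left fun e => h2 (eq_bot_iff.mpr (le_top.trans e.le))
  suffices h5 : ∀ W, I W → W ≤ (powMonoidHom (p ^ e) : A →* A).range → W ≠ ⊥ → ∀ a, a ^ p = 1 → a ∈ W from
    fun a => ⟨h1 a, h5 B hB (fun x hx => h5 _ (by rw [MonoidHom.range_eq_map]; exact imap _ fun _ _ _ => trivial) le_rfl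
      (fun e => h3 (mem_bot.mp (e.le ⟨b, rfl⟩))) x (h1 x hx)) h2 a⟩
  intro W hW h5 h6
  obtain ⟨H, ⟨hH, rfl⟩, hmin⟩ := (wellFounded_lt (α := Subgroup A)).has_min
    {H | I H ∧ H.map (powMonoidHom (p ^ e)) = W} ⟨_, icomap _ hW, map_comap_eq_self h5⟩
  have hK : ∀ x ∈ H, x ^ p ^ e = 1 → ∃ y ∈ H, y ^ p = x := fun x hx h7 => by
    obtain ⟨L, l1, l2, l3⟩ := mas hX hH (iinf hH (icomap (p ^ e) ibot)) (imap p hH) (by
      rintro _ ⟨x, hx, rfl⟩
      exact ⟨pow_mem hx p, (pow_mul x _ _).symm.trans (pow_succ' p e ▸ h4 x trivial)⟩) inf_le_left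
      fun x hx => mem_map_of_mem _ hx
    have l4 : L = H := by
      by_contra h8
      refine hmin L ⟨l3, ?_⟩ (lt_of_le_of_ne (le_sup_right.trans l2.le) h8)
      rw [← l2, Subgroup.map_sup, (Subgroup.map_eq_bot_iff (H ⊓ comap _ ⊥)).mpr inf_le_right, bot_sup_eq]
    exact l1.le ⟨⟨hx, h7⟩, l4.ge hx⟩
  obtain ⟨C, ⟨hC, h7⟩, hmax⟩ := (wellFounded_gt (α := Subgroup A)).has_min {C | I C ∧ H ⊓ C = ⊥}
    ⟨⊥, ibot, inf_bot_eq _⟩
  have h8 : H ⊔ C = ⊤ := eq_top_iff.mpr fun a _ => by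
    by_contra ha
    obtain ⟨k, h8, h9⟩ := H1.exists_pow_notMem_pow_succ_mem hA ha
    rw [pow_succ, pow_mul] at h9
    generalize a ^ p ^ k = a at *
    obtain ⟨x, hx, c, hc, e1⟩ := mem_sup.mp h9
    obtain ⟨y, hy, rfl⟩ := hK x hx (mem_bot.mp (h7.le <| mem_inf.mpr ⟨pow_mem hx _, by
      rw [eq_inv_of_mul_eq_one_left (show x ^ p ^ e * c ^ p ^ e = 1 by
        rw [← mul_pow, e1, ← pow_mul, ← pow_succ', h4 a trivial])]
      exact inv_mem (pow_mem hc _)⟩))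
    obtain ⟨E, l1, l2, l3⟩ := mas hX (icomap p hC) (iinf (icomap p hC) (isup hH hC)) hC
      (le_inf (fun x hx => pow_mem hx p) le_sup_right) inf_le_left fun x hx => hx
    have l4 : C = E := by
      by_contra h
      exact hmax E ⟨l3, eq_bot_iff.mpr fun x hx => h7.le ⟨hx.1, l1.le ⟨⟨(le_sup_right.trans l2.le) hx.2,
        mem_sup_left hx.1⟩, hx.2⟩⟩⟩ (lt_of_le_of_ne (l1.ge.trans inf_le_right) h)
    exact h8 (by simpa using mul_mem ((l2.ge.trans (sup_le inf_le_right (l4 ▸ le_sup_right))) (show a * y⁻¹ ∈ _ from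
      show _ ^ p ∈ C by rwa [mul_pow, ← e1, inv_pow, mul_inv_cancel_comm])) (mem_sup_left hy))
  obtain rfl : C = ⊥ := by
    by_contra h9
    exact h ⟨H, C, fun e => h6 (by rw [e, Subgroup.map_bot]), h9, hH, hC, h7, h8⟩
  obtain rfl : H = ⊤ := by simpa using h8
  intro a ha
  suffices h9 : ∀ i ≤ e, ∃ y, y ^ p ^ i = a from (h9 e le_rfl).imp fun y hy => ⟨trivial, hy⟩
  intro i
  induction i with
  | zero => exact fun _ => ⟨a, by simp⟩
  | succ i ih =>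
  intro hi
  obtain ⟨y, rfl⟩ := ih (by omega)
  obtain ⟨z, -, rfl⟩ := hK y trivial (hmono hi (by rwa [pow_succ, pow_mul]))
  exact ⟨z, by rw [pow_succ', pow_mul]⟩

end Cfsg.Agent.S3775
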