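import Cfsg.Statements.S3778
import Mathlib

set_option autoImplicit false
open Cfsg

namespace Cfsg.Agent.S3778

open scoped commutatorElement

def CC (G : Type*) [Group G] (i : ℕ) : Subgroup G where
  carrier := {x | ∀ g ∈ (⊤ : Subgroup G).lowerCentralSeries i,
    ⁅g, x⁆ ∈ (⊤ : Subgroup G).lowerCentralSeries (i + 2)}
  one_mem' := fun g _ => by simp
  mul_mem' := fun {x y} hx hy g hg => by
    have : ⁅g, x * y⁆ = ⁅g, x⁆ * (x * ⁅g, y⁆ * x⁻¹) := by
      simp only [commutatorElement_def]; group
    rw [this]
    exact mul_mem (hx g hg) (Subgroup.Normal.conj_mem inferInstance _ (hy g hg) x)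
  inv_mem' := fun {x} hx g hg => by
    have : ⁅g, x⁻¹⁆ = x⁻¹ * ⁅g, x⁆⁻¹ * x⁻¹⁻¹ := by
      simp only [commutatorElement_def]; group
    rw [this]
    exact Subgroup.Normal.conj_mem inferInstance _ (inv_mem (hx g hg)) _

theorem CC_ne_top {G : Type*} [Group G] [Group.IsNilpotent G] {i : ℕ}
    (hi : i + 1 < Group.nilpotencyClass G) : CC G i ≠ ⊤ := by
  intro h
  have h1 : (⊤ : Subgroup G).lowerCentralSeries (i + 1) ≤
      (⊤ : Subgroup G).lowerCentralSeries (i + 2) := by
    rw [Subgroup.lowerCentralSeries_succ, Subgroup.commutator_le]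
    intro g hg x _
    have : x ∈ CC G i := h ▸ Subgroup.mem_top x
    exact this g hg
  have h2 : ∀ k, (⊤ : Subgroup G).lowerCentralSeries (i + 1) ≤
      (⊤ : Subgroup G).lowerCentralSeries (i + 1 + k) := by
    intro k
    induction k with
    | zero => exact le_rfl
    | succ k ih => exact h1.trans (Subgroup.commutator_mono ih le_rfl)
  have h3 := h2 (Group.nilpotencyClass G)
  rw [(Subgroup.lowerCentralSeries_eq_bot_iff_nilpotencyClass_le
    (n := i + 1 + Group.nilpotencyClass G)).2 (by omega), le_bot_iff,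
    Subgroup.lowerCentralSeries_eq_bot_iff_nilpotencyClass_le] at h3
  omega

open Classical in
theorem pow_le {G : Type*} [Group G] [Finite G] {p : ℕ} [hp : Fact p.Prime] (hG : IsPGroup p G)
    (x : G) (j : ℕ) : p ^ ((Finset.range j).filter fun i => x ∉ CC G i).card ∣
      ((⊤ : Subgroup G).lowerCentralSeries j ⊔ Subgroup.centralizer {x}).index := by
  induction j with
  | zero => simp
  | succ j ih =>
    have hle : (⊤ : Subgroup G).lowerCentralSeries (j + 1) ⊔ Subgroup.centralizer {x} ≤
        (⊤ : Subgroup G).lowerCentralSeries j ⊔ Subgroup.centralizer {x} :=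
      sup_le_sup_right (Subgroup.lowerCentralSeries_antitone _ j.le_succ) _
    rw [← Subgroup.relIndex_mul_index hle, Finset.range_add_one, Finset.filter_insert]
    by_cases h : x ∉ CC G j
    · rw [if_pos h, Finset.card_insert_of_notMem (by simp), pow_succ']
      refine Nat.mul_dvd_mul ?_ ih
      obtain ⟨k, hk⟩ := (hG.to_subgroup _).index ((((⊤ : Subgroup G).lowerCentralSeries (j + 1) ⊔
        Subgroup.centralizer {x})).subgroupOf
        ((⊤ : Subgroup G).lowerCentralSeries j ⊔ Subgroup.centralizer {x}))
      rw [Subgroup.relIndex, hk]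
      refine dvd_pow_self p fun h0 => h fun g hg => ?_
      rw [h0, pow_zero, Subgroup.index_eq_one, Subgroup.subgroupOf_eq_top] at hk
      have h1 := hk (Subgroup.mem_sup_left hg)
      rw [← SetLike.mem_coe, Subgroup.normal_mul] at h1
      obtain ⟨a, ha, c, hc, rfl⟩ := h1
      have h2 : x * c = c * x := hc x rfl
      have : ⁅a * c, x⁆ = ⁅a, x⁆ := by
        simp only [commutatorElement_def]
        rw [mul_assoc a, ← h2]; group
      rw [this]
      exact Subgroup.commutator_mem_commutator ha (Subgroup.mem_top x)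
    · rw [if_neg h]
      exact ih.mul_left _

/-- If G is a finite p-group in which every conjugacy class has at most p^b elements (every element has centralizer of index at most p^b), then G is abelian when b = 0, and when b ≥ 1 its nilpotency class c satisfies (c − 1)(p − 1) < bp, that is c < bp/(p − 1) + 1, and hence c ≤ 2b. -/
theorem result {G : Type*} [Group G] [Finite G] {p : ℕ} [Fact p.Prime] (hG : IsPGroup p G) (b : ℕ) (hb : ∀ x : G, (Subgroup.centralizer ({x} : Set G)).index ≤ p ^ b) : ∃ c : ℕ, (⊤ : Subgroup G).lowerCentralSeries c = ⊥ ∧ (b ≠ 0 → (c - 1) * (p - 1) < b * p ∧ c ≤ 2 * b) ∧ (b = 0 → c ≤ 1) := by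
  classical
  have := hG.isNilpotent
  have := Fintype.ofFinite G
  have hp : p.Prime := Fact.out
  set c := Group.nilpotencyClass G
  have h1 : ∀ x : G, ((Finset.range (c - 1)).filter fun i => x ∉ CC G i).card ≤ b := fun x => by
    have := (Nat.le_of_dvd (Nat.pos_of_ne_zero Subgroup.index_ne_zero_of_finite)
      ((pow_le hG x (c - 1)).trans (Subgroup.index_dvd_of_le le_sup_right))).trans (hb x)
    exact (Nat.pow_le_pow_iff_right hp.one_lt).1 this
  have h2 : ∀ i ∈ Finset.range (c - 1), (p - 1) * Fintype.card G ≤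
      p * (Finset.univ.filter fun x : G => x ∉ CC G i).card := fun i hi => by
    have a1 := Finset.card_filter_add_card_filter_not (s := Finset.univ) fun x : G => x ∈ CC G i
    have a2 : (Finset.univ.filter fun x : G => x ∈ CC G i).card = Nat.card (CC G i) := by
      rw [Nat.card_eq_fintype_card, Fintype.card_subtype]
    have a3 := (CC G i).index_mul_card
    obtain ⟨k, hk⟩ := hG.index (CC G i)
    have a4 : p ≤ (CC G i).index := by
      refine Nat.le_of_dvd (Nat.pos_of_ne_zero Subgroup.index_ne_zero_of_finite) ?_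
      rw [hk]
      refine dvd_pow_self p fun h0 => CC_ne_top (G := G) (i := i) (by
        have := Finset.mem_range.1 hi; omega) ?_
      rwa [h0, pow_zero, Subgroup.index_eq_one] at hk
    rw [a2, Finset.card_univ] at a1
    rw [Nat.card_eq_fintype_card (α := G)] at a3
    have a5 := Nat.mul_le_mul_right (Nat.card (CC G i)) a4
    obtain ⟨q, rfl⟩ : ∃ q, p = q + 1 := ⟨p - 1, by have := hp.pos; omega⟩
    simp only [Nat.add_sub_cancel]
    nlinarith
  have h3 := Finset.sum_le_sum h2
  rw [Finset.sum_const, Finset.card_range, smul_eq_mul, ← Finset.mul_sum] at h3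
  have h4 : ∑ i ∈ Finset.range (c - 1), (Finset.univ.filter fun x : G => x ∉ CC G i).card =
      ∑ x : G, ((Finset.range (c - 1)).filter fun i => x ∉ CC G i).card := by
    simp only [Finset.card_filter]
    exact Finset.sum_comm
  have h5 : ∑ x : G, ((Finset.range (c - 1)).filter fun i => x ∉ CC G i).card + b ≤
      Fintype.card G * b := by
    rw [← Finset.add_sum_erase _ _ (Finset.mem_univ 1), Finset.filter_false_of_mem (by
      intro i _ h; exact h (one_mem _)), Finset.card_empty, zero_add]
    have := Finset.sum_le_card_nsmul (Finset.univ.erase (1 : G)) _ b fun x _ => h1 x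
    rw [Finset.card_erase_of_mem (Finset.mem_univ _), Finset.card_univ, smul_eq_mul] at this
    obtain ⟨m, hm⟩ : ∃ m, Fintype.card G = m + 1 := ⟨_, (Nat.succ_pred_eq_of_pos Fintype.card_pos).symm⟩
    rw [hm] at this ⊢
    simp only [Nat.add_sub_cancel] at this
    nlinarith
  rw [h4] at h3
  have h0 : 0 < Fintype.card G := Fintype.card_pos
  have hp2 := hp.two_le
  refine ⟨c, Subgroup.lowerCentralSeries_nilpotencyClass, fun hb0 => ?_, fun hb0 => ?_⟩
  · have h6 : (c - 1) * (p - 1) < b * p := by
      refine Nat.lt_of_mul_lt_mul_right (a := Fintype.card G) ?_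
      have := Nat.mul_le_mul_left p h5
      have : 0 < p * b := Nat.mul_pos hp.pos (Nat.pos_of_ne_zero hb0)
      nlinarith
    refine ⟨h6, ?_⟩
    have : c - 1 < 2 * b := by
      refine Nat.lt_of_mul_lt_mul_right (a := p - 1) (h6.trans_le ?_)
      obtain ⟨q, rfl⟩ : ∃ q, p = q + 2 := ⟨p - 2, by omega⟩
      simp only [show q + 2 - 1 = q + 1 from rfl]
      nlinarith
    omega
  · subst hb0
    have h7 : (c - 1) * ((p - 1) * Fintype.card G) = 0 := by
      have : ∑ x : G, ((Finset.range (c - 1)).filter fun i => x ∉ CC G i).card = 0 := by omega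
      rw [this] at h3
      omega
    rcases Nat.mul_eq_zero.1 h7 with h | h
    · omega
    · rcases Nat.mul_eq_zero.1 h with h | h <;> omega

end Cfsg.Agent.S3778
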