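import Cfsg.Statements.S3780
import Cfsg.Agent.H1.Alperin

set_option autoImplicit false
open Cfsg

namespace Cfsg.Agent.S3780

/-- Let V be a finite abelian p-group and α an automorphism of V of order p whose fixed-point subgroup has order p^n. Then V can be generated by pn elements: some subset of V with at most pn elements generates V. -/
theorem result {V : Type*} [CommGroup V] [Finite V] {p : ℕ} [Fact p.Prime] (hV : IsPGroup p V) (α : MulAut V) (hα : orderOf α = p) (n : ℕ) (hfix : Nat.card {v : V // α v = v} = p ^ n) : ∃ S : Finset V, S.card ≤ p * n ∧ Subgroup.closure (S : Set V) = ⊤ := by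
  have h := H1.Lie.index_frattini_le hV (hα ▸ pow_orderOf_eq_one α) hfix.le
  obtain ⟨k, hk⟩ := hV.index (frattini V)
  have := Fintype.ofFinite V
  obtain ⟨T, -, h1, h2⟩ := H1.exists_subset_card_eq_closure_eq_top hV hk (S := Finset.univ) (by simp)
  exact ⟨T, h1 ▸ (Nat.pow_le_pow_iff_right (Fact.out : p.Prime).one_lt).mp (hk ▸ h), h2⟩

end Cfsg.Agent.S3780
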