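import Cfsg.Statements.S3785
import Cfsg.Agent.H25.FitCrit
import Cfsg.Agent.S0044

set_option autoImplicit false
open Cfsg

namespace Cfsg.Agent.S3785

/-- Let G be a finite solvable group whose Fitting subgroup F(G) has odd order. If an element g of G commutes with every element of prime order of F(G), then g ∈ F(G). -/
theorem result {G : Type*} [Group G] [Finite G] (hG : Group.IsSolvable G) (hodd : Odd (Nat.card (Cfsg.fittingSubgroup G))) (g : G) (hg : ∀ x ∈ Cfsg.fittingSubgroup G, (orderOf x).Prime → g * x = x * g) : g ∈ Cfsg.fittingSubgroup G := by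
  let S : Subgroup G := Subgroup.closure {x | x ∈ Cfsg.fittingSubgroup G ∧ (orderOf x).Prime}
  have hSn : S.Normal := ⟨by
    intro n hn a
    refine Subgroup.closure_induction (p := fun n _ => a * n * a⁻¹ ∈ S) ?_ ?_ ?_ ?_ hn
    · intro x hx
      refine Subgroup.subset_closure ⟨H1.fittingSubgroup_normal.conj_mem x hx.1 a, ?_⟩
      rw [show a * x * a⁻¹ = MulAut.conj a x from rfl, MulEquiv.orderOf_eq]
      exact hx.2
    · simp
    · intro x y _ _ hx hy
      have : a * (x * y) * a⁻¹ = (a * x * a⁻¹) * (a * y * a⁻¹) := by group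
      rw [this]; exact S.mul_mem hx hy
    · intro x _ hx
      have : a * x⁻¹ * a⁻¹ = (a * x * a⁻¹)⁻¹ := by group
      rw [this]; exact S.inv_mem hx⟩
  have hgD : g ∈ Subgroup.centralizer (S : Set G) := by
    rw [← Subgroup.zpowers_le, Subgroup.le_centralizer_iff, Subgroup.closure_le]
    intro x hx
    rw [H10.centralizer_zpowers]
    exact Subgroup.mem_centralizer_singleton_iff.2 (hg x hx.1 hx.2).symm
  rw [← H10.FitOf_top]
  refine H25.le_FitOf_of_forall_coprime (D := Subgroup.centralizer (S : Set G)) ?_ le_top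
    (by rw [Subgroup.normalizer_eq_top]) ?_ hgD
  · rw [H10.FitOf_top, top_inf_eq]; exact Cfsg.Agent.S0044.result
  intro p hp x hx hcop
  have : Fact p.Prime := ⟨hp⟩
  rw [H10.OpOf_top]
  by_cases hp2 : p = 2
  · subst hp2
    have h1 : Cfsg.pCore 2 G = ⊥ := by
      obtain ⟨n, hn⟩ := IsPGroup.iff_card.1 (H1.isPGroup_pCore 2 G)
      have h2 := Subgroup.card_dvd_of_le (H1.pCore_le_fittingSubgroup (G := G) 2)
      rw [hn] at h2
      rcases n with _ | n
      · exact Subgroup.card_eq_one.1 (by simpa using hn)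
      · exact absurd (even_iff_two_dvd.2 ((dvd_pow_self 2 n.succ_ne_zero).trans h2))
          (Nat.not_even_iff_odd.2 hodd)
    rw [h1]; simp [Subgroup.mem_centralizer_iff]
  rw [← Subgroup.zpowers_le]
  refine H25.le_centralizer_of_omega hp2 (H1.isPGroup_pCore p G) (by rwa [Nat.card_zpowers])
    (by rw [Subgroup.normalizer_eq_top]; exact le_top) ?_
  intro y hy hyp
  rw [H10.centralizer_zpowers, Subgroup.mem_centralizer_singleton_iff]
  by_cases hy1 : y = 1
  · simp [hy1]
  · exact Subgroup.mem_centralizer_iff.1 hx y (Subgroup.subset_closure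
      ⟨H1.pCore_le_fittingSubgroup p hy, by rwa [orderOf_eq_prime hyp hy1]⟩)

end Cfsg.Agent.S3785
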