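import Cfsg.Statements.S3787
import Cfsg.Agent.H9.PLen

set_option autoImplicit false
open Cfsg

namespace Cfsg.Agent.S3787

open Subgroup

theorem linInd {K V W : Type*} [Field K] [AddCommGroup V] [Module K V] [AddCommGroup W]
    [Module K W] (N : Module.End K V) (Φ : V →ₗ[K] W) (h : ∀ v, Φ v = 0 → Φ (N v) = 0) {n : ℕ}
    (hN : N ^ n = 0) {v : V} (hv : Φ ((N ^ (n - 1)) v) ≠ 0) :
    LinearIndependent K fun i : Fin n => Φ ((N ^ (i : ℕ)) v) := by
  have h' : ∀ (k : ℕ) v, Φ v = 0 → Φ ((N ^ k) v) = 0 := fun k => by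
    induction k with
    | zero => simp
    | succ k ih => intro v hv; rw [pow_succ, Module.End.mul_apply]; exact ih _ (h v hv)
  rw [Fintype.linearIndependent_iff]
  intro g hg i
  induction i using WellFoundedLT.induction with
  | ind i ih =>
  have := h' (n - 1 - i) (∑ j, g j • (N ^ (j : ℕ)) v) (by simpa using hg)
  rw [map_sum, Finset.sum_eq_single i (fun j _ hj => ?_) (by simp), map_smul, map_smul,
    ← Module.End.mul_apply, ← pow_add, Nat.sub_add_cancel (by omega)] at this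
  · exact (smul_eq_zero.mp this).resolve_right hv
  · rcases lt_or_gt_of_ne hj with hj | hj
    · simp [ih j hj]
    · rw [map_smul, ← Module.End.mul_apply, ← pow_add, pow_eq_zero_of_le (by omega) hN]; simp

/-- The base group of a regular wreath product. -/
def base (D Q : Type*) [Group D] [Group Q] : (Q → D) →* D ≀ᵣ Q where
  toFun f := ⟨f, 1⟩
  map_one' := rfl
  map_mul' f g := by ext <;> simp

theorem wr (p : ℕ) [hp : Fact p.Prime] : ∃ (B : Subgroup (Multiplicative (ZMod p) ≀ᵣ Multiplicative (ZMod p))) (t : Multiplicative (ZMod p) ≀ᵣ Multiplicative (ZMod p)), B.Normal ∧ IsMulCommutative B ∧ (∀ b ∈ B, b ^ p = 1) ∧ Nat.card B = p ^ p ∧ orderOf t = p ∧ t ∉ B ∧ Nat.card (Multiplicative (ZMod p) ≀ᵣ Multiplicative (ZMod p)) = p ^ (p + 1) ∧ Nat.card ↥(B ⊓ Subgroup.centralizer {t}) = p := by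
  have hinj : Function.Injective (base (Multiplicative (ZMod p)) (Multiplicative (ZMod p))) :=
    fun f g h => congrArg RegularWreathProduct.left h
  have hker : (base (Multiplicative (ZMod p)) (Multiplicative (ZMod p))).range =
      RegularWreathProduct.rightHom.ker := by
    ext x
    exact ⟨by rintro ⟨f, rfl⟩; rfl, fun h => ⟨x.left, RegularWreathProduct.ext rfl h.symm⟩⟩
  refine ⟨(base _ _).range, RegularWreathProduct.inl (Multiplicative.ofAdd 1), hker ▸ inferInstance,
    inferInstance, ?_, ?_, ?_, ?_, ?_, ?_⟩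
  · rintro _ ⟨f, rfl⟩
    rw [← map_pow, show f ^ p = 1 from funext fun i => by
      simpa using pow_card_eq_one' (x := f i), map_one]
  · rw [← Nat.card_congr (MonoidHom.ofInjective hinj).toEquiv]; simp [Nat.card_pi]
  · rw [orderOf_injective _ (fun a b h => congrArg RegularWreathProduct.right h)]; simp
  · rw [hker]; simp [MonoidHom.mem_ker]
  · rw [RegularWreathProduct.card, pow_succ]; simp
  · refine Eq.trans (Eq.symm ?_) (Nat.card_zmod p)
    refine Nat.card_eq_of_bijective (fun c => ⟨base _ _ fun _ => Multiplicative.ofAdd c, ⟨_, rfl⟩,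
      mem_centralizer_singleton_iff.mpr (by ext <;> simp [base])⟩) ⟨fun a b h => ?_, ?_⟩
    · exact congrFun (hinj (congrArg Subtype.val h)) 1
    · rintro ⟨_, ⟨f, rfl⟩, h⟩
      have h1 : ∀ x, f x = f ((Multiplicative.ofAdd 1)⁻¹ * x) := fun x => by
        simpa [base] using congrFun (congrArg RegularWreathProduct.left
          (mem_centralizer_singleton_iff.mp h)) x
      have h2 : ∀ n : ℕ, f (Multiplicative.ofAdd (n : ZMod p)) = f 1 := fun n => by
        induction n with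
        | zero => simp
        | succ n ih => rw [h1, ← ih]; simp [mul_comm]
      refine ⟨(f 1).toAdd, Subtype.ext (congrArg (base _ _) (funext fun x => ?_))⟩
      simpa using (h2 x.toAdd.val).symm

/-- Let G be a finite p-soluble group, p an odd prime not of the form 2^k + 1, and suppose the wreath product C_p ≀ C_p (of order p^(p+1)) is not involved in a Sylow p-subgroup of G: no section of a Sylow p-subgroup is isomorphic to it. Then G has p-length at most 1. -/
theorem result {G : Type*} [Group G] [Finite G] {p : ℕ} [Fact p.Prime] (hp2 : p ≠ 2) (hnf : (¬ ∃ k : ℕ, p = 2 ^ k + 1)) (hG : Cfsg.IsPSolvable p G) (P : Sylow p G) (hwr : ∀ (W : Type) [Group W] [Finite W], (∃ (B : Subgroup W) (t : W), B.Normal ∧ IsMulCommutative B ∧ (∀ b ∈ B, b ^ p = 1) ∧ Nat.card B = p ^ p ∧ orderOf t = p ∧ t ∉ B ∧ Nat.card W = p ^ (p + 1) ∧ Nat.card ↥(B ⊓ Subgroup.centralizer ({t} : Set W)) = p) → ¬ Cfsg.Involves W ↥(P : Subgroup G)) : Cfsg.PLengthLE p 1 G := by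
  have hp : p.Prime := Fact.out
  obtain ⟨G₂, _, _, f, hf, hV, hC, hle⟩ := H9.exists_red hG
  have hs := QuotientGroup.mk'_surjective (pCore p G₂)
  refine H9.pLengthLE_succ_of_ker_le (f := (QuotientGroup.mk' (pCore p G₂)).comp f)
    (by rwa [← MonoidHom.comap_ker, QuotientGroup.ker_mk'])
    (H9.pLengthLE_zero_iff.mpr fun hd => hwr _ (wr p) ?_)
  obtain ⟨y, hy⟩ := exists_prime_orderOf_dvd_card' p hd
  have hyp : y ^ p = 1 := orderOf_dvd_iff_pow_eq_one.mp hy.dvd
  let ρ := H9.quoRep hV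
  have hN : (ρ y - 1) ^ (p - 1) ≠ 0 := fun h => by
    have := H9.le_of_noExc (H9.isPSolvable_of_surjective _ hs (H9.isPSolvable_of_surjective f hf hG))
      (H1.pCore_quotient_pCore p) (fun n₀ q m Q h1 hq _ h3 _ =>
        absurd (H9.eq_two_of_pow_sub_one_eq hp2 hq h1 h3).2 hnf) (n := 0) (by simpa using hy) ρ
      (H9.quoRep_injective hV hC) h
    have := hp.pos
    simp only [zero_add, pow_one] at *
    omega
  have hNp : (ρ y - 1) ^ p = 0 := by
    have := H9.sub_one_pow_char_pow (K := ZMod p) p 1 (ρ y)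
    rwa [pow_one, ← map_pow, hyp, map_one, sub_self] at this
  obtain ⟨v, hv⟩ := DFunLike.ne_iff.mp hN
  obtain ⟨φ, hφ⟩ := Module.Projective.exists_dual_eq_one (ZMod p) hv
  obtain ⟨t, rfl, ht, hφt⟩ : ∃ t : G₂, (t : G₂ ⧸ pCore p G₂) = y ∧ ∃ ht : t ^ p ∈ pCore p G₂,
      φ (H9.EAMod.mk hV _ ht) = 0 := by
    obtain ⟨x, rfl⟩ := QuotientGroup.mk_surjective y
    have hx : x ^ p ∈ pCore p G₂ := (QuotientGroup.eq_one_iff _).mp hyp
    let w := -φ (H9.EAMod.mk hV _ hx) • v
    have h1 := H9.val_sum_eaRepN_pow hV x w p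
    have h2 := H9.sub_one_pow_pred_eq_sum (K := ZMod p) p 1 (H9.eaRepN hV x)
    rw [pow_one] at h2
    rw [← h2] at h1
    refine ⟨w.val * x, by simp [(QuotientGroup.eq_one_iff _).mpr w.val_mem],
      h1 ▸ mul_mem (H9.EAMod.val_mem _) hx, ?_⟩
    rw [show H9.EAMod.mk hV ((w.val * x) ^ p) _ = ((ρ x - 1) ^ (p - 1)) w + H9.EAMod.mk hV _ hx from
      H9.EAMod.ext' h1.symm, map_add, map_smul, map_smul, hφ]
    simp
  let θ : Multiplicative (ZMod p) →* G₂ ⧸ pCore p G₂ := AddMonoidHom.toMultiplicativeLeft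
    (ZMod.lift p ⟨zmultiplesHom _ (Additive.ofMul (t : G₂ ⧸ pCore p G₂)), by
      simpa using congrArg Additive.ofMul hyp⟩)
  have hθ : ∀ n : ℤ, θ (Multiplicative.ofAdd (n : ZMod p)) = (t : G₂ ⧸ pCore p G₂) ^ n :=
    fun n => by simp [θ]
  let Φ : H9.EAMod hV →ₗ[ZMod p] Multiplicative (ZMod p) → ZMod p :=
    LinearMap.pi fun i => φ ∘ₗ ρ (θ i⁻¹)
  have hΦ : ∀ (n : ℤ) w i, Φ (ρ ((t : G₂ ⧸ pCore p G₂) ^ n) w) i =
      Φ w ((Multiplicative.ofAdd (n : ZMod p))⁻¹ * i) := fun n w i => by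
    simp only [Φ, LinearMap.pi_apply, LinearMap.comp_apply]
    rw [← hθ, ← Module.End.mul_apply, ← map_mul, ← map_mul, mul_inv_rev, inv_inv]
  have hsurj : Function.Surjective Φ := by
    have := (linInd (ρ t - 1) Φ (fun w hw => funext fun i => by
      have := hΦ 1 w i
      rw [zpow_one] at this
      simp [this, hw]) hNp (v := v) fun h => by
        simpa [Φ, hφ] using congrFun h 1).span_eq_top_of_card_eq_finrank' (by simp)
    rw [← LinearMap.range_eq_top, eq_top_iff, ← this, Submodule.span_le]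
    rintro _ ⟨i, rfl⟩
    exact ⟨_, rfl⟩
  obtain ⟨k, -, hk⟩ := (Nat.dvd_prime_pow hp).mp (orderOf_dvd_of_pow_eq_one
      (show t ^ p ^ 2 = 1 by rw [sq, pow_mul]; exact hV.2 _ ht))
  obtain ⟨P₂, hP₂⟩ := (IsPGroup.of_card (G := zpowers t)
    (by rw [Nat.card_zpowers, hk])).exists_le_sylow
  refine H9.involves_of_map f _ (H9.involves_of_injective
    (Sylow.equiv P₂ (P.mapSurjective hf)).toMonoidHom (MulEquiv.injective _) ?_)
  refine H9.involves_of_semidirect (A := Multiplicative (H9.EAMod hV)) (N := Multiplicative ℤ)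
    (fun n a => Multiplicative.ofAdd (ρ ((t : G₂ ⧸ pCore p G₂) ^ n.toAdd) a.toAdd))
    ((H9.EAMod.valHom hV).codRestrict _ fun a => H1.pCore_le_sylow P₂ a.toAdd.val_mem)
    ((zpowersHom _ t).codRestrict _ fun n => hP₂ ⟨_, rfl⟩)
    ((base _ _).comp ((MulEquiv.funMultiplicative _ _).toMonoidHom.comp
      (AddMonoidHom.toMultiplicative Φ.toAddMonoidHom)))
    (RegularWreathProduct.inl.comp (AddMonoidHom.toMultiplicative (Int.castAddHom (ZMod p))))
    (fun n a => Subtype.ext rfl) (fun n a => ?_) (fun x => ?_) fun a n h => ?_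
  · ext i
    · simp [base, hΦ]
    · simp [base]
  · obtain ⟨a, ha⟩ := hsurj fun i => (x.left i).toAdd
    refine ⟨Multiplicative.ofAdd a, Multiplicative.ofAdd x.right.toAdd.val, ?_⟩
    ext i
    · simp [base, ha]
    · simp [base]
  · replace h : a.toAdd.val * t ^ n.toAdd = 1 := congrArg Subtype.val h
    have h1 : (t : G₂ ⧸ pCore p G₂) ^ n.toAdd = 1 := (QuotientGroup.eq_one_iff _).mpr
      ((eq_inv_of_mul_eq_one_right h).symm ▸ inv_mem a.toAdd.val_mem :
        t ^ n.toAdd ∈ pCore p G₂)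
    obtain ⟨k, hk⟩ := hy ▸ orderOf_dvd_iff_zpow_eq_one.mpr h1
    have h2 : a.toAdd = -k • H9.EAMod.mk hV _ ht := H9.EAMod.ext' (by
      rw [eq_inv_of_mul_eq_one_left h, hk, zpow_mul, zpow_natCast, ← zpow_neg]
      exact (map_zpow (H9.EAMod.valHom hV) (Multiplicative.ofAdd (H9.EAMod.mk hV _ ht)) _).symm)
    have h3 : Φ (H9.EAMod.mk hV _ ht) = 0 := funext fun i => by
      obtain ⟨m, hm⟩ := ZMod.intCast_surjective i⁻¹.toAdd
      simp only [Φ, LinearMap.pi_apply, LinearMap.comp_apply]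
      rw [show i⁻¹ = Multiplicative.ofAdd (m : ZMod p) by simp [hm], hθ, show ρ _ _ =
        H9.EAMod.mk hV _ ht from H9.EAMod.ext' (by
          change t ^ m * t ^ p * (t ^ m)⁻¹ = t ^ p
          group), hφt]
      rfl
    ext i
    · simp [base, h2, h3]
    · simp [base, hk]

end Cfsg.Agent.S3787
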