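import Cfsg.Statements.S3788
import Mathlib
import Cfsg.Agent.H9.PLen
import Cfsg.Agent.H9.S4F2
import Cfsg.Agent.H1.Hall

set_option autoImplicit false
open Cfsg

namespace Cfsg.Agent.S3788

open Subgroup H9 H24
open scoped commutatorElement

theorem core {G : Type*} [Group G] [Finite G] {p : ℕ} [hp : Fact p.Prime] (hG : IsPSolvable p G)
    (hV : IsElementaryAbelian p (pCore p G)) (hC : CharPGrp p G) {a : G} (ha : ∃ k, a ^ p ^ k = 1)
    (hn : pCore p G ≤ normalizer (zpowers a : Set G))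
    (h : p ≠ 2 ∨ ¬ Involves (Equiv.Perm (Fin 4)) G) : a ∈ pCore p G := by
  by_contra h0
  set V := pCore p G
  have cV := H3.isMulCommutative_iff_mem.1 hV.1
  obtain ⟨j, h1, h2⟩ := H3.exists_pow_not_mem_pow_mem h0 (ha.imp fun k hk => hk ▸ V.one_mem)
  set u := a ^ p ^ j with hu
  let π := QuotientGroup.mk' V
  have hπ : ∀ {x}, π x = 1 ↔ x ∈ V := QuotientGroup.eq_one_iff _
  have hw : ∀ v ∈ V, ⁅v, u⁆ ∈ zpowers (u ^ p) := fun v hv => by
    have c1 : ⁅v, u⁆ ∈ zpowers a := mul_mem ((mem_normalizer_iff.1 (hn hv) _).1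
      (npow_mem_zpowers a _)) (inv_mem (npow_mem_zpowers a _))
    have c2 : ⁅v, u⁆ ∈ V := by
      rw [commutatorElement_def, mul_assoc, mul_assoc, ← mul_assoc u]
      exact mul_mem hv (Normal.conj_mem inferInstance _ (inv_mem hv) u)
    obtain ⟨k, hk⟩ := mem_powers_iff_mem_zpowers.2 c1
    rw [← hk] at c2 ⊢
    rw [hu, ← pow_mul, ← pow_succ] at h2 ⊢
    obtain ⟨i, hi, e⟩ := (Nat.dvd_prime_pow hp.out).1 (Nat.gcd_dvd_right k (p ^ (j + 1)))
    have := pow_gcd_eq_one.2 ⟨(map_pow π a k).symm.trans (hπ.2 c2),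
      (map_pow π a _).symm.trans (hπ.2 h2)⟩
    rw [e, ← map_pow, hπ] at this
    obtain rfl : i = j + 1 := le_antisymm hi (not_le.1 fun hij : i ≤ j => h1 (by
      rw [hu, ← Nat.add_sub_of_le hij, pow_add, pow_mul]; exact pow_mem this _))
    obtain ⟨c, rfl⟩ := e ▸ Nat.gcd_dvd_left k (p ^ (j + 1))
    change a ^ (_ * c) ∈ _
    rw [pow_mul]; exact npow_mem_zpowers _ _
  have hK := H1.coprime_card_pPrimeCore p (G ⧸ V)
  have hVp : IsPGroup p V := H1.isPGroup_pCore p G
  have ri : V.relIndex ((pPrimeCore p (G ⧸ V)).comap π) = Nat.card (pPrimeCore p (G ⧸ V)) := by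
    refine (congrArg (relIndex · _) (QuotientGroup.ker_mk' V).symm).trans ?_
    rw [← MonoidHom.comap_bot, relIndex_comap,
      map_comap_eq_self_of_surjective (QuotientGroup.mk'_surjective V), relIndex_bot_left]
  obtain ⟨Q, -, q2, q3, q4⟩ := H1.exists_complement_le (N := V)
    (L := (pPrimeCore p (G ⧸ V)).comap π) (fun x hx => by simp [hπ.2 hx]) le_normalizer_of_normal
    (ri ▸ H1.coprime_card_of_isPGroup_of_coprime hVp hK)
  rw [ri, ] at q4
  have q5 : Q.map π = pPrimeCore p (G ⧸ V) := by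
    rw [← map_comap_eq_self_of_surjective (QuotientGroup.mk'_surjective V) (pPrimeCore p _), ← q2,
      Subgroup.map_sup, QuotientGroup.map_mk'_self, bot_sup_eq]
  have cop : (Nat.card Q).Coprime (Nat.card V) :=
    (H1.coprime_card_of_isPGroup_of_coprime hVp (q4 ▸ hK)).symm
  obtain ⟨n, n1, n2⟩ : π u ∈ (normalizer (Q : Set G)).map π := by
    rw [← H1.normalizer_map_mk'_eq cop (.inr (H1.isSolvable_of_isPGroup hVp)), q5,
      normalizer_eq_top]; trivial
  obtain ⟨v, hv, rfl⟩ : ∃ v ∈ V, n = v * u := ⟨n * u⁻¹, hπ.1 (by simp [n2]), by simp⟩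
  have cQ : ∀ y ∈ Q, ⁅y, v * u⁆ ∈ Q := fun y hy => by
    rw [commutatorElement_def, mul_assoc, mul_assoc, ← mul_assoc (v * u)]
    exact mul_mem hy ((mem_normalizer_iff.1 n1 _).1 (inv_mem hy))
  have hw' : ∀ x ∈ V, ⁅x, v * u⁆ ∈ zpowers (u ^ p) := fun x hx => by
    convert hw x hx using 1
    have := cV v hv _ (Normal.conj_mem inferInstance _ (inv_mem hx) u)
    simp only [commutatorElement_def]
    calc _ = x * (v * (u * x⁻¹ * u⁻¹)) * v⁻¹ := by group
      _ = _ := by rw [this]; group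
  obtain ⟨y, hy, hz⟩ : ∃ y ∈ Q, ⁅y, v * u⁆ ∉ centralizer (V : Set G) := by
    by_contra hh
    push Not at hh
    have := centralizer_pPrimeCore_le_of_isPSolvable (isPSolvable_quotient hG V)
      (H1.pCore_quotient_pCore p) (x := π u) (by
        rw [← q5, ← n2]
        rintro _ ⟨y, hy, rfl⟩
        rw [← map_mul, ← map_mul, commutatorElement_eq_one_iff_mul_comm.1
          (mem_bot.1 (q3.le ⟨hC (hh y hy), cQ y hy⟩))])
    refine h1 (hπ.1 (orderOf_eq_one_iff.1 (Nat.eq_one_of_dvd_coprimes hK (orderOf_dvd_natCard _ this) ?_)))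
    exact orderOf_dvd_of_pow_eq_one (by rw [← map_pow, hπ.2 h2])
  rcases eq_or_ne p 2 with rfl | h3
  · refine h.resolve_left (fun e => e rfl) ?_
    have d1 : ⁅V, zpowers (v * u)⁆ ≤ zpowers (u ^ 2) := (le_centMod_iff.1 (zpowers_le.2
      ⟨centralizer_le_normalizer _ (mul_mem (fun x hx => cV x (zpowers_le.2 h2 hx) v hv)
        fun x ⟨k, hk⟩ => hk ▸ (Commute.self_pow u 2).symm.zpow_left k), hw'⟩)).2
    obtain ⟨D, -, t, -, hb⟩ := H9K.bad_of_comm (W := V) (C := ⊥) (A := zpowers (v * u)) (x := y)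
      (g := ⁅v * u, y⁆) bot_le hVp (fun x hx z hz => cV z hz x hx) le_normalizer_of_normal
      le_normalizer_of_normal (le_normalizer_of_normal (K := ⊤) trivial)
      (le_normalizer_of_normal (K := ⊤) trivial) (by
        rintro _ ⟨k, rfl⟩ x hx
        refine cV x hx _ (hπ.1 ?_)
        rw [map_mul, map_zpow, n2, ← (Commute.refl _).mul_zpow, ← pow_two, ← map_pow, hπ.2 h2,
          one_zpow]) (by
        rw [sup_bot_eq, relIndex_bot_left]
        refine (card_le_of_le d1).trans ?_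
        rw [Nat.card_zpowers]
        exact Nat.le_of_dvd two_pos (orderOf_dvd_of_pow_eq_one (hV.2 _ h2)))
      (H9K.commutatorElement_mem_sup_cj (mem_zpowers _) y) (by
        rw [← commutatorElement_inv, orderOf_inv, ← Nat.coprime_two_right]
        exact (q4 ▸ hK).coprime_dvd_left (orderOf_dvd_natCard _ (cQ y hy)))
      fun hc => hz (by
        rw [← commutatorElement_inv]
        exact inv_mem fun x hx => commutatorElement_eq_one_iff_mul_comm.1 (hc.2 x hx))
    exact involves_of_subgroup ⊤ (hb.involves4 le_top trivial trivial)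
  have c1 : ⁅u, v⁆ ∈ zpowers (u ^ p) := by rw [← commutatorElement_inv]; exact inv_mem (hw v hv)
  have c2 := zpowers_le.2 h2 c1
  have e : (v * u) ^ p = u ^ p := by
    obtain ⟨k, hk⟩ := hp.out.dvd_choose_self two_ne_zero (lt_of_le_of_ne hp.out.two_le h3.symm)
    rw [mul_pow_of_commutator_commute (by
      obtain ⟨i, hi⟩ := c1
      exact hi ▸ (Commute.self_pow u p).symm.zpow_left i) (cV _ c2 v hv), hk, pow_mul, hV.2 _ c2,
      hV.2 v hv]
    simp
  have c3 : u ^ p ∈ V ⊓ centralizer (Q : Set G) := ⟨h2, fun x hx =>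
    commutatorElement_eq_one_iff_mul_comm.1 (mem_bot.1 (q3.le ⟨V.mul_mem
      (Normal.conj_mem inferInstance _ h2 x) (V.inv_mem h2), by
        rw [commutatorElement_def, mul_assoc, mul_assoc, ← mul_assoc (u ^ p)]
        exact mul_mem hx ((mem_normalizer_iff.1 (e ▸ pow_mem n1 p) _).1 (inv_mem hx))⟩))⟩
  have nC : normalizer (Q : Set G) ≤ normalizer ((V ⊓ centralizer (Q : Set G) : Subgroup G) : Set G) :=
    H1.le_normalizer_inf le_normalizer_of_normal (H1.normalizer_le_normalizer_centralizer Q)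
  have s1 : v * u ∈ centMod V (V ⊓ centralizer (Q : Set G)) :=
    ⟨nC n1, fun x hx => zpowers_le.2 c3 (hw' x hx)⟩
  have s2 : y * (v * u) * y⁻¹ ∈ centMod V (V ⊓ centralizer (Q : Set G)) :=
    ⟨nC (mul_mem (mul_mem (le_normalizer hy) n1) (inv_mem (le_normalizer hy))), fun x hx => by
      convert (mem_normalizer_iff.1 (nC (le_normalizer hy)) _).1
        (s1.2 _ (Normal.conj_mem inferInstance x hx y⁻¹)) using 1
      simp only [commutatorElement_def]; group⟩
  exact hz (H1.le_centralizer_of_commutator_le (A := zpowers ⁅y, v * u⁆)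
    ((cop.coprime_dvd_left (card_dvd_of_le (zpowers_le.2 (cQ y hy)))).coprime_dvd_right
      (card_dvd_of_le inf_le_left))
    (le_centMod_iff.1 (zpowers_le.2 (mul_mem s2 (inv_mem s1)))).2
    (zpowers_le.2 fun x hx => (hx.2 _ (cQ y hy)).symm) (mem_zpowers _))

/-- Let G be a finite p-soluble group, P a Sylow p-subgroup of G and A a cyclic normal subgroup of P. If p is odd, or if no section of G is isomorphic to the symmetric group of degree 4, then A ≤ O_{p',p}(G). -/
theorem result {G : Type*} [Group G] [Finite G] {p : ℕ} [Fact p.Prime] (hG : Cfsg.IsPSolvable p G) (P : Sylow p G) (A : Subgroup G) (hAP : A ≤ (P : Subgroup G)) (hAn : (P : Subgroup G) ≤ Subgroup.normalizer (A : Set G)) (hA : IsCyclic A) (h : p ≠ 2 ∨ ¬ Cfsg.Involves (Equiv.Perm (Fin 4)) G) : A ≤ Cfsg.pPrimePCore p G := by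
  obtain ⟨G₂, _, _, f, hf, hV, hC, hle⟩ := exists_red hG
  obtain ⟨⟨a, ha⟩, h1⟩ := hA.exists_generator
  obtain rfl : A = zpowers a := le_antisymm (fun x hx => by
    obtain ⟨k, hk⟩ := h1 ⟨x, hx⟩
    exact ⟨k, congrArg Subtype.val hk⟩) (zpowers_le.2 ha)
  refine zpowers_le.2 (hle (core (isPSolvable_of_surjective f hf hG) hV hC ?_ ?_
    (h.imp_right (mt (involves_of_surjective f hf)))))
  · obtain ⟨k, hk⟩ := P.2 ⟨a, hAP ha⟩
    exact ⟨k, by rw [← map_pow, show a ^ p ^ k = 1 from congrArg Subtype.val hk, map_one]⟩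
  · refine (H1.pCore_le_sylow (P.mapSurjective hf)).trans ?_
    rw [Sylow.coe_mapSurjective, ← MonoidHom.map_zpowers]
    exact (map_mono hAn).trans (le_normalizer_map f)

end Cfsg.Agent.S3788
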