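import Cfsg.Statements.S3789
import Cfsg.Agent.H9.HH4
import Cfsg.Agent.H9.PLen
import Cfsg.Agent.H1.SylowIn

set_option autoImplicit false
open Cfsg

namespace Cfsg.Agent.S3789


open Subgroup H9
open scoped commutatorElement

universe u

theorem dsOf_le_pCore {G : Type*} [Group G] [Finite G] {p : ℕ} [hp : Fact p.Prime] (hp2 : p ≠ 2)
    (hG : IsPSolvable p G) (hV : IsElementaryAbelian p (pCore p G)) (hC : CharPGrp p G)
    (P : Sylow p G) {d : ℕ} (h : dsOf (P : Subgroup G) (d + 1) = ⊥) :
    dsOf (P : Subgroup G) d ≤ pCore p G := by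
  have hVP : pCore p G ≤ P := H1.pCore_le_sylow P
  rw [dsOf_succ, commutator_eq_bot_iff_le_centralizer] at h
  cases d with
  | zero => exact (h.trans (centralizer_le hVP)).trans hC
  | succ d =>
    set B := dsOf (P : Subgroup G) d
    have hPB : (P : Subgroup G) ≤ normalizer (B : Set G) := le_normalizer_dsOf le_normalizer d
    have hPA : (P : Subgroup G) ≤ normalizer (⁅B, B⁆ : Subgroup G) :=
      le_normalizer_dsOf le_normalizer (d + 1)
    rw [dsOf_succ] at h ⊢
    let π := QuotientGroup.mk' (pCore p G)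
    have hB : IsPGroup p (B.map π) := (P.isPGroup'.to_le (dsOf_le _ d)).map π
    by_contra hne
    obtain ⟨_, ⟨⟨a, ha, rfl⟩, haB⟩, hap⟩ := H1.exists_prime_orderOf_mem
      (H1.inf_centralizer_ne_bot_of_isPGroup (U := ⁅B, B⁆.map π) (P := B.map π)
        (hB.to_le (map_mono (commutator_le_self B))) hB
        (by rw [map_commutator]; exact H1.le_normalizer_commutator le_normalizer le_normalizer)
        fun h => hne (by rwa [Subgroup.map_eq_bot_iff, QuotientGroup.ker_mk'] at h))
    have haB' : π a ∈ B.map π := mem_map_of_mem _ (commutator_le_self B ha)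
    obtain ⟨k, hk⟩ := IsPGroup.iff_orderOf.mp hB ⟨_, haB'⟩
    rw [← orderOf_coe] at hk
    have hop : orderOf (π a) = p := by
      rw [hk] at hap ⊢
      rw [hap.eq_one_of_pow, pow_one]
    have h3 : 2 ≤ p - 1 := by have := hp.out.two_le; omega
    have key : ∀ (g : G) (v : EAMod hV), ((eaRepN hV g - 1) v).val = ⁅g, v.val⁆ := fun g v => by
      simp [val_eaRepN, commutatorElement_def]
    have k2 : ∀ v : EAMod hV, v.val ∈ ⁅B, B⁆ → (eaRepN hV a - 1) v = 0 := fun v hv => by
      rw [← EAMod.val_eq_one_iff, key, commutatorElement_eq_one_iff_mul_comm]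
      exact (h ha _ hv).symm
    have k3 : ∀ {X : Subgroup G}, (P : Subgroup G) ≤ normalizer (X : Set G) → ∀ g ∈ X,
        ∀ v : EAMod hV, ((eaRepN hV g - 1) v).val ∈ X := fun hX g hg v => by
      rw [key, commutatorElement_def, mul_assoc, mul_assoc, ← mul_assoc v.val]
      exact mul_mem hg ((mem_normalizer_iff.mp (hX (hVP v.val_mem)) _).mp (inv_mem hg))
    have hG' := isPSolvable_quotient hG (pCore p G)
    have := centralizer_pPrimeCore_le_of_isPSolvable hG' (H1.pCore_quotient_pCore p)
      (mem_centralizer_of_mem_commutator (H1.coprime_card_pPrimeCore p _) hB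
        le_normalizer_of_normal (by rw [← map_commutator]; exact mem_map_of_mem _ ha) haB
        (orderOf_dvd_iff_pow_eq_one.mp hop.dvd) (quoRep hV)
        (fun t _ ht => quoRep_injective hV hC (ht.trans (map_one _).symm)) ?_ ?_)
    · exact hp.out.ne_one ((H1.coprime_card_pPrimeCore p _).symm.eq_one_of_dvd
        (hop.symm.dvd.trans (orderOf_dvd_natCard _ this)))
    · refine pow_eq_zero_of_le h3 (LinearMap.ext fun v => ?_)
      rw [pow_two]
      exact k2 _ (k3 hPA a ha v)
    · rintro _ ⟨b, hb, rfl⟩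
      obtain ⟨m, hm⟩ := Nat.exists_eq_add_of_le h3
      rw [hm, pow_add, ← mul_assoc]
      refine mul_eq_zero_of_left (LinearMap.ext fun v => ?_) _
      rw [pow_two]
      refine k2 (((eaRepN hV b - 1) ((eaRepN hV b - 1) v))) ?_
      rw [key]
      exact commutator_mem_commutator hb (k3 hPB b hb v)

theorem aux {p : ℕ} [hp : Fact p.Prime] (hp2 : p ≠ 2) (d : ℕ) : ∀ {G : Type u} [Group G]
    [Finite G], IsPSolvable p G → (∀ P : Sylow p G, dsOf (P : Subgroup G) d = ⊥) →
      PLengthLE p d G := by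
  induction d with
  | zero =>
    intro G _ _ _ h
    refine pLengthLE_zero_iff.mpr fun hd => ?_
    obtain ⟨P⟩ : Nonempty (Sylow p G) := inferInstance
    exact P.ne_bot_of_dvd_card hd (h P)
  | succ d ih =>
    intro G _ _ hG h
    obtain ⟨G₂, _, _, f, hf, hV, hC, hle⟩ := exists_red hG
    have hs := QuotientGroup.mk'_surjective (pCore p G₂)
    have hG₂ := isPSolvable_of_surjective f hf hG
    refine pLengthLE_succ_of_ker_le (f := (QuotientGroup.mk' (pCore p G₂)).comp f)
      (by rwa [← MonoidHom.comap_ker, QuotientGroup.ker_mk'])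
      (ih (isPSolvable_of_surjective _ hs hG₂) fun P => ?_)
    obtain ⟨P, rfl⟩ := Sylow.mapSurjective_surjective hs p P
    rw [Sylow.coe_mapSurjective, ← map_dsOf, Subgroup.map_eq_bot_iff, QuotientGroup.ker_mk']
    refine dsOf_le_pCore hp2 hG₂ hV hC P ?_
    obtain ⟨P, rfl⟩ := Sylow.mapSurjective_surjective hf p P
    rw [Sylow.coe_mapSurjective, ← map_dsOf, h, Subgroup.map_bot]

/-- Let p be an odd prime and G a finite p-soluble group whose Sylow p-subgroups have derived length at most d. Then G has p-length at most d. -/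
theorem result {G : Type*} [Group G] [Finite G] {p : ℕ} [Fact p.Prime] (hp : p ≠ 2) (hG : Cfsg.IsPSolvable p G) (d : ℕ) (hd : ∀ P : Sylow p G, derivedSeries ↥(P : Subgroup G) d = ⊥) : Cfsg.PLengthLE p d G := by
  exact aux hp d hG fun P => H9.dsOf_eq_bot_iff.mpr (hd P)

end Cfsg.Agent.S3789
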