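import Cfsg.Statements.S3790
import Cfsg.Agent.H10.Local2
import Cfsg.Agent.H9.PLen

set_option autoImplicit false
open Cfsg

namespace Cfsg.Agent.S3790

section
open Subgroup Cfsg.Agent.H10
open scoped commutatorElement Pointwise

universe u

theorem upperP_char {X : Type*} [Group X] [Finite X] (p : ℕ) [Fact p.Prime] (n : ℕ) :
    (upperPSeries p X n).1.Characteristic := by
  rw [characteristic_iff_map_le]
  intro e
  have := H9.map_upperP_le (p := p) (f := e.toMonoidHom) e.surjective (a := 0) (b := 0)
    (by simp [upperPSeries]) n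
  simpa using this

theorem map_upperP_normal {X : Type*} [Group X] [Finite X] (p : ℕ) [Fact p.Prime]
    (N : Subgroup X) [N.Normal] (n : ℕ) :
    (upperPSeries p N n).1.map N.subtype ≤ (upperPSeries p X n).1 := by
  induction n with
  | zero => simp [upperPSeries]
  | succ n ih =>
    haveI := upperP_char (X := N) p (n + 1)
    by_cases hn : Even n
    · rw [H9.upperP_succ_of_even (G := X) hn]
      refine H9.le_oqMod_of_forall ?_
      rintro _ ⟨x, hx, rfl⟩
      rw [H9.upperP_succ_of_even hn] at hx
      obtain ⟨m, hm, hx⟩ := H9.pow_mem_of_mem_oqMod hx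
      exact ⟨m, hm, ih ⟨_, hx, map_pow _ _ _⟩⟩
    · rw [H9.upperP_succ_of_not_even (G := X) hn]
      refine H9.le_opMod_of_forall ?_
      rintro _ ⟨x, hx, rfl⟩
      rw [H9.upperP_succ_of_not_even hn] at hx
      obtain ⟨m, hx⟩ := H9.pow_mem_of_mem_opMod hx
      exact ⟨m, ih ⟨_, hx, map_pow _ _ _⟩⟩

theorem pLengthLE_add {X : Type*} [Group X] [Finite X] {p : ℕ} [Fact p.Prime]
    (N : Subgroup X) [N.Normal] {a b : ℕ} (h1 : PLengthLE p a N) (h2 : PLengthLE p b (X ⧸ N)) :
    PLengthLE p (a + b) X := by
  have hN : N ≤ (upperPSeries p X (2 * a + 1)).1 := by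
    have := map_upperP_normal p N (2 * a + 1)
    rwa [show (upperPSeries p N (2 * a + 1)).1 = ⊤ from h1, ← MonoidHom.range_eq_map,
      range_subtype] at this
  have key : ∀ n, (upperPSeries p (X ⧸ N) (n + 1)).1.comap (QuotientGroup.mk' N) ≤
      (upperPSeries p X (2 * a + n + 1)).1 := by
    intro n
    induction n with
    | zero =>
      rw [H9.upperP_succ_of_even (by simp), H9.upperP_succ_of_even (by simp)]
      refine H9.le_oqMod_of_forall fun x hx => ?_
      obtain ⟨m, hm, hx⟩ := H9.pow_mem_of_mem_oqMod hx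
      have h3 : x ^ m ∈ N := by
        rw [← QuotientGroup.eq_one_iff, QuotientGroup.mk_pow]; exact hx
      have h4 := hN h3
      rw [H9.upperP_succ_of_even (by simp)] at h4
      obtain ⟨m', hm', h5⟩ := H9.pow_mem_of_mem_oqMod h4
      exact ⟨m * m', hm.mul_left hm', by rwa [pow_mul]⟩
    | succ n ih =>
      rw [← add_assoc]
      by_cases hn : Even (n + 1)
      · rw [H9.upperP_succ_of_even hn, H9.upperP_succ_of_even (n := 2 * a + n + 1)
          (by rw [add_assoc]; simp [parity_simps, hn])]
        refine H9.le_oqMod_of_forall fun x hx => ?_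
        obtain ⟨m, hm, hx⟩ := H9.pow_mem_of_mem_oqMod hx
        exact ⟨m, hm, ih (by rwa [mem_comap, map_pow])⟩
      · rw [H9.upperP_succ_of_not_even hn, H9.upperP_succ_of_not_even (n := 2 * a + n + 1)
          (by rw [add_assoc, Nat.even_add]; simp [hn])]
        refine H9.le_opMod_of_forall fun x hx => ?_
        obtain ⟨m, hx⟩ := H9.pow_mem_of_mem_opMod hx
        exact ⟨m, ih (by rwa [mem_comap, map_pow])⟩
  have := key (2 * b)
  rw [show (upperPSeries p (X ⧸ N) (2 * b + 1)).1 = ⊤ from h2, comap_top,
    show 2 * a + 2 * b + 1 = 2 * (a + b) + 1 by ring] at this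
  exact top_le_iff.1 this

theorem aux {p : ℕ} [hp : Fact p.Prime] {ι : Type*} [DecidableEq ι] (q : ι → ℕ)
    (hq : ∀ i, (q i).Prime ∧ q i ≠ p) (l : ι → ℕ) (s : Finset ι) :
    ∀ (X : Type u) [Group X] [Finite X],
      (∀ t : ℕ, t.Prime → t ∣ Nat.card X → t ≠ p → ∃ i ∈ s, q i = t) →
      (∀ i ∈ s, PLengthLE (q i) (l i) X) → PLengthLE p (∏ i ∈ s, (1 + l i)) X := by
  induction s using Finset.induction_on with
  | empty =>
    intro X _ _ hc _
    have hX : IsPGroup p X := IsPGroup.iff_card.2 ⟨_, Nat.eq_prime_pow_of_unique_prime_dvd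
      Nat.card_pos.ne' fun {t} ht hd => by_contra fun h => by simpa using hc t ht hd h⟩
    rw [Finset.prod_empty]
    refine top_le_iff.1 (le_trans ?_ (H9.upperP_mono (show 2 ≤ 2 * 1 + 1 by omega)))
    change _ ≤ (upperPSeries p X 2).1
    rw [H9.upperP_two, H9.pPrimePCore_eq_opMod]
    exact H9.le_opMod_of_isPGroup (hX.to_subgroup ⊤)
  | insert i s hi ih =>
    haveI := fun j => Fact.mk (hq j).1
    have base : ∀ (X : Type u) [Group X] [Finite X],
        (∀ t : ℕ, t.Prime → t ∣ Nat.card X → t ≠ p → ∃ j ∈ insert i s, q j = t) →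
        (∀ j ∈ s, PLengthLE (q j) (l j) X) → ¬ q i ∣ Nat.card X →
        PLengthLE p (∏ j ∈ s, (1 + l j)) X := by
      intro X _ _ hc hl hd
      refine ih X (fun t ht h1 h2 => ?_) hl
      obtain ⟨j, hj, rfl⟩ := hc t ht h1 h2
      rcases Finset.mem_insert.1 hj with rfl | hj
      · exact absurd h1 hd
      · exact ⟨j, hj, rfl⟩
    have inner : ∀ k, ∀ (X : Type u) [Group X] [Finite X],
        (∀ t : ℕ, t.Prime → t ∣ Nat.card X → t ≠ p → ∃ j ∈ insert i s, q j = t) →
        (∀ j ∈ s, PLengthLE (q j) (l j) X) → PLengthLE (q i) k X →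
        PLengthLE p ((1 + k) * ∏ j ∈ s, (1 + l j)) X := by
      intro k
      induction k with
      | zero =>
        intro X _ _ hc hl h
        simpa using base X hc hl (H9.pLengthLE_zero_iff.1 h)
      | succ k ihk =>
        intro X _ _ hc hl h
        let N := pPrimeCore (q i) X
        let K := pCore (q i) (X ⧸ N)
        let f := (QuotientGroup.mk' K).comp (QuotientGroup.mk' N)
        have hf : Function.Surjective f :=
          (QuotientGroup.mk'_surjective K).comp (QuotientGroup.mk'_surjective N)
        have h1 := base N (fun t ht h1 => hc t ht (h1.trans N.card_subgroup_dvd_card))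
          (fun j hj => H9.pLengthLE_of_injective N.subtype_injective (hl j hj))
          ((hq i).1.coprime_iff_not_dvd.1 (pPrimeCore_coprime _ _).symm)
        have h2 := ihk ((X ⧸ N) ⧸ K)
          (fun t ht h1 => hc t ht (h1.trans (Subgroup.card_dvd_of_surjective f hf)))
          (fun j hj => H9.pLengthLE_of_surjective hf (hl j hj))
          (H9.pLengthLE_of_succ hf (fun x hx => (QuotientGroup.eq_one_iff _).2 hx) h)
        have h3 : PLengthLE p 0 K := H9.pLengthLE_zero_iff.2 (hp.out.coprime_iff_not_dvd.1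
          (coprime_of_isPGroup (H := K) (hq i).2 (pCore_isPGroup' _ _)).symm)
        have := pLengthLE_add N h1 (pLengthLE_add K h3 h2)
        convert this using 1
        ring
    intro X _ _ hc hl
    rw [Finset.prod_insert hi]
    exact inner _ X hc (fun j hj => hl j (Finset.mem_insert_of_mem hj))
      (hl i (Finset.mem_insert_self _ _))

end

/-- Let G be a finite solvable group and p a prime. Suppose p₁, …, p_r are distinct primes, all different from p, that include every prime dividing the order of G other than p, and that G has p_i-length at most l_i for each i. Then G has p-length at most the product of the numbers 1 + l_i. -/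
theorem result {G : Type*} [Group G] [Finite G] (hG : Group.IsSolvable G) (p : ℕ) [Fact p.Prime] (r : ℕ) (q : Fin r → ℕ) (hq : ∀ i, (q i).Prime ∧ q i ≠ p) (hinj : Function.Injective q) (hcover : ∀ s : ℕ, s.Prime → s ∣ Nat.card G → s ≠ p → ∃ i, q i = s) (l : Fin r → ℕ) (hl : ∀ i, Cfsg.PLengthLE (q i) (l i) G) : Cfsg.PLengthLE p (Finset.univ.prod fun i => 1 + l i) G := by
  open Subgroup Cfsg.Agent.H10 in
  exact aux q hq l Finset.univ G (fun t ht h1 h2 => by simpa using hcover t ht h1 h2) fun i _ => hl i

end Cfsg.Agent.S3790
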