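import Cfsg.Statements.S3791
import Cfsg.Agent.H9.PLen

set_option autoImplicit false
open Cfsg

namespace Cfsg.Agent.S3791

open Subgroup

universe u

theorem aux (r : ℕ) (q : Fin r → ℕ) (hq : ∀ i, (q i).Prime) (hinj : Function.Injective q)
    (d : Fin r → ℕ) (n : ℕ) : ∀ {G : Type u} [Group G] [Finite G], Nat.card G ≤ n →
    Group.IsSolvable G → (∀ s : ℕ, s.Prime → s ∣ Nat.card G → ∃ i, q i = s) → ∀ l : Fin r → ℕ,
    (∀ i, ∀ P : Sylow (q i) G, H9.dsOf (P : Subgroup G) (d i) = ⊥) →
    (∀ i, Cfsg.PLengthLE (q i) (l i) G) →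
    H9.dsOf (⊤ : Subgroup G) (∑ i, d i * l i) = ⊥ := by
  classical
  induction n with
  | zero => intro G _ _ h; exact absurd h (by simpa using Nat.card_pos.ne')
  | succ n ih =>
    intro G _ _ hn hG hc l hd hl
    haveI := fun i => Fact.mk (hq i)
    have key : ∀ (N : Subgroup G) [N.Normal], N ≠ ⊥ → ∀ l : Fin r → ℕ,
        (∀ i, Cfsg.PLengthLE (q i) (l i) (G ⧸ N)) →
        H9.dsOf (⊤ : Subgroup G) (∑ i, d i * l i) ≤ N := by
      intro N _ hN l hl
      have hs := QuotientGroup.mk'_surjective N
      have := ih (G := G ⧸ N) (by have := H1.card_quotient_lt hN; omega) inferInstance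
        (fun s hs h => hc s hs (h.trans (card_quotient_dvd_card N))) l (fun i P => by
          obtain ⟨P, rfl⟩ := Sylow.mapSurjective_surjective hs (q i) P
          rw [Sylow.coe_mapSurjective, ← H9.map_dsOf, hd, Subgroup.map_bot]) hl
      rwa [← map_top_of_surjective _ hs, ← H9.map_dsOf, Subgroup.map_eq_bot_iff,
        QuotientGroup.ker_mk'] at this
    rcases subsingleton_or_nontrivial G with h1 | h1
    · exact Subsingleton.elim _ _
    by_cases h : ∃ i, pPrimeCore (q i) G = ⊥
    · obtain ⟨i, hi⟩ := h
      have hO : pCore (q i) G ≠ ⊥ :=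
        (H9.core_ne_bot_of_isPSolvable (H9.isPSolvable_of_isSolvable hG)).resolve_right (· hi)
      obtain ⟨k, hk⟩ : ∃ k, l i = k + 1 := Nat.exists_eq_succ_of_ne_zero fun h0 =>
        H9.pLengthLE_zero_iff.mp (h0 ▸ hl i) ((H9.dvd_card_of_isPGroup
          (H1.isPGroup_pCore _ _) hO).trans (card_subgroup_dvd_card _))
      have hs := QuotientGroup.mk'_surjective (pCore (q i) G)
      have h2 := key _ hO (Function.update l i k) fun j => by
        by_cases hj : j = i
        · subst hj
          rw [Function.update_self]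
          exact H9.pLengthLE_of_succ hs
            (by rw [H9.pPrimePCore_eq_pCore hi, QuotientGroup.ker_mk']) (hk ▸ hl j)
        · rw [Function.update_of_ne hj]
          exact H9.pLengthLE_of_surjective hs (hl j)
      have h3 : ∑ j, d j * l j = ∑ j, d j * Function.update l i k j + d i := by
        rw [← Finset.add_sum_erase _ _ (Finset.mem_univ i),
          ← Finset.add_sum_erase _ _ (Finset.mem_univ i), Function.update_self, hk,
          Finset.sum_congr rfl (f := fun j => d j * Function.update l i k j)
            (g := fun j => d j * l j) fun j hj => by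
            rw [Function.update_of_ne (Finset.ne_of_mem_erase hj)]]
        ring
      obtain ⟨P⟩ := (Sylow.nonempty : Nonempty (Sylow (q i) G))
      rw [h3, H9.dsOf_add, eq_bot_iff, ← hd i P]
      exact H9.dsOf_mono (h2.trans (H1.pCore_le_sylow P)) _
    · push Not at h
      by_contra hne
      obtain ⟨s, hs, hd'⟩ := Nat.exists_prime_and_dvd (mt card_eq_one.mp hne)
      obtain ⟨i, rfl⟩ := hc s hs (hd'.trans (card_subgroup_dvd_card _))
      exact H1.not_dvd_card_pPrimeCore (q i) G (hd'.trans (card_dvd_of_le (key _ (h i) l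
        fun j => H9.pLengthLE_of_surjective (QuotientGroup.mk'_surjective _) (hl j))))

/-- The Hall–Higman bound on derived length: let G be a finite solvable group, let p₁, …, p_r be distinct primes that include every prime dividing the order of G, and suppose that for each i the Sylow p_i-subgroups of G have derived length at most d_i and G has p_i-length at most l_i. Then G has derived length at most Σ d_i l_i. -/
theorem result {G : Type*} [Group G] [Finite G] (hG : Group.IsSolvable G) (r : ℕ) (q : Fin r → ℕ) (hq : ∀ i, (q i).Prime) (hinj : Function.Injective q) (hcover : ∀ s : ℕ, s.Prime → s ∣ Nat.card G → ∃ i, q i = s) (d l : Fin r → ℕ) (hd : ∀ i, ∀ P : Subgroup G, (haveI := Fact.mk (hq i); ∃ S : Sylow (q i) G, (S : Subgroup G) = P) → derivedSeries ↥P (d i) = ⊥) (hl : ∀ i, Cfsg.PLengthLE (q i) (l i) G) : derivedSeries G (Finset.univ.sum fun i => d i * l i) = ⊥ := by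
  rw [← H9.dsOf_top]
  exact aux r q hq hinj d _ le_rfl hG hcover l
    (fun i P => H9.dsOf_eq_bot_iff.mpr (hd i P ⟨P, rfl⟩)) hl

end Cfsg.Agent.S3791
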