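import Cfsg.Statements.S3792
import Cfsg.Agent.H25.Powell

set_option autoImplicit false
open Cfsg

namespace Cfsg.Agent.S3792

open Subgroup Cfsg.Agent.H20 Cfsg.Agent.H21 Cfsg.Agent.H25

/-- Powell's Theorem: let G be a finite non-abelian simple group and p an odd prime dividing its order such that every proper subgroup of G is p-soluble. Then G can be generated by three elements. -/
theorem result {G : Type*} [Group G] [Finite G] [IsSimpleGroup G] (hna : ¬ IsMulCommutative G) {p : ℕ} [Fact p.Prime] (hp : p ≠ 2) (hdvd : p ∣ Nat.card G) (hprop : ∀ H : Subgroup G, H ≠ ⊤ → Cfsg.IsPSolvable p ↥H) : ∃ x y z : G, Subgroup.closure ({x, y, z} : Set G) = ⊤ := by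
  classical
  by_contra! hcon
  have hb : ∀ H : Subgroup G, ∃ k, H ≠ ⊤ → low p k H = ⊥ := fun H => by
    by_cases h : H = ⊤
    · exact ⟨0, fun h' => absurd h h'⟩
    obtain ⟨k, hk⟩ := exists_low_eq_bot H (hprop H h)
    exact ⟨k, fun _ => by rw [← map_top_subtype H, ← map_low, hk, Subgroup.map_bot]⟩
  choose b hb using hb
  obtain ⟨K, hK⟩ := (Set.finite_range b).bddAbove
  have hex : ∃ k, ∀ H : Subgroup G, H ≠ ⊤ → low p k H = ⊥ :=
    ⟨K, fun H h => eq_bot_iff.2 ((low_anti (hK ⟨H, rfl⟩) H).trans (hb H h).le)⟩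
  obtain ⟨k, hk⟩ : ∃ k, Nat.find hex = k + 1 := by
    refine Nat.exists_eq_succ_of_ne_zero fun h => ?_
    obtain ⟨x, hx⟩ := exists_ne (1 : G)
    exact hx (by simpa [h, low] using Nat.find_spec hex _ (hcon x x x))
  have h1 := hk ▸ Nat.find_spec hex
  obtain ⟨H, hH, h2⟩ : ∃ H : Subgroup G, H ≠ ⊤ ∧ low p k H ≠ ⊥ := by
    simpa using Nat.find_min hex (m := k) (by omega)
  obtain ⟨x, y, h3⟩ := two_gen H (hprop H hH) k (by
    rwa [Ne, ← Subgroup.map_eq_bot_iff_of_injective _ H.subtype_injective, map_low, map_top_subtype])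
  rw [Ne, ← Subgroup.map_eq_bot_iff_of_injective _ H.subtype_injective, map_low, MonoidHom.map_closure,
    Set.image_pair] at h3
  generalize H.subtype x = a at h3
  generalize H.subtype y = c at h3
  have key : ∀ t ∈ low p k (closure {a, c}), ∀ w, IsPiElt (sig p k) w → IsPiElt (sig p k) (w * t) := by
    intro t ht w hw
    have h4 : IsPi (sig p k) (low p k (closure {a, c, w})) := res_eq_bot_iff.1 (h1 _ (hcon a c w))
    have h5 : zpowers w ≤ closure {a, c, w} := zpowers_le.2 (subset_closure (by simp))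
    exact ((isPi_zpowers.2 hw).sup h4 (Or.inl (norm_low k (norm_of_le h5)))).elt (mul_mem (mem_sup_left (mem_zpowers w))
      (mem_sup_right (low_mono k (closure_mono (by intro z; simp; tauto)) ht)))
  let R : Subgroup G :=
    { carrier := {s | ∀ w, IsPiElt (sig p k) (w * s) ↔ IsPiElt (sig p k) w}
      mul_mem' := fun {s t} hs ht w => by rw [← mul_assoc, ht, hs]
      one_mem' := fun w => by rw [mul_one]
      inv_mem' := fun {s} hs w => by rw [← hs, inv_mul_cancel_right] }
  have hR : R.Normal := ⟨fun s hs g w => by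
    have e : ∀ z, IsPiElt (sig p k) (g⁻¹ * z * g) ↔ IsPiElt (sig p k) z := fun z =>
      ⟨fun h => by simpa [mul_assoc] using piElt_conj g h, fun h => by simpa using piElt_conj g⁻¹ h⟩
    rw [← e, ← e w, ← hs (g⁻¹ * w * g)]
    simp [mul_assoc]⟩
  have hle : low p k (closure {a, c}) ≤ R := fun t ht w =>
    ⟨fun h => by simpa using key _ (inv_mem ht) _ h, key t ht w⟩
  have hRt : R = ⊤ := hR.eq_bot_or_eq_top.resolve_left fun h => h3 (eq_bot_iff.2 (h ▸ hle))
  have hG : IsPi (sig p k) (⊤ : Subgroup G) := isPi_of_forall_elt fun s hs => by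
    simpa using ((hRt ▸ hs : s ∈ R) 1).2 (piElt_one _)
  rcases sig_cases p k with h | h <;> rw [h] at hG
  · have h4 := center_ne_bot_of_nil hG.isPGroup.isNilpotent top_ne_bot
    rw [top_inf_eq, cent_top] at h4
    have h5 := (inferInstance : (center G).Normal).eq_bot_or_eq_top.resolve_left h4
    exact hna ⟨⟨fun u v => mem_center_iff.1 (h5 ▸ mem_top v) u⟩⟩
  · exact hG.not_dvd Fact.out rfl (by rwa [card_top'])

end Cfsg.Agent.S3792
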