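import Cfsg.Statements.S3797
import Cfsg.Agent.H10.OC3

set_option autoImplicit false
open Cfsg

namespace Cfsg.Agent.S3797

/-- Let G be a finite solvable group of even order whose Sylow 2-subgroups contain more than one involution, and suppose all involutions of G are conjugate. Then G has 2-length at most 1, and a Sylow 2-subgroup S of G is either homocyclic (a direct product of cyclic groups of one common order) or a non-abelian 2-group with more than one involution admitting a solvable group of automorphisms transitive on its involutions. -/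
theorem result {G : Type*} [Group G] [Finite G] (hG : Group.IsSolvable G) (heven : Even (Nat.card G)) (S : Sylow 2 G) (htwo : ∃ x y : G, x ∈ (S : Subgroup G) ∧ y ∈ (S : Subgroup G) ∧ x ≠ y ∧ x ≠ 1 ∧ x ^ 2 = 1 ∧ y ≠ 1 ∧ y ^ 2 = 1) (hconj : ∀ x y : G, x ≠ 1 → x ^ 2 = 1 → y ≠ 1 → y ^ 2 = 1 → IsConj x y) : Cfsg.PLengthLE 2 1 G ∧ ((∃ m r : ℕ, Nonempty (↥(S : Subgroup G) ≃* (Fin r → Multiplicative (ZMod (2 ^ m))))) ∨ (¬ IsMulCommutative (S : Subgroup G) ∧ ∃ Y : Subgroup (MulAut ↥(S : Subgroup G)), Group.IsSolvable Y ∧ ∀ x y : ↥(S : Subgroup G), x ≠ 1 → x ^ 2 = 1 → y ≠ 1 → y ^ 2 = 1 → ∃ a ∈ Y, a x = y)) := by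
  haveI : Fact (Nat.Prime 2) := ⟨Nat.prime_two⟩
  obtain ⟨x, y, hx, hy, hxy, hx1, hx2, hy1, hy2⟩ := htwo
  let π := QuotientGroup.mk' (pPrimeCore 2 G)
  have hπ : Function.Surjective π := QuotientGroup.mk'_surjective _
  have odd : ∀ g : G, (∃ k, g ^ 2 ^ k = 1) → π g = 1 → g = 1 := fun g ⟨k, hk⟩ h =>
    orderOf_eq_one_iff.1 ((((H1.coprime_card_pPrimeCore 2 G).coprime_dvd_left (by
      simpa using orderOf_dvd_natCard (⟨g, (QuotientGroup.eq_one_iff _).1 h⟩ : pPrimeCore 2 G))).pow_right k).eq_one_of_dvd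
      (orderOf_dvd_of_pow_eq_one hk))
  have inj : ∀ a ∈ (S : Subgroup G), ∀ b ∈ (S : Subgroup G), π a = π b → a = b := fun a ha b hb h =>
    inv_mul_eq_one.1 (odd _ ((S.isPGroup' ⟨_, mul_mem (inv_mem ha) hb⟩).imp fun k hk => congrArg Subtype.val hk)
      (by rw [map_mul, map_inv, h, inv_mul_cancel]))
  have lift : ∀ u : G ⧸ pPrimeCore 2 G, u ^ 2 = 1 → ∃ g : G, g ^ 2 = 1 ∧ π g = u := fun u hu => by
    obtain ⟨g, ⟨k, hk⟩, rfl⟩ := H9.exists_pElt_lift (p := 2) (n := 1) hπ (y := u) (by simpa using hu)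
    exact ⟨g, odd _ ⟨k, by rw [← pow_mul, mul_comm, pow_mul, hk, one_pow]⟩ (by rw [map_pow, hu]), rfl⟩
  obtain ⟨h1, h2⟩ := H10.OC.core (G := G ⧸ pPrimeCore 2 G) inferInstance (H1.pPrimeCore_quotient_pPrimeCore 2)
    (fun u v u1 u2 v1 v2 => by
      obtain ⟨a, ha, rfl⟩ := lift u u2
      obtain ⟨b, hb, rfl⟩ := lift v v2
      obtain ⟨g, rfl⟩ := isConj_iff.1 (hconj a b (fun e => u1 (by simp [e])) ha (fun e => v1 (by simp [e])) hb)
      exact ⟨π g, trivial, by simp⟩)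
    (x := π x) (y := π y) (fun e => hxy (inj x hx y hy e)) (fun e => hx1 (odd x ⟨1, hx2⟩ e))
    (by rw [← map_pow, hx2, map_one]) (fun e => hy1 (odd y ⟨1, hy2⟩ e)) (by rw [← map_pow, hy2, map_one])
    (S.mapSurjective hπ)
  have cen : ∀ a ∈ (S : Subgroup G), a ^ 2 = 1 → a ∈ Subgroup.centralizer ((S : Subgroup G) : Set G) :=
    fun a ha h s hs => inj _ (mul_mem hs ha) _ (mul_mem ha hs) (by
      rw [map_mul, map_mul]; exact h2 (π a) (by rw [← map_pow, h, map_one]) _ ⟨s, hs, rfl⟩)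
  have tr : ∀ a b : (S : Subgroup G), a ≠ 1 → a ^ 2 = 1 → b ≠ 1 → b ^ 2 = 1 →
      ∃ φ ∈ (S : Subgroup G).normalizerMonoidHom.range, φ a = b := fun a b a1 a2 b1 b2 => by
    have a3 : (a : G) ^ 2 = 1 := congrArg Subtype.val a2
    have b3 : (b : G) ^ 2 = 1 := congrArg Subtype.val b2
    obtain ⟨g, e⟩ := isConj_iff.1 (hconj a b (fun e => a1 (Subtype.ext e)) a3 (fun e => b1 (Subtype.ext e)) b3)
    obtain ⟨n, hn, e1⟩ := S.conj_eq_normalizer_conj_of_mem_centralizer a g⁻¹ (cen _ a.2 a3)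
      (by simpa [e] using cen _ b.2 b3)
    refine ⟨_, ⟨⟨n⁻¹, inv_mem hn⟩, rfl⟩, Subtype.ext ?_⟩
    rw [← e]
    show n⁻¹ * (a : G) * n⁻¹⁻¹ = _
    simpa using e1.symm
  refine ⟨H9.pLengthLE_succ_of_ker_le (k := 0)
    (f := (QuotientGroup.mk' (S.mapSurjective hπ : Subgroup (G ⧸ pPrimeCore 2 G))).comp π) (fun g hg => ?_)
    (H9.pLengthLE_zero_iff.2 (S.mapSurjective hπ).not_dvd_index), ?_⟩
  · exact H1.le_pCore (S.mapSurjective hπ).isPGroup' ((QuotientGroup.eq_one_iff _).1 hg)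
  by_cases hc : IsMulCommutative (S : Subgroup G)
  · letI : CommGroup (S : Subgroup G) := { (inferInstance : Group (S : Subgroup G)) with mul_comm := hc.is_comm.comm }
    exact .inl (H10.OC.homocyclic S.isPGroup' fun a b a1 a2 b1 b2 => (tr a b a1 a2 b1 b2).imp fun _ h => h.2)
  · exact .inr ⟨hc, _, Group.isSolvable_of_surjective (MonoidHom.rangeRestrict_surjective _), tr⟩

end Cfsg.Agent.S3797
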