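import Cfsg.Statements.S3798
import Cfsg.Agent.BG.S01b
import Cfsg.Agent.H9.PSolv
import Cfsg.Agent.H9.PLen

set_option autoImplicit false
open Cfsg

namespace Cfsg.Agent.S3798

open Subgroup Cfsg.Agent.H20 Cfsg.Agent.H21 Cfsg.Agent.BG
open scoped commutatorElement

theorem cent_of_conj_fixed {G : Type*} [Group G] [Finite G] {R Q : Subgroup G} (hR : Group.IsNilpotent R)
    (hQ : Q ≤ N⟦R⟧) (hcop : (♯R).Coprime (♯Q)) (n : ℕ) :
    ∀ W : Subgroup G, ♯W = n → W ≤ R → R ≤ N⟦W⟧ → Q ≤ N⟦W⟧ →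
      (∀ w ∈ W, ∃ r ∈ R, r⁻¹ * w * r ∈ C⟦Q⟧) → Q ≤ C⟦W⟧ := by
  induction n using Nat.strong_induction_on with
  | _ n ih =>
  intro W hn hWR hRW hQW h
  by_cases h1 : W = ⊥
  · rw [h1, cent_bot]; exact le_top
  have hlt := commg_lt_of_nil hR hWR hRW h1
  have hRN : R ≤ N⟦⁅W, R⁆⟧ := norm_commutator hRW (le_norm_self R)
  have hQN : Q ≤ N⟦⁅W, R⁆⟧ := norm_commutator hQW hQ
  have h2 := ih _ (hn ▸ card_lt hlt) ⁅W, R⁆ rfl (hlt.le.trans hWR) hRN hQN
    (fun w hw => h w (hlt.le hw))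
  refine coprime_cent_of_stable (coprime_of_le_left hcop (hlt.le.trans hWR)) ?_ h2
  rw [commutator_le]
  intro w hw q hq
  obtain ⟨r, hr, hc⟩ := h w hw
  have hm : w⁻¹ * r⁻¹ * w * r ∈ ⁅W, R⁆ := by
    have := commutator_mem_commutator (inv_mem hw) (inv_mem hr)
    simpa [commutatorElement_def] using this
  have hc' := mem_cent.mp hc q hq
  have e : ⁅w, q⁆ = w * ((q * (w⁻¹ * r⁻¹ * w * r) * q⁻¹) * (w⁻¹ * r⁻¹ * w * r)⁻¹) * w⁻¹ := by
    have : q * (r⁻¹ * w * r) * q⁻¹ = r⁻¹ * w * r := by rw [hc']; group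
    calc ⁅w, q⁆ = w * q * w⁻¹ * q⁻¹ * (q * (r⁻¹ * w * r) * q⁻¹) * (q * (r⁻¹ * w * r) * q⁻¹)⁻¹ := by
            rw [commutatorElement_def]; group
      _ = w * q * w⁻¹ * q⁻¹ * (q * (r⁻¹ * w * r) * q⁻¹) * (r⁻¹ * w * r)⁻¹ := by rw [this]
      _ = _ := by group
  rw [e]
  exact conj_mem_of_norm (hRN (hWR hw)) (mul_mem (conj_mem_of_norm (hQN hq) hm) (inv_mem hm))

theorem core {G : Type*} [Group G] [Finite G] {p : ℕ} [hp' : Fact p.Prime] (hp : p ≠ 2)
    (hG : Cfsg.IsPSolvable p G) (hO : pPrimeCore p G = ⊥)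
    (htrans : ∀ U V : Subgroup G, Nat.card U = p → Nat.card V = p → ∃ a : MulAut G, U.map a.toMonoidHom = V) :
    PLen1 p (⊤ : Subgroup G) := by
  have hC := H9.centralizer_pCore_le_of_isPSolvable hG hO
  rw [pCore_eq_top] at hC
  set R := piCoreOf {p} (⊤ : Subgroup G) with hRdef
  have hRn : R ⊴ ⊤ := piCoreOf_normalIn _ _
  have hRp : IsPGroup p R := isPGroup_piCoreOf p ⊤
  refine pLen1_of_series (NormalIn.bot ⊤) hRn (IsPi.bot _) ?_ ?_
  · rw [relIndex_bot_left]; exact (isPi_piCoreOf {p} ⊤).piNat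
  intro hd
  have hR1 : R ≠ ⊥ := by
    intro h
    rw [h, cent_bot] at hC
    have : (⊤ : Subgroup G) = ⊥ := le_bot_iff.mp hC
    rw [this, relIndex_bot_right] at hd
    exact hp'.out.one_lt.ne' (Nat.dvd_one.mp hd)
  have hmapR : ∀ a : MulAut G, R.map a.toMonoidHom = R := fun a => by
    rw [hRdef, map_piCoreOf a.injective, map_top_of_surjective _ a.surjective]
  set K := coreMod {p}ᶜ R ⊤ with hKdef
  have hKn : K ⊴ ⊤ := coreMod_normalIn _ hRn.norm
  have hRK : R ≤ K := self_le_coreMod _ hRn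
  have hmapK : ∀ a : MulAut G, K.map a.toMonoidHom = K := fun a => by
    rw [hKdef, map_coreMod a.injective hRn.norm, map_top_of_surjective _ a.surjective, hmapR]
  have hidx : PiNat {p}ᶜ (R.relIndex K) := piNat_coreMod _ hRn.norm
  have hcop : (♯R).Coprime (R.relIndex K) := (isPi_piCoreOf {p} ⊤).piNat.coprime hidx
  obtain ⟨Q, hQ⟩ := exists_compl_of_coprime (hRn.of_le hRK le_top) hcop
  have hcop' : (♯R).Coprime (♯Q) := by rwa [Compl.relIndex_left hQ] at hcop
  have hconj : ∀ a : MulAut G, ∃ r ∈ R, cj r (Q.map a.toMonoidHom) = Q := fun a => by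
    have h2 := Compl.map (f := a.toMonoidHom) a.injective hQ
    rw [hmapR, hmapK] at h2
    exact compl_exists_cj_eq (hRn.of_le hRK le_top) hQ h2 hcop' (Or.inr (sol_of_pgroup hRp))
  -- Frattini
  have hF : R ⊔ N⟦Q⟧ = ⊤ := by
    rw [eq_top_iff]
    intro g _
    obtain ⟨r, hr, e⟩ := hconj (MulAut.conj g)
    rw [← cj_def, ← cj_mul] at e
    have := mem_norm_iff_cj.mpr e
    have e2 : g = r⁻¹ * (r * g) := by group
    rw [e2]
    exact mul_mem (mem_sup_left (inv_mem hr)) (mem_sup_right this)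
  have hdN : p ∣ ♯(N⟦Q⟧) := by
    rw [← hF, relIndex_sup_of_norm' (Or.inr (le_top.trans hRn.norm))] at hd
    exact hd.trans (relIndex_dvd_card _ _)
  obtain ⟨X, hXN, hX⟩ := exists_prime_subgroup hp'.out hdN
  obtain ⟨Y, hYR, hY⟩ := exists_prime_subgroup hp'.out (dvd_card_of_isPGroup hRp hR1)
  have hXR : X ≤ R := by
    obtain ⟨a, ha⟩ := htrans Y X hY hX
    rw [← ha, ← hmapR a]; exact map_mono hYR
  have hXC : X ≤ C⟦Q⟧ := by
    have h1 := coprime_inf_norm (le_top.trans hRn.norm : Q ≤ N⟦R⟧) hcop'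
    exact (le_inf hXR hXN).trans (h1.le.trans inf_le_right)
  have hfix : ∀ w : G, w ^ p = 1 → ∃ r ∈ R, r⁻¹ * w * r ∈ C⟦Q⟧ := by
    intro w hw
    by_cases h1 : w = 1
    · exact ⟨1, one_mem _, by simp [h1]⟩
    have hc : ♯(zpowers w) = p := by
      rw [Nat.card_zpowers]; exact orderOf_eq_prime hw h1
    obtain ⟨a, ha⟩ := htrans X _ hX hc
    obtain ⟨r, hr, e⟩ := hconj a
    refine ⟨r⁻¹, inv_mem hr, ?_⟩
    have h3 : zpowers w ≤ C⟦Q.map a.toMonoidHom⟧ := ha ▸ cent_map _ hXC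
    have h4 := cent_cj r h3
    rw [e] at h4
    rw [inv_inv]
    exact h4 (conj_mem_cj.mpr (mem_zpowers w))
  obtain ⟨H, hH, -, -, hexp, hfaith⟩ := critical_odd hRp (odd_of_pgroup hp hRp) hR1
  have hQR : Q ≤ N⟦R⟧ := le_top.trans hRn.norm
  have h5 := cent_of_conj_fixed (nilpotent_of_pgroup hRp) hQR hcop' _ H rfl hH.le
    hH.normalIn.norm (hH.norm hQR) (fun w hw => hfix w (hexp w hw))
  have hQp : IsPi {p}ᶜ Q := by rw [isPi_iff, ← Compl.relIndex_left hQ]; exact hidx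
  have h6 := (hfaith Q hQR (hQp.coprime_prime hp'.out) h5).trans hC
  have hKR : K = R := by
    rw [← Compl.sup_eq hQ, sup_eq_left.mpr h6]
  haveI := hRn.normal
  have hnt : Nontrivial (G ⧸ R) := by
    rw [← Finite.one_lt_card_iff_nontrivial, ← index_eq_card, ← relIndex_top_right]
    have := relIndex_pos R ⊤
    by_contra hh
    have h7 : R.relIndex ⊤ = 1 := by omega
    rw [h7] at hd
    exact hp'.out.one_lt.ne' (Nat.dvd_one.mp hd)
  have hsurj := QuotientGroup.mk'_surjective R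
  rcases H9.core_ne_bot_of_isPSolvable (H9.isPSolvable_quotient hG R) with h7 | h7
  · apply h7
    rw [pCore_eq_top, ← map_top_of_surjective _ hsurj]
    exact piCoreOf_map_eq_bot_of_ker _ (QuotientGroup.ker_mk' R)
  · apply h7
    rw [pPrimeCore_eq_top, ← map_top_of_surjective _ hsurj, ← map_coreMod_ker,
      QuotientGroup.ker_mk', ← hKdef, hKR]
    exact (Subgroup.map_eq_bot_iff _).mpr (QuotientGroup.ker_mk' R).ge

/-- The Gaschütz–Yen Theorem: let G be a finite p-soluble group, p an odd prime dividing its order, such that the automorphism group of G permutes the subgroups of G of order p transitively. Then G has p-length at most 1. -/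
theorem result {G : Type*} [Group G] [Finite G] {p : ℕ} [Fact p.Prime] (hp : p ≠ 2) (hdvd : p ∣ Nat.card G) (hG : Cfsg.IsPSolvable p G) (htrans : ∀ U V : Subgroup G, Nat.card U = p → Nat.card V = p → ∃ a : MulAut G, U.map a.toMonoidHom = V) : Cfsg.PLengthLE p 1 G := by
  set O := piCoreOf {p}ᶜ (⊤ : Subgroup G) with hOdef
  have hOn : O ⊴ ⊤ := piCoreOf_normalIn _ _
  haveI := hOn.normal
  have hsurj := QuotientGroup.mk'_surjective O
  have hOp : IsPi {p}ᶜ O := isPi_piCoreOf _ _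
  have hp' : p.Prime := Fact.out
  rw [← pLen1_top_iff]
  refine pLen1_of_map (QuotientGroup.mk' O) (by rw [QuotientGroup.ker_mk']; exact hOp.inf_left _) ?_
  rw [map_top_of_surjective _ hsurj]
  refine core hp (H9.isPSolvable_quotient hG O) ?_ ?_
  · rw [pPrimeCore_eq_top, ← map_top_of_surjective _ hsurj]
    exact piCoreOf_map_eq_bot_of_ker _ (QuotientGroup.ker_mk' O)
  have lift : ∀ U : Subgroup (G ⧸ O), ♯U = p → ∃ U' : Subgroup G, ♯U' = p ∧ U'.map (QuotientGroup.mk' O) = U := by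
    intro U hU
    have hd : p ∣ ♯(U.comap (QuotientGroup.mk' O)) := by
      have := card_dvd_of_surjective _ ((QuotientGroup.mk' O).subgroupComap_surjective_of_surjective U hsurj)
      rwa [hU] at this
    obtain ⟨X, hX, hXp⟩ := exists_prime_subgroup hp' hd
    refine ⟨X, hXp, ?_⟩
    refine eq_of_le_of_card_prime (hU ▸ hp') (map_le_iff_le_comap.mpr hX) ?_
    intro h
    rw [Subgroup.map_eq_bot_iff, QuotientGroup.ker_mk'] at h
    exact hOp.not_dvd hp' rfl (hXp ▸ card_dvd h)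
  intro U V hU hV
  obtain ⟨U', hU', rfl⟩ := lift U hU
  obtain ⟨V', hV', rfl⟩ := lift V hV
  obtain ⟨a, rfl⟩ := htrans U' V' hU' hV'
  have hmap : O.map (a : G →* G) = O := by
    have := map_piCoreOf (f := a.toMonoidHom) a.injective {p}ᶜ ⊤
    rwa [map_top_of_surjective _ a.surjective] at this
  refine ⟨QuotientGroup.congr O O a hmap, ?_⟩
  rw [map_map, map_map]
  congr 1

end Cfsg.Agent.S3798
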