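import Cfsg.Statements.S3799
import Cfsg.Agent.H26.ES4

set_option autoImplicit false
open Cfsg

namespace Cfsg.Agent.S3799

/-- the natural module -/
abbrev W (p n : ℕ) : Type := ZMod p × (Fin n → ZMod p) × ZMod p

/-- the action on the natural module -/
def rep (p n : ℕ) : H26.Heis (H26.stdβ p n) →* Module.End (ZMod p) (W p n) where
  toFun g :=
    { toFun := fun x => (x.1 + g.v.1 ⬝ᵥ x.2.1 + g.a * x.2.2, x.2.1 + x.2.2 • g.v.2, x.2.2)
      map_add' := fun x y => by
        refine Prod.ext ?_ (Prod.ext ?_ rfl)
        · simp; ring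
        · simp [add_smul]; abel
      map_smul' := fun c x => by
        refine Prod.ext ?_ (Prod.ext ?_ rfl)
        · simp; ring
        · simp [mul_smul] }
  map_one' := by ext x <;> simp
  map_mul' g h := LinearMap.ext fun x => by
    refine Prod.ext ?_ (Prod.ext ?_ rfl)
    · simp; ring
    · simp; abel

theorem rep_inj (p n : ℕ) : Function.Injective (rep p n) := by
  refine (injective_iff_map_eq_one _).mpr fun g hg => ?_
  have h1 := LinearMap.congr_fun hg (0, 0, 1)
  simp only [rep, Prod.ext_iff] at h1
  refine H26.Heis.ext (Prod.ext (funext fun i => ?_) (by simpa using h1.2.1)) (by simpa using h1.1)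
  have h2 := LinearMap.congr_fun hg (0, Pi.single i 1, 0)
  simp only [rep, Prod.ext_iff] at h2
  simpa using h2.1

/-- For every odd prime p and every n ≥ 1 there is an extraspecial p-group of order p^(1+2n) and exponent p; concretely, the general linear group of degree n + 2 over the field with p elements contains such a subgroup. -/
theorem result (p : ℕ) [Fact p.Prime] (hp : p ≠ 2) (n : ℕ) (hn : 1 ≤ n) : ∃ E : Subgroup (Matrix.GeneralLinearGroup (Fin (n + 2)) (ZMod p)), Cfsg.IsExtraspecial p ↥E ∧ Nat.card E = p ^ (1 + 2 * n) ∧ ∀ x ∈ E, x ^ p = 1 := by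
  let b := Module.finBasisOfFinrankEq (ZMod p) (W p n) (n := n + 2) (by simp; omega)
  let f : H26.Heis (H26.stdβ p n) →* Matrix.GeneralLinearGroup (Fin (n + 2)) (ZMod p) :=
    ((LinearMap.toMatrixAlgEquiv b).toMulEquiv.toMonoidHom.comp (rep p n)).toHomUnits
  have hf : Function.Injective f := fun x y h =>
    rep_inj p n ((LinearMap.toMatrixAlgEquiv b).injective (congrArg Units.val h))
  refine ⟨f.range, H26.isExtraspecial_congr (H26.isExtraspecial_stdβ p hn) (MonoidHom.ofInjective hf), ?_, ?_⟩
  · rw [← Nat.card_congr (MonoidHom.ofInjective hf).toEquiv, H26.card_stdβ, add_comm]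
  · rintro _ ⟨x, rfl⟩
    rw [← map_pow, H26.Heis.pow_p hp, map_one]

end Cfsg.Agent.S3799
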