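import Cfsg.Statements.S3950
import Cfsg.Agent.H25.Schur3

set_option autoImplicit false
open Cfsg

namespace Cfsg.Agent.S3950

open Cfsg.Agent.H25 Subgroup

/-- A finite abelian group has trivial Schur multiplier if and only if it is cyclic. -/
theorem result {G : Type*} [CommGroup G] [Finite G] : Cfsg.HasCyclicSchurMultiplier G 1 ↔ IsCyclic G := by
  refine ⟨fun h => ?_, fun h => H27.hasSchur_one_of_closed (fun r hr => H27.closedAt_of_isCyclic hr)⟩
  classical
  obtain ⟨ι, _, n, hn, ⟨e⟩⟩ := CommGroup.equiv_prod_multiplicative_zmod_of_finite G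
  by_cases hco : Pairwise (Function.onFun Nat.Coprime n)
  · have e2 := (ZMod.prodEquivPi n hco).toAddEquiv.toMultiplicative
    have e3 := MulEquiv.piMultiplicative (fun i => ZMod (n i))
    exact isCyclic_of_surjective ((e2.trans e3).trans e.symm) ((e2.trans e3).trans e.symm).surjective
  exfalso
  simp only [Pairwise, not_forall] at hco
  obtain ⟨i, j, hij, hc⟩ := hco
  obtain ⟨p, hp, hi, hj⟩ := Nat.Prime.not_coprime_iff_dvd.1 hc
  haveI := Fact.mk hp
  let β : G →* G →* Multiplicative (ZMod p) := MonoidHom.mk' (fun x => MonoidHom.mk'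
    (fun y => Multiplicative.ofAdd (ZMod.castHom hi (ZMod p) (e x i).toAdd *
      ZMod.castHom hj (ZMod p) (e y j).toAdd)) (fun a b => by
        rw [map_mul e, Pi.mul_apply, toAdd_mul, map_add, mul_add, ofAdd_add]))
    (fun a b => MonoidHom.ext fun y => by
      simp only [MonoidHom.mk'_apply, MonoidHom.mul_apply]
      rw [map_mul e, Pi.mul_apply, toAdd_mul, map_add, add_mul, ofAdd_add])
  have h1 := mult_eq_bot_of_hasSchur_one h (Tw.cext (β := β))
  have h2 := Tw.inT_mem_commutator (β := β) (x := e.symm (Pi.mulSingle i (Multiplicative.ofAdd 1)))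
    (y := e.symm (Pi.mulSingle j (Multiplicative.ofAdd 1))) (mul_comm _ _)
  have h3 : _ ∈ mult (Tw.proj β) := ⟨rfl, h2⟩
  rw [h1, mem_bot] at h3
  have h4 := congrArg Tw.t h3
  have h5 : β _ _ * (β _ _)⁻¹ = 1 := h4
  simp only [β, MonoidHom.mk'_apply, MulEquiv.apply_symm_apply, Pi.mulSingle_eq_same,
    Pi.mulSingle_eq_of_ne hij, toAdd_ofAdd, map_one, toAdd_one, map_zero] at h5
  simp at h5

end Cfsg.Agent.S3950
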