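import Cfsg.Statements.S3951
import Cfsg.Agent.H25.SchurMeta

set_option autoImplicit false
open Cfsg

namespace Cfsg.Agent.S3951

open Cfsg.Agent.H25

/-- For positive integers `m` and `n` with `n` dividing `m`, the Schur multiplier of the abelian group `ZMod m × ZMod n` (written multiplicatively) is cyclic of order `n`. In particular the elementary abelian group of order `p ^ 2` has multiplier of order `p`. -/
theorem result (m n : ℕ) [NeZero m] [NeZero n] (hnm : n ∣ m) : Cfsg.HasCyclicSchurMultiplier (Multiplicative (ZMod m × ZMod n)) n := by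
  have M : Meta (Multiplicative.ofAdd ((1 : ZMod m), (0 : ZMod n)))
      (Multiplicative.ofAdd ((0 : ZMod m), (1 : ZMod n))) m n 1 0 := by
    refine ⟨?_, ?_, ?_, ?_, ?_⟩
    · rw [orderOf_ofAdd_eq_addOrderOf, Prod.addOrderOf, ZMod.addOrderOf_one, addOrderOf_zero,
        Nat.lcm_one_right]
    · rw [mul_inv_cancel_comm, pow_one]
    · rw [pow_zero, ← ofAdd_nsmul]; simp
    · rw [eq_top_iff]
      rintro ⟨x, y⟩ _
      obtain ⟨i, rfl⟩ := ZMod.intCast_surjective x
      obtain ⟨j, rfl⟩ := ZMod.intCast_surjective y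
      have : (((i : ZMod m), (j : ZMod n)) : Multiplicative (ZMod m × ZMod n)) =
          (Multiplicative.ofAdd ((1 : ZMod m), (0 : ZMod n))) ^ i *
          (Multiplicative.ofAdd ((0 : ZMod m), (1 : ZMod n))) ^ j := by
        rw [← ofAdd_zsmul, ← ofAdd_zsmul, ← ofAdd_add]
        simp
        rfl
      rw [this]
      exact mul_mem (zpow_mem (Subgroup.subset_closure (by simp)) _)
        (zpow_mem (Subgroup.subset_closure (by simp)) _)
    · rintro j ⟨i, hi⟩
      simp only at hi
      rw [← ofAdd_zsmul, ← ofAdd_zsmul] at hi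
      have := congrArg (fun x => (Multiplicative.toAdd x).2) hi
      simp at this
      exact (ZMod.intCast_zmod_eq_zero_iff_dvd _ _).1 this.symm
  refine M.hasSchur (NeZero.pos m) (NeZero.pos n) one_pos ?_
  simp [Nat.div_self (NeZero.pos m), Nat.gcd_eq_right hnm]

end Cfsg.Agent.S3951
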