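import Cfsg.Statements.S3952
import Cfsg.Agent.H25.Schur2

set_option autoImplicit false
open Cfsg

namespace Cfsg.Agent.S3952

open Cfsg.Agent.H25 Subgroup

/-- If `A` is the Schur multiplier of the finite group `Q`, then the square of the exponent of `A` divides the order of `Q`. -/
theorem result {Q : Type*} [Group Q] [Finite Q] {A : Type*} [CommGroup A] (hA : Cfsg.HasSchurMultiplier Q A) : Monoid.exponent A ^ 2 ∣ Nat.card Q := by
  obtain ⟨Γ, _, _, σ, hσ, ⟨e⟩⟩ := hA.1
  have hfin := (finite_of_hasSchur hA).2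
  rw [Nat.dvd_iff_prime_pow_dvd_dvd]
  intro p k hp hk
  haveI := Fact.mk hp
  have hE : Monoid.exponent A ≠ 0 := Monoid.exponent_ne_zero_of_finite
  set a := (Monoid.exponent A).factorization p with ha
  have hka : k ≤ 2 * a := by
    have := (hp.pow_dvd_iff_le_factorization (pow_ne_zero 2 hE)).1 hk
    rwa [Nat.factorization_pow, Finsupp.smul_apply, smul_eq_mul] at this
  refine (pow_dvd_pow p hka).trans ?_
  obtain ⟨g, hg⟩ := Monoid.exists_orderOf_eq_exponent (G := A) Monoid.ExponentExists.of_finite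
  have h1 : orderOf (g ^ (Monoid.exponent A / p ^ a)) = p ^ a := by
    rw [← hg]
    refine orderOf_pow_orderOf_div (by rw [hg]; exact hE) ?_
    rw [hg]; exact Nat.ordProj_dvd _ _
  set z := e.symm (g ^ (Monoid.exponent A / p ^ a)) with hz
  have h2 : orderOf (z : Γ) = p ^ a := by rw [orderOf_coe, hz, MulEquiv.orderOf_eq, h1]
  obtain ⟨P⟩ : Nonempty (Sylow p Q) := inferInstance
  have h3 := H27.mem_commutator_comap hσ z.2 (P : Subgroup Q) (by
    rw [h2]
    exact Nat.Coprime.pow_left _ ((Nat.Prime.coprime_iff_not_dvd hp).2 P.not_dvd_index))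
  let H := (P : Subgroup Q).comap σ
  have hzH : (z : Γ) ∈ H := H27.commutator_self_le _ h3
  have h4 : (σ.subgroupComap (P : Subgroup Q)).ker ≤ center H := by
    intro y hy
    rw [mem_center_iff]
    intro b
    exact Subtype.ext (mem_center_iff.1 (hσ.2.1 (congrArg Subtype.val ((MonoidHom.mem_ker).1 hy))) b)
  have h5 := sq_le_index_center (z := (⟨z, hzH⟩ : H)) hp (by rw [← orderOf_coe]; exact h2)
    (h4 (Subtype.ext z.2)) (by
      rw [← map_subtype_commutator] at h3
      obtain ⟨y, hy, hy'⟩ := h3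
      rwa [← show y = ⟨z, hzH⟩ from Subtype.ext hy'])
  have h6 := index_antitone h4
  rw [index_ker, MonoidHom.range_eq_top.2 (σ.subgroupComap_surjective_of_surjective _ hσ.1),
    card_top] at h6
  obtain ⟨s, hs⟩ := P.isPGroup'.exists_card_eq
  have h7 := h5.trans h6
  rw [hs, ← pow_mul, Nat.pow_le_pow_iff_right hp.one_lt, mul_comm] at h7
  exact (pow_dvd_pow p h7).trans (hs ▸ card_subgroup_dvd_card (P : Subgroup Q))

end Cfsg.Agent.S3952
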