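import Cfsg.Statements.S3953
import Cfsg.Agent.H25.Schur2

set_option autoImplicit false
open Cfsg

namespace Cfsg.Agent.S3953

open Cfsg.Agent.H25

/-- Let `P` be a Sylow `p`-subgroup of the finite group `G`, let `A` be the Schur multiplier of `G` and `B` that of `P`. Then the `p`-primary component of `A` is isomorphic to a direct factor of `B`: there are subgroups `C` and `D` of `B` meeting trivially and generating `B`, with `C` isomorphic to the `p`-primary component of `A`. -/
theorem result {G : Type*} [Group G] [Finite G] (p : ℕ) [Fact p.Prime] (P : Sylow p G) {A B : Type*} [CommGroup A] [CommGroup B] (hA : Cfsg.HasSchurMultiplier G A) (hB : Cfsg.HasSchurMultiplier P B) : ∃ C D : Subgroup B, C ⊓ D = ⊥ ∧ C ⊔ D = ⊤ ∧ Nonempty (CommGroup.primaryComponent A p ≃* C) := by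
  obtain ⟨cor, tr, h⟩ := exists_cor_tr (P : Subgroup G) hA hB
  have hfin := (finite_of_hasSchur hA).2
  have hp : p.Prime := Fact.out
  have hco : ∀ a : CommGroup.primaryComponent A p, (orderOf (a : A)).Coprime (P : Subgroup G).index := by
    rintro ⟨a, k, hk⟩
    exact Nat.Coprime.coprime_dvd_left (orderOf_dvd_of_pow_eq_one hk)
      (Nat.Coprime.pow_left _ ((Nat.Prime.coprime_iff_not_dvd hp).2 P.not_dvd_index))
  let t := tr.comp (CommGroup.primaryComponent A p).subtype
  have h1 : ∀ a, cor (t a) = 1 → a = 1 := by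
    intro a ha
    have h2 : (a : A) ^ (P : Subgroup G).index = 1 := (h a).symm.trans ha
    exact Subtype.ext (orderOf_eq_one_iff.1
      ((hco a).eq_one_of_dvd (orderOf_dvd_of_pow_eq_one h2)))
  refine ⟨t.range, cor.ker, ?_, ?_, ⟨MonoidHom.ofInjective ?_⟩⟩
  · rw [eq_bot_iff]
    rintro _ ⟨⟨a, rfl⟩, ha⟩
    rw [h1 a ha, map_one]; exact one_mem _
  · rw [eq_top_iff]
    intro b _
    obtain ⟨k, hk⟩ := P.isPGroup'.exists_card_eq
    have h2 : cor b ∈ CommGroup.primaryComponent A p := ⟨k, by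
      rw [← map_pow, ← hk, pow_card_eq_one_of_hasSchur hB, map_one]⟩
    obtain ⟨u, hu⟩ := exists_pow_eq_self_of_coprime (hco ⟨_, h2⟩).symm
    have h3 : b = t (⟨_, h2⟩ ^ u) * ((t (⟨_, h2⟩ ^ u))⁻¹ * b) := by group
    rw [h3]
    refine Subgroup.mul_mem_sup ⟨_, rfl⟩ ?_
    rw [MonoidHom.mem_ker, map_mul, map_inv, inv_mul_eq_one]
    refine (h _).trans ?_
    show (cor b ^ u) ^ _ = _
    rw [← pow_mul, mul_comm, pow_mul]
    exact hu
  · rw [injective_iff_map_eq_one]
    intro a ha
    exact h1 a (by rw [ha, map_one])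

end Cfsg.Agent.S3953
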