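import Cfsg.Statements.S3958
import Cfsg.Agent.H25.Hopf

set_option autoImplicit false
universe u v
open Cfsg

namespace Cfsg.Agent.S3958

open Cfsg.Agent.H25

/-- Let `σ : Γ →* Q` be a finite stem extension of the finite group `Q` with `Γ` of trivial Schur multiplier. Then `σ` is a Schur covering group of `Q`: for every finite stem extension `τ : Δ →* Q` with `Δ` in the same universe as `Q`, the kernel of `τ` is a homomorphic image of the kernel of `σ`. -/
theorem result {Q : Type u} [Group Q] [Finite Q] {Γ : Type v} [Group Γ] [Finite Γ] (σ : Γ →* Q) (hσ : Cfsg.IsStemExtension σ) (hΓ : Cfsg.HasCyclicSchurMultiplier Γ 1) (Δ : Type u) [Group Δ] [Finite Δ] (τ : Δ →* Q) (hτ : Cfsg.IsStemExtension τ) : ∃ π : σ.ker →* τ.ker, Function.Surjective π := by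
  obtain ⟨Γ₀, _, _, σ₀, η, β, h1, h2, h3, h4⟩ := hopf_exists_cover (stdPres_surj Q) hσ
  have hβ := surj_of_stem h1.1 hσ β h4
  have hk : β.ker ≤ σ₀.ker := fun a ha => by
    rw [MonoidHom.mem_ker, ← h4, (MonoidHom.mem_ker).1 ha, map_one]
  have hb := mult_eq_bot_of_hasSchur_one hΓ (ξ := β) ⟨hβ, hk.trans h1.2.1⟩
  refine ker_surj_of_inj_on_mult (stdPres_surj Q) hσ (β.comp η) (fun a => by
    rw [MonoidHom.comp_apply, h4, h2]) (fun a ha h => h3 a ha ?_) hτ
  have : η a ∈ mult β := ⟨h, h1.2.2 (hk h)⟩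
  rwa [hb, Subgroup.mem_bot] at this

end Cfsg.Agent.S3958
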