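import Cfsg.Statements.S3960
import Cfsg.Agent.H25.Hopf

set_option autoImplicit false
universe u
open Cfsg

namespace Cfsg.Agent.S3960

open Cfsg.Agent.H25

/-- A finite perfect group `Q` has a universal central extension: a finite perfect group `G` in the universe of `Q` and a surjective homomorphism `π : G →* Q` with central kernel such that for every group `X` in that universe and every surjective homomorphism `ξ : X →* Q` with central kernel there is exactly one homomorphism `η : G →* X` with `ξ ∘ η = π`. -/
theorem result {Q : Type u} [Group Q] [Finite Q] (hQ : Group.IsPerfect Q) : ∃ (G : Type u) (_ : Group G) (_ : Finite G) (π : G →* Q), Group.IsPerfect G ∧ Function.Surjective π ∧ π.ker ≤ Subgroup.center G ∧ ∀ (X : Type u) [Group X] (ξ : X →* Q), Function.Surjective ξ → ξ.ker ≤ Subgroup.center X → ∃! η : G →* X, ξ.comp η = π := by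
  have hE := hopf_cext (stdPres_surj Q)
  have hfin := hE.finite_commutator
  let E := Hopf (stdPres Q)
  let π : commutator E →* Q := (hopfπ (stdPres Q)).comp (commutator E).subtype
  have hs : Function.Surjective π := by
    intro q
    have hq : q ∈ commutator Q := by rw [hQ.commutator_eq_top]; trivial
    obtain ⟨a, ha, h⟩ := exists_mem_commutator_map (ζ := MonoidHom.id Q) (stem_id Q).2.1
      (hopfπ (stdPres Q)) (fun y => hE.surj y) hq
    exact ⟨⟨a, ha⟩, h⟩
  have hperf : commutator (commutator E) = ⊤ := by
    rw [eq_top_iff]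
    intro a _
    obtain ⟨b, hb, h⟩ := exists_mem_commutator_map hE.cent (commutator E).subtype
      (fun y => hs _) a.2
    rwa [← Subtype.ext h]
  refine ⟨commutator E, inferInstance, hfin, π, ⟨hperf⟩, hs, fun a ha => ?_, fun X _ ξ h1 h2 => ?_⟩
  · rw [Subgroup.mem_center_iff]
    intro b
    exact Subtype.ext (Subgroup.mem_center_iff.1 (hE.cent ha) b)
  · obtain ⟨η, hη⟩ := hopf_lift' (stdPres Q) (ξ := ξ) ⟨h1, h2⟩
    refine ⟨η.comp (commutator E).subtype, MonoidHom.ext (fun a => hη a), fun η' h' => ?_⟩
    exact H27.lift_unique h2 hperf (fun a => (DFunLike.congr_fun h' a).trans (hη a).symm)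

end Cfsg.Agent.S3960
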