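import Cfsg.Statements.S3962
import Cfsg.Agent.H25.Hopf

set_option autoImplicit false
open Cfsg

namespace Cfsg.Agent.S3962

open scoped commutatorElement

/-- Let `G` be a perfect group and `π : G →* Q` a surjective homomorphism whose kernel is central. Then `π` maps the centre of `G` onto the centre of `Q`. Taking `π` to be the map to `G ⧸ Z(G)` shows that the central quotient of a perfect group has trivial centre. -/
theorem result {G Q : Type*} [Group G] [Group Q] (hG : Group.IsPerfect G) (π : G →* Q) (hπ : Function.Surjective π) (hker : π.ker ≤ Subgroup.center G) : (Subgroup.center G).map π = Subgroup.center Q := by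
  apply le_antisymm
  · rintro _ ⟨z, hz, rfl⟩
    rw [Subgroup.mem_center_iff]
    intro q
    obtain ⟨g, rfl⟩ := hπ q
    rw [← map_mul, ← map_mul, Subgroup.mem_center_iff.1 hz g]
  · intro q hq
    obtain ⟨z, rfl⟩ := hπ q
    refine ⟨z, ?_, rfl⟩
    have h1 : commutator G ≤ Subgroup.centralizer {z} := by
      rw [commutator_def, Subgroup.commutator_le]
      intro a _ b _
      rw [Subgroup.mem_centralizer_singleton_iff]
      exact (H27.commute_comm_of_ker hker (c := z) (a := a) (b := b)
        (Subgroup.mem_center_iff.1 hq _).symm (Subgroup.mem_center_iff.1 hq _).symm).symm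
    rw [hG.commutator_eq_top] at h1
    refine Subgroup.mem_center_iff.2 (fun g => ?_)
    exact Subgroup.mem_centralizer_singleton_iff.1 (h1 (Subgroup.mem_top g))

end Cfsg.Agent.S3962
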