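import Cfsg.Statements.S3961
import Cfsg.Agent.H25.Hopf
import Cfsg.Agent.S3962

set_option autoImplicit false
universe u v
open Cfsg

namespace Cfsg.Agent.S3961

open Cfsg.Agent.H25

/-- Let `π : G →* Q` be a surjective homomorphism with central kernel from a finite perfect group `G` (a perfect cover of `Q`). Then `π` is universal, in the sense that every surjective homomorphism `ξ : X →* Q` with central kernel from a group `X` in the universe of `G` admits a homomorphism `η : G →* X` with `ξ ∘ η = π`, if and only if `G` has trivial Schur multiplier. -/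
theorem result {G : Type u} {Q : Type v} [Group G] [Group Q] [Finite G] (hG : Group.IsPerfect G) (π : G →* Q) (hπ : Function.Surjective π) (hker : π.ker ≤ Subgroup.center G) : (∀ (X : Type u) [Group X] (ξ : X →* Q), Function.Surjective ξ → ξ.ker ≤ Subgroup.center X → ∃ η : G →* X, ξ.comp η = π) ↔ Cfsg.HasCyclicSchurMultiplier G 1 := by
  constructor
  · intro h
    refine hasSchur_one_of_stem (fun Γ _ _ β hβ => ?_)
    have hΓ : commutator Γ = ⊤ := by
      refine H27.eq_top_of_stem hβ (fun g => ?_)
      have hq : β g ∈ commutator G := by rw [hG.commutator_eq_top]; trivial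
      exact exists_mem_commutator_map (ζ := MonoidHom.id G) (stem_id G).2.1 β hβ.1 hq
    have hc : (π.comp β).ker ≤ Subgroup.center Γ := by
      intro a ha
      have h1 : β a ∈ (Subgroup.center Γ).map β := by
        rw [Cfsg.Agent.S3962.result ⟨hΓ⟩ β hβ.1 hβ.2.1]; exact hker ha
      obtain ⟨z, hz, hz'⟩ := h1
      have h2 : z⁻¹ * a ∈ β.ker := by rw [MonoidHom.mem_ker, map_mul, map_inv, hz', inv_mul_cancel]
      simpa using mul_mem hz (hβ.2.1 h2)
    obtain ⟨η, hη⟩ := h Γ (π.comp β) (hπ.comp hβ.1) hc
    have h3 : β.comp η = MonoidHom.id G :=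
      H27.lift_unique hker hG.commutator_eq_top (fun a => DFunLike.congr_fun hη a)
    rw [eq_bot_iff]
    intro z hz
    exact H27.ker_trivial_of_section hβ η (fun g => DFunLike.congr_fun h3 g) hz
  · intro h X _ ξ h1 h2
    have hE := hopf_cext (stdPres_surj G)
    have hb := mult_eq_bot_of_hasSchur_one h hE
    let E := Hopf (stdPres G)
    let ρ : commutator E →* G := (hopfπ (stdPres G)).comp (commutator E).subtype
    have hs : Function.Bijective ρ := by
      refine ⟨(injective_iff_map_eq_one _).2 (fun a ha => ?_), fun q => ?_⟩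
      · have : (a : E) ∈ mult (hopfπ (stdPres G)) := ⟨ha, a.2⟩
        rw [hb, Subgroup.mem_bot] at this
        exact Subtype.ext this
      · have hq : q ∈ commutator G := by rw [hG.commutator_eq_top]; trivial
        obtain ⟨a, ha, h⟩ := exists_mem_commutator_map (ζ := MonoidHom.id G) (stem_id G).2.1
          (hopfπ (stdPres G)) (fun y => hE.surj y) hq
        exact ⟨⟨a, ha⟩, h⟩
    obtain ⟨η, hη⟩ := hopf_lift (stdPres G) h2 π (fun q => h1 _)
    let e := MulEquiv.ofBijective ρ hs
    refine ⟨(η.comp (commutator E).subtype).comp e.symm.toMonoidHom, MonoidHom.ext (fun g => ?_)⟩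
    show ξ (η _) = π g
    rw [hη]
    congr 1
    exact e.apply_symm_apply g

end Cfsg.Agent.S3961
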