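import Cfsg.Statements.S3963
import Cfsg.Agent.H25.SchurMeta

set_option autoImplicit false
open Cfsg

namespace Cfsg.Agent.S3963

/-- For every `n ≥ 1` the dicyclic (generalized quaternion) group of order `4 n` has trivial Schur multiplier. -/
theorem result (n : ℕ) [NeZero n] : Cfsg.HasCyclicSchurMultiplier (QuaternionGroup n) 1 := by
  have hn := NeZero.pos n
  refine (H25.quaternion_meta n).hasSchur (by omega) two_pos (by omega) ?_
  have h1 : Nat.gcd (2 * n) (2 * n - 1 - 1) = 2 := by
    rw [show 2 * n - 1 - 1 = 2 * (n - 1) by omega, Nat.gcd_mul_left,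
      (Nat.coprime_self_sub_right (by omega)).2 (Nat.coprime_one_right n)]
  have h2 : ∑ i ∈ Finset.range 2, (2 * n - 1) ^ i = 2 * n := by
    simp [Finset.sum_range_succ]; omega
  rw [h1, h2]; simp

end Cfsg.Agent.S3963
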