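import Cfsg.Statements.S3964
import Cfsg.Agent.H25.SchurMeta

set_option autoImplicit false
open Cfsg

namespace Cfsg.Agent.S3964

/-- For odd `n` the dihedral group of order `2 n` has trivial Schur multiplier. -/
theorem result (n : ℕ) (hn : Odd n) : Cfsg.HasCyclicSchurMultiplier (DihedralGroup n) 1 := by
  have hn0 := hn.pos
  have : NeZero n := ⟨hn0.ne'⟩
  refine (H25.dihedral_meta n).hasSchur hn0 two_pos (by omega) ?_
  have h1 : Nat.gcd n (2 * n - 1 - 1) = 1 := by
    rw [show 2 * n - 1 - 1 = 2 * (n - 1) by omega]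
    exact Nat.Coprime.mul_right hn.coprime_two_right
      ((Nat.coprime_self_sub_right (by omega)).2 (Nat.coprime_one_right n))
  have h2 : ∑ i ∈ Finset.range 2, (2 * n - 1) ^ i = 2 * n := by
    simp [Finset.sum_range_succ]; omega
  rw [h1, h2]; simp

end Cfsg.Agent.S3964
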