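import Cfsg.Statements.S3966
import Cfsg.Agent.H25.SchurMeta

set_option autoImplicit false
open Cfsg

namespace Cfsg.Agent.S3966

open QuaternionGroup Subgroup
open scoped commutatorElement

/-- For even `n ≥ 2` the dicyclic group of order `4 n` is a stem extension of the dihedral group of order `2 n` with kernel of order `2`: there is a surjective homomorphism `QuaternionGroup n →* DihedralGroup n` whose kernel is central, lies in the commutator subgroup and has two elements. Together with the order of the multiplier this exhibits the dicyclic group as a Schur covering group of the dihedral group. -/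
theorem result (n : ℕ) [NeZero n] (hn : Even n) : ∃ σ : QuaternionGroup n →* DihedralGroup n, Cfsg.IsStemExtension σ ∧ Nat.card σ.ker = 2 := by
  have hn0 := NeZero.pos n
  have : NeZero (2 * n) := ⟨by omega⟩
  let c : ZMod (2 * n) →+* ZMod n := ZMod.castHom (Dvd.intro_left 2 rfl) (ZMod n)
  let σ : QuaternionGroup n →* DihedralGroup n := MonoidHom.mk' (fun x => match x with
    | .a i => .r (c i)
    | .xa i => .sr (c i)) (by
      rintro (i | i) (j | j) <;> simp)
  have hc : Function.Surjective c := ZMod.castHom_surjective _
  have hker : σ.ker = zpowers (a (n : ZMod (2 * n))) := by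
    apply le_antisymm
    · rintro (i | i) hx
      · have h1 : c i = 0 := DihedralGroup.r.inj hx
        rw [← ZMod.natCast_zmod_val i, map_natCast, ZMod.natCast_eq_zero_iff] at h1
        obtain ⟨k, hk⟩ := h1
        rw [← ZMod.natCast_zmod_val i, hk, ← a_one_pow (n * k), pow_mul, a_one_pow]
        exact pow_mem (mem_zpowers _) _
      · have h1 : DihedralGroup.sr (c i) = DihedralGroup.r 0 := hx
        cases h1
    · rw [zpowers_le]
      show DihedralGroup.r (c n) = DihedralGroup.r 0
      simp
  have h2n : ((n : ZMod (2 * n))) + n = 0 := by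
    rw [← Nat.cast_add, ← two_mul, ZMod.natCast_self]
  refine ⟨σ, ⟨?_, ?_, ?_⟩, ?_⟩
  · rintro (i | i)
    · obtain ⟨j, rfl⟩ := hc i; exact ⟨.a j, rfl⟩
    · obtain ⟨j, rfl⟩ := hc i; exact ⟨.xa j, rfl⟩
  · rw [hker, zpowers_le, mem_center_iff]
    rintro (i | i)
    · simp [add_comm]
    · simp only [xa_mul_a, a_mul_xa, xa.injEq]
      linear_combination h2n
  · rw [hker, zpowers_le]
    obtain ⟨k, hk⟩ := hn
    have : a (n : ZMod (2 * n)) = ⁅(a (k : ZMod (2 * n)) : QuaternionGroup n), xa 0⁆ := by
      rw [commutatorElement_def, eq_mul_inv_iff_mul_eq, eq_mul_inv_iff_mul_eq]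
      simp only [xa_mul_a, a_mul_xa, xa.injEq]
      have : ((n : ZMod (2 * n))) = k + k := by rw [← Nat.cast_add, ← hk]
      linear_combination -this
    rw [this]; exact commutator_mem_commutator (mem_top _) (mem_top _)
  · rw [hker, Nat.card_zpowers, ← a_one_pow, orderOf_pow' _ hn0.ne', orderOf_a_one]
    simp [hn0]

end Cfsg.Agent.S3966
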