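import Cfsg.Statements.S3967
import Cfsg.Agent.H25.SchurMeta

set_option autoImplicit false
open Cfsg

namespace Cfsg.Agent.S3967

open Cfsg.Agent.H25

/-- Let `m, n ≥ 1`, `r ≥ 1` with `r ^ n ≡ 1 (mod m)`, and `l` a natural number; put `d = gcd(m, r - 1)`, `t = m l / d` and `h = d · gcd(m, 1 + r + ⋯ + r^(n-1)) / m`. The group presented by generators `a, b` and relations `a ^ m = 1`, `b ^ n = a ^ t`, `b a b⁻¹ = a ^ r` (a metacyclic group of order `m n`) has Schur multiplier cyclic of order `gcd(l, h)`. -/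
theorem result (m n r l : ℕ) (hm : 0 < m) (hn : 0 < n) (hr : 0 < r) (hrn : r ^ n ≡ 1 [MOD m]) : Cfsg.HasCyclicSchurMultiplier (PresentedGroup ({FreeGroup.of true ^ m, (FreeGroup.of false) ^ n * (FreeGroup.of true ^ (m * l / Nat.gcd m (r - 1)))⁻¹, FreeGroup.of false * FreeGroup.of true * (FreeGroup.of false)⁻¹ * (FreeGroup.of true ^ r)⁻¹} : Set (FreeGroup Bool))) (Nat.gcd l (Nat.gcd m (r - 1) * Nat.gcd m (∑ i ∈ Finset.range n, r ^ i) / m)) := by
  set d := Nat.gcd m (r - 1) with hd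
  set S := ∑ i ∈ Finset.range n, r ^ i with hS
  have hd0 : 0 < d := Nat.gcd_pos_of_pos_left _ hm
  obtain ⟨m₁, hm₁⟩ : d ∣ m := Nat.gcd_dvd_left _ _
  obtain ⟨s₀, hs₀⟩ : d ∣ r - 1 := Nat.gcd_dvd_right _ _
  have hdiv : m / d = m₁ := by rw [hm₁]; exact Nat.mul_div_cancel_left _ hd0
  have ht : m * l / d = m₁ * l := by
    rw [hm₁, mul_assoc]; exact Nat.mul_div_cancel_left _ hd0
  have hco : s₀.Coprime m₁ := by
    have h1 : Nat.gcd (d * m₁) (d * s₀) = d * 1 := by rw [← hm₁, ← hs₀, mul_one]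
    rw [Nat.gcd_mul_left] at h1
    exact Nat.Coprime.symm (Nat.eq_of_mul_eq_mul_left hd0 h1)
  have hr' : r = d * s₀ + 1 := by omega
  have hmS : m₁ ∣ S := by
    have h2 := geom_sum_mul_add (d * s₀) n
    rw [← hr', ← hS] at h2
    have h3 : m ∣ r ^ n - 1 := (Nat.modEq_iff_dvd' (Nat.one_le_pow _ _ hr)).1 hrn.symm
    rw [← h2, Nat.add_sub_cancel, hm₁, mul_left_comm] at h3
    exact hco.symm.dvd_of_dvd_mul_right (Nat.dvd_of_mul_dvd_mul_left hd0 h3)
  obtain ⟨h, hh⟩ : m₁ ∣ Nat.gcd m S := Nat.dvd_gcd (Dvd.intro_left d hm₁.symm) hmS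
  have h4 : d * Nat.gcd m S / m = h := by
    rw [hh, ← mul_assoc, ← hm₁]; exact Nat.mul_div_cancel_left _ hm
  have htr : m * l / d * r ≡ m * l / d [MOD m] := by
    rw [ht, hr', mul_add, mul_one]
    exact (Nat.modEq_iff_dvd' (by omega)).2 ⟨l * s₀, by
      rw [Nat.add_sub_cancel]; conv_rhs => rw [hm₁]
      ring⟩ |>.symm
  refine (metaPres_meta hn hrn htr).hasSchur hm hn hr ?_
  rw [← hd, ← hS, hdiv, h4, ht, ← Nat.gcd_mul_left, ← hh, Nat.gcd_left_comm]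

end Cfsg.Agent.S3967
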