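import Cfsg.Statements.S3968
import Cfsg.Agent.H4.Integral
import Cfsg.Agent.H21.Base5

set_option autoImplicit false
open Cfsg

namespace Cfsg.Agent.S3968

open Subgroup Cfsg.Agent.H20 Cfsg.Agent.H21 Cfsg.Agent.H4

/-- Let `p` be a prime and `G` a finite group with a faithful irreducible complex character of degree `p` (so `G` is an irreducible linear group in `p` variables). If `p ^ 2` divides the order of `G`, then the centre of `G` is nontrivial. -/
theorem result {G : Type*} [Group G] [Finite G] (p : ℕ) (hp : p.Prime) (χ : Cfsg.IrrCharacter G) (hdeg : χ.1 1 = p) (hfaith : ∀ g : G, χ.1 g = χ.1 1 → g = 1) (hdiv : p ^ 2 ∣ Nat.card G) : Subgroup.center G ≠ ⊥ := by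
  classical
  haveI : Fact p.Prime := ⟨hp⟩
  intro hZ
  obtain ⟨χ, hχ⟩ := χ
  dsimp only at hdeg hfaith
  have hc := hχ.isCharacter
  have hk : charKer χ = ⊥ := by
    rw [eq_bot_iff]
    intro g hg
    exact hfaith g (hc.mem_charKer.mp hg)
  obtain ⟨P, hP⟩ := exists_sylowOf p (⊤ : Subgroup G)
  have hP2 : p ^ 2 ∣ ♯P :=
    Hall.dvd_of_piNat hP (PiNat.prime_pow hp (Set.mem_singleton p) 2) (by rwa [card_top'])
  have hvan : ∀ z ∈ P ⊓ C⟦P⟧, z ≠ 1 → χ z = 0 := by
    intro z hz hz1
    have h1 : P ≤ C₁⟦z⟧ := le_cent1_iff.mpr hz.2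
    have h2 : Nat.Coprime p (C₁⟦z⟧).index := by
      rw [hp.coprime_iff_not_dvd]
      intro h
      apply Hall.not_dvd hP
      rw [relIndex_top_right]
      exact h.trans (index_dvd_of_le h1)
    refine (hχ.eq_zero_or_norm_eq_of_coprime hdeg h2).resolve_right fun h => hz1 ?_
    have := hc.charCenter_le_center hk (hc.mem_charCenter.mpr h)
    rwa [hZ, mem_bot] at this
  haveI : Fintype P := Fintype.ofFinite _
  have hr := hc.restrict P
  by_cases hall : ∀ ψ, IsIrrCharacter P ψ → classInner (fun x : P => χ x) ψ ≠ 0 → ψ 1 = 1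
  · have hab : P ≤ C⟦P⟧ := by
      rw [le_cent_iff]
      intro a ha b hb
      have : (⟨a, ha⟩ * ⟨b, hb⟩ * (⟨a, ha⟩ : P)⁻¹ * (⟨b, hb⟩ : P)⁻¹ : P) ∈ charKer (fun x : P => χ x) := by
        refine hr.mem_charKer_of_forall_constituent fun ψ hψ hne => ?_
        have := hψ.commutator_le_charKer_iff.mpr (hall ψ hψ hne)
          (commutator_mem_commutator (mem_top (⟨a, ha⟩ : P)) (mem_top (⟨b, hb⟩ : P)))
        exact hψ.isCharacter.mem_charKer.mp this
      have h2 := hfaith _ (hr.mem_charKer.mp this)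
      simp only [coe_mul, coe_inv] at h2
      calc a * b = a * b * a⁻¹ * b⁻¹ * (b * a) := by group
        _ = b * a := by rw [h2, one_mul]
    obtain ⟨k, hk⟩ := hc.exists_nat_of_vanishing P fun g hg => hvan g (mem_inf.mpr ⟨hg, hab hg⟩)
    rw [hdeg] at hk
    have h3 : p = ♯P * k := by exact_mod_cast hk
    have h4 : p ^ 2 ∣ p := hP2.trans ⟨k, h3⟩
    have := Nat.le_of_dvd hp.pos h4
    nlinarith [hp.two_le]
  · push Not at hall
    obtain ⟨ψ, hψ, hne, h1⟩ := hall
    obtain ⟨d, hd0, hd⟩ := hψ.exists_degree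
    have hdP := hψ.degree_dvd_card hd
    obtain ⟨n, hn⟩ := (Hall.isPGroup hP).exists_card_eq
    rw [hn] at hdP
    obtain ⟨i, -, rfl⟩ := (Nat.dvd_prime_pow hp).mp hdP
    have hi : i ≠ 0 := fun h => h1 (by rw [hd, h]; simp)
    have hle : p ^ i ≤ p := hr.degree_le_of_constituent hψ hne (d := p) (by simpa using hdeg) hd
    have hi1 : i = 1 := by
      have := (Nat.pow_le_pow_iff_right hp.one_lt).mp (hle.trans_eq (pow_one p).symm)
      omega
    have h0 := (hr.sub_irr hψ hne).eq_zero_of_apply_one (by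
      simp only [Pi.sub_apply, OneMemClass.coe_one, hdeg, hd, hi1, pow_one, sub_self])
    have he : (fun x : P => χ x) = ψ := sub_eq_zero.mp h0
    have hP1 : P ≠ ⊥ := fun h => by
      rw [h, card_bot] at hP2
      have := Nat.le_of_dvd one_pos hP2
      nlinarith [hp.two_le]
    obtain ⟨z, hz, hz1⟩ := exists_ne_one
      (center_ne_bot_of_nil (Hall.isPGroup hP).isNilpotent hP1)
    have h2 : (⟨z, hz.1⟩ : P) ∈ center P := by
      rw [mem_center_iff]
      intro g
      exact Subtype.ext (mem_cent.mp hz.2 g g.2)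
    have h3 := hψ.isCharacter.mem_charCenter.mp (hψ.center_le_charCenter h2)
    rw [← he] at h3
    simp only [OneMemClass.coe_one, hvan z hz hz1, hdeg, norm_zero, Complex.norm_natCast] at h3
    exact hp.ne_zero (by exact_mod_cast h3.symm)

end Cfsg.Agent.S3968
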