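import Cfsg.Statements.S3969
import Cfsg.Agent.H3.Action

set_option autoImplicit false
open Cfsg

namespace Cfsg.Agent.S3969

open Cfsg.Agent.H3

/-- Let `P` be an abelian Sylow `p`-subgroup of the finite group `G`, generated by `d` elements (`d` its minimal number of generators). If the order of `G` is coprime to `(p - 1)(p ^ 2 - 1) ⋯ (p ^ d - 1)`, then `G` has a normal `p`-complement. (The classical statement needs only the largest number of cyclic factors of `P` of equal order in place of `d`; the form here follows from it.) -/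
theorem result {G : Type*} [Group G] [Finite G] (p : ℕ) [Fact p.Prime] (P : Sylow p G) (hab : IsMulCommutative (P : Subgroup G)) (hcop : Nat.Coprime (Nat.card G) (∏ i ∈ Finset.Icc 1 (Group.rank (P : Subgroup G)), (p ^ i - 1))) : Cfsg.HasNormalPComplement p G := by
  refine hasNormalPComplement_of_forall_prime P hab fun q A hq h2 hd hA hn => ?_
  have := Fact.mk hq
  obtain ⟨n, hn'⟩ := IsPGroup.index P.2 (frattini (P : Subgroup G))
  have h0 := H1.normalizer_le_normalizer_map_subtype_of_characteristic (P : Subgroup G)
    (frattini (P : Subgroup G))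
  refine H1.le_centralizer_of_commutator_le_frattini hn (H1.coprime_card_of_isPGroup hA ?_) ?_
  · obtain ⟨k, hk⟩ := (P.2.to_subgroup (frattini (P : Subgroup G))).exists_card_eq
    rw [hk]
    exact fun h => h2 ((Nat.prime_dvd_prime_iff_eq hq Fact.out).mp (hq.dvd_of_dvd_pow h))
  by_contra hne
  obtain ⟨i, h4, h5, h6⟩ := exists_dvd_pow_sub_one_of_section (p := p) (n := n)
    (by rw [← hn', Subgroup.relIndex, Subgroup.subgroupOf,
      Subgroup.comap_map_eq_self_of_injective (Subgroup.subtype_injective _)])
    hq h2 hA hn (Subgroup.le_normalizer.trans h0) (hn.trans h0) hne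
  obtain ⟨T, h7, h8⟩ := Group.rank_spec (P : Subgroup G)
  have h9 := H1.le_card_of_closure_eq_top P.2 hn' h8
  exact hq.one_lt.ne' (Nat.eq_one_of_dvd_coprimes hcop hd (h6.trans
    (Finset.dvd_prod_of_mem (fun i => p ^ i - 1) (Finset.mem_Icc.mpr ⟨h4, by omega⟩))))

end Cfsg.Agent.S3969
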