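import Cfsg.Statements.S3970
import Cfsg.Agent.S3969
import Cfsg.Agent.H1.FrobCompl
import Cfsg.Agent.FT

set_option autoImplicit false
open Cfsg

namespace Cfsg.Agent.S3970

open Subgroup

/-- Let `G` be a finite group such that for every prime `p` dividing its order, other than the largest such prime, the Sylow `p`-subgroups are abelian and generated by at most two elements, and suppose `12` does not divide the order of `G`. Then `G` is solvable. In particular a group of cube-free order not divisible by `12` is solvable. -/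
theorem result {G : Type*} [Group G] [Finite G] (h : ∀ p : ℕ, p.Prime → p ∣ Nat.card G → (∃ q : ℕ, q.Prime ∧ q ∣ Nat.card G ∧ p < q) → ∀ P : Sylow p G, IsMulCommutative (P : Subgroup G) ∧ Group.rank (P : Subgroup G) ≤ 2) (h12 : ¬ 12 ∣ Nat.card G) : Group.IsSolvable G := by
  haveI : Fact (Nat.Prime 2) := ⟨Nat.prime_two⟩
  by_cases h2 : 2 ∣ Nat.card G
  swap
  · exact FT.solvable_of_odd (Nat.odd_iff.2 (by omega))
  obtain ⟨P⟩ : Nonempty (Sylow 2 G) := inferInstance
  by_cases hq : ∃ q : ℕ, q.Prime ∧ q ∣ Nat.card G ∧ 2 < q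
  swap
  · have : IsPGroup 2 G := by
      refine (IsPGroup.iff_card).2 ⟨_, (Nat.eq_prime_pow_of_unique_prime_dvd Nat.card_pos.ne' ?_)⟩
      intro d hd hdd
      by_contra hne
      exact hq ⟨d, hd, hdd, lt_of_le_of_ne hd.two_le (Ne.symm hne)⟩
    haveI := this.isNilpotent
    infer_instance
  obtain ⟨hab, hr⟩ := h 2 Nat.prime_two h2 hq P
  refine H1.sol_of_pcompl (S3969.result 2 P hab ?_) (fun N hN => FT.solvable_of_odd (Nat.odd_iff.2 (by omega)))
  by_cases h3 : 3 ∣ Nat.card G
  · have h4 : ¬ 4 ∣ Nat.card G := fun h4 => h12 (Nat.Coprime.mul_dvd_of_dvd_of_dvd (by norm_num : Nat.Coprime 3 4) h3 h4)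
    obtain ⟨k, hk⟩ := P.2.exists_card_eq
    have hk2 : k ≤ 1 := by
      by_contra hk2
      apply h4
      refine Dvd.dvd.trans ?_ (Subgroup.card_subgroup_dvd_card (P : Subgroup G))
      rw [hk]
      exact (pow_dvd_pow 2 (by omega : 2 ≤ k))
    have hc : IsCyclic (P : Subgroup G) := isCyclic_of_card_dvd_prime (p := 2) (by
      rw [hk]; exact (pow_dvd_pow 2 hk2))
    obtain ⟨g, hg⟩ := hc.exists_zpow_surjective
    have hr1 : Group.rank (P : Subgroup G) ≤ 1 := by
      classical
      refine (Group.rank_le (S := {g}) ?_).trans (by simp)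
      rw [eq_top_iff]
      intro x _
      obtain ⟨n, rfl⟩ := hg x
      exact zpow_mem (subset_closure (by simp)) _
    generalize Group.rank (P : Subgroup G) = d at *
    interval_cases d <;> simp
  · generalize Group.rank (P : Subgroup G) = d at *
    have : Nat.Coprime (Nat.card G) 3 := ((Nat.Prime.coprime_iff_not_dvd Nat.prime_three).2 h3).symm
    interval_cases d
    · simp
    · simp
    · have e : ∏ i ∈ Finset.Icc 1 2, (2 ^ i - 1) = 3 := by decide
      rw [e]; exact this

end Cfsg.Agent.S3970
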