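import Cfsg.Statements.S3971
import Cfsg.Agent.BG.Phi
import Cfsg.Agent.BG.S01a
import Cfsg.Agent.H3.Frobenius

set_option autoImplicit false
open Cfsg

namespace Cfsg.Agent.S3971

open Subgroup Cfsg.Agent.H20 Cfsg.Agent.H21 Cfsg.Agent.BG

theorem cent_of_cyc {G : Type*} [Group G] [Finite G] {X Y A : Subgroup G} (hX : IsPGroup 2 X) (hY : Y ≤ X)
    (hc : IsCyclic Y) (hi : Y.relIndex X ∣ 2) (hA : A ≤ N⟦X⟧) (h2 : (♯A).Coprime 2) (h3 : (♯A).Coprime 3) :
    A ≤ C⟦X⟧ := by
  haveI : Fact (Nat.Prime 2) := ⟨Nat.prime_two⟩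
  have hF := frattiniOf_normalIn (NormalIn.refl X)
  have hE := elem_quo_frattiniOf hX
  have h1 : ♯(quo Y (frattiniOf X)) ∣ 2 :=
    card_dvd_of_elem_cyclic ⟨?_, fun x hx => hE.2 x (quo_mono _ hY hx)⟩ (quo_cyclic hc _)
  swap
  · exact quo_comm (by haveI := hc; infer_instance) _
  have h4 : ♯(quo X (frattiniOf X)) ∣ 2 ^ 2 := by
    rw [← card_mul_relIndex (quo_mono (frattiniOf X) hY), pow_two]
    exact Nat.mul_dvd_mul h1 ((relIndex_quo_dvd hY hF.norm).trans hi)
  have h5 := relIndex_cent_abelem2_dvd hE h4 (quo_norm (frattiniOf X) hA)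
  have h6 : (C⟦quo X (frattiniOf X)⟧).relIndex (quo A (frattiniOf X)) = 1 := by
    refine Nat.eq_one_of_dvd_coprimes (?_ : Nat.Coprime (♯A) 6) ((relIndex_dvd_card _ _).trans (card_quo_dvd _ _)) h5
    exact Nat.Coprime.mul_right h2 h3
  rw [relIndex_eq_one, quo_le_cent_iff (norm_frattiniOf hA) hF.norm, commutator_comm] at h6
  obtain ⟨k, hk⟩ := hX.exists_card_eq
  exact coprime_cent_frattiniOf hA (by rw [hk]; exact (h2.symm).pow_left _) h6

/-- Let `G` be a finite group of order `2 ^ a * n` with `n` odd and not divisible by `3`, and suppose `G` has an element of order `2 ^ (a - 1)` (so a Sylow `2`-subgroup has a cyclic subgroup of index at most `2`). Then `G` has a normal subgroup of order `n`. -/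
theorem result {G : Type*} [Group G] [Finite G] (a n : ℕ) (hG : Nat.card G = 2 ^ a * n) (hn : Odd n) (h3 : ¬ 3 ∣ n) (hx : ∃ x : G, orderOf x = 2 ^ (a - 1)) : ∃ N : Subgroup G, N.Normal ∧ Nat.card N = n := by
  haveI : Fact (Nat.Prime 2) := ⟨Nat.prime_two⟩
  obtain ⟨x, hx⟩ := hx
  have hp : IsPGroup 2 (zpowers x) := IsPGroup.of_card (by rw [Nat.card_zpowers, hx])
  obtain ⟨P, hP⟩ := hp.exists_le_sylow
  have hcP : ♯(P : Subgroup G) = 2 ^ a := by
    rw [P.card_eq_multiplicity, hG, Nat.factorization_mul (by positivity) hn.pos.ne']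
    simp [Nat.factorization_eq_zero_of_not_dvd (hn.not_two_dvd_nat), Nat.prime_two.factorization_pow]
  have hi : (zpowers x).relIndex P ∣ 2 := by
    have h1 := card_mul_relIndex hP
    rw [Nat.card_zpowers, hx, hcP] at h1
    rcases a with _ | a
    · simp at h1; simp [h1]
    · rw [Nat.add_sub_cancel, pow_succ] at h1
      rw [Nat.eq_of_mul_eq_mul_left (by positivity) h1]
  have hN : HasNormalPComplement 2 G := by
    refine H3.hasNormalPComplement_of_forall_le P (fun X hX _ g hg hc => ?_)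
    have hXp : IsPGroup 2 X := P.2.to_le hX
    refine zpowers_le.1 (cent_of_cyc (Y := zpowers x ⊓ X) hXp inf_le_right (isCyclic_of_le inf_le_left) ?_
      (zpowers_le.2 hg) (by rwa [Nat.card_zpowers]) ?_)
    · rw [inf_relIndex_right]
      obtain ⟨k, hk⟩ := hXp.index ((zpowers x).subgroupOf X)
      have h1 : (zpowers x).relIndex X ≤ (zpowers x).relIndex P :=
        relIndex_le_of_le_right hX (Subgroup.FiniteIndex.index_ne_zero)
      have h2 := Nat.le_of_dvd two_pos hi
      have h3 : (zpowers x).relIndex X ≠ 0 := Subgroup.FiniteIndex.index_ne_zero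
      generalize (zpowers x).relIndex X = m at *
      have : m ≤ 2 := h1.trans h2
      interval_cases m <;> simp_all
    · rw [Nat.card_zpowers]
      refine ((Nat.Prime.coprime_iff_not_dvd Nat.prime_three).2 (fun h => h3 ?_)).symm
      have := h.trans (orderOf_dvd_natCard g)
      rw [hG] at this
      exact (Nat.Coprime.pow_right a (by norm_num : Nat.Coprime 3 2)).dvd_of_dvd_mul_left this
  obtain ⟨Q, N, h1, h2⟩ := hN
  refine ⟨N, h1, ?_⟩
  have h4 := h2.card_mul
  rw [Nat.card_congr (Sylow.equiv Q P).toEquiv, hcP, hG, mul_comm] at h4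
  exact Nat.eq_of_mul_eq_mul_left (by positivity) h4

end Cfsg.Agent.S3971
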