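import Cfsg.Statements.S3973
import Cfsg.Agent.H25.Schur3

set_option autoImplicit false
open Cfsg

namespace Cfsg.Agent.S3973

open Cfsg.Agent.H25 Subgroup

/-- If a finite group is presented by `n` generators and a finite set of `r` relators, then its Schur multiplier can be generated by `r - n` elements. In particular a finite group with a presentation having as many relators as generators has trivial Schur multiplier. -/
theorem result (n : ℕ) (rels : Finset (FreeGroup (Fin n))) [Finite (PresentedGroup (rels : Set (FreeGroup (Fin n))))] {A : Type*} [CommGroup A] [Finite A] (hA : Cfsg.HasSchurMultiplier (PresentedGroup (rels : Set (FreeGroup (Fin n)))) A) : Group.rank A ≤ rels.card - n := by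
  classical
  let φ := PresentedGroup.mk (rels : Set (FreeGroup (Fin n)))
  have hφ : Function.Surjective φ := PresentedGroup.mk_surjective _
  have hE := hopf_cext hφ
  obtain ⟨eA⟩ := (hasSchur_iff hφ).1 hA
  letI := centCommGroup hE.cent
  have hr : ∀ r : rels, hopfMk φ r ∈ (hopfπ φ).ker := fun r => PresentedGroup.one_of_mem r.2
  -- the kernel is generated by the images of the relators
  have hgen : ∀ a ∈ (hopfπ φ).ker, a ∈ closure (Set.range fun r : rels => hopfMk φ r) := by
    intro a ha
    obtain ⟨a, rfl⟩ := hopfMk_surj φ a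
    have h1 : a ∈ normalClosure (rels : Set (FreeGroup (Fin n))) := (QuotientGroup.eq_one_iff _).1 ha
    have h2 : closure (Set.range fun r : rels => hopfMk φ r) ≤ (hopfπ φ).ker := by
      rw [closure_le]; rintro _ ⟨r, rfl⟩; exact hr r
    haveI := H27.normal_of_le_ker hE.cent h2
    exact normalClosure_le_normal (N := (closure (Set.range fun r : rels => hopfMk φ r)).comap
      (hopfMk φ)) (fun r hr => subset_closure ⟨⟨r, hr⟩, rfl⟩) h1
  let g : (rels → ℤ) →ₗ[ℤ] Additive (hopfπ φ).ker :=
    Fintype.linearCombination ℤ (fun r => Additive.ofMul ⟨_, hr r⟩)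
  have hg : Function.Surjective g := by
    intro a
    have h1 : closure (Set.range fun r : rels => hopfMk φ r) ≤
        (AddSubgroup.toSubgroup g.range.toAddSubgroup).map (hopfπ φ).ker.subtype := by
      rw [closure_le]; rintro _ ⟨r, rfl⟩
      exact ⟨⟨_, hr r⟩, ⟨Pi.single r 1, by simp [g]; rfl⟩, rfl⟩
    obtain ⟨y, ⟨u, hu⟩, hy⟩ := h1 (hgen _ a.toMul.2)
    exact ⟨u, hu.trans (congrArg Additive.ofMul (Subtype.ext hy))⟩
  -- the map to the free abelian group
  let ab : Hopf φ →* Abelianization (FreeGroup (Fin n)) := QuotientGroup.lift _ Abelianization.of (by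
    rw [Abelianization.ker_of]; exact commutator_mono le_top le_top)
  have hab : ∀ a, ab a = 1 ↔ a ∈ commutator (Hopf φ) := by
    intro a
    obtain ⟨a, rfl⟩ := hopfMk_surj φ a
    refine ⟨fun h => map_mem_commutator _ ?_, fun h => Abelianization.commutator_subset_ker _ h⟩
    rw [← Abelianization.ker_of]; exact h
  let l : Additive (hopfπ φ).ker →ₗ[ℤ] FreeAbelianGroup (Fin n) :=
    (MonoidHom.toAdditive (ab.comp (hopfπ φ).ker.subtype)).toIntLinearMap
  let N := Nat.card (PresentedGroup (rels : Set (FreeGroup (Fin n))))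
  have hN : (N : ℤ) ≠ 0 := by exact_mod_cast Nat.card_pos.ne'
  have hrange : ∀ v : FreeAbelianGroup (Fin n), (N : ℤ) • v ∈ (l.comp g).range := by
    intro v
    obtain ⟨a, ha⟩ : ∃ y, Abelianization.of y = Additive.toMul v := QuotientGroup.mk_surjective _
    obtain ⟨u, hu⟩ := hg (Additive.ofMul ⟨hopfMk φ a ^ N, by
      rw [MonoidHom.mem_ker, map_pow, pow_card_eq_one']⟩)
    refine ⟨u, ?_⟩
    rw [LinearMap.comp_apply, hu, natCast_zsmul]
    show Additive.ofMul (ab (hopfMk φ a ^ N)) = _
    rw [map_pow]
    show Additive.ofMul (Abelianization.of a ^ N) = _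
    rw [ha]; rfl
  have h1 : n ≤ Module.finrank ℤ (l.comp g).range := by
    have h2 : Function.Injective ((LinearMap.lsmul ℤ (FreeAbelianGroup (Fin n)) N).codRestrict _
        hrange) := by
      intro a b h
      exact smul_right_injective _ hN (congrArg Subtype.val h)
    have := LinearMap.finrank_le_finrank_of_injective h2
    rwa [Module.finrank_eq_card_basis (FreeAbelianGroup.basis (Fin n)), Fintype.card_fin] at this
  have h2 := (LinearMap.ker (l.comp g)).finrank_quotient_add_finrank
  rw [(l.comp g).quotKerEquivRange.finrank_eq, Module.finrank_fintype_fun_eq_card, Fintype.card_coe] at h2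
  have h3 : Module.finrank ℤ (l.comp g).ker ≤ rels.card - n := by omega
  let b := Module.finBasis ℤ (l.comp g).ker
  have hm : ∀ u : (l.comp g).ker, ((g u).toMul : Hopf φ) ∈ mult (hopfπ φ) :=
    fun u => ⟨(g u).toMul.2, (hab _).1 u.2⟩
  let k : (l.comp g).ker →+ Additive A := AddMonoidHom.mk' (fun u => Additive.ofMul (eA.symm ⟨_, hm u⟩))
    (fun u v => by
      rw [← ofMul_mul, ← map_mul]
      congr 2
      apply Subtype.ext
      simp)
  refine (Group.rank_le (S := Finset.univ.image fun i => (k (b i)).toMul) ?_).trans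
    (Finset.card_image_le.trans (by simpa using h3))
  rw [eq_top_iff]
  intro a _
  obtain ⟨u, hu⟩ := hg (Additive.ofMul ⟨eA a, (eA a).2.1⟩)
  have h4 : u ∈ (l.comp g).ker := by
    rw [LinearMap.mem_ker, LinearMap.comp_apply, hu]
    exact (hab _).2 (eA a).2.2
  have h5 : a = (k ⟨u, h4⟩).toMul := by
    show a = eA.symm _
    rw [MulEquiv.eq_symm_apply]
    apply Subtype.ext
    simp only [hu]; rfl
  rw [h5, ← b.sum_repr ⟨u, h4⟩, map_sum, toMul_sum]
  refine prod_mem (fun i _ => ?_)
  rw [map_zsmul, toMul_zsmul]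
  exact zpow_mem (subset_closure (by simp)) _

end Cfsg.Agent.S3973
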