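import Cfsg.Statements.S3977
import Cfsg.Agent.H1.Quaternion
import Cfsg.Agent.H25.Cyc

set_option autoImplicit false
open Cfsg

namespace Cfsg.Agent.S3977

open Subgroup

/-- Let `p` be a prime and `G` a group of order `p ^ m` which has exactly one subgroup of order `p ^ s`, where `1 ≤ s < m`, and where `s ≥ 2` if `p = 2`. Then `G` is cyclic. (For `p = 2` and `s = 1` the generalized quaternion groups also occur; that case is the classical criterion for a unique involution.) -/
theorem result {G : Type*} [Group G] [Finite G] (p m s : ℕ) (hp : p.Prime) (hG : Nat.card G = p ^ m) (hs : 1 ≤ s) (hsm : s < m) (h2 : p ≠ 2 ∨ 2 ≤ s) (huniq : ∀ H K : Subgroup G, Nat.card H = p ^ s → Nat.card K = p ^ s → H = K) : IsCyclic G := by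
  haveI := Fact.mk hp
  have hP : IsPGroup p G := IsPGroup.of_card hG
  obtain ⟨H, hH⟩ := Sylow.exists_subgroup_card_pow_prime (G := G) p (n := s)
    (hG ▸ pow_dvd_pow p hsm.le)
  have hle : ∀ (K : Subgroup G) (k : ℕ), Nat.card K = p ^ k → k ≤ s → K ≤ H := by
    intro K k hK hk
    obtain ⟨L, hL, hKL⟩ := Sylow.exists_subgroup_card_pow_prime_le p
      (hG ▸ pow_dvd_pow p hsm.le) K hK hk
    exact huniq L H hL hH ▸ hKL
  obtain ⟨B, hB, hHB⟩ := Sylow.exists_subgroup_card_pow_succ (H := H) (hG ▸ pow_dvd_pow p hsm) hH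
  have hlt : ¬ B ≤ H := fun h => by
    have := card_le_of_le h
    rw [hB, hH, Nat.pow_le_pow_iff_right hp.one_lt] at this
    omega
  obtain ⟨x, hxB, hxH⟩ := SetLike.not_le_iff_exists.1 hlt
  have hx : zpowers x = B := by
    obtain ⟨k, hk⟩ := IsPGroup.iff_card.1 (hP.to_subgroup (zpowers x))
    by_cases hks : k ≤ s
    · exact absurd (hle _ k hk hks (mem_zpowers x)) hxH
    · refine eq_of_le_of_card_ge (zpowers_le.2 hxB) ?_
      rw [hB, hk]; exact Nat.pow_le_pow_right hp.pos (by omega)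
  haveI : IsCyclic B := hx ▸ inferInstance
  have hu : ∀ K L : Subgroup G, Nat.card K = p → Nat.card L = p → K = L := by
    intro K L hK hL
    have h1 := (hle K 1 (by simpa using hK) hs).trans hHB
    have h2 := (hle L 1 (by simpa using hL) hs).trans hHB
    exact Cfsg.Agent.H25.eq_of_card_eq_of_isCyclic h1 h2 (hK.trans hL.symm)
  rcases Cfsg.Agent.H1.isCyclic_or_quaternion_gens hP
    (fun x y hx hy => Cfsg.Agent.H1.mem_zpowers_of_unique_order_p hu hx hy) with h | ⟨rfl, n, a, b, hn, ha, hb, -, hbb, hc⟩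
  · exact h
  exfalso
  have hs2 : 2 ≤ s := h2.resolve_left (by simp)
  have hi : (zpowers a).index = 2 := by
    rw [index_eq_two_iff']
    refine ⟨b⁻¹, fun c => ?_⟩
    by_cases h : c ∈ zpowers a
    · exact Or.inr ⟨h, fun h' => hb (inv_mem_iff.1 ((mul_mem_cancel_right h).1 h'))⟩
    · exact Or.inl ⟨hc c h, h⟩
  have h1 := (zpowers a).index_mul_card
  rw [hi, hG, Nat.card_zpowers, ha, ← pow_succ', ← pow_succ', Nat.pow_right_inj (by norm_num)] at h1
  obtain ⟨K, hK, hKa⟩ := Sylow.exists_subgroup_le_card_pow_prime_of_le_card (n := s) hp hP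
    (H := zpowers a) (by
      rw [Nat.card_zpowers, ha, ← pow_succ']; exact Nat.pow_le_pow_right (by norm_num) (by omega))
  rw [huniq K H hKa hH] at hK
  have h4 : b ^ 2 ^ 2 = 1 := by
    rw [show 2 ^ 2 = 2 * 2 from rfl, pow_mul, _root_.sq b, hbb, ← pow_mul, mul_comm, ← ha,
      pow_orderOf_eq_one]
  obtain ⟨k, hk, hk'⟩ := (Nat.dvd_prime_pow hp).1 (orderOf_dvd_of_pow_eq_one h4)
  exact hb (hK (hle (zpowers b) k (by rw [Nat.card_zpowers, hk']) (hk.trans hs2) (mem_zpowers b)))

end Cfsg.Agent.S3977
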