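import Cfsg.Statements.S3978
import Cfsg.Agent.H25.Schur2

set_option autoImplicit false
open Cfsg

namespace Cfsg.Agent.S3978

open Cfsg.Agent.H25

/-- A finite group `Q` has trivial Schur multiplier if and only if, for every `n`, every homomorphism from `Q` to the projective general linear group (the quotient of `GL n ℂ` by its centre) lifts to a homomorphism into `GL n ℂ`. -/
theorem result {Q : Type*} [Group Q] [Finite Q] : Cfsg.HasCyclicSchurMultiplier Q 1 ↔ ∀ (n : ℕ) (γ : Q →* (GL (Fin n) ℂ ⧸ Subgroup.center (GL (Fin n) ℂ))), ∃ ρ : Q →* GL (Fin n) ℂ, (QuotientGroup.mk' (Subgroup.center (GL (Fin n) ℂ))).comp ρ = γ := by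
  rw [hasSchur_one_iff_mult (stdPres_surj Q)]
  constructor
  · intro h n γ
    exact proj_lift (stem_id Q) (hopfπ _) (fun a => rfl) (fun a ha _ => by
      rwa [h, Subgroup.mem_bot] at ha) (center_GL_div n) γ
  · intro h
    rw [eq_bot_iff]
    intro a ha
    exact inj_on_mult_of_proj_lift (σ := MonoidHom.id Q) h (hopfπ _) (fun a => rfl) a ha ha.1

end Cfsg.Agent.S3978
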