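import Cfsg.Statements.S3992
import Cfsg.Agent.H25.PG
import Cfsg.Agent.H2.Subnormal

set_option autoImplicit false
open Cfsg

namespace Cfsg.Agent.S3992

open Subgroup Cfsg.Agent.H20 Cfsg.Agent.H21 Cfsg.Agent.H25 Cfsg.Agent.BG

theorem no_comm {G : Type*} [Group G] [Finite G] (hpp : ∀ g : G, g ≠ 1 → IsPrimePow (orderOf g)) (x y : G)
    (h1 : (orderOf x).Prime) (h2 : (orderOf y).Prime) (h3 : orderOf x ≠ orderOf y) : x * y ≠ y * x := by
  intro hc
  have e := orderOf_mul_primes h1 h2 h3 rfl rfl hc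
  have := hpp (x * y) (by
    intro h; rw [h, orderOf_one] at e
    exact h1.one_lt.ne' (Nat.eq_one_of_mul_eq_one_right e.symm))
  rw [e] at this
  obtain ⟨r, k, hr, -, hk⟩ := (isPrimePow_nat_iff _).mp this
  exact h3 (((Nat.prime_dvd_prime_iff_eq h1 hr).mp (h1.dvd_of_dvd_pow (hk ▸ Dvd.intro _ rfl))).trans
    ((Nat.prime_dvd_prime_iff_eq h2 hr).mp (h2.dvd_of_dvd_pow (hk ▸ Dvd.intro_left _ rfl))).symm)

theorem pgroup_of_cent {G : Type*} [Group G] [Finite G]
    (h : ∀ x y : G, (orderOf x).Prime → (orderOf y).Prime → orderOf x ≠ orderOf y → x * y ≠ y * x)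
    {A B : Subgroup G} (hB : B ≠ ⊥) (hc : A ≤ C⟦B⟧) : Group.IsSolvable A := by
  obtain ⟨Z, hZ, hp⟩ := exists_prime_subgroup_of_ne_bot hB
  haveI := Fact.mk hp
  obtain ⟨z, hz, ez⟩ := exists_prime_order_mem hp (dvd_refl ♯Z)
  refine sol_of_pgroup (p := ♯Z) (isPi_singleton_iff.mp fun s hs hd => ?_)
  obtain ⟨y, hy, ey⟩ := exists_prime_order_mem hs hd
  by_contra hne
  exact h y z (ey ▸ hs) (ez ▸ hp) (by rw [ey, ez]; exact hne) (mem_cent.mp (hc hy) z (hZ hz)).symm

/-- Let G be a finite non-solvable group in which every element has prime-power order, and let R be its largest solvable normal subgroup. Then R is a p-group for some prime p; G/R has a non-abelian simple normal subgroup contained in every nontrivial normal subgroup of G/R (its unique minimal normal subgroup); and the order of every solvable subgroup of G has at most two prime divisors. -/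
theorem result {G : Type*} [Group G] [Finite G] (hns : ¬ Group.IsSolvable G) (hpp : ∀ g : G, g ≠ 1 → IsPrimePow (orderOf g))
    (R : Subgroup G) [R.Normal] (hRs : Group.IsSolvable ↥R) (hRmax : ∀ N : Subgroup G, N.Normal → Group.IsSolvable ↥N → N ≤ R) :
    (∃ p : ℕ, p.Prime ∧ IsPGroup p ↥R) ∧
      (∃ M : Subgroup (G ⧸ R), M.Normal ∧ IsSimpleGroup ↥M ∧ ¬ IsMulCommutative ↥M ∧
        ∀ N : Subgroup (G ⧸ R), N.Normal → N ≠ ⊥ → M ≤ N) ∧
      ∀ H : Subgroup G, Group.IsSolvable ↥H → (Nat.card ↥H).primeFactors.card ≤ 2 := by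
  have hE := no_comm hpp
  refine ⟨?_, ?_, fun H hH => three_primes_aux hH fun x y h1 h2 h3 hc => hE x y
    (by rwa [Subgroup.orderOf_coe]) (by rwa [Subgroup.orderOf_coe]) (by rwa [Subgroup.orderOf_coe, Subgroup.orderOf_coe])
    (congrArg Subtype.val hc)⟩
  · by_cases h0 : R = ⊥
    · exact ⟨2, Nat.prime_two, h0 ▸ IsPGroup.of_bot⟩
    obtain ⟨p, hp, h1⟩ := exists_pCoreOf_ne_bot hRs h0
    haveI := Fact.mk hp
    refine ⟨p, hp, ?_⟩
    by_contra hne
    have hRn : R ⊴ ⊤ := NormalIn.of_normal R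
    have hE' : NoEdge {p} R := fun x y h1 h2 h3 h4 hc => hE x y
      (by rwa [Subgroup.orderOf_coe]) (by rwa [Subgroup.orderOf_coe])
      (by rw [Subgroup.orderOf_coe, Subgroup.orderOf_coe]; exact fun e => h4 (e ▸ h3)) (congrArg Subtype.val hc)
    have e1 : (piCoreOf {p} (⊤ : Subgroup R)).map R.subtype = piCoreOf {p} R := by
      rw [← piCoreOf_map_subtype, map_top_subtype]
    obtain ⟨Q, hQ, hQπ⟩ := hE'.frob hRs rfl (fun e => h1 (by rw [← e1, e, Subgroup.map_bot]))
      (fun e => hne (pgroup_top_iff.mp (e ▸ isPGroup_piCoreOf p ⊤)))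
    have hQ' := hQ.map R.subtype_injective
    rw [map_coreMod R.subtype_injective (piCoreOf_normalIn _ _).2, e1, map_top_subtype] at hQ'
    set K := coreMod {p}ᶜ (piCoreOf {p} R) R with hK
    set Q' := Q.map R.subtype
    have hPn : piCoreOf {p} R ⊴ ⊤ := piCoreOf_normalIn_of {p} hRn
    have hKn : K ⊴ ⊤ := ⟨le_top, norm_coreMod (piCoreOf_normalIn _ _).2 hPn.2 hRn.2⟩
    have hKs : Group.IsSolvable K := sol_of_le hRs (coreMod_le _ _ _)
    have hH : IsPiHallOf {p}ᶜ Q' K := Hall.of_compl' hQ'.compl (by rw [compl_compl]; exact isPi_piCoreOf _ _)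
      (hQπ.map _)
    have hz := H1.center_ne_bot_of_fpf hQ'.ker_ne hQ'.compl_ne hQ'.norm hQ'.reg
    have hz' : Q' ⊓ C⟦Q'⟧ ≠ ⊥ := by
      rw [← map_center, Ne, map_eq_bot_iff_of_injective _ Q'.subtype_injective]; exact hz
    have hZc : IsCyclic ↥(Q' ⊓ C⟦Q'⟧) := regular_abelian_cyclic (comm_center Q') hQ'.ker_ne
      (inf_le_left.trans hQ'.norm) (hQ'.reg.of_le le_rfl inf_le_left)
    have hN : Group.IsSolvable ↥(⊤ ⊓ N⟦Q'⟧) := by
      have h2 := der1_cent_cyclic hZc (H := ⊤ ⊓ N⟦Q'⟧) (norm_inf_cent inf_le_right inf_le_right)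
      have h3 := pgroup_of_cent hE hz' h2
      exact solvable_of_quo (norm_der (le_norm_self _)) h3 (sol_of_comm (quo_der_comm _))
    apply hns
    rw [← sol_top_iff, ← Hall.sol_frattini hH hKs hKn]
    exact sol_sup hKs hN (Or.inr (le_top.trans hKn.2))
  · set f := QuotientGroup.mk' R
    have hfs := QuotientGroup.mk'_surjective R
    have hE' : ∀ x y : G ⧸ R, (orderOf x).Prime → (orderOf y).Prime → orderOf x ≠ orderOf y → x * y ≠ y * x := by
      intro x y h1 h2 h3
      have : NoEdge {orderOf x} G := fun a b k1 k2 k3 k4 => hE a b k1 k2 fun e => k4 (e ▸ k3)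
      exact this.of_surjective f hfs x y h1 h2 rfl (Ne.symm h3)
    have hsol : ∀ N : Subgroup (G ⧸ R), N.Normal → Group.IsSolvable N → N = ⊥ := by
      intro N _ hN
      have h1 : Group.IsSolvable (N.comap f) := by
        haveI : Group.IsSolvable (R.subgroupOf (N.comap f)) := by
          haveI := hRs
          exact Group.isSolvable_of_isSolvable_injective (f := (subgroupOfEquivOfLe (QuotientGroup.le_comap_mk' R N)).toMonoidHom)
            (MulEquiv.injective _)
        refine solvable_of_ker_le_range (G' := (R.subgroupOf (N.comap f))) (R.subgroupOf (N.comap f)).subtype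
          (f.subgroupComap N) ?_
        intro x hx
        rw [range_subtype, mem_subgroupOf, ← QuotientGroup.eq_one_iff]
        exact congrArg Subtype.val hx
      have h2 := hRmax _ inferInstance h1
      rw [← map_comap_eq_self_of_surjective hfs N, Subgroup.map_eq_bot_iff, QuotientGroup.ker_mk']
      exact h2
    have hnt : (⊤ : Subgroup (G ⧸ R)) ≠ ⊥ := by
      intro e
      apply hns
      have : R = ⊤ := by
        rw [eq_top_iff]; intro x _
        rw [← QuotientGroup.eq_one_iff, ← Subgroup.mem_bot, ← e]; trivial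
      rw [← sol_top_iff, ← this]; exact hRs
    obtain ⟨M, hM, -⟩ := exists_minNormal_le (H := ⊤) hnt (le_norm_self _)
    have hMn : M.Normal := NormalIn.normal ⟨le_top, hM.2.1⟩
    have hMs : ¬ Group.IsSolvable M := fun h => hM.1 (hsol M hMn h)
    refine ⟨M, hMn, ?_, fun h => hMs (sol_of_comm h), fun N hN h0 => ?_⟩
    · haveI : Nontrivial M := (Subgroup.nontrivial_iff_ne_bot M).mpr hM.1
      refine ⟨fun L hL => ?_⟩
      by_contra hh
      push Not at hh
      have hL' : L.map M.subtype ⊴ M := NormalIn.of_map_subtype L hL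
      obtain ⟨S, hS, hSL⟩ := exists_minNormal_le (H := M) (N := L.map M.subtype)
        (by rw [Ne, map_eq_bot_iff_of_injective _ M.subtype_injective]; exact hh.1) hL'.2
      have hSM : S ≤ M := hSL.trans hL'.le
      have hSn : ¬ ⊤ ≤ N⟦S⟧ := by
        intro h
        rcases hM.eq_bot_or_eq hSM h with h | h
        · exact hS.1 h
        · apply hh.2
          rw [← map_subtype_inj, map_top_subtype]
          exact le_antisymm hL'.le (h ▸ hSL)
      obtain ⟨g, -, hg⟩ := SetLike.not_le_iff_exists.mp hSn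
      have h1 : M ≤ N⟦cj g S⟧ := by
        have := norm_cj g hS.2.1
        rwa [cj_eq_of_mem_norm (hM.2.1 (mem_top g))] at this
      have h2 : cj g S ≤ M := cj_le_of_mem_norm (hM.2.1 (mem_top g)) hSM
      have h3 : S ⊓ cj g S = ⊥ := by
        rcases hS.inf_eq_bot_or_le h1 with h | h
        · exact h
        · exact absurd (mem_norm_iff_cj.mpr (eq_of_le_card h (by simp)).symm) hg
      have h4 := pgroup_of_cent hE' (B := cj g S) (by simpa using hS.1)
        (cent_of_disjoint (hSM.trans h1) (h2.trans hS.2.1) h3)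
      have h5 : S ≤ fittingOf M := le_fittingOf ⟨hSM, hS.2.1⟩ (nil_of_comm (hS.comm h4))
      have h6 := hsol (fittingOf M) (fittingOf_normalIn_of ⟨le_top, hM.2.1⟩).normal (sol_of_nil (nil_fittingOf M))
      exact hS.1 (le_bot_iff.mp (h6 ▸ h5))
    · rcases hM.inf_eq_bot_or_le (NormalIn.of_normal N).2 with h | h
      · exact absurd (pgroup_of_cent hE' h0 (cent_of_disjoint (le_top.trans (NormalIn.of_normal N).2)
          (le_top.trans hM.2.1) h)) hMs
      · exact h

end Cfsg.Agent.S3992
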