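import Cfsg.Statements.S3994
import Cfsg.Agent.H26.FrobDiv

set_option autoImplicit false
open Cfsg

namespace Cfsg.Agent.S3994

open Subgroup

theorem cop (N n : ℕ) (hN : N ≠ 0) (hn : n ≠ 0) : Nat.Coprime n (N / Nat.gcd N (n ^ N)) := by
  rw [Nat.coprime_iff_gcd_eq_one]
  by_contra h
  obtain ⟨q, hq, hd⟩ := Nat.exists_prime_and_dvd h
  have h1 := hd.trans (Nat.gcd_dvd_left _ _)
  have h2 := hd.trans (Nat.gcd_dvd_right _ _)
  have h3 : N / Nat.gcd N (n ^ N) ≠ 0 :=
    (Nat.div_pos (Nat.gcd_le_left _ (Nat.pos_of_ne_zero hN)) (Nat.gcd_pos_of_pos_left _ (Nat.pos_of_ne_zero hN))).ne'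
  have h4 := (hq.dvd_iff_one_le_factorization h3).1 h2
  have h5 := (hq.dvd_iff_one_le_factorization hn).1 h1
  rw [Nat.factorization_div (Nat.gcd_dvd_left _ _), Nat.factorization_gcd hN (pow_ne_zero _ hn),
    Nat.factorization_pow] at h4
  simp only [Finsupp.coe_tsub, Pi.sub_apply, Finsupp.inf_apply, Finsupp.coe_smul, Pi.smul_apply, smul_eq_mul] at h4
  have h6 := Nat.factorization_lt q hN
  have h7 : N ≤ N * n.factorization q := Nat.le_mul_of_pos_right _ h5
  omega

/-- Let G be a finite group and n a positive integer. The number of elements of G whose order is divisible by n is either 0 or divisible by the largest divisor of the order of G that is coprime to n. -/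
theorem result {G : Type*} [Group G] [Finite G] (n : ℕ) (hn : 0 < n) :
    Nat.card {g : G // n ∣ orderOf g} = 0 ∨
      (Nat.card G / Nat.gcd (Nat.card G) (n ^ Nat.card G)) ∣ Nat.card {g : G // n ∣ orderOf g} := by
  right
  have hc := cop (Nat.card G) n Nat.card_pos.ne' hn.ne'
  have hd : Nat.card G / Nat.gcd (Nat.card G) (n ^ Nat.card G) ∣ Nat.card G :=
    Nat.div_dvd_of_dvd (Nat.gcd_dvd_left _ _)
  generalize Nat.card G / Nat.gcd (Nat.card G) (n ^ Nat.card G) = m at *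
  have key : ∀ x : G, n ∣ orderOf x ↔ n ∣ orderOf (x ^ m) := by
    intro x
    refine ⟨fun h => ?_, fun h => h.trans (orderOf_pow_dvd _)⟩
    refine hc.dvd_of_dvd_mul_left (h.trans (orderOf_dvd_of_pow_eq_one ?_))
    rw [pow_mul, pow_orderOf_eq_one]
  refine H26.dvd_card_of_fiber (fun g : {g : G // n ∣ orderOf g} => ConjClasses.mk (g.1 ^ m)) m (fun a => ?_)
  have h1 := H26.gcd_dvd_card_isConj_pow (a.1 ^ m) m
  rw [Nat.gcd_eq_left hd] at h1
  refine h1.trans (dvd_of_eq (Nat.card_congr ?_))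
  refine ⟨fun x => ⟨⟨x.1, ?_⟩, (ConjClasses.mk_eq_mk_iff_isConj.2 x.2.symm)⟩,
    fun x => ⟨x.1.1, (ConjClasses.mk_eq_mk_iff_isConj.1 x.2).symm⟩, fun x => rfl, fun x => rfl⟩
  obtain ⟨c, hc'⟩ := isConj_iff.1 x.2
  rw [key, ← hc']
  have : orderOf (c * a.1 ^ m * c⁻¹) = orderOf (a.1 ^ m) := (MulAut.conj c).orderOf_eq _
  rw [this]
  exact (key _).1 a.2

end Cfsg.Agent.S3994
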