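import Cfsg.Statements.S3995
import Cfsg.Agent.H25.Nse
import Cfsg.Agent.S0016
import Cfsg.Agent.H11.Count

set_option autoImplicit false
open Cfsg

namespace Cfsg.Agent.S3995

open Subgroup Cfsg.Agent.H25

theorem nd {p a : ℕ} (hp : p.Prime) (h : p ∣ 1 + a) : ¬ p ∣ a := fun h' =>
  hp.not_dvd_one ((Nat.dvd_add_left h').1 h)

/-- Let G be a finite group such that the numbers of elements of each order that occurs in G (the numbers #{g : o(g) = m}, m ranging over the element orders of G) take exactly two values, 1 and some n ≠ 1. Then either G is a p-group of exponent p and order at least 3 for some prime p, or G is the quaternion group of order 8, or G is cyclic of order 4, or G ≅ Z₂ × P for a p-group P of exponent p with p an odd prime. -/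
theorem result {G : Type*} [Group G] [Finite G] (n : ℕ) (hn : n ≠ 1) (h : ((fun m : ℕ => Nat.card {g : G // orderOf g = m}) '' Set.range (orderOf : G → ℕ)) = {1, n}) :
    (∃ p : ℕ, p.Prime ∧ IsPGroup p G ∧ 3 ≤ Nat.card G ∧ Monoid.exponent G = p) ∨
      Nonempty (G ≃* QuaternionGroup 2) ∨ (IsCyclic G ∧ Nat.card G = 4) ∨
      (∃ (p : ℕ) (P : Type) (_ : Group P) (_ : Finite P), p.Prime ∧ p ≠ 2 ∧ IsPGroup p P ∧ Monoid.exponent P = p ∧
        Nonempty (G ≃* Multiplicative (ZMod 2) × P)) := by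
  have hv : ∀ k, ns G k = 0 ∨ ns G k = 1 ∨ ns G k = n := by
    intro k
    by_cases hk : ns G k = 0
    · exact Or.inl hk
    · have : ns G k ∈ ({1, n} : Set ℕ) := h ▸ ⟨k, ns_ne_zero_iff.1 hk, rfl⟩
      exact Or.inr this
  obtain ⟨m, ⟨g, rfl⟩, hm⟩ : n ∈ (fun m : ℕ => ns G m) '' Set.range (orderOf : G → ℕ) := by
    rw [h]; simp
  have hm' : ns G (orderOf g) = n := hm
  have hn0 : n ≠ 0 := hm' ▸ ns_ne_zero_iff.2 ⟨g, rfl⟩
  have hg : g ≠ 1 := by rintro rfl; rw [orderOf_one, ns_one] at hm'; exact hn hm'.symm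
  have hodd : ∀ p : ℕ, p.Prime → p ∣ Nat.card G → p ≠ 2 → ns G p = n ∧ ¬ p ∣ n ∧ ns G (p ^ 2) = 0 ∧ 2 ∣ n := by
    intro p hp hd h2
    have h3 := ns_prime_ne_zero hp hd
    have h4 := two_dvd_ns (G := G) (lt_of_le_of_ne hp.two_le h2.symm)
    have h5 : ns G p = n := by have := hv p; omega
    have h6 := nd hp (h5 ▸ dvd_one_add_ns hp hd)
    refine ⟨h5, h6, ?_, h5 ▸ h4⟩
    have h7 := dvd_ns_sq (G := G) hp
    rcases hv (p ^ 2) with h8 | h8 | h8
    · exact h8
    · exact absurd (h8 ▸ h7) hp.not_dvd_one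
    · exact absurd (h8 ▸ h7) h6
  have huniq : ∀ p q : ℕ, p.Prime → p ∣ Nat.card G → p ≠ 2 → q.Prime → q ∣ Nat.card G → q ≠ 2 → q = p := by
    intro p q hp hd h2 hq hd' h2'
    by_contra hne
    have hc : p.Coprime q := (Nat.coprime_primes hp hq).2 (Ne.symm hne)
    have h3 := dvd_ns_add hp hd ((Nat.Prime.coprime_iff_not_dvd hp).1 hc)
    have h4 := four_dvd_totient_mul (G := G) hc (lt_of_le_of_ne hp.two_le h2.symm) (lt_of_le_of_ne hq.two_le h2'.symm)
    rw [(hodd q hq hd' h2').1] at h3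
    rcases hv (p * q) with h8 | h8 | h8
    · exact (hodd p hp hd h2).2.1 (by rwa [h8] at h3)
    · omega
    · rw [h8, ← two_mul, hp.dvd_mul] at h3
      exact h3.elim (fun h => h2 ((Nat.prime_dvd_prime_iff_eq hp Nat.prime_two).1 h)) (hodd p hp hd h2).2.1
  have hpg : ∀ {K : Type _} [Group K] [Finite K] (p : ℕ), p.Prime → (∀ q : ℕ, q.Prime → q ∣ Nat.card K → q = p) →
      IsPGroup p K := fun p hp h =>
    IsPGroup.of_card (Nat.eq_prime_pow_of_unique_prime_dvd Nat.card_pos.ne' (fun hq hd => h _ hq hd))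
  have hexp : ∀ p : ℕ, p.Prime → IsPGroup p G → ns G (p ^ 2) = 0 → Monoid.exponent G = p := by
    intro p hp hG h2
    haveI := Fact.mk hp
    haveI : Nontrivial G := ⟨g, 1, hg⟩
    rw [← exponent_eq_of_ns_sq h2 (hG.to_subgroup ⊤) top_ne_bot]
    exact (Monoid.exponent_eq_of_mulEquiv topEquiv).symm
  haveI : Fact (Nat.Prime 2) := ⟨Nat.prime_two⟩
  by_cases h2 : 2 ∣ Nat.card G
  swap
  · obtain ⟨p, hp, hd⟩ := Nat.exists_prime_and_dvd (n := orderOf g) (by simpa using hg)
    have hd' := hd.trans (orderOf_dvd_natCard g)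
    have hp2 : p ≠ 2 := by rintro rfl; exact h2 hd'
    have hG := hpg p hp (fun q hq hd => huniq p q hp hd' hp2 hq hd (by rintro rfl; exact h2 hd))
    exact Or.inl ⟨p, hp, hG, (lt_of_le_of_ne hp.two_le hp2.symm).trans_le (Nat.le_of_dvd Nat.card_pos hd'),
      hexp p hp hG (hodd p hp hd' hp2).2.2.1⟩
  have e2 := dvd_one_add_ns Nat.prime_two h2
  have t4 := two_dvd_ns (G := G) (m := 4) (by norm_num)
  by_cases h1 : ns G 2 = 1
  swap
  · have h3 : ns G 2 = n := by have := hv 2; omega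
    have hG : IsPGroup 2 G := hpg 2 Nat.prime_two (fun q hq hd => by_contra fun hne => by
      have := (hodd q hq hd hne).2.2.2; omega)
    refine Or.inl ⟨2, Nat.prime_two, hG, ?_, hexp 2 Nat.prime_two hG (by have := hv 4; norm_num; omega)⟩
    have := sum_ns_le (G := G) {1, 2}
    rw [Finset.sum_pair (by norm_num), ns_one] at this
    omega
  obtain ⟨⟨z, hz⟩, hzu⟩ := Nat.card_eq_one_iff_exists.1 h1
  have hzu' : ∀ y : G, orderOf y = 2 → y = z := fun y hy => congrArg Subtype.val (hzu ⟨y, hy⟩)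
  by_cases h4 : 4 ∣ Nat.card G
  · have e4 := four_dvd_ns (G := G) h4
    have h3 : ns G 4 = n := by have := hv 4; omega
    have h8 : ns G 8 = 0 := by
      have : 4 ∣ ns G 8 := totient_dvd_ns 8
      have := hv 8; omega
    have hG : IsPGroup 2 G := hpg 2 Nat.prime_two (fun q hq hd => by_contra fun hne => by
      have c4 : q.Coprime 4 := ((Nat.coprime_primes hq Nat.prime_two).2 hne).pow_right 2
      have h7 := dvd_ns_add hq hd ((Nat.Prime.coprime_iff_not_dvd hq).1 c4)
      have h8 := four_dvd_totient_mul (G := G) c4 (lt_of_le_of_ne hq.two_le (Ne.symm hne)) (by norm_num)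
      have h9 : ns G (q * 4) = 0 := by have := hv (q * 4); omega
      rw [h9, h3] at h7
      exact (hodd q hq hd hne).2.1 h7)
    have hu : ∀ H : Subgroup G, Nat.card H = 2 → H = zpowers z := by
      intro H hH
      obtain ⟨x, hx⟩ := exists_prime_orderOf_dvd_card' (G := H) 2 hH.symm.dvd
      obtain rfl := hzu' x (by rw [orderOf_coe, hx])
      exact (eq_of_le_of_card_ge (zpowers_le.2 x.2) (by rw [Nat.card_zpowers, hH, hz])).symm
    rcases S0016.result 2 hG (fun H K hH hK => (hu H hH).trans (hu K hK).symm) with hc | ⟨-, k, ⟨e⟩⟩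
    · refine Or.inr (Or.inr (Or.inl ⟨hc, ?_⟩))
      obtain ⟨x, hx⟩ := hc.exists_ofOrder_eq_natCard
      obtain ⟨k, hk⟩ := hG.exists_card_eq
      have h9 := not_dvd_of_ns_eq_zero h8 x
      rw [hx, hk] at h9
      rw [hk] at h4 ⊢
      rcases k with _ | _ | _ | k
      · simp at h4
      · simp at h4
      · rfl
      · exact absurd (pow_dvd_pow 2 (by omega : 3 ≤ k + 1 + 1 + 1)) h9
    · have h9 := not_dvd_of_ns_eq_zero h8 (e.symm (.a 1))
      rw [MulEquiv.orderOf_eq, QuaternionGroup.orderOf_a_one] at h9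
      rcases k with _ | _ | k
      · refine Or.inr (Or.inr (Or.inl ⟨?_, ?_⟩))
        · haveI := QuaternionGroup.quaternionGroup_one_isCyclic
          exact isCyclic_of_surjective _ e.symm.surjective
        · rw [Nat.card_congr e.toEquiv, Nat.card_eq_fintype_card, QuaternionGroup.card]; rfl
      · exact Or.inr (Or.inl ⟨e⟩)
      · exact absurd ⟨2 ^ k, by ring⟩ h9
  · obtain ⟨H, hH⟩ := H11.exists_index_two_of_not_four_dvd (even_iff_two_dvd.2 h2) h4
    have h5 := H.card_mul_index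
    rw [hH] at h5
    have h6 : ¬ 2 ∣ Nat.card H := by omega
    have h7 : H ≠ ⊥ := by
      rintro rfl
      rw [card_bot] at h5
      have := (Nat.dvd_prime Nat.prime_two).1 (h5 ▸ orderOf_dvd_natCard g)
      rcases this with h | h
      · exact hg (orderOf_eq_one_iff.1 h)
      · rw [h, h1] at hm'; exact hn hm'.symm
    obtain ⟨p, hp, hd⟩ := Nat.exists_prime_and_dvd (n := Nat.card H) (fun h => h7 (card_eq_one.1 h))
    have hd' := hd.trans H.card_subgroup_dvd_card
    have hp2 : p ≠ 2 := by rintro rfl; exact h6 hd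
    have hP : IsPGroup p H := hpg p hp (fun q hq hd => huniq p q hp hd' hp2 hq (hd.trans H.card_subgroup_dvd_card)
      (by rintro rfl; exact h6 hd))
    haveI := Fact.mk hp
    have hE := exponent_eq_of_ns_sq (hodd p hp hd' hp2).2.2.1 hP h7
    obtain ⟨P, _, _, ⟨e⟩⟩ := Finite.exists_type_univ_nonempty_mulEquiv.{_, 0} H
    refine Or.inr (Or.inr (Or.inr ⟨p, P, inferInstance, inferInstance, hp, hp2, hP.of_equiv e,
      (Monoid.exponent_eq_of_mulEquiv e).symm.trans hE, ?_⟩))
    have hc : ∀ x : G, Commute z x := fun x => by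
      have := hzu' (x * z * x⁻¹) (((MulAut.conj x).orderOf_eq z).trans hz)
      exact (mul_inv_eq_iff_eq_mul.1 this).symm
    have hcz : Nat.card (zpowers z) = 2 := by rw [Nat.card_zpowers, hz]
    let f : zpowers z × H →* G := (zpowers z).subtype.noncommCoprod H.subtype (by
      rintro ⟨_, k, rfl⟩ y
      exact (hc y).zpow_left k)
    have hf : Function.Bijective f := by
      rw [Nat.bijective_iff_injective_and_card, Nat.card_prod, hcz, ← h5, mul_comm]
      refine ⟨(injective_iff_map_eq_one f).2 ?_, rfl⟩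
      rintro ⟨a, b⟩ hab
      have h8 : (a : G) * b = 1 := hab
      have h9 : (a : G) ∈ zpowers z ⊓ H := ⟨a.2, by rw [mul_eq_one_iff_eq_inv.1 h8]; exact H.inv_mem b.2⟩
      rw [inf_eq_bot_of_coprime (by rw [hcz]; exact (Nat.Prime.coprime_iff_not_dvd Nat.prime_two).2 h6),
        Subgroup.mem_bot] at h9
      rw [h9, one_mul] at h8
      exact Prod.ext (Subtype.ext h9) (Subtype.ext h8)
    let e2 : zpowers z ≃* Multiplicative (ZMod 2) := mulEquivOfPrimeCardEq (p := 2) hcz (by simp)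
    exact ⟨(MulEquiv.ofBijective f hf).symm.trans (e2.prodCongr e)⟩

end Cfsg.Agent.S3995
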