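import Cfsg.Statements.S3996
import Cfsg.Agent.H25.Nse
import Cfsg.Agent.H11.Count
import Cfsg.Agent.H4.Burnside
import Cfsg.Agent.FT

set_option autoImplicit false
open Cfsg

namespace Cfsg.Agent.S3996

open Subgroup Cfsg.Agent.H25

theorem aux {p b s : ℕ} (hp : p.Prime) (h2 : p ≠ 2) (h1 : ¬ p ∣ b) (hs : s = 0 ∨ s = b) : ¬ p ∣ b + s := by
  rcases hs with rfl | rfl
  · exact h1
  · rw [← two_mul, hp.dvd_mul]
    exact fun h => h.elim (fun h => h2 ((Nat.prime_dvd_prime_iff_eq hp Nat.prime_two).1 h)) h1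

theorem nd {p a : ℕ} (hp : p.Prime) (h : p ∣ 1 + a) : ¬ p ∣ a := fun h' =>
  hp.not_dvd_one ((Nat.dvd_add_left h').1 h)

/-- A finite group in which the numbers of elements of each order that occurs (the numbers #{g : o(g) = m}, m ranging over the element orders) take exactly three different values is solvable. -/
theorem result {G : Type*} [Group G] [Finite G] (h : (((fun m : ℕ => Nat.card {g : G // orderOf g = m}) '' Set.range (orderOf : G → ℕ))).ncard = 3) : Group.IsSolvable G := by
  by_cases h2 : 2 ∣ Nat.card G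
  swap
  · exact FT.solvable_of_odd (Nat.odd_iff.2 (by omega))
  by_cases h4 : 4 ∣ Nat.card G
  swap
  · obtain ⟨H, hH⟩ := H11.exists_index_two_of_not_four_dvd (even_iff_two_dvd.2 h2) h4
    haveI := normal_of_index_eq_two hH
    have h5 := H.card_mul_index
    haveI : Group.IsSolvable H := FT.solvable_of_odd (Nat.odd_iff.2 (by rw [hH] at h5; omega))
    haveI : IsCyclic (G ⧸ H) := isCyclic_of_prime_card (p := 2) hH
    haveI : Group.IsSolvable (G ⧸ H) := isSolvable_of_comm (fun a b => mul_comm' a b)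
    exact solvable_of_ker_le_range H.subtype (QuotientGroup.mk' H) (by simp)
  by_cases h3 : ∃ p : ℕ, p.Prime ∧ p ∣ Nat.card G ∧ p ≠ 2
  swap
  · exact H4.isSolvable_of_forall_prime_dvd Nat.prime_two Nat.prime_two
      (fun r hr hd => Or.inl (by_contra fun hne => h3 ⟨r, hr, hd, hne⟩))
  obtain ⟨p, hp, hpd, hp2⟩ := h3
  refine H4.isSolvable_of_forall_prime_dvd Nat.prime_two hp (fun q hq hqd => ?_)
  by_contra hne
  obtain ⟨hq2, hqp⟩ := not_or.1 hne
  have hp3 : 2 < p := lt_of_le_of_ne hp.two_le hp2.symm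
  have hq3 : 2 < q := lt_of_le_of_ne hq.two_le (Ne.symm hq2)
  have hc : p.Coprime q := (Nat.coprime_primes hp hq).2 (Ne.symm hqp)
  have hpq : ¬ p ∣ q := (Nat.Prime.coprime_iff_not_dvd hp).1 hc
  have hqp' : ¬ q ∣ p := (Nat.Prime.coprime_iff_not_dvd hq).1 hc.symm
  have e2 := dvd_one_add_ns Nat.prime_two h2
  have ep := dvd_one_add_ns hp hpd
  have eq := dvd_one_add_ns hq hqd
  have epq := dvd_ns_add hp hpd hpq
  have eqp := dvd_ns_add hq hqd hqp'
  rw [mul_comm] at eqp
  have np := ns_prime_ne_zero hp hpd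
  have nq := ns_prime_ne_zero hq hqd
  have tp := two_dvd_ns (G := G) hp3
  have tq := two_dvd_ns (G := G) hq3
  have fpq := four_dvd_totient_mul (G := G) hc hp3 hq3
  by_cases h1 : ns G 2 = 1
  swap
  · obtain ⟨b, hb⟩ := nse_three h (ns_prime_ne_zero Nat.prime_two h2) h1
    have a1 : ns G p = b := by have := hb p; omega
    have a2 : ns G q = b := by have := hb q; omega
    rw [a1] at ep
    rw [a2] at epq
    exact aux hp hp2 (nd hp ep) (by have := hb (p * q); omega) epq
  have e4 := four_dvd_ns h4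
  have t4 := two_dvd_ns (G := G) (m := 4) (by norm_num)
  obtain ⟨b, hb⟩ := nse_three (m := 4) h (by omega) (by omega)
  have c4 : ∀ r : ℕ, r.Prime → r ≠ 2 → r.Coprime 4 := fun r hr h =>
    ((Nat.coprime_primes hr Nat.prime_two).2 h).pow_right 2
  have key : ∀ r : ℕ, r.Prime → r ∣ Nat.card G → r ≠ 2 → ns G r = ns G 4 → ns G (r * 4) = b ∧ ¬ r ∣ b := by
    intro r hr hd h2 h5
    have h6 := dvd_one_add_ns hr hd
    have h7 := dvd_ns_add hr hd ((Nat.Prime.coprime_iff_not_dvd hr).1 (c4 r hr h2))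
    have h8 := four_dvd_totient_mul (G := G) (c4 r hr h2) (lt_of_le_of_ne hr.two_le h2.symm) (by norm_num)
    rw [h5] at h6
    have h9 : ns G (r * 4) = b := by
      have h10 : ns G (r * 4) ≠ 0 := fun h => nd hr h6 (by rwa [h] at h7)
      have := hb (r * 4); omega
    exact ⟨h9, fun h => nd hr h6 ((Nat.dvd_add_left (h9 ▸ h)).1 h7)⟩
  have spq : ns G (p * q) = 0 ∨ ns G (p * q) = b := by have := hb (p * q); omega
  by_cases a1 : ns G p = ns G 4
  · by_cases a2 : ns G q = ns G 4
    · have h5 := dvd_ns_add (m := q * 4) hp hpd ((Nat.Prime.coprime_iff_not_dvd hp).1 (hc.mul_right (c4 p hp hp2)))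
      rw [(key q hq hqd hq2 a2).1] at h5
      have h6 := four_dvd_totient_mul (G := G) (hc.mul_right (c4 p hp hp2)) hp3 (by omega)
      exact aux hp hp2 (key p hp hpd hp2 a1).2 (by have := hb (p * (q * 4)); omega) h5
    · have a3 : ns G q = b := by have := hb q; omega
      rw [a3] at epq
      exact aux hp hp2 (key p hp hpd hp2 a1).2 spq epq
  · have a3 : ns G p = b := by have := hb p; omega
    by_cases a2 : ns G q = ns G 4
    · rw [a3] at eqp
      exact aux hq hq2 (key q hq hqd hq2 a2).2 spq eqp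
    · have a4 : ns G q = b := by have := hb q; omega
      rw [a3] at ep
      rw [a4] at epq
      exact aux hp hp2 (nd hp ep) spq epq

end Cfsg.Agent.S3996
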