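import Cfsg.Statements.S3997
import Cfsg.Agent.H25.OrderType
import Cfsg.Agent.H2.Frattini

set_option autoImplicit false
open Cfsg

namespace Cfsg.Agent.S3997

/-- Let G and H be finite groups with the same order type: for every m they have the same number of elements of order m. If G is nilpotent then so is H. -/
theorem result {G H : Type*} [Group G] [Finite G] [Group H] [Finite H] (hT : (∀ m : ℕ, Nat.card {g : G // orderOf g = m} = Nat.card {h : H // orderOf h = m})) (hG : Group.IsNilpotent G) :
    Group.IsNilpotent H := by
  apply H2.isNilpotent_of_forall_sylow_normal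
  intro p _ Q
  obtain ⟨P⟩ : Nonempty (Sylow p G) := inferInstance
  have hP : (P : Subgroup G).Normal := Sylow.normal_of_normalizerCondition
    (Group.normalizerCondition_of_isNilpotent) P
  apply H25.normal_sylow_of_card_le
  rw [← H25.card_orderOf_pred_eq hT (fun m => ∃ k, m = p ^ k), H25.card_pElts_of_normal P,
    P.card_eq_multiplicity, Q.card_eq_multiplicity, H25.card_eq_of_orderType hT]

end Cfsg.Agent.S3997
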