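import Cfsg.Statements.S3998
import Cfsg.Agent.H25.OrderType

set_option autoImplicit false
open Cfsg

namespace Cfsg.Agent.S3998

/-- Let G and H be finite groups with the same order type (for every m the same number of elements of order m). If G is supersolvable then H is solvable. -/
theorem result {G H : Type*} [Group G] [Finite G] [Group H] [Finite H] (hT : (∀ m : ℕ, Nat.card {g : G // orderOf g = m} = Nat.card {h : H // orderOf h = m})) (hG : Cfsg.IsSupersolvable G) :
    Group.IsSolvable H := by
  refine H25.isSolvable_of_towerCount 0 (fun K _ _ h => ?_) H
    ((H25.towerCount_of_supersolvable hG).of_orderType hT)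
  have h1 : Nat.card K = 1 := by
    by_contra hne
    obtain ⟨r, hr, hd⟩ := Nat.exists_prime_and_dvd hne
    exact absurd (h r hr hd) (Nat.not_lt_zero r)
  have := (Nat.card_eq_one_iff_unique.mp h1).1
  infer_instance

end Cfsg.Agent.S3998
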