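import Cfsg.Statements.S3999
import Cfsg.Agent.H25.FrobType
import Cfsg.Agent.H11.Invol

set_option autoImplicit false
open Cfsg

namespace Cfsg.Agent.S3999

open Cfsg.Agent.H25 Subgroup

/-- Let F be a finite Frobenius group (it has a Frobenius complement) and G a finite group with the same order type as F (for every m the same number of elements of order m). Then G is a Frobenius group; moreover G is solvable if and only if F is. -/
theorem result {F G : Type*} [Group F] [Finite F] [Group G] [Finite G] (hF : (∃ C : Subgroup F, Cfsg.IsFrobeniusComplement C)) (hT : (∀ m : ℕ, Nat.card {g : F // orderOf g = m} = Nat.card {h : G // orderOf h = m})) :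
    (∃ C : Subgroup G, Cfsg.IsFrobeniusComplement C) ∧ (Group.IsSolvable G ↔ Group.IsSolvable F) := by
  obtain ⟨C, hC⟩ := hF
  obtain ⟨K, hK, _, hKC, hK0, -, hcop, -⟩ := H26.exists_frobeniusKernel hC
  have hK1 : K ≠ ⊤ := fun h => hC.1 (by
    have := hKC.disjoint; rwa [h, top_disjoint] at this)
  have hKo : OutCop K := by
    intro x hx
    obtain ⟨-, g, hg⟩ := H26.exists_conj_of_not_mem_frobeniusKernel (H := C) (x := x) (by
      rw [← hK]; exact hx)
    refine hcop.coprime_dvd_left ?_
    have := Subgroup.orderOf_dvd_natCard C hg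
    have h2 := H11.orderOf_conj g⁻¹ x
    rw [inv_inv] at h2
    rwa [h2] at this
  have hnil := hKo.isNilpotent hK1
  have hcard := card_eq_of_orderType hT
  let π : Set ℕ := {p | p ∣ Nat.card K}
  have hsyl : ∀ p : ℕ, p.Prime → p ∣ Nat.card K → ∀ P : Sylow p G, (P : Subgroup G).Normal := by
    intro p hp hd P
    haveI := Fact.mk hp
    obtain ⟨Q⟩ : Nonempty (Sylow p F) := inferInstance
    have h1 : (Q : Subgroup F) ≤ K := fun x hx => by
      by_contra h
      obtain ⟨k, hk⟩ := Q.isPGroup' ⟨x, hx⟩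
      have h2 := Nat.eq_one_of_dvd_coprimes (((hKo x h).coprime_dvd_right hd).pow_right k) dvd_rfl
        (orderOf_dvd_of_pow_eq_one (congrArg Subtype.val hk))
      exact h (by rw [orderOf_eq_one_iff.1 h2]; exact one_mem _)
    have h2 := (H1.le_map_pCore_of_isNilpotent hnil Q.isPGroup' h1).trans (H1.map_subtype_pCore_le _)
    haveI : (Q : Subgroup F).Normal := by
      rw [le_antisymm h2 (H1.pCore_le_sylow Q)]; infer_instance
    refine normal_sylow_of_card_le P ?_
    rw [← card_orderOf_pred_eq hT (fun m => ∃ k, m = p ^ k), card_pElts_of_normal Q,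
      Sylow.card_eq_multiplicity, Sylow.card_eq_multiplicity, hcard]
  let N := piCore π G
  have hN1 : H1.IsPiNum π (Nat.card N) := H1.isPiNum_card_piCore π G
  have hN2 : H1.IsPiNum πᶜ N.index := by
    intro p hp hd hpπ
    haveI := Fact.mk hp
    obtain ⟨P⟩ : Nonempty (Sylow p G) := inferInstance
    haveI := hsyl p hp hpπ P
    exact P.not_dvd_index (hd.trans (index_dvd_of_le
      (H1.le_piCore (H1.isPiNum_card_of_isPGroup hpπ P.isPGroup'))))
  have hK2 : H1.IsPiNum πᶜ K.index := fun p hp hd hpπ =>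
    hp.one_lt.ne' (Nat.eq_one_of_dvd_coprimes hKo.coprime_index hpπ hd)
  have hK3 : H1.IsPiNum π (Nat.card K) := fun p _ hd => hd
  have hc : Nat.card K = Nat.card N := by
    apply Nat.dvd_antisymm
    · refine (hK3.coprime hN2).dvd_of_dvd_mul_right ?_
      rw [N.card_mul_index, ← hcard]; exact card_subgroup_dvd_card K
    · refine (hN1.coprime hK2).dvd_of_dvd_mul_right ?_
      rw [K.card_mul_index, hcard]; exact card_subgroup_dvd_card N
  have hNo : OutCop N := by
    intro x hx
    obtain ⟨y, hy⟩ : ∃ y : F, orderOf y = orderOf x := by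
      have h1 : 0 < Nat.card {h : G // orderOf h = orderOf x} :=
        Nat.card_pos_iff.2 ⟨⟨⟨x, rfl⟩⟩, inferInstance⟩
      rw [← hT] at h1
      obtain ⟨⟨y⟩, -⟩ := Nat.card_pos_iff.1 h1
      exact ⟨y.1, y.2⟩
    rw [← hy, ← hc]
    refine hKo y (fun hyK => hx ?_)
    rw [← QuotientGroup.eq_one_iff, ← orderOf_eq_one_iff]
    refine Nat.eq_one_of_dvd_coprimes (hK3.coprime hN2) ?_ (_root_.orderOf_dvd_natCard _)
    exact (orderOf_map_dvd (QuotientGroup.mk' N) x).trans (hy ▸ Subgroup.orderOf_dvd_natCard K hyK)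
  have hN0 : N ≠ ⊥ := fun h => hK0 (card_eq_one.1 (by rw [hc, h, card_bot]))
  have hNt : N ≠ ⊤ := fun h => hK1 (card_eq_iff_eq_top K |>.1 (by rw [hc, h, card_top, hcard]))
  refine ⟨?_, fun h => solvable_of_orderType_outCop hNo hKo hc.symm hN0 hK1 (fun m => (hT m).symm) h,
    fun h => solvable_of_orderType_outCop hKo hNo hc hK0 hNt hT h⟩
  obtain ⟨H, hH⟩ := exists_right_complement'_of_coprime hNo.coprime_index
  exact ⟨H, H1.isFrobeniusComplement_of_fpf hH hN0 (fun h0 => hNt (by
    have := hH.sup_eq_top; rwa [h0, sup_bot_eq] at this)) (hNo.fpf hH.disjoint)⟩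

end Cfsg.Agent.S3999
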