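import Cfsg.Statements.S4001
import Cfsg.Agent.H25.PG

set_option autoImplicit false
open Cfsg

namespace Cfsg.Agent.S4001

open Subgroup Cfsg.Agent.H20 Cfsg.Agent.H21 Cfsg.Agent.H25 Cfsg.Agent.BG

/-- Let G be a 2-Frobenius group: it has normal subgroups H < K with K a Frobenius group with kernel H and G/H a Frobenius group with kernel K/H. Then G is solvable; K/H has odd order coprime to the order of H and to the order of G/K (it is the image of an odd-order Hall subgroup); G/K is cyclic; and the prime graph of G has exactly two connected components, both complete: for distinct primes p, q dividing the order of G, G has an element of order pq exactly when p and q either both divide the order of K/H or both do not. -/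
theorem result {G : Type*} [Group G] [Finite G] (H K : Subgroup G) [H.Normal] [K.Normal] (hlt : H < K)
    (hK : ∃ C : Subgroup ↥K, Cfsg.IsFrobeniusComplement C ∧ Cfsg.frobeniusKernel C = (H.subgroupOf K : Set ↥K))
    (hGH : ∃ C : Subgroup (G ⧸ H), Cfsg.IsFrobeniusComplement C ∧ Cfsg.frobeniusKernel C = (K.map (QuotientGroup.mk' H) : Set (G ⧸ H))) :
    Group.IsSolvable G ∧ Odd (Nat.card (↥K ⧸ H.subgroupOf K)) ∧
      Nat.Coprime (Nat.card (↥K ⧸ H.subgroupOf K)) (Nat.card ↥H * Nat.card (G ⧸ K)) ∧ IsCyclic (G ⧸ K) ∧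
      ∀ p q : ℕ, p.Prime → q.Prime → p ≠ q → p ∣ Nat.card G → q ∣ Nat.card G →
        ((∃ g : G, orderOf g = p * q) ↔ (p ∣ Nat.card (↥K ⧸ H.subgroupOf K) ↔ q ∣ Nat.card (↥K ⧸ H.subgroupOf K))) := by
  obtain ⟨R0, k1, k2⟩ := hK
  obtain ⟨C, k3, k4⟩ := hGH
  have hR := frob_map_subtype (frob_of_isFrobeniusComplement k1 k2)
  rw [subgroupOf_map_subtype, inf_eq_left.mpr hlt.le] at hR
  generalize R0.map K.subtype = R at hR
  set f := QuotientGroup.mk' H with hf
  have hC : Frob ⊤ (K.map f) C := frob_of_isFrobeniusComplement k3 (by rw [k4, coe_map])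
  have hfs : Function.Surjective f := QuotientGroup.mk'_surjective H
  have hk : f.ker = H := QuotientGroup.ker_mk' H
  have hHn : H ⊴ ⊤ := NormalIn.of_normal H
  have hKn : K ⊴ ⊤ := NormalIn.of_normal K
  have e3 : R.map f = K.map f := by
    rw [← hR.sup_eq, Subgroup.map_sup, (Subgroup.map_eq_bot_iff _).mpr hk.ge, bot_sup_eq]
  obtain ⟨hodd, hcyc⟩ := cyclic_of_frob_frob hR f (fun x hx h1 => by
    have : x ∈ H ⊓ R := ⟨hk ▸ h1, hx⟩
    rwa [hR.inf_eq] at this) hC.compl_ne (e3 ▸ hC.norm) (e3 ▸ hC.reg)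
  have hcyc' : IsCyclic (K.map f) := e3 ▸ cyclic_map f hcyc
  have c1 : Nat.card (K ⧸ H.subgroupOf K) = ♯R := Compl.relIndex_left hR.compl
  have c2 : K.index = ♯C := by
    rw [← index_map_eq _ hfs (hk.le.trans hlt.le), ← relIndex_top_right]
    exact Compl.relIndex_left hC.compl
  have c3 : ♯(K.map f) = ♯R := by
    have h1 := hC.card
    have h2 := H.card_mul_index
    rw [card_top', ← index_eq_card, ← c2] at h1
    rw [← h1, ← K.card_mul_index, ← hR.card, ← mul_assoc] at h2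
    exact Nat.eq_of_mul_eq_mul_left (card_pos H) (Nat.eq_of_mul_eq_mul_right (c2 ▸ card_pos C) h2)
  have c4 : Nat.card G = ♯H * ♯R * ♯C := by rw [hR.card, ← c2, K.card_mul_index]
  have hCc : IsCyclic C := by
    apply regular_abelian_cyclic _ hC.ker_ne hC.norm hC.reg
    have h1 : ⁅C, C⁆ ≤ C ⊓ C⟦K.map f⟧ := le_inf (der_le C) (der1_cent_cyclic hcyc' hC.norm)
    rw [hC.cent_eq', le_bot_iff, commg_eq_bot] at h1
    exact comm_iff_le_cent.mpr h1
  have hGK : IsCyclic (G ⧸ K) := by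
    haveI := hCc
    let g : G ⧸ H →* G ⧸ K := QuotientGroup.map H K (MonoidHom.id G) hlt.le
    refine isCyclic_of_surjective (g.comp C.subtype) fun z => ?_
    obtain ⟨x, rfl⟩ := QuotientGroup.mk_surjective z
    obtain ⟨_, ⟨a, ha, rfl⟩, b, hb, e⟩ := Compl.prod hC.compl (f x) (mem_top _)
    refine ⟨⟨b, hb⟩, ?_⟩
    have : g (f a * b) = x := by rw [e]; rfl
    rw [map_mul, show g (f a) = 1 from (QuotientGroup.eq_one_iff a).mpr ha, one_mul] at this
    exact this
  have hHs : Group.IsSolvable H := sol_of_nil hR.nil_ker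
  have hKs : Group.IsSolvable K := hR.sup_eq ▸ sol_sup hHs (sol_of_comm (comm_of_cyclic hcyc)) (Or.inr hR.norm)
  have cop1 : (♯R).Coprime (♯H) := hR.coprime.symm
  have cop2 : (♯R).Coprime (♯C) := c3 ▸ hC.coprime
  refine ⟨?_, c1 ▸ hodd, by rw [c1, ← index_eq_card, c2]; exact Nat.Coprime.mul_right cop1 cop2, hGK, ?_⟩
  · haveI := hKs
    haveI : Group.IsSolvable (G ⧸ K) := sol_top_iff.mp (sol_of_comm (comm_top_iff.mpr IsCyclic.isMulCommutative))
    exact solvable_of_ker_le_range K.subtype (QuotientGroup.mk' K) (by simp)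
  rw [c1]
  have memK : ∀ x : G, (orderOf x).Coprime (♯C) → x ∈ K := fun x hx => by
    rw [← QuotientGroup.eq_one_iff, ← orderOf_eq_one_iff]
    refine Nat.eq_one_of_dvd_coprimes hx (orderOf_map_dvd (QuotientGroup.mk' K) x) ?_
    rw [← c2, index_eq_card]; exact orderOf_dvd_natCard _
  have A1 : ∀ p q : ℕ, p.Prime → q.Prime → ∀ x y : G, orderOf x = p → orderOf y = q → x * y = y * x →
      p ∣ ♯R → q ∣ ♯R := by
    intro p q hp hq x y hx hy hc hd
    have hxK : x ∈ K := memK x (hx ▸ Nat.Coprime.coprime_dvd_left hd cop2)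
    have hxH : x ∉ H := fun h => hp.one_lt.ne' (Nat.eq_one_of_dvd_coprimes cop1 hd (hx ▸ orderOf_dvd_card_of_mem h))
    have hx1 : x ≠ 1 := fun h => hxH (h ▸ one_mem H)
    have hyK : y ∈ K := by
      have := hC.cent1_ker (mem_map_of_mem f hxK) (fun h => hxH (hk ▸ h))
        (⟨mem_top (f y), mem_cent1.mpr (by rw [← map_mul, ← hc, map_mul])⟩ : f y ∈ ⊤ ⊓ C₁⟦f x⟧)
      rwa [← mem_comap, comap_map_eq_self (hk.le.trans hlt.le)] at this
    obtain ⟨k, hk', hxk⟩ := hR.partition hxK hxH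
    have := (hR.cj_compl (hlt.le hk')).cent1_compl hxk hx1 ⟨hyK, mem_cent1.mpr hc.symm⟩
    rw [← card_cj k R, ← hy]
    exact orderOf_dvd_card_of_mem this
  have A2 : ∀ p q : ℕ, p.Prime → q.Prime → p ≠ q → p ∣ ♯H → ¬ q ∣ ♯H → ¬ q ∣ ♯R → q ∣ ♯C →
      ∃ g : G, orderOf g = p * q := by
    intro p q hp hq hne h1 h2 h3 h4
    haveI := Fact.mk hp
    haveI := Fact.mk hq
    have hRK : IsPiHallOf (primesOf R) R K := isHallOf_iff.mp
      ⟨hR.compl_le, by rw [Compl.relIndex_right hR.compl]; exact cop1⟩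
    have hfr := Hall.sol_frattini hRK hKs hKn
    have hqK : ¬ q ∣ ♯K := by rw [← hR.card, hq.dvd_mul]; tauto
    have hqN : q ∣ ♯(⊤ ⊓ N⟦R⟧) := by
      have := card_sup_dvd (A := K) (B := ⊤ ⊓ N⟦R⟧) (Or.inr (le_top.trans hKn.2))
      rw [hfr, card_top', c4] at this
      exact (hq.dvd_mul.mp ((Dvd.dvd.mul_left h4 _).trans this)).resolve_left hqK
    obtain ⟨y, ⟨-, hyN⟩, hy⟩ := exists_prime_order_mem hq hqN
    have hyK : y ∉ K := fun h => hqK (hy ▸ orderOf_dvd_card_of_mem h)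
    have hfpf : R ⊓ C⟦zpowers y⟧ = ⊥ := by
      rw [eq_bot_iff]
      rintro r ⟨hr, hrc⟩
      by_contra hr1
      have h5 : f r ≠ 1 := fun h => hr1 (by
        have : r ∈ H ⊓ R := ⟨hk ▸ h, hr⟩
        rwa [hR.inf_eq] at this)
      have := hC.cent1_ker (mem_map_of_mem f (hR.compl_le hr)) h5
        (⟨mem_top _, mem_cent1.mpr (by rw [← map_mul, mem_cent.mp hrc y (mem_zpowers y), map_mul])⟩ : f y ∈ ⊤ ⊓ C₁⟦f r⟧)
      rw [← mem_comap, comap_map_eq_self (hk.le.trans hlt.le)] at this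
      exact hyK this
    have hF := prime_frob_mk (zpowers_le.mpr hyN) hR.compl_ne (by rw [Nat.card_zpowers, hy]; exact hq) hfpf
    set P := piCoreOf {p} H
    have hPn : P ⊴ ⊤ := piCoreOf_normalIn_of {p} hHn
    have hP0 : P ≠ ⊥ := Hall.sylow_ne_bot (pCoreOf_sylow_of_nil hR.nil_ker) h1
    have hV0 : P ⊓ C⟦P⟧ ≠ ⊥ := center_ne_bot_of_nil (isPGroup_piCoreOf p H).isNilpotent hP0
    have hVH : P ⊓ C⟦P⟧ ≤ H := inf_le_left.trans (piCoreOf_le _ _)
    have h6 : P ⊓ C⟦P⟧ ⊓ C⟦zpowers y⟧ ≠ ⊥ := by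
      intro e
      have := Frobenius_cent_compl_abelian hF (comm_center P) (le_top.trans hPn.center.2)
        (coprime_of_le_left cop1.symm hVH) e
      apply hV0
      rw [eq_bot_iff, ← hR.cent_eq]
      exact le_inf hVH (cent_symm this)
    obtain ⟨v, hv, hvo⟩ := exists_prime_order_mem hp (dvd_card_of_isPGroup
      ((isPGroup_piCoreOf p H).to_le (inf_le_left.trans inf_le_left)) h6)
    exact ⟨v * y, orderOf_mul_primes hp hq hne hvo hy (mem_cent.mp hv.2 y (mem_zpowers y)).symm⟩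
  intro p q hp hq hne hpG hqG
  constructor
  · rintro ⟨g, hg⟩
    obtain ⟨x, -, y, -, e1, e2, e3⟩ := exists_comm_of_dvd_orderOf (g := g) (p := p) (q := q)
      (hg ▸ Dvd.intro _ rfl) (hg ▸ Dvd.intro_left _ rfl)
    exact ⟨A1 p q hp hq x y e1 e2 e3, A1 q p hq hp y x e2 e1 e3.symm⟩
  · intro hiff
    have fin : ∀ L : Subgroup G, Group.IsNilpotent L → p ∣ ♯L → q ∣ ♯L → ∃ g : G, orderOf g = p * q := by
      intro L h1 h2 h3
      obtain ⟨x, -, y, -, e1, e2, e3⟩ := exists_comm_of_nil h1 hp hq hne h2 h3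
      exact ⟨x * y, orderOf_mul_primes hp hq hne e1 e2 e3⟩
    by_cases hpR : p ∣ ♯R
    · exact fin R (nil_of_cyclic hcyc) hpR (hiff.mp hpR)
    have hqR : ¬ q ∣ ♯R := fun h => hpR (hiff.mpr h)
    rw [c4, hp.dvd_mul, hp.dvd_mul] at hpG
    rw [c4, hq.dvd_mul, hq.dvd_mul] at hqG
    by_cases h1 : p ∣ ♯H <;> by_cases h2 : q ∣ ♯H
    · exact fin H hR.nil_ker h1 h2
    · exact A2 p q hp hq hne h1 h2 hqR (by tauto)
    · rw [mul_comm]; exact A2 q p hq hp hne.symm h2 h1 hpR (by tauto)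
    · obtain ⟨x, -, y, -, e1, e2, e3⟩ := exists_comm_of_nil (nil_of_cyclic hCc) hp hq hne (by tauto) (by tauto)
      obtain ⟨g, hg⟩ := hfs (x * y)
      have hd : p * q ∣ orderOf g := orderOf_mul_primes hp hq hne e1 e2 e3 ▸ hg ▸ orderOf_map_dvd f g
      obtain ⟨z, -, hz⟩ := exists_orderOf_eq_pow_of_dvd hd
      exact ⟨z, hz⟩

end Cfsg.Agent.S4001
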