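import Cfsg.Statements.S4002
import Cfsg.Agent.H25.PG

set_option autoImplicit false
open Cfsg

namespace Cfsg.Agent.S4002

open Subgroup Cfsg.Agent.H20 Cfsg.Agent.H21
theorem ex3 (n : ℕ) (hn : 7 ≤ n) : ∃ p q r : ℕ, p.Prime ∧ q.Prime ∧ r.Prime ∧ p < q ∧ q < r ∧ r ≤ n ∧ n < p * q := by
  by_cases h1 : n ≤ 14
  · exact ⟨3, 5, 7, by norm_num, by norm_num, by norm_num, by norm_num, by norm_num, hn, by omega⟩
  by_cases h2 : n ≤ 34
  · exact ⟨5, 7, 11, by norm_num, by norm_num, by norm_num, by norm_num, by norm_num, by omega, by omega⟩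
  obtain ⟨p, hp, hp1, hp2⟩ := Nat.exists_prime_lt_and_le_two_mul (n / 8) (by omega)
  obtain ⟨q, hq, hq1, hq2⟩ := Nat.exists_prime_lt_and_le_two_mul (2 * (n / 8)) (by omega)
  obtain ⟨r, hr, hr1, hr2⟩ := Nat.exists_prime_lt_and_le_two_mul (4 * (n / 8)) (by omega)
  refine ⟨p, q, r, hp, hq, hr, by omega, by omega, by omega, ?_⟩
  have h4 : 4 ≤ n / 8 := by omega
  have h5 : n ≤ 8 * (n / 8) + 7 := by omega
  generalize n / 8 = m at *
  have : (m + 1) * (2 * m + 1) ≤ p * q := Nat.mul_le_mul hp1 hq1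
  nlinarith

/-- If the set of element orders of a finite group G is {1, 2, …, n} with n ≥ 7, then G is not solvable. -/
theorem result {G : Type*} [Group G] [Finite G] (n : ℕ) (hn : 7 ≤ n) (h : Set.range (orderOf : G → ℕ) = {k : ℕ | 1 ≤ k ∧ k ≤ n}) : ¬ Group.IsSolvable G := by
  intro hs
  obtain ⟨p, q, r, hp, hq, hr, h1, h2, h3, h4⟩ := ex3 n hn
  have hd : ∀ k, 1 ≤ k → k ≤ n → k ∣ Nat.card (⊤ : Subgroup G) := by
    intro k a b
    have : k ∈ Set.range (orderOf : G → ℕ) := by rw [h]; exact ⟨a, b⟩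
    obtain ⟨g, rfl⟩ := this
    rw [Subgroup.card_top]
    exact orderOf_dvd_natCard g
  have hs' : Group.IsSolvable (⊤ : Subgroup G) := by
    haveI := hs
    infer_instance
  obtain ⟨g, -, hg⟩ := H25.three_primes hs' hp hq hr h1.ne (h1.trans h2).ne h2.ne
    (hd p hp.one_le (by omega)) (hd q hq.one_le (by omega)) (hd r hr.one_le h3)
  have hg' : orderOf g ≤ n := by
    have : orderOf g ∈ Set.range (orderOf : G → ℕ) := ⟨g, rfl⟩
    rw [h] at this
    exact this.2
  have e1 : p * q ≤ p * r := Nat.mul_le_mul_left _ h2.le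
  have e2 : p * q ≤ q * r := by rw [mul_comm q r]; exact Nat.mul_le_mul_right _ (h1.trans h2).le
  omega

end Cfsg.Agent.S4002
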