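import Cfsg.Statements.S4003
import Cfsg.Agent.H25.CycCount

set_option autoImplicit false
open Cfsg

namespace Cfsg.Agent.S4003

open Subgroup Cfsg.Agent.H20 Cfsg.Agent.H21 Cfsg.Agent.H25

/-- Let G be a finite group, p an odd prime dividing the order of G whose Sylow p-subgroups are not cyclic, and n = p^s·m with s > 1 and m coprime to p. Then the number of elements of G of order n is a multiple of p^s. -/
theorem result {G : Type*} [Group G] [Finite G] (p : ℕ) [Fact p.Prime] (hodd : p ≠ 2) (hpG : p ∣ Nat.card G)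
    (P : Sylow p G) (hP : ¬ IsCyclic ↥(P : Subgroup G)) (s m : ℕ) (hs : 1 < s) (hm : Nat.Coprime p m) :
    p ^ s ∣ Nat.card {g : G // orderOf g = p ^ s * m} := by
  have hp : p.Prime := Fact.out
  have hc : (p ^ s).Coprime m := hm.pow_left s
  refine H26.dvd_card_of_fiber (fun g : {g : G // orderOf g = p ^ s * m} => ConjClasses.mk (g.1 ^ p ^ s)) _
    (fun a => ?_)
  have h1 := card_isConj_fun (fun g : G => orderOf g = p ^ s * m) (fun g => g ^ p ^ s)
    (fun g x hx => ((MulAut.conj g).orderOf_eq x).trans hx) (fun g x => conj_pow) (a.1 ^ p ^ s)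
  have h2 : orderOf (a.1 ^ p ^ s) = m := by
    rw [orderOf_pow, a.2, Nat.gcd_eq_right (Dvd.intro _ rfl), Nat.mul_div_cancel_left _ (pow_pos hp.pos _)]
  rw [card_order_mul_pow_eq hc h2] at h1
  refine Dvd.dvd.trans ?_ (dvd_of_eq (h1.symm.trans (Nat.card_congr ?_)))
  swap
  · exact ⟨fun x => ⟨⟨x.1, x.2.1⟩, (ConjClasses.mk_eq_mk_iff_isConj.2 x.2.2.symm)⟩,
      fun x => ⟨x.1.1, x.1.2, (ConjClasses.mk_eq_mk_iff_isConj.1 x.2).symm⟩, fun x => rfl, fun x => rfl⟩
  generalize centralizer ({a.1 ^ p ^ s} : Set G) = C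
  by_cases h3 : p ∣ C.index
  · obtain ⟨s, rfl⟩ : ∃ t, s = t + 1 := ⟨s - 1, by omega⟩
    have h4 := totient_dvd_card_order (G := C) (p ^ (s + 1))
    rw [Nat.totient_prime_pow hp (by omega), Nat.add_sub_cancel] at h4
    exact (pow_succ' p s).dvd.trans (Nat.mul_dvd_mul h3 ((Dvd.intro _ rfl).trans h4))
  · obtain ⟨Q⟩ : Nonempty (Sylow p C) := inferInstance
    refine Dvd.dvd.mul_left (pow_dvd_card_order hodd (sylowOf_top Q) (fun hQ => hP ?_) hs) _
    have h4 : ¬ p ∣ ((Q : Subgroup C).map C.subtype).index := by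
      rw [index_map_subtype]
      exact fun h => (hp.dvd_mul.1 h).elim Q.not_dvd_index h3
    let R : Sylow p G := (Q.2.map C.subtype).toSylow h4
    have h5 : IsCyclic (R : Subgroup G) :=
      isCyclic_of_surjective _ ((Q : Subgroup C).equivMapOfInjective _ C.subtype_injective).surjective
    exact isCyclic_of_surjective _ (Sylow.equiv R P).surjective

end Cfsg.Agent.S4003
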