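import Cfsg.Statements.S4004
import Cfsg.Agent.H25.PrimeOrd
import Cfsg.Agent.H25.Nse
import Cfsg.Agent.FT

set_option autoImplicit false
open Cfsg

namespace Cfsg.Agent.S4004

open Subgroup Cfsg.Agent.H20 Cfsg.Agent.H21 Cfsg.Agent.BG Cfsg.Agent.H25

theorem nd {p a : ℕ} (hp : p.Prime) (h : p ∣ 1 + a) : ¬ p ∣ a := fun h' =>
  hp.not_dvd_one ((Nat.dvd_add_left h').1 h)

theorem nd2 {p a : ℕ} (hp : p.Prime) (h2 : 2 < p) (h : ¬ p ∣ a) : ¬ p ∣ a + a := by
  rw [← two_mul, hp.dvd_mul]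
  exact fun h' => h'.elim (fun h => absurd (Nat.le_of_dvd two_pos h) (by omega)) h

section
variable {G : Type*} [Group G] [Finite G] {a b p q r : ℕ}

/-- two primes with the same count -/
theorem same (hv : ∀ k, 2 < k → ns G k = 0 ∨ ns G k = a ∨ ns G k = b) (hp : p.Prime) (hq : q.Prime) (hne : p ≠ q)
    (h2 : 2 < p) (h3 : 2 < q) (dp : p ∣ Nat.card G) (dq : q ∣ Nat.card G) (ep : ns G p = a) (eq : ns G q = a) :
    ns G (p * q) = b ∧ p ∣ 1 + a ∧ p ∣ a + b ∧ ¬ p ∣ b ∧ ns G (p ^ 2) = 0 := by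
  have h1 := dvd_one_add_ns hp dp
  have h4 := dvd_ns_add hp dp (m := q) (fun h => hne ((Nat.prime_dvd_prime_iff_eq hp hq).1 h))
  rw [ep] at h1
  rw [eq] at h4
  have h5 : ns G (p * q) = b := by
    rcases hv (p * q) (by nlinarith) with h | h | h
    · exact absurd (by rwa [h] at h4) (nd hp h1)
    · exact absurd (h ▸ h4) (nd2 hp h2 (nd hp h1))
    · exact h
  rw [h5] at h4
  have h6 : ¬ p ∣ b := fun h => nd hp h1 ((Nat.dvd_add_left h).1 h4)
  refine ⟨h5, h1, h4, h6, ?_⟩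
  have h7 := dvd_ns_sq (G := G) hp
  rcases hv (p ^ 2) (by nlinarith) with h | h | h
  · exact h
  · exact absurd (h ▸ h7) (nd hp h1)
  · exact absurd (h ▸ h7) h6

theorem not_all_same (hv : ∀ k, 2 < k → ns G k = 0 ∨ ns G k = a ∨ ns G k = b)
    (ho : ∀ r, r.Prime → r ∣ Nat.card G → 2 < r ∧ ns G r = a) (hp : p.Prime) (hq : q.Prime) (hne : p ≠ q)
    (dp : p ∣ Nat.card G) (dq : q ∣ Nat.card G) : False := by
  have h1 : Nat.card G ∣ a + b := by
    rw [Nat.dvd_iff_prime_pow_dvd_dvd]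
    intro r k hr hd
    rcases eq_or_ne k 0 with rfl | hk
    · simp
    have dr : r ∣ Nat.card G := (dvd_pow_self r hk).trans hd
    obtain ⟨s, hs, ds, hrs⟩ : ∃ s, s.Prime ∧ s ∣ Nat.card G ∧ r ≠ s := by
      by_cases e : r = p
      · exact ⟨q, hq, dq, e ▸ hne⟩
      · exact ⟨p, hp, dp, e⟩
    obtain ⟨e1, -, -, -, e2⟩ := same hv hr hs hrs (ho r hr dr).1 (ho s hs ds).1 dr ds (ho r hr dr).2 (ho s hs ds).2
    have := pow_dvd_ns_add hr hd e2 (m := s) (fun h => hrs ((Nat.prime_dvd_prime_iff_eq hr hs).1 h))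
    rwa [e1, (ho s hs ds).2] at this
  obtain ⟨e1, -⟩ := same hv hp hq hne (ho p hp dp).1 (ho q hq dq).1 dp dq (ho p hp dp).2 (ho q hq dq).2
  have h2 := sum_ns_le (G := G) {1, p, p * q}
  have h3 := hp.one_lt
  have h4 := hq.one_lt
  rw [Finset.sum_insert (by simp; constructor <;> nlinarith), Finset.sum_pair (by nlinarith), ns_one, e1,
    (ho p hp dp).2] at h2
  have h5 := ns_prime_ne_zero hp dp
  rw [(ho p hp dp).2] at h5
  have := Nat.le_of_dvd (by omega) h1
  omega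

theorem not_aab (hv : ∀ k, 2 < k → ns G k = 0 ∨ ns G k = a ∨ ns G k = b) (hp : p.Prime) (hq : q.Prime) (hr : r.Prime)
    (hne : p ≠ q) (hpr : p ≠ r) (hqr : q ≠ r) (h2 : 2 < p) (h3 : 2 < q) (h4 : 2 < r) (dp : p ∣ Nat.card G)
    (dq : q ∣ Nat.card G) (dr : r ∣ Nat.card G) (ep : ns G p = a) (eq : ns G q = a) (er : ns G r = b) : False := by
  obtain ⟨e1, e2, e3, e4, -⟩ := same hv hp hq hne h2 h3 dp dq ep eq
  have h5 := dvd_ns_add hp dp (m := r) (fun h => hpr ((Nat.prime_dvd_prime_iff_eq hp hr).1 h))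
  have h6 := dvd_ns_add hr dr (m := p) (fun h => hpr ((Nat.prime_dvd_prime_iff_eq hr hp).1 h).symm)
  have h7 := dvd_one_add_ns hr dr
  have h8 := dvd_ns_add hr dr (m := p * q) (fun h => (hr.dvd_mul.1 h).elim
    (fun h => hpr ((Nat.prime_dvd_prime_iff_eq hr hp).1 h).symm)
    (fun h => hqr ((Nat.prime_dvd_prime_iff_eq hr hq).1 h).symm))
  rw [er] at h5 h7
  rw [ep, mul_comm] at h6
  rw [e1] at h8
  have h9 : ns G (p * r) = a := by
    rcases hv (p * r) (by nlinarith) with h | h | h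
    · exact absurd (by rwa [h] at h5) e4
    · exact h
    · exact absurd (h ▸ h5) (nd2 hp h2 e4)
  rw [h9] at h6
  have h10 : r ∣ a := by_contra fun h => nd2 hr h4 h h6
  rcases hv (r * (p * q)) (by nlinarith [Nat.mul_pos hp.pos hq.pos]) with h | h | h
  · exact nd hr h7 (by rwa [h] at h8)
  · exact nd hr h7 ((Nat.dvd_add_left h10).1 (h ▸ h8))
  · exact nd2 hr h4 (nd hr h7) (h ▸ h8)

theorem ne_of_ab (hp : p.Prime) (hq : q.Prime) (hne : p ≠ q) (h2 : 2 < p) (h3 : 2 < q) (dp : p ∣ Nat.card G)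
    (e : ns G (p * q) = ns G p) : False := by
  have h1 := dvd_ns_add hp dp (m := q) (fun h => hne ((Nat.prime_dvd_prime_iff_eq hp hq).1 h))
  rw [e] at h1
  have h4 := two_mul_ns_le (G := G) hp ((Nat.coprime_primes hp hq).2 hne) h3
    (fun h => nd hp (dvd_one_add_ns hp dp) ((Nat.dvd_add_right h).1 h1))
  have := ns_prime_ne_zero hp dp
  omega

theorem sq_zero (hv : ∀ k, 2 < k → ns G k = 0 ∨ ns G k = a ∨ ns G k = b) (hp : p.Prime) (hq : q.Prime) (hne : p ≠ q)
    (h2 : 2 < p) (dp : p ∣ Nat.card G) (dq : q ∣ Nat.card G) (ep : ns G p = a) (eq : ns G q = b)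
    (e : ns G (p * q) = 0) : ns G (p ^ 2) = 0 := by
  have h1 := dvd_ns_add hq dq (m := p ^ 2) (fun h => hne ((Nat.prime_dvd_prime_iff_eq hq hp).1 (hq.dvd_of_dvd_pow h)).symm)
  have h3 : ns G (q * p ^ 2) = 0 := by_contra fun h => ns_ne_zero_of_dvd h ⟨p, by ring⟩ e
  rw [h3, add_zero] at h1
  have h7 := dvd_ns_sq (G := G) hp
  rcases hv (p ^ 2) (by nlinarith) with h | h | h
  · exact h
  · exact absurd (h ▸ h7) (nd hp (ep ▸ dvd_one_add_ns hp dp))
  · exact absurd (h ▸ h1) (nd hq (eq ▸ dvd_one_add_ns hq dq))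
end

/-- Let G be a finite group of odd order in which the numbers of elements of each order that occurs (the numbers #{g : o(g) = m}, m ranging over the element orders of G) take exactly three different values. Then the order of G has at most two prime divisors; and if it has exactly two, then every Sylow subgroup of G for a prime dividing its order has prime exponent, G is a Frobenius group, and some Frobenius complement of G has prime order. -/
theorem result {G : Type*} [Group G] [Finite G] (hodd : Odd (Nat.card G)) (h : (((fun m : ℕ => Nat.card {g : G // orderOf g = m}) '' Set.range (orderOf : G → ℕ))).ncard = 3) :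
    (Nat.card G).primeFactors.card ≤ 2 ∧
      ((Nat.card G).primeFactors.card = 2 →
        (∀ (p : ℕ) [Fact p.Prime] (P : Sylow p G), p ∣ Nat.card G → Monoid.exponent ↥(P : Subgroup G) = p) ∧
        ∃ C : Subgroup G, Cfsg.IsFrobeniusComplement C ∧ (Nat.card ↥C).Prime) := by
  have ho : ∀ r, r.Prime → r ∣ Nat.card G → 2 < r := fun r hr hd =>
    lt_of_le_of_ne hr.two_le (by rintro rfl; exact hodd.not_two_dvd_nat hd)
  have hv : ∀ p, p.Prime → p ∣ Nat.card G → ∃ b, ∀ k, 2 < k → ns G k = 0 ∨ ns G k = ns G p ∨ ns G k = b := by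
    intro p hp hd
    have h1 := two_dvd_ns (G := G) (ho p hp hd)
    obtain ⟨b, hb⟩ := nse_three h (ns_prime_ne_zero hp hd) (by omega)
    refine ⟨b, fun k hk => ?_⟩
    have := hb k
    have := two_dvd_ns (G := G) hk
    omega
  have hdiff : ∀ p q, p.Prime → q.Prime → p ≠ q → p ∣ Nat.card G → q ∣ Nat.card G → ns G p ≠ ns G q := by
    intro p q hp hq hne dp dq e
    obtain ⟨b, hb⟩ := hv p hp dp
    refine not_all_same hb (fun r hr dr => ⟨ho r hr dr, by_contra fun h1 => ?_⟩) hp hq hne dp dq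
    exact not_aab hb hp hq hr hne (by rintro rfl; exact h1 rfl) (by rintro rfl; exact h1 e.symm) (ho p hp dp)
      (ho q hq dq) (ho r hr dr) dp dq dr rfl e.symm
      (((hb r (ho r hr dr)).resolve_left (ns_prime_ne_zero hr dr)).resolve_left h1)
  constructor
  · by_contra hlt
    obtain ⟨p, q, r, hp, hq, hr, h1, h2, h3⟩ := Finset.two_lt_card_iff.1 (not_le.1 hlt)
    rw [Nat.mem_primeFactors] at hp hq hr
    obtain ⟨b, hb⟩ := hv p hp.1 hp.2.1
    have e1 := hdiff p q hp.1 hq.1 h1 hp.2.1 hq.2.1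
    have e2 := hdiff p r hp.1 hr.1 h2 hp.2.1 hr.2.1
    have e3 := hdiff q r hq.1 hr.1 h3 hq.2.1 hr.2.1
    have e4 := hb q (ho q hq.1 hq.2.1)
    have e5 := hb r (ho r hr.1 hr.2.1)
    have e6 := ns_prime_ne_zero hq.1 hq.2.1
    have e7 := ns_prime_ne_zero hr.1 hr.2.1
    omega
  intro h2
  have hs := FT.solvable_of_odd hodd
  have hother : ∀ p, p.Prime → p ∣ Nat.card G → ∃ q, q.Prime ∧ q ∣ Nat.card G ∧ p ≠ q ∧
      ∀ r, r.Prime → r ∣ Nat.card G → r = p ∨ r = q := by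
    intro p hp dp
    obtain ⟨x, y, hxy, e⟩ := Finset.card_eq_two.1 h2
    have hm : ∀ r, r.Prime ∧ r ∣ Nat.card G ↔ r = x ∨ r = y := fun r => by
      have := Nat.mem_primeFactors (p := r) (n := Nat.card G)
      rw [e] at this
      simpa [Nat.card_pos.ne'] using this.symm
    rcases (hm p).1 ⟨hp, dp⟩ with rfl | rfl
    · exact ⟨y, ((hm y).2 (Or.inr rfl)).1, ((hm y).2 (Or.inr rfl)).2, hxy, fun r a b => (hm r).1 ⟨a, b⟩⟩
    · exact ⟨x, ((hm x).2 (Or.inl rfl)).1, ((hm x).2 (Or.inl rfl)).2, hxy.symm, fun r a b => ((hm r).1 ⟨a, b⟩).symm⟩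
  have hz : ∀ p q, p.Prime → q.Prime → p ≠ q → p ∣ Nat.card G → q ∣ Nat.card G →
      ns G (p * q) = 0 ∧ ns G (p ^ 2) = 0 := by
    intro p q hp hq hne dp dq
    obtain ⟨b, hb⟩ := hv p hp dp
    have e1 : ns G q = b := ((hb q (ho q hq dq)).resolve_left (ns_prime_ne_zero hq dq)).resolve_left
      (hdiff p q hp hq hne dp dq).symm
    have e2 : ns G (p * q) = 0 := by
      rcases hb (p * q) (by nlinarith [ho p hp dp, ho q hq dq]) with h | h | h
      · exact h
      · exact (ne_of_ab hp hq hne (ho p hp dp) (ho q hq dq) dp h).elim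
      · exact (ne_of_ab hq hp hne.symm (ho q hq dq) (ho p hp dp) dq (by rw [mul_comm, h, e1])).elim
    exact ⟨e2, sq_zero hb hp hq hne (ho p hp dp) dp dq rfl e1 e2⟩
  constructor
  · intro p hp P dp
    obtain ⟨q, hq, dq, hne, -⟩ := hother p hp.out dp
    exact exponent_eq_of_ns_sq (hz p q hp.out hq hne dp dq).2 P.2 (P.ne_bot_of_dvd_card dp)
  obtain ⟨p, hp, h0⟩ := exists_pCoreOf_ne_bot (sol_top_iff.2 hs) (H := ⊤) (fun e => by
    rw [← card_top', e, card_bot] at h2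
    simp at h2)
  haveI := Fact.mk hp
  have dp : p ∣ Nat.card G := (dvd_card_of_isPGroup (isPGroup_piCoreOf p ⊤) h0).trans (card_subgroup_dvd_card _)
  obtain ⟨q, hq, dq, hne, hall⟩ := hother p hp dp
  suffices hh : ∀ g : G, g ≠ 1 → orderOf g = p ∨ orderOf g = q by
    obtain ⟨R, hR, hc⟩ := frob_of_prime_orders hs hp hq hne hh h0 dq
    exact ⟨R, (isFrobeniusComplement_of_frob hR).1, hc ▸ hq⟩
  intro g hg
  have key : ∀ p q, p.Prime → q.Prime → p ≠ q → p ∣ Nat.card G → q ∣ Nat.card G →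
      (∀ r, r.Prime → r ∣ Nat.card G → r = p ∨ r = q) → p ∣ orderOf g → orderOf g = p := by
    intro p q hp hq hne dp dq hall ⟨m, hm⟩
    by_contra h1
    obtain ⟨r, hr, hd⟩ := Nat.exists_prime_and_dvd (n := m) (by rintro rfl; exact h1 (by simpa using hm))
    have h3 : p * r ∣ orderOf g := hm ▸ Nat.mul_dvd_mul_left p hd
    rcases hall r hr ((Dvd.intro_left _ rfl).trans (h3.trans (orderOf_dvd_natCard g))) with rfl | rfl
    · exact not_dvd_of_ns_eq_zero (hz r q hp hq hne dp dq).2 g (by rwa [pow_two])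
    · exact not_dvd_of_ns_eq_zero (hz p r hp hq hne dp dq).1 g h3
  obtain ⟨r, hr, hd⟩ := Nat.exists_prime_and_dvd (n := orderOf g) (by simpa using hg)
  rcases hall r hr (hd.trans (orderOf_dvd_natCard g)) with rfl | rfl
  · exact Or.inl (key r q hp hq hne dp dq hall hd)
  · exact Or.inr (key r p hq hp hne.symm dq dp (fun r a b => (hall r a b).symm) hd)

end Cfsg.Agent.S4004
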