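import Cfsg.Statements.S4005
import Cfsg.Agent.H25.PrimeOrd
import Cfsg.Agent.H4.Burnside

set_option autoImplicit false
open Cfsg

namespace Cfsg.Agent.S4005

open Subgroup Cfsg.Agent.H20 Cfsg.Agent.H21 Cfsg.Agent.BG Cfsg.Agent.H25

/-- A finite group whose set of element orders is exactly {1, 2, 3} has either a normal elementary abelian 3-subgroup of index 2 or a normal elementary abelian 2-subgroup of index 3. -/
theorem result {G : Type*} [Group G] [Finite G] (h : Set.range (orderOf : G → ℕ) = {k : ℕ | 1 ≤ k ∧ k ≤ 3}) :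
    (∃ N : Subgroup G, N.Normal ∧ Cfsg.IsElementaryAbelian 3 N ∧ N.index = 2) ∨
      (∃ N : Subgroup G, N.Normal ∧ Cfsg.IsElementaryAbelian 2 N ∧ N.index = 3) := by
  have h1 : ∀ g : G, 1 ≤ orderOf g ∧ orderOf g ≤ 3 := fun g => by
    have : orderOf g ∈ Set.range (orderOf : G → ℕ) := ⟨g, rfl⟩
    rwa [h] at this
  have h2 : ∀ g : G, g ≠ 1 → orderOf g = 2 ∨ orderOf g = 3 := fun g hg => by
    have := h1 g
    have : orderOf g ≠ 1 := by simpa using hg
    omega
  have hd : ∀ k, 1 ≤ k → k ≤ 3 → k ∣ Nat.card G := by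
    intro k a b
    have : k ∈ Set.range (orderOf : G → ℕ) := by rw [h]; exact ⟨a, b⟩
    obtain ⟨g, rfl⟩ := this
    exact orderOf_dvd_natCard g
  have h3 : ∀ r : ℕ, r.Prime → r ∣ Nat.card G → r = 2 ∨ r = 3 := fun r hr hrd => by
    haveI := Fact.mk hr
    obtain ⟨g, rfl⟩ := exists_prime_orderOf_dvd_card' r hrd
    exact h2 g (by rintro rfl; exact Nat.not_prime_one (orderOf_one (G := G) ▸ hr))
  have hs := H4.isSolvable_of_forall_prime_dvd Nat.prime_two Nat.prime_three h3
  obtain ⟨p, hp, h0⟩ := exists_pCoreOf_ne_bot (sol_top_iff.2 hs) (H := ⊤) (fun e => by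
    have := hd 2 (by norm_num) (by norm_num)
    rw [← card_top', e, card_bot] at this
    omega)
  haveI := Fact.mk hp
  have hP := isPGroup_piCoreOf p (⊤ : Subgroup G)
  have hN := (piCoreOf_normalIn {p} (⊤ : Subgroup G)).normal
  have he : ∀ q, p ≠ q → q.Prime → (∀ g : G, g ≠ 1 → orderOf g = p ∨ orderOf g = q) →
      ∀ x ∈ piCoreOf {p} (⊤ : Subgroup G), x ^ p = 1 := fun q hne hq hh x hx => by
    by_cases h1 : x = 1
    · rw [h1, one_pow]
    · rw [← orderOf_dvd_iff_pow_eq_one, (hh x h1).resolve_right (fun e => hne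
        (isPi_piCoreOf {p} ⊤ q hq (e ▸ orderOf_dvd_card_of_mem hx)).symm)]
  rcases h3 p hp ((dvd_card_of_isPGroup hP h0).trans (card_subgroup_dvd_card _)) with rfl | rfl
  · obtain ⟨R, hR, hc⟩ := frob_of_prime_orders hs hp Nat.prime_three (by norm_num) h2 h0
      (hd 3 (by norm_num) le_rfl)
    have h4 := he 3 (by norm_num) Nat.prime_three h2
    exact Or.inr ⟨_, hN, ⟨comm_of_sq h4, h4⟩, by rw [← relIndex_top_right, hR.compl.relIndex_left, hc]⟩
  · obtain ⟨R, hR, hc⟩ := frob_of_prime_orders hs hp Nat.prime_two (by norm_num) (fun g hg => (h2 g hg).symm) h0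
      (hd 2 (by norm_num) (by norm_num))
    have h4 := he 2 (by norm_num) Nat.prime_two (fun g hg => (h2 g hg).symm)
    refine Or.inl ⟨_, hN, ⟨?_, h4⟩, by rw [← relIndex_top_right, hR.compl.relIndex_left, hc]⟩
    obtain ⟨s, hs, hs2⟩ := exists_prime_order_mem Nat.prime_two hc.symm.dvd
    exact H1.isMulCommutative_of_conj_eq_inv (fun k hk => H1.conj_eq_inv_of_fpf (hR.norm hs)
      (by rw [← sq, ← hs2, pow_orderOf_eq_one]) (hR.reg s hs (by rintro rfl; simp at hs2)) hk)

end Cfsg.Agent.S4005
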