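import Cfsg.Statements.S4006
import Cfsg.Agent.H25.S3Act
import Cfsg.Agent.H4.Burnside
import Cfsg.Agent.S3779

set_option autoImplicit false
open Cfsg

namespace Cfsg.Agent.S4006

open Subgroup Cfsg.Agent.H20 Cfsg.Agent.H21 Cfsg.Agent.BG Cfsg.Agent.H25
open scoped commutatorElement

theorem class_two {G : Type*} [Group G] [Finite G] (H : Subgroup G) [H.Normal] {r : G} (hr : orderOf r = 3)
    (h : H ⊓ C₁⟦r⟧ = ⊥) (h0 : H ≠ ⊥) : (∀ g : H, MulAut.conjNormal r g = g → g = 1) ∧
      (⊤ : Subgroup H).lowerCentralSeries 2 = ⊥ := by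
  have h1 : ∀ g : H, MulAut.conjNormal r g = g → g = 1 := fun g hg =>
    Subtype.ext (Subgroup.mem_bot.1 (h ▸ ⟨g.2, mem_centralizer_singleton_iff.2
      (mul_inv_eq_iff_eq_mul.1 (congrArg Subtype.val hg)).symm⟩))
  refine ⟨h1, (S3779.result Nat.prime_three (MulAut.conjNormal r) ?_ h1).2.1 rfl⟩
  haveI := Fact.mk Nat.prime_three
  refine orderOf_eq_prime (by rw [← map_pow, ← hr, pow_orderOf_eq_one, map_one]) (fun e => h0 ?_)
  exact eq_bot_iff.2 (fun x hx => congrArg Subtype.val (h1 ⟨x, hx⟩ (by rw [e]; rfl)))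

/-- A finite group whose set of element orders is exactly {1, 2, 3, 4} has a normal subgroup N such that either N is a 2-group of exponent 4 and nilpotency class at most 2 with G/N of order 3, or N is an elementary abelian 2-group with G/N isomorphic to the symmetric group of degree 3, or N is an elementary abelian 3-group with G/N cyclic of order 4 or quaternion of order 8. -/
theorem result {G : Type*} [Group G] [Finite G] (h : Set.range (orderOf : G → ℕ) = {k : ℕ | 1 ≤ k ∧ k ≤ 4}) :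
    ∃ (N : Subgroup G) (_ : N.Normal),
      (IsPGroup 2 ↥N ∧ Monoid.exponent ↥N = 4 ∧ Group.nilpotencyClass ↥N ≤ 2 ∧ N.index = 3) ∨
      (Cfsg.IsElementaryAbelian 2 N ∧ Nonempty (G ⧸ N ≃* Equiv.Perm (Fin 3))) ∨
      (Cfsg.IsElementaryAbelian 3 N ∧ ((IsCyclic (G ⧸ N) ∧ N.index = 4) ∨ Nonempty (G ⧸ N ≃* QuaternionGroup 2))) := by
  have h1 : ∀ g : G, 1 ≤ orderOf g ∧ orderOf g ≤ 4 := fun g => by
    have : orderOf g ∈ Set.range (orderOf : G → ℕ) := ⟨g, rfl⟩
    rwa [h] at this
  have hd : ∀ k, 1 ≤ k → k ≤ 4 → ∃ g : G, orderOf g = k := by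
    intro k a b
    have : k ∈ Set.range (orderOf : G → ℕ) := by rw [h]; exact ⟨a, b⟩
    exact this
  obtain ⟨g3, hg3⟩ := hd 3 (by norm_num) (by norm_num)
  obtain ⟨g4, hg4⟩ := hd 4 (by norm_num) (by norm_num)
  have d3 : 3 ∣ Nat.card G := hg3 ▸ orderOf_dvd_natCard g3
  have d4 : 4 ∣ Nat.card G := hg4 ▸ orderOf_dvd_natCard g4
  have h3 : ∀ r : ℕ, r.Prime → r ∣ Nat.card G → r = 2 ∨ r = 3 := fun r hr hrd => by
    haveI := Fact.mk hr
    obtain ⟨g, rfl⟩ := exists_prime_orderOf_dvd_card' r hrd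
    have := (h1 g).2
    generalize orderOf g = k at *
    interval_cases k <;> simp_all (config := {decide := true})
  have hs := H4.isSolvable_of_forall_prime_dvd Nat.prime_two Nat.prime_three h3
  obtain ⟨p, hp, h0⟩ := exists_pCoreOf_ne_bot (sol_top_iff.2 hs) (H := ⊤) (fun e => by
    rw [← card_top', e, card_bot] at d3
    omega)
  haveI := Fact.mk hp
  have hP := isPGroup_piCoreOf p (⊤ : Subgroup G)
  haveI hN := (piCoreOf_normalIn {p} (⊤ : Subgroup G)).normal
  have hE : NoEdge {p} G := by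
    intro x y h4 h5 h6 h7 hc
    have h8 := orderOf_mul_primes h4 h5 (fun e => h7 (e ▸ h6)) rfl rfl hc
    have h9 := (h1 (x * y)).2
    rcases h3 _ h4 (orderOf_dvd_natCard x) with e | e <;> rcases h3 _ h5 (orderOf_dvd_natCard y) with e' | e'
    · exact h7 (e'.trans e.symm ▸ h6)
    · rw [e, e'] at h8; omega
    · rw [e, e'] at h8; omega
    · exact h7 (e'.trans e.symm ▸ h6)
  have hH := isPi_piCoreOf {p} (⊤ : Subgroup G)
  obtain ⟨K, R, hK, hR, hRH, hC⟩ := hE.structure hs rfl h0 (by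
    intro e
    have a : 2 = p := hH 2 Nat.prime_two (by rw [e, card_top']; exact Dvd.dvd.trans (by norm_num) d4)
    have b : 3 = p := hH 3 Nat.prime_three (by rw [e, card_top']; exact d3)
    omega)
  have hp' := h3 p hp ((dvd_card_of_isPGroup hP h0).trans (card_subgroup_dvd_card _))
  generalize piCoreOf {p} (⊤ : Subgroup G) = H at *
  have e2 : ∀ x : G, ¬ 3 ∣ orderOf x → x ^ 4 = 1 := fun x hx => by
    rw [← orderOf_dvd_iff_pow_eq_one]
    have := h1 x
    generalize orderOf x = k at *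
    obtain ⟨a, b⟩ := this
    interval_cases k <;> simp_all
  have e3 : ∀ x : G, ¬ 2 ∣ orderOf x → x ^ 3 = 1 := fun x hx => by
    rw [← orderOf_dvd_iff_pow_eq_one]
    have := h1 x
    generalize orderOf x = k at *
    obtain ⟨a, b⟩ := this
    interval_cases k <;> simp_all
  refine ⟨H, hN, ?_⟩
  rcases hp' with rfl | rfl
  · have hR3 := card_eq_prime_of_regular Nat.prime_three hR.ker_ne hR.compl_ne hR.norm hR.reg (fun x hx =>
      e3 x (fun e => hRH.isPi 2 hp (e.trans (orderOf_dvd_card_of_mem hx)) rfl))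
    obtain ⟨r, hr, hr3⟩ := exists_prime_order_mem Nat.prime_three hR3.symm.dvd
    have hr1 : r ≠ 1 := by rintro rfl; simp at hr3
    obtain ⟨c1, c2⟩ := class_two H hr3 (hR.reg r hr hr1) h0
    have hH4 : ∀ x ∈ H, x ^ 4 = 1 := fun x hx => e2 x (fun e =>
      absurd (hH 3 Nat.prime_three (e.trans (orderOf_dvd_card_of_mem hx))) (by simp))
    by_cases hK1 : K = ⊤
    · subst hK1
      have hi : H.index = 3 := by rw [← relIndex_top_right, hR.compl.relIndex_left, hR3]
      haveI := hP.isNilpotent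
      refine Or.inl ⟨hP, ?_, Subgroup.lowerCentralSeries_eq_bot_iff_nilpotencyClass_le.1 c2, hi⟩
      have h5 : g4 ∈ H := zpowers_le.1 (IsPi.le_of_normalIn (π := {2})
        (isPi_singleton_iff.2 (IsPGroup.of_card (n := 2) (by rw [Nat.card_zpowers, hg4]; rfl))) le_top hR.normalIn.norm
        (by rw [relIndex_top_right, hi]; exact PiNat.prime_pow Nat.prime_three (by simp) 1))
      refine Nat.dvd_antisymm (Monoid.exponent_dvd_of_forall_pow_eq_one fun x => Subtype.ext (hH4 _ x.2)) ?_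
      have := Monoid.order_dvd_exponent (⟨g4, h5⟩ : H)
      rwa [← orderOf_coe, hg4] at this
    right; left
    have hrR := eq_zpowers_of_card_prime (hR3 ▸ Nat.prime_three) hr hr1
    have r3 : r ^ 3 = 1 := by rw [← hr3, pow_orderOf_eq_one]
    have hRe : ∀ x ∈ R, x ^ 3 = 1 := fun x hx => orderOf_dvd_iff_pow_eq_one.1 (hR3 ▸ orderOf_dvd_card_of_mem hx)
    have hin : ∀ y ∈ N⟦R⟧, y ^ 3 = 1 → y ∈ R := fun y hy h5 => zpowers_le.1 (hRH.le_of_norm
      (fun q hq hd (e : q = 2) => by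
        rw [Nat.card_zpowers, e] at hd
        exact absurd (hd.trans (orderOf_dvd_of_pow_eq_one h5)) (by norm_num)) le_top (Or.inl (zpowers_le.2 hy)))
    have hcent : ∀ y ∈ N⟦R⟧, y * r = r * y → y ∈ R := fun y hy h5 => hin y hy (e3 y (fun ⟨m, hm⟩ => by
      have h6 : orderOf (y ^ (orderOf y / 2)) = 2 := orderOf_pow_orderOf_div (orderOf_pos y).ne' ⟨m, hm⟩
      exact hE _ r (by rw [h6]; exact hp) (hr3 ▸ Nat.prime_three) h6 (by simp [hr3]) (Commute.pow_left h5 _)))
    have hinv : ∀ y ∈ N⟦R⟧, y ∉ K → y * r * y⁻¹ = r⁻¹ := by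
      intro y hy h5
      have h6 : y * r * y⁻¹ ∈ zpowers r := hrR ▸ (mem_normalizer_iff.1 hy r).1 hr
      classical
      rw [mem_zpowers_iff_mem_range_orderOf, hr3] at h6
      simp only [Finset.mem_image, Finset.mem_range] at h6
      obtain ⟨i, hi, e⟩ := h6
      interval_cases i
      · exact absurd (by simpa using e.symm) hr1
      · exact absurd (hR.compl_le (hcent y hy (by rw [pow_one] at e; exact mul_inv_eq_iff_eq_mul.1 e.symm))) h5
      · rw [← e]; exact eq_inv_of_mul_eq_one_left (by rw [← pow_succ, r3])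
    have hS : SylowOf 3 R K := haveI := Fact.mk Nat.prime_three
      sylowOf_mk hR.compl_le (isPGroup_of_card_prime hR3) (fun hd => by
        rw [hR.compl.relIndex_right] at hd
        exact absurd (hH 3 Nat.prime_three hd) (by simp))
    have hfr : ∀ g : G, ∃ n ∈ K, ∃ y ∈ N⟦R⟧, n * y = g := fun g => haveI := Fact.mk Nat.prime_three
      hS.frattini_mem (hK.norm (mem_top g))
    obtain ⟨c, hc, hcK⟩ : ∃ c ∈ N⟦R⟧, c ∉ K := by
      by_contra hh
      push Not at hh
      refine hK1 (top_le_iff.1 (fun g _ => ?_))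
      obtain ⟨n, hn, y, hy, rfl⟩ := hfr g
      exact mul_mem hn (hh y hy)
    have hout : ∀ x, x ∉ K → x ^ 4 = 1 := fun x hx => e2 x (fun e => hx (zpowers_le.1
      (IsPi.le_of_normalIn (π := {2}ᶜ) (isPi_of_card_prime Nat.prime_three (by
        rw [Nat.card_zpowers]; have := h1 x; omega) (by simp)) le_top hK.norm
        (hRH.piNat.of_dvd (relIndex_dvd_of_le_left _ hR.compl_le)))))
    have hprod : ∀ y ∈ N⟦R⟧, y ∉ K → y * c ∈ R := fun y hy h5 => hcent _ (mul_mem hy hc) (by
      have a := hinv y hy h5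
      have b := hinv c hc hcK
      calc y * c * r = y * (c * r * c⁻¹) * c := by group
        _ = (y * r * y⁻¹)⁻¹ * (y * c) := by rw [b]; group
        _ = _ := by rw [a, inv_inv])
    have hcc : ∀ y ∈ N⟦R⟧, y ∉ K → y * y = 1 := fun y hy h5 => by
      have a := hinv y hy h5
      have h6 : y * y ∈ R := hcent _ (mul_mem hy hy) (by
        calc y * y * r = y * (y * r * y⁻¹) * y := by group
          _ = y * r⁻¹ * y := by rw [a]
          _ = (y * r * y⁻¹)⁻¹ * (y * y) := by group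
          _ = _ := by rw [a, inv_inv])
      have h7 := hRe _ h6
      have h8 := hout y h5
      calc y * y = (y * y) ^ 3 * (y ^ 4)⁻¹ := by rw [← sq, ← pow_mul]; group
        _ = 1 := by rw [h7, h8]; group
    have hK3 : ∀ y ∈ K, y ∉ H → y ^ 3 = 1 := fun y hy h5 => by
      obtain ⟨k, -, z, hz, rfl⟩ := hR.partition hy h5
      show (k * z * k⁻¹) ^ 3 = 1
      rw [conj_pow, hRe z hz]; group
    have hrH : ∀ i, i = 1 ∨ i = 2 → ∀ x : H, (x * r ^ i : G) ^ 3 = 1 := fun i hi x => by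
      refine hK3 _ (mul_mem (hR.ker_le x.2) (pow_mem (hR.compl_le hr) _)) (fun e => ?_)
      have h5 : r ^ i ∈ H ⊓ R := ⟨(mul_mem_cancel_left x.2).1 e, pow_mem hr _⟩
      rw [hR.inf_eq, Subgroup.mem_bot, ← orderOf_dvd_iff_pow_eq_one, hr3] at h5
      omega
    have hσ : ∀ y ∈ N⟦R⟧, y ∉ K → ∀ x : H, (x * (y * x * y⁻¹) : G) ^ 2 = 1 := fun y hy h5 x => by
      have a := hout (x * y) (fun e => h5 ((mul_mem_cancel_left (hR.ker_le x.2)).1 e))
      rw [inv_eq_of_mul_eq_one_left (hcc y hy h5), ← a]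
      simp only [pow_succ, pow_zero, one_mul, mul_assoc]
    have hsq : ∀ x : H, x ^ 2 = 1 := by
      refine sq_eq_one_of_S3 (MulAut.conjNormal r) (MulAut.conjNormal c) (fun x => Subtype.ext ?_)
        (fun x => Subtype.ext ?_) c1 (fun x => Subtype.ext (hσ c hc hcK x)) (fun x => Subtype.ext ?_)
        (fun x => Subtype.ext ?_) (fun x => Subtype.ext (hH4 _ x.2)) (fun x y => ?_)
      · show (x : G) * (r * x * r⁻¹) * (r * (r * x * r⁻¹) * r⁻¹) = 1
        calc _ = (x * r ^ 1 : G) ^ 3 * (r ^ 3)⁻¹ := by simp only [pow_succ, pow_zero, one_mul]; group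
          _ = 1 := by rw [hrH 1 (Or.inl rfl), r3]; group
      · show (x : G) * (r * (r * x * r⁻¹) * r⁻¹) * (r * x * r⁻¹) = 1
        calc _ = x * (r * (r * x * r⁻¹) * r⁻¹) * (r ^ 3 * (r * x * r⁻¹) * (r ^ 3)⁻¹) := by rw [r3]; group
          _ = (x * r ^ 2 : G) ^ 3 * (r ^ 3)⁻¹ * (r ^ 3)⁻¹ := by
            simp only [pow_succ, pow_zero, one_mul, mul_assoc, mul_inv_rev, inv_mul_cancel_left, mul_inv_cancel_left]
          _ = 1 := by rw [hrH 2 (Or.inr rfl), r3]; group
      · have := hσ (c * r) (mul_mem hc (le_normalizer hr))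
          (fun e => hcK ((mul_mem_cancel_right (hR.compl_le hr)).1 e)) x
        show ((x : G) * (c * (r * x * r⁻¹) * c⁻¹)) ^ 2 = 1
        rw [← this]; congr 1; group
      · show c * (r * (r * x * r⁻¹) * r⁻¹) * c⁻¹ = r * (c * x * c⁻¹) * r⁻¹
        have a : c * (r * r) = r * c := by
          calc c * (r * r) = (c * r * c⁻¹) * (c * r * c⁻¹) * c := by group
            _ = r * (r ^ 3)⁻¹ * c := by rw [hinv c hc hcK]; group
            _ = _ := by rw [r3]; group
        calc _ = (c * (r * r)) * x * (c * (r * r))⁻¹ := by group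
          _ = _ := by rw [a]; group
      · rw [mem_center_iff]
        intro z
        have : ⁅⁅x, y⁆, z⁆ ∈ (⊤ : Subgroup H).lowerCentralSeries 2 :=
          commutator_mem_commutator (commutator_mem_commutator (mem_top _) (mem_top _)) (mem_top _)
        rw [c2, Subgroup.mem_bot] at this
        exact (commutatorElement_eq_one_iff_mul_comm.1 this).symm
    have hsq' : ∀ x ∈ H, x ^ 2 = 1 := fun x hx => congrArg Subtype.val (hsq ⟨x, hx⟩)
    refine ⟨⟨comm_of_sq hsq', hsq'⟩, perm3_of_card_six (c := (c : G ⧸ H)) (r := (r : G ⧸ H)) ?_ ?_ ?_⟩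
    · have h5 : K.index = 2 := by
        rw [index_eq_two_iff]
        refine ⟨c, fun b => ?_⟩
        by_cases hb : b ∈ K
        · exact Or.inr ⟨hb, fun e => hcK ((mul_mem_cancel_left hb).1 e)⟩
        · obtain ⟨n, hn, y, hy, rfl⟩ := hfr b
          refine Or.inl ⟨?_, hb⟩
          rw [mul_assoc]
          exact mul_mem hn (hR.compl_le (hprod y hy (fun e => hb (mul_mem hn e))))
      show H.index = 6
      rw [← relIndex_mul_index hR.ker_le, hR.compl.relIndex_left, hR3, h5]
    · refine orderOf_eq_prime (by rw [← QuotientGroup.mk_pow, sq, hcc c hc hcK]; rfl) (fun e => hcK ?_)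
      exact hR.ker_le ((QuotientGroup.eq_one_iff _).1 e)
    · intro e
      have a : r * (c * r * c⁻¹)⁻¹ ∈ H := by
        rw [← QuotientGroup.eq_one_iff]
        simp only [QuotientGroup.mk_mul, QuotientGroup.mk_inv, ← e]
        group
      rw [hinv c hc hcK, inv_inv, ← sq] at a
      have h5 : r ^ 2 ∈ H ⊓ R := ⟨a, pow_mem hr _⟩
      rw [hR.inf_eq, Subgroup.mem_bot, ← orderOf_dvd_iff_pow_eq_one, hr3] at h5
      omega
  · right; right
    haveI := Fact.mk Nat.prime_two
    have hR2 : IsPGroup 2 R := isPi_singleton_iff.1 (fun q hq hd =>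
      (h3 q hq (hd.trans (card_subgroup_dvd_card _))).resolve_right (hRH.isPi q hq hd))
    have d2 := dvd_card_of_isPGroup hR2 hR.compl_ne
    obtain rfl : K = ⊤ := by
      refine hC.resolve_right (fun ⟨C, hC⟩ => ?_)
      have e : K.map (QuotientGroup.mk' H) = R.map (QuotientGroup.mk' H) := by
        rw [← hR.sup_eq, Subgroup.map_sup, (Subgroup.map_eq_bot_iff _).2 (by simp), bot_sup_eq]
      rw [e] at hC
      exact (cyclic_of_frob_frob hR (QuotientGroup.mk' H) (fun x hx h5 => Subgroup.mem_bot.1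
        (hR.inf_eq ▸ ⟨(QuotientGroup.eq_one_iff _).1 h5, hx⟩)) hC.compl_ne hC.norm hC.reg).1.not_two_dvd_nat d2
    obtain ⟨s, hs, hs2⟩ := exists_prime_order_mem Nat.prime_two d2
    refine ⟨⟨H1.isMulCommutative_of_conj_eq_inv (fun k hk => H1.conj_eq_inv_of_fpf (hR.norm hs)
      (by rw [← sq, ← hs2, pow_orderOf_eq_one]) (hR.reg s hs (by rintro rfl; simp at hs2)) hk),
      fun x hx => e3 x (fun e => absurd (hH 2 Nat.prime_two (e.trans (orderOf_dvd_card_of_mem hx))) (by simp))⟩, ?_⟩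
    have e := (Compl.iff_isComplement'.1 hR.compl).symm.QuotientMulEquiv
    obtain ⟨k, -, z, hz, ez⟩ := hR.partition (mem_top g4) (fun e => absurd (hH 2 Nat.prime_two
      (Dvd.dvd.trans (by rw [hg4]; norm_num) (orderOf_dvd_card_of_mem e))) (by simp))
    have hz4 : orderOf (⟨z, hz⟩ : R) = 4 := by
      rw [← orderOf_coe, ← hg4, ← ez]; exact ((MulAut.conj k).orderOf_eq z).symm
    rcases H1.isCyclic_or_quaternion_of_fpf hR2 h0 hR.norm hR.reg with hc | ⟨-, n, hn, ⟨f⟩⟩
    · refine Or.inl ⟨isCyclic_of_surjective _ e.symm.surjective, ?_⟩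
      rw [← relIndex_top_right, hR.compl.relIndex_left]
      obtain ⟨x, hx⟩ := hc.exists_ofOrder_eq_natCard
      have a := (h1 x).2
      rw [orderOf_coe, hx] at a
      exact le_antisymm a (Nat.le_of_dvd Nat.card_pos (hz4 ▸ orderOf_dvd_natCard _))
    · have a := (h1 (f.symm (.a 1))).2
      rw [orderOf_coe, MulEquiv.orderOf_eq, QuaternionGroup.orderOf_a_one] at a
      obtain rfl : n = 1 := by
        by_contra hne
        have : 2 ^ 2 ≤ 2 ^ n := Nat.pow_le_pow_right two_pos (by omega)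
        omega
      exact Or.inr ⟨e.trans f⟩

end Cfsg.Agent.S4006
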