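import Cfsg.Statements.S4203
import Cfsg.Agent.H2.Frattini
import Cfsg.Agent.H4.Burnside
import Cfsg.Agent.H1.Coprime

set_option autoImplicit false
open Cfsg

namespace Cfsg.Agent.S4203

universe u

theorem index_modEq {G : Type*} [Group G] [Finite G] {p : ℕ} [Fact p.Prime] (P : Sylow p G)
    (M : Subgroup G) (h : Subgroup.normalizer (P : Set G) ≤ M) : M.index ≡ 1 [MOD p] := by
  have hP : (P : Subgroup G) ≤ M := Subgroup.le_normalizer.trans h
  have h1 := card_sylow_modEq_one p G
  have h2 := card_sylow_modEq_one p M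
  rw [P.card_eq_index_normalizer, ← Subgroup.relIndex_mul_index h] at h1
  rw [(P.subtype hP).card_eq_index_normalizer] at h2
  have h3 : Subgroup.normalizer ((P.subtype hP : Sylow p M) : Set M) =
      (Subgroup.normalizer (P : Set G)).subgroupOf M := (Subgroup.subgroupOf_normalizer_eq hP).symm
  rw [h3] at h2
  have h4 := h2.mul_right M.index
  rw [one_mul] at h4
  exact h4.symm.trans h1

theorem aux (G : Type u) [Group G] [Finite G] :
    (∀ M : Subgroup G, IsCoatom M → ∃ p : ℕ, p.Prime ∧ (M.index = p ∨ M.index = p ^ 2)) →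
      Group.IsSolvable G := by
  refine H2.card_induction (P := fun G _ _ =>
    (∀ M : Subgroup G, IsCoatom M → ∃ p : ℕ, p.Prime ∧ (M.index = p ∨ M.index = p ^ 2)) →
      Group.IsSolvable G) (fun G _ _ ih => ?_) G
  intro h
  by_cases h1 : Nat.card G = 1
  · have := (Nat.card_eq_one_iff_unique.mp h1).1
    infer_instance
  have hne : (Nat.card G).primeFactors.Nonempty :=
    Nat.nonempty_primeFactors.mpr (Nat.one_lt_iff_ne_zero_and_ne_one.mpr ⟨Nat.card_pos.ne', h1⟩)
  obtain ⟨hp, hd, -⟩ := Nat.mem_primeFactors.mp (Finset.max'_mem _ hne)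
  have hmax : ∀ q : ℕ, q.Prime → q ∣ Nat.card G → q ≤ (Nat.card G).primeFactors.max' hne :=
    fun q hq hd => Finset.le_max' _ _ (Nat.mem_primeFactors.mpr ⟨hq, hd, Nat.card_pos.ne'⟩)
  generalize (Nat.card G).primeFactors.max' hne = p at hp hd hmax
  have : Fact p.Prime := ⟨hp⟩
  obtain ⟨P⟩ : Nonempty (Sylow p G) := inferInstance
  by_cases hN : Subgroup.normalizer (P : Set G) = ⊤
  · have : (P : Subgroup G).Normal := Subgroup.normalizer_eq_top_iff.mp hN
    have h2 := ih (G ⧸ (P : Subgroup G)) (H1.card_quotient_lt (P.ne_bot_of_dvd_card hd)) fun M hM => by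
      have := h _ (H2.isCoatom_comap_mk' hM)
      rwa [Subgroup.index_comap_of_surjective _ (QuotientGroup.mk'_surjective _)] at this
    have h3 := H1.isSolvable_of_isPGroup P.isPGroup'
    exact Group.isSolvable_of_ker_le_range (P : Subgroup G).subtype (QuotientGroup.mk' (P : Subgroup G))
      (by simp)
  · obtain ⟨M, hM, hle⟩ := H2.exists_isCoatom_ge hN
    obtain ⟨q, hq, h2⟩ := h M hM
    have h3 := index_modEq P M hle
    have hqd : q ∣ Nat.card G := by
      refine Dvd.dvd.trans ?_ M.index_dvd_card
      rcases h2 with h2 | h2 <;> rw [h2]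
      exact dvd_pow_self q two_ne_zero
    have hqp := hmax q hq hqd
    have h4 : q ^ 2 ≡ 1 [MOD p] := by
      rcases h2 with h2 | h2 <;> rw [h2] at h3
      · simpa using h3.pow 2
      · exact h3
    have h5 : p ∣ (q + 1) * (q - 1) := by
      rw [← Nat.sq_sub_sq, one_pow]
      exact (Nat.modEq_iff_dvd' (Nat.one_le_pow _ _ hq.pos)).mp h4.symm
    have h6 := hq.two_le
    rcases hp.dvd_mul.mp h5 with h7 | h7
    · have h8 := Nat.le_of_dvd (by omega) h7
      have h9 : p ≤ 3 := by
        by_contra hc
        rcases Nat.lt_or_eq_of_le hqp with h10 | rfl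
        · have e : p = q + 1 := by omega
          rcases hq.eq_two_or_odd with h | h
          · omega
          · rcases hp.eq_two_or_odd with h' | h' <;> omega
        · exact hp.one_lt.ne' (Nat.dvd_one.mp ((Nat.dvd_add_right dvd_rfl).mp h7))
      refine H4.isSolvable_of_forall_prime_dvd Nat.prime_two Nat.prime_three fun r hr hd => ?_
      have := hmax r hr hd
      have := hr.two_le
      omega
    · have := Nat.le_of_dvd (by omega) h7
      omega

/-- A finite group in which every maximal subgroup has index a prime or the square of a prime is solvable. -/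
theorem result {G : Type*} [Group G] [Finite G] (h : ∀ M : Subgroup G, IsCoatom M → ∃ p : ℕ, p.Prime ∧ (M.index = p ∨ M.index = p ^ 2)) : Group.IsSolvable G := by
  exact aux G h

end Cfsg.Agent.S4203
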