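import Cfsg.Statements.S4204
import Cfsg.Agent.H10.Basic

set_option autoImplicit false
open Cfsg

namespace Cfsg.Agent.S4204

theorem comm_le_iff {G : Type*} [Group G] {X L N : Subgroup G} [N.Normal] :
    ⁅X, L⁆ ≤ N ↔ X ≤ (Subgroup.centralizer (L.map (QuotientGroup.mk' N) : Set (G ⧸ N))).comap
      (QuotientGroup.mk' N) := by
  rw [H10.commutator_le_iff_map_mk', Subgroup.commutator_eq_bot_iff_le_centralizer,
    Subgroup.map_le_iff_le_comap]

def ser {G : Type*} [Group G] (H : Subgroup G) : ℕ → Subgroup G
  | 0 => ⊤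
  | n + 1 => H.lowerCentralSeries n

theorem ser_normal {G : Type*} [Group G] (H : Subgroup G) [H.Normal] : ∀ n, (ser H n).Normal
  | 0 => (inferInstance : (⊤ : Subgroup G).Normal)
  | n + 1 => (inferInstance : (H.lowerCentralSeries n).Normal)

theorem ser_step {G : Type*} [Group G] (H : Subgroup G) [H.Normal] : ∀ n, ⁅ser H n, H⁆ ≤ ser H (n + 1)
  | 0 => Subgroup.commutator_le_right _ _
  | _ + 1 => le_rfl

/-- If `H` and `K` are normal subgroups of a finite group with `H` nilpotent of class at most `c` and `K` nilpotent of class at most `d` (the terms with index `c`, respectively `d`, of their lower central series are trivial, indices starting at `0`), then `HK` is nilpotent of class at most `c + d`. -/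
theorem result {G : Type*} [Group G] [Finite G] (H K : Subgroup G) [H.Normal] [K.Normal] (c d : ℕ) (hH : H.lowerCentralSeries c = ⊥) (hK : K.lowerCentralSeries d = ⊥) : (H ⊔ K).lowerCentralSeries (c + d) = ⊥ := by
  have key : ∀ n, (H ⊔ K).lowerCentralSeries n ≤
      ⨆ t : {t : ℕ × ℕ // t.1 + t.2 = n + 1}, ser H t.1.1 ⊓ ser K t.1.2 := by
    intro n
    induction n with
    | zero =>
      refine sup_le (le_iSup_of_le ⟨(1, 0), rfl⟩ (le_inf le_rfl le_top))
        (le_iSup_of_le ⟨(0, 1), rfl⟩ (le_inf le_top le_rfl))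
    | succ n ih =>
      have : (⨆ t : {t : ℕ × ℕ // t.1 + t.2 = n + 1 + 1}, ser H t.1.1 ⊓ ser K t.1.2).Normal :=
        @Subgroup.iSup_normal _ _ _ _ (fun t => by
          have := ser_normal H t.1.1
          have := ser_normal K t.1.2
          infer_instance)
      rw [Subgroup.lowerCentralSeries_succ]
      refine (Subgroup.commutator_mono ih le_rfl).trans ?_
      rw [comm_le_iff, iSup_le_iff]
      rintro ⟨⟨i, j⟩, hij⟩
      have := ser_normal H i
      have := ser_normal K j
      rw [← comm_le_iff, Subgroup.commutator_comm, comm_le_iff, sup_le_iff, ← comm_le_iff,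
        ← comm_le_iff, Subgroup.commutator_comm H, Subgroup.commutator_comm K]
      constructor
      · refine le_iSup_of_le ⟨(i + 1, j), by simp only at hij ⊢; omega⟩ (le_inf ?_ ?_)
        · exact (Subgroup.commutator_mono inf_le_left le_rfl).trans (ser_step H i)
        · exact (Subgroup.commutator_le_left _ _).trans inf_le_right
      · refine le_iSup_of_le ⟨(i, j + 1), by simp only at hij ⊢; omega⟩ (le_inf ?_ ?_)
        · exact (Subgroup.commutator_le_left _ _).trans inf_le_left
        · exact (Subgroup.commutator_mono inf_le_right le_rfl).trans (ser_step K j)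
  rw [eq_bot_iff]
  refine (key _).trans (iSup_le ?_)
  rintro ⟨⟨i, j⟩, hij⟩
  simp only at hij ⊢
  by_cases h : c + 1 ≤ i
  · obtain ⟨k, rfl⟩ := Nat.exists_eq_add_of_le' h
    exact inf_le_left.trans (hH ▸ H.lowerCentralSeries_antitone (Nat.le_add_left c k))
  · obtain ⟨k, rfl⟩ := Nat.exists_eq_add_of_le' (show d + 1 ≤ j by omega)
    exact inf_le_right.trans (hK ▸ K.lowerCentralSeries_antitone (Nat.le_add_left d k))

end Cfsg.Agent.S4204
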