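import Cfsg.Statements.S4213
import Cfsg.Agent.H26.FrobDiv
import Cfsg.Agent.H1.Hall

set_option autoImplicit false
open Cfsg

namespace Cfsg.Agent.S4213

universe u
theorem fin {G : Type*} [Group G] [Finite G] {n : ℕ} (hcount : Nat.card {x : G // x ^ n = 1} = n)
    {L : Subgroup G} (hL : Nat.card L = n) : L.Normal ∧ (L : Set G) = {x : G | x ^ n = 1} := by
  have h1 : (L : Set G) = {x : G | x ^ n = 1} := by
    refine Set.eq_of_subset_of_ncard_le (fun x hx => ?_) ?_ (Set.toFinite _)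
    · have := pow_card_eq_one' (x := (⟨x, hx⟩ : L))
      rw [hL] at this
      exact congrArg Subtype.val this
    · rw [← Nat.card_coe_set_eq, ← Nat.card_coe_set_eq]
      exact (hcount.trans hL.symm).le
  refine ⟨⟨fun x hx g => ?_⟩, h1⟩
  rw [← SetLike.mem_coe, h1] at hx ⊢
  simp only [Set.mem_setOf_eq] at hx ⊢
  rw [conj_pow, hx]
  simp

theorem aux (G : Type u) [Group G] [Finite G] : Group.IsSolvable G → ∀ n : ℕ, n ∣ Nat.card G →
    Nat.card {x : G // x ^ n = 1} = n → ∃ H : Subgroup G, Nat.card H = n := by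
  refine H2.card_induction (P := fun G _ _ => Group.IsSolvable G → ∀ n : ℕ, n ∣ Nat.card G →
    Nat.card {x : G // x ^ n = 1} = n → ∃ H : Subgroup G, Nat.card H = n) ?_ G
  intro G _ _ ih hs n hn hc
  rcases subsingleton_or_nontrivial G with h | h
  · rw [Nat.card_of_subsingleton (1 : G), Nat.dvd_one] at hn
    exact ⟨⊥, by simp [hn]⟩
  obtain ⟨K, hK⟩ := H2.exists_isMinNormal (G := G)
  obtain ⟨-, p, hp, hKp⟩ := hK.exists_prime_of_isSolvable inferInstance
  have := hK.normal
  have := Fact.mk hp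
  have hn0 : 0 < n := Nat.pos_of_dvd_of_pos hn Nat.card_pos
  obtain ⟨m, hm⟩ := IsPGroup.iff_card.mp (H2.isPGroup_of_forall_pow_eq_one hKp)
  have hcard := Subgroup.card_eq_card_quotient_mul_card_subgroup K
  by_cases hpn : p ∣ n
  · have hm0 : m ≠ 0 := by
      rintro rfl
      exact hK.ne_bot (Subgroup.card_eq_one.mp hm)
    obtain ⟨u, hu⟩ := Nat.gcd_dvd_left n (Nat.card K)
    have hg0 : 0 < n.gcd (Nat.card K) := Nat.gcd_pos_of_pos_left _ hn0
    have h1 : u ∣ Nat.card (G ⧸ K) := by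
      obtain ⟨v, hv⟩ := Nat.gcd_dvd_right n (Nat.card K)
      have h2 : u.Coprime v := by
        have : n.gcd (Nat.card K) = n.gcd (Nat.card K) * u.gcd v := by
          rw [← Nat.gcd_mul_left, ← hu, ← hv]
        exact ((Nat.mul_eq_left hg0.ne').mp this.symm)
      rw [hcard, hu] at hn
      nth_rewrite 2 [hv] at hn
      rw [mul_left_comm] at hn
      exact h2.dvd_of_dvd_mul_right (Nat.dvd_of_mul_dvd_mul_left hg0 hn)
    have h2 : u * p ∣ n := by
      rw [hu, mul_comm]
      exact Nat.mul_dvd_mul_right (Nat.dvd_gcd hpn (hm ▸ dvd_pow_self p hm0)) _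
    have h3 : Nat.card {x : G // (x : G ⧸ K) ^ u = 1} =
        Nat.card {z : G ⧸ K // z ^ u = 1} * Nat.card K := by
      refine H26.card_eq_mul_of_fiber (fun x : {x : G // (x : G ⧸ K) ^ u = 1} =>
        (⟨_, x.2⟩ : {z : G ⧸ K // z ^ u = 1})) _ ?_
      rintro ⟨⟨x⟩, hx⟩
      refine (Nat.card_eq_of_bijective (fun k => ⟨⟨x * k, by
        rw [QuotientGroup.mk_mul_of_mem x k.2]; exact hx⟩,
        Subtype.ext (QuotientGroup.mk_mul_of_mem x k.2)⟩) ⟨?_, ?_⟩).symm
      · intro a b h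
        have : x * a = x * b := congrArg (fun t => t.1.1) h
        exact Subtype.ext (mul_left_cancel this)
      · rintro ⟨⟨y, hy⟩, h⟩
        exact ⟨⟨x⁻¹ * y, QuotientGroup.eq.mp (congrArg Subtype.val h).symm⟩,
          Subtype.ext (Subtype.ext (by simp))⟩
    have h4 : Nat.card {x : G // (x : G ⧸ K) ^ u = 1} ≤ n := by
      refine le_trans (Nat.card_le_card_of_injective (Subtype.map id fun x hx => ?_)
        (Subtype.map_injective _ Function.injective_id)) hc.le
      obtain ⟨w, hw⟩ := h2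
      rw [id, hw, pow_mul, pow_mul, hKp _ ((QuotientGroup.eq_one_iff _).mp hx), one_pow]
    obtain ⟨k, hk⟩ := H26.dvd_card_pow_eq_one h1
    have hk0 : 0 < u * k := by
      rw [← hk]
      have : Nonempty {z : G ⧸ K // z ^ u = 1} := ⟨⟨1, one_pow u⟩⟩
      exact Nat.card_pos
    have h5 : n.gcd (Nat.card K) ≤ Nat.card K := Nat.gcd_le_right _ Nat.card_pos
    rw [h3, hk] at h4
    have hu0 : 0 < u := Nat.pos_of_mul_pos_right hk0
    have hk1 : 0 < k := Nat.pos_of_mul_pos_left hk0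
    have h6 : k * Nat.card K ≤ n.gcd (Nat.card K) := by
      refine Nat.le_of_mul_le_mul_left ?_ hu0
      rw [← mul_assoc, mul_comm u (n.gcd _), ← hu]
      exact h4
    have h7 : 0 < Nat.card K := Nat.card_pos
    have h8 : k = 1 := by nlinarith
    obtain ⟨H, hH⟩ := ih (G ⧸ K) (H1.card_quotient_lt hK.ne_bot) inferInstance u h1 (by rw [hk, h8, mul_one])
    refine ⟨H.comap (QuotientGroup.mk' K), ?_⟩
    rw [H1.card_comap_mk', hH, hu]
    congr 1
    rw [h8] at h6
    omega
  · have hcop : n.Coprime (Nat.card K) := by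
      rw [hm]; exact ((hp.coprime_iff_not_dvd.mpr hpn).symm).pow_right m
    have h1 : n ∣ Nat.card (G ⧸ K) := hcop.dvd_of_dvd_mul_right (hcard ▸ hn)
    have h2 : Nat.card {z : G ⧸ K // z ^ n = 1} ≤ n := by
      refine le_trans (Nat.card_le_card_of_surjective (fun x : {x : G // x ^ n = 1} =>
        (⟨(x.1 : G ⧸ K), by rw [← QuotientGroup.mk_pow, x.2]; rfl⟩ : {z : G ⧸ K // z ^ n = 1})) ?_) hc.le
      rintro ⟨⟨y⟩, hy⟩
      obtain ⟨a, ha⟩ := exists_pow_eq_self_of_coprime (x := (y : G ⧸ K)) (n := p)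
        ((hp.coprime_iff_not_dvd.mpr hpn).coprime_dvd_right (orderOf_dvd_of_pow_eq_one hy))
      refine ⟨⟨(y ^ p) ^ a, ?_⟩, Subtype.ext ha⟩
      rw [← pow_mul, ← pow_mul, show p * (a * n) = n * p * a by ring, pow_mul, pow_mul,
        hKp _ ((QuotientGroup.eq_one_iff _).mp hy), one_pow]
    have : Nonempty {z : G ⧸ K // z ^ n = 1} := ⟨⟨1, one_pow n⟩⟩
    obtain ⟨H, hH⟩ := ih (G ⧸ K) (H1.card_quotient_lt hK.ne_bot) inferInstance n h1
      (le_antisymm h2 (Nat.le_of_dvd Nat.card_pos (H26.dvd_card_pow_eq_one h1)))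
    have h3 : K.relIndex (H.comap (QuotientGroup.mk' K)) = n := by
      have := H1.card_mul_relIndex (QuotientGroup.le_comap_mk' K H)
      rw [H1.card_comap_mk', hH] at this
      exact Nat.eq_of_mul_eq_mul_left Nat.card_pos this
    obtain ⟨L, -, -, -, hL⟩ := H1.exists_complement_le (QuotientGroup.le_comap_mk' K H)
      Subgroup.le_normalizer_of_normal (h3 ▸ hcop.symm)
    exact ⟨L, hL.trans h3⟩

/-- If `G` is a finite solvable group and `n` divides the order of `G` and exactly `n` elements `x` of `G` satisfy `x^n = 1`, then these elements form a normal subgroup. -/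
theorem result {G : Type*} [Group G] [Finite G] [Group.IsSolvable G] (n : ℕ) (hn : n ∣ Nat.card G) (hcount : Nat.card {x : G // x ^ n = 1} = n) : ∃ H : Subgroup G, H.Normal ∧ (H : Set G) = {x : G | x ^ n = 1} := by
  obtain ⟨H, hH⟩ := aux G inferInstance n hn hcount
  exact ⟨H, fin hcount hH⟩

end Cfsg.Agent.S4213
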