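import Cfsg.Statements.S4214
import Cfsg.Agent.H26.SylCount
import Cfsg.Agent.H1.Hall
import Cfsg.Agent.H9.Basic

set_option autoImplicit false
open Cfsg

namespace Cfsg.Agent.S4214

open scoped Pointwise
universe u

theorem step {G : Type*} [Group G] [Finite G] {L : Subgroup G} (hL : Group.IsSolvable L) (h0 : L ≠ ⊥) :
    ∃ (M R : Subgroup G) (r : ℕ), r.Prime ∧ r ∣ Nat.card L ∧ M < L ∧ L ≤ Subgroup.normalizer (M : Set G) ∧
      IsPGroup r R ∧ M ⊔ R = L := by
  have : Nontrivial L := (Subgroup.nontrivial_iff_ne_bot L).mpr h0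
  obtain ⟨M, hM, hle⟩ := H2.exists_isCoatom_ge (Group.IsSolvable.commutator_lt_top_of_nontrivial L).ne
  have hn : M.Normal := Subgroup.Normal.of_commutator_le _ hle
  obtain ⟨r, hr, hd⟩ := Nat.exists_prime_and_dvd (mt Subgroup.index_eq_one.mp hM.1)
  have := Fact.mk hr
  obtain ⟨R⟩ : Nonempty (Sylow r L) := inferInstance
  refine ⟨M.map L.subtype, (R : Subgroup L).map L.subtype, r, hr, hd.trans M.index_dvd_card, ?_, ?_,
    R.isPGroup'.map _, ?_⟩
  · refine lt_of_le_of_ne (Subgroup.map_subtype_le _) fun h => hM.1 ?_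
    apply Subgroup.map_injective L.subtype_injective
    rw [h, ← MonoidHom.range_eq_map, Subgroup.range_subtype]
  · have := Subgroup.le_normalizer_map (H := M) L.subtype
    rwa [Subgroup.normalizer_eq_top, ← MonoidHom.range_eq_map, Subgroup.range_subtype] at this
  · rw [← Subgroup.map_sup, H2.coatom_sup_eq_top hM fun h => H26.not_dvd_index_of_sylow_le R h hd,
      ← MonoidHom.range_eq_map, Subgroup.range_subtype]

theorem chain {G : Type*} [Group G] [Finite G] (V : Subgroup G) (n : ℕ) : ∀ L : Subgroup G,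
    Nat.card L = n → Group.IsSolvable L → L ≤ Subgroup.normalizer (V : Set G) →
    (Nat.card L).Coprime (Nat.card V) → ∃ l : List ℕ,
      (Subgroup.centralizer (L : Set G)).relIndex V = l.prod ∧
      ∀ x ∈ l, x ∣ Nat.card V ∧ ∃ r : ℕ, r.Prime ∧ r ∣ Nat.card L ∧ x ≡ 1 [MOD r] := by
  induction n using Nat.strong_induction_on with
  | _ n ih =>
  intro L hn hL hLV hc
  by_cases h0 : L = ⊥
  · subst h0
    exact ⟨[], by simp [Subgroup.centralizer_eq_top_iff_subset.mpr], by simp⟩
  obtain ⟨M, R, r, hr, hrL, hML, hLM, hR, hMR⟩ := step hL h0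
  have := Fact.mk hr
  obtain ⟨l, h1, h2⟩ := ih _ (hn ▸ H1.card_lt_of_lt hML) M rfl (H1.isSolvable_of_le hML.le hL)
    (hML.le.trans hLV) (hc.coprime_dvd_left (Subgroup.card_dvd_of_le hML.le))
  have hRL : R ≤ L := hMR ▸ le_sup_right
  refine ⟨(Subgroup.centralizer (R : Set G)).relIndex (Subgroup.centralizer (M : Set G) ⊓ V) :: l, ?_, ?_⟩
  · rw [List.prod_cons, ← h1, Subgroup.relIndex_inf_mul_relIndex, ← hMR, H9.centralizer_sup, inf_comm]
  · intro x hx
    rcases List.mem_cons.mp hx with rfl | hx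
    · refine ⟨(Subgroup.relIndex_dvd_card _ _).trans (Subgroup.card_dvd_of_le inf_le_right), r, hr, hrL,
        H26.relIndex_centralizer_modEq_one hR (H1.le_normalizer_inf
          (H1.le_normalizer_centralizer (hRL.trans hLM)) (hRL.trans hLV)) fun hd => ?_⟩
      exact hr.one_lt.ne' (Nat.eq_one_of_dvd_coprimes hc hrL
        (hd.trans (Subgroup.card_dvd_of_le inf_le_right)))
    · obtain ⟨h3, s, hs, h4, h5⟩ := h2 x hx
      exact ⟨h3, s, hs, h4.trans (Subgroup.card_dvd_of_le hML.le), h5⟩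

theorem count {G : Type*} [Group G] [Finite G] (hs : Group.IsSolvable G) {m n : ℕ}
    (hG : Nat.card G = m * n) (hmn : Nat.Coprime m n) {H : Subgroup G} (hH : Nat.card H = m) :
    Nat.card {H : Subgroup G // Nat.card H = m} = (Subgroup.normalizer (H : Set G)).index := by
  have h1 : ∀ K : Subgroup G, IsPiHall {p | ¬ p ∣ n} K ↔ Nat.card K = m := fun K => by
    rw [← H1.isPiHallOf_top, H1.isPiHallOf_iff_card_eq (by rw [Subgroup.card_top, hG]) hmn le_top]
  have h2 : Subgroup.normalizer (H : Set G) =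
      (MulAction.stabilizer (MulAut G) H).comap MulAut.conj := by
    ext g
    rw [← H1.conj_smul_eq_iff_mem_normalizer]
    rfl
  let _ : MulAction G (Subgroup G) := MulAction.compHom _ (MulAut.conj : G →* MulAut G)
  rw [h2]
  refine Eq.trans ?_ (MulAction.index_stabilizer G H).symm
  rw [← Nat.card_coe_set_eq]
  refine Nat.card_congr (Equiv.subtypeEquivRight fun K => ⟨fun hK => ?_, ?_⟩)
  · exact H1.exists_conj_eq_of_isPiHall hs ((h1 H).mpr hH) ((h1 K).mpr hK)
  · rintro ⟨g, rfl⟩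
    exact (H1.card_conj_smul g H).trans hH

def Ok (G : Type*) [Group G] (m x : ℕ) : Prop :=
  (∃ q e : ℕ, q.Prime ∧ x = q ^ e) ∧ (∃ K L : Subgroup G, K.Normal ∧ L.Normal ∧ K < L ∧
    (∀ M : Subgroup G, M.Normal → K ≤ M → M ≤ L → M = K ∨ M = L) ∧ x ∣ K.relIndex L) ∧
    (∃ q : ℕ, q.Prime ∧ q ∣ m ∧ x ≡ 1 [MOD q])

theorem Ok.lift {G : Type*} [Group G] {N : Subgroup G} [N.Normal] {m m' x : ℕ} (h : Ok (G ⧸ N) m' x)
    (hm : m' ∣ m) : Ok G m x := by
  obtain ⟨h1, ⟨K, L, hK, hL, h2, h3, h4⟩, q, hq, h5, h6⟩ := h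
  have hs := QuotientGroup.mk'_surjective N
  refine ⟨h1, ⟨K.comap (QuotientGroup.mk' N), L.comap (QuotientGroup.mk' N), inferInstance, inferInstance,
    (Subgroup.comap_lt_comap_of_surjective hs).mpr h2, fun M hM a b => ?_, ?_⟩, q, hq, h5.trans hm, h6⟩
  · have hNM : (QuotientGroup.mk' N).ker ≤ M := (Subgroup.ker_le_comap _ K).trans a
    rw [← Subgroup.comap_map_eq_self hNM]
    rcases h3 (M.map (QuotientGroup.mk' N)) (hM.map _ hs)
      ((Subgroup.map_comap_eq_self_of_surjective hs K).ge.trans (Subgroup.map_mono a))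
      (Subgroup.map_le_iff_le_comap.mpr b) with h | h <;> simp [h]
  · rwa [Subgroup.relIndex_comap, Subgroup.map_comap_eq_self_of_surjective hs]

theorem aux (G : Type u) [Group G] [Finite G] : Group.IsSolvable G → ∀ m n : ℕ, Nat.card G = m * n →
    m.Coprime n → ∃ l : List ℕ, Nat.card {H : Subgroup G // Nat.card H = m} = l.prod ∧
      ∀ x ∈ l, Ok G m x := by
  refine H2.card_induction (P := fun G _ _ => Group.IsSolvable G → ∀ m n : ℕ, Nat.card G = m * n →
    m.Coprime n → ∃ l : List ℕ, Nat.card {H : Subgroup G // Nat.card H = m} = l.prod ∧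
      ∀ x ∈ l, Ok G m x) ?_ G
  intro G _ _ ih hs m n hG hmn
  obtain ⟨H, hH⟩ := H1.exists_isPiHall {p | ¬ p ∣ n} hs
  have hHm : Nat.card H = m := by
    rwa [← H1.isPiHallOf_top, H1.isPiHallOf_iff_card_eq (by rw [Subgroup.card_top, hG]) hmn le_top] at hH
  rw [count hs hG hmn hHm]
  rcases subsingleton_or_nontrivial G with h | h
  · exact ⟨[], by simp [Subsingleton.elim (Subgroup.normalizer _) ⊤], by simp⟩
  obtain ⟨K, hK, -, q, hq, hKq⟩ := H2.exists_isMinNormal_of_isSolvable (G := G)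
  have := hK.normal
  have := Fact.mk hq
  have hs' := QuotientGroup.mk'_surjective K
  have h1 := H1.isPiHall_map hH hs'
  set Hb := H.map (QuotientGroup.mk' K) with hHb
  obtain ⟨l, h2, h3⟩ := ih (G ⧸ K) (H1.card_quotient_lt hK.ne_bot) inferInstance (Nat.card Hb) Hb.index
    Hb.card_mul_index.symm ((H1.isPiHall_iff.mp h1).1.coprime (H1.isPiHall_iff.mp h1).2)
  rw [count inferInstance Hb.card_mul_index.symm
    ((H1.isPiHall_iff.mp h1).1.coprime (H1.isPiHall_iff.mp h1).2) rfl] at h2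
  have h4 : (Subgroup.normalizer (Hb : Set (G ⧸ K))).comap (QuotientGroup.mk' K) =
      K ⊔ Subgroup.normalizer (H : Set G) := by
    rw [Subgroup.comap_normalizer_eq_of_surjective _ hs', Subgroup.comap_map_eq, QuotientGroup.ker_mk']
    apply le_antisymm
    · intro g hg
      have h5 : IsPiHallOf {p | ¬ p ∣ n} H (H ⊔ K) := H1.isPiHallOf_iff.mpr ⟨le_sup_left,
        (H1.isPiHall_iff.mp hH).1,
        (H1.isPiHall_iff.mp hH).2.of_dvd (Subgroup.relIndex_dvd_index_of_le le_sup_left)⟩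
      obtain ⟨k, hk, h⟩ := H1.exists_mul_normalizer_of_isPiHallOf
        (H1.hallHyp_of_isSolvable _ inferInstance) h5 hg
      obtain ⟨x, hx, y, hy, rfl⟩ := (H1.mem_sup_of_le_normalizer_left (N := K) (H := H)
        Subgroup.le_normalizer_of_normal).mp (sup_comm H K ▸ hk)
      have := Subgroup.mul_mem_sup hx (mul_mem (Subgroup.le_normalizer hy) h)
      simpa [mul_assoc] using this
    · exact sup_le (le_sup_right.trans Subgroup.le_normalizer)
        (H1.le_normalizer_sup le_rfl Subgroup.le_normalizer_of_normal)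
  rw [H26.index_eq_index_sup_mul K, ← h4, Subgroup.index_comap_of_surjective _ hs', h2]
  have h5 : ∀ x ∈ l, Ok G m x := fun x hx => (h3 x hx).lift (hHm ▸ Subgroup.card_map_dvd _ _)
  obtain ⟨e, he⟩ := IsPGroup.iff_card.mp hKq
  by_cases hqm : q ∣ m
  · refine ⟨l, ?_, h5⟩
    have : K ≤ H := H1.le_of_isPiHallOf_of_le_normalizer (H1.isPiHallOf_top.mpr hH) le_top
      Subgroup.le_normalizer_of_normal (H1.isPiNum_card_of_isPGroup (fun hd =>
        hq.one_lt.ne' (Nat.eq_one_of_dvd_coprimes hmn hqm hd)) hKq)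
    rw [Subgroup.relIndex_eq_one.mpr (this.trans Subgroup.le_normalizer), mul_one]
  · have hc : (Nat.card H).Coprime (Nat.card K) := by
      rw [hHm]; exact (H1.coprime_card_of_isPGroup hKq hqm).symm
    obtain ⟨l', h6, h7⟩ := chain K _ H rfl inferInstance Subgroup.le_normalizer_of_normal hc
    refine ⟨l ++ l', ?_, fun x hx => (List.mem_append.mp hx).elim (h5 x) fun hx => ?_⟩
    · rw [List.prod_append, ← h6, H26.relIndex_normalizer_eq_of_disjoint Subgroup.le_normalizer_of_normal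
        (Subgroup.disjoint_of_coprime_natCard hc).eq_bot]
    · obtain ⟨h8, h9⟩ := h7 x hx
      refine ⟨?_, ⟨⊥, K, inferInstance, inferInstance, bot_lt_iff_ne_bot.mpr hK.ne_bot, fun M hM _ b => ?_,
        by rwa [Subgroup.relIndex_bot_left]⟩, hHm ▸ h9⟩
      · rw [he] at h8
        obtain ⟨j, -, hj⟩ := (Nat.dvd_prime_pow hq).mp h8
        exact ⟨q, j, hq, hj⟩
      · by_cases h0 : M = ⊥
        · exact Or.inl h0
        · exact Or.inr (hK.eq_of_le hM b h0)

/-- Let `G` be a finite solvable group of order `mn` with `gcd(m, n) = 1`. Then the number of subgroups of order `m` is a product of natural numbers each of which is a power of a prime, divides the order of some chief factor of `G` (a quotient `L/K` of normal subgroups `K < L` of `G` with no normal subgroup of `G` strictly between them), and is congruent to `1` modulo some prime divisor of `m`. -/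
theorem result {G : Type*} [Group G] [Finite G] [Group.IsSolvable G] (m n : ℕ) (hG : Nat.card G = m * n) (hmn : Nat.Coprime m n) : ∃ (k : ℕ) (f : Fin k → ℕ), Nat.card {H : Subgroup G // Nat.card H = m} = ∏ i, f i ∧ ∀ i, (∃ q e : ℕ, q.Prime ∧ f i = q ^ e) ∧ (∃ K L : Subgroup G, K.Normal ∧ L.Normal ∧ K < L ∧ (∀ M : Subgroup G, M.Normal → K ≤ M → M ≤ L → M = K ∨ M = L) ∧ f i ∣ K.relIndex L) ∧ (∃ q : ℕ, q.Prime ∧ q ∣ m ∧ f i ≡ 1 [MOD q]) := by
  obtain ⟨l, h1, h2⟩ := aux G inferInstance m n hG hmn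
  refine ⟨l.length, l.get, ?_, fun i => h2 _ (List.get_mem l i)⟩
  rw [h1, ← List.prod_ofFn, List.ofFn_get]

end Cfsg.Agent.S4214
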