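import Cfsg.Statements.S4216
import Cfsg.Agent.H3.Wielandt

set_option autoImplicit false
open Cfsg

namespace Cfsg.Agent.S4216

open Cfsg.Agent.H3

open scoped Pointwise IsMulCommutative commutatorElement

/-- Grün's first Theorem: if `P` is a Sylow `p`-subgroup of the finite group `G`, then `P ∩ G'` is the subgroup generated by `P ∩ N_G(P)'` together with the subgroups `P ∩ z P' z⁻¹` for all `z ∈ G`, where `'` denotes the derived subgroup and `N_G(P)` the normalizer of `P`. -/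
theorem result {G : Type*} [Group G] [Finite G] {p : ℕ} [Fact p.Prime] (P : Sylow p G) : (P : Subgroup G) ⊓ commutator G = ((P : Subgroup G) ⊓ ⁅Subgroup.normalizer ((P : Subgroup G) : Set G), Subgroup.normalizer ((P : Subgroup G) : Set G)⁆) ⊔ ⨆ z : G, (P : Subgroup G) ⊓ (⁅(P : Subgroup G), (P : Subgroup G)⁆).map (MulAut.conj z).toMonoidHom := by
  classical
  refine le_antisymm ?_ (sup_le (inf_le_inf_left _ (Subgroup.commutator_mono le_top le_top))
    (iSup_le fun z => inf_le_inf_left _ ?_))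
  swap
  · rw [Subgroup.map_commutator]
    exact Subgroup.commutator_mono le_top le_top
  set D := ((P : Subgroup G) ⊓ ⁅Subgroup.normalizer ((P : Subgroup G) : Set G),
    Subgroup.normalizer ((P : Subgroup G) : Set G)⁆) ⊔ ⨆ z : G, (P : Subgroup G) ⊓
      (⁅(P : Subgroup G), (P : Subgroup G)⁆).map (MulAut.conj z).toMonoidHom
  have h1 : commutator (P : Subgroup G) ≤ D.subgroupOf P := by
    rw [Subgroup.subgroupOf, ← Subgroup.map_le_iff_le_comap, Subgroup.map_subtype_commutator]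
    exact le_sup_of_le_left (le_inf (Subgroup.commutator_le_self _)
      (Subgroup.commutator_mono Subgroup.le_normalizer Subgroup.le_normalizer))
  have := Subgroup.Normal.of_commutator_le _ h1
  have : IsMulCommutative (P ⧸ D.subgroupOf P) :=
    Subgroup.Normal.quotient_commutative_iff_commutator_le.mpr h1
  let φ := QuotientGroup.mk' (D.subgroupOf P)
  have hφ : ∀ x : P, φ x = 1 ↔ (x : G) ∈ D := fun x => QuotientGroup.eq_one_iff x
  have hφ2 : ∀ x y : P, (x : G)⁻¹ * y ∈ D → φ x = φ y := fun x y h => QuotientGroup.eq.mpr h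
  intro u hu
  induction hn : orderOf u using Nat.strong_induction_on generalizing u with
  | _ n ih =>
  have small : ∀ (t : G) (h : t⁻¹ * u * t ∈ (P : Subgroup G)), φ ⟨_, h⟩ ^ p = 1 := fun t h => by
    by_cases h0 : u = 1
    · rw [(hφ _).mpr (by simp [h0]), one_pow]
    rw [← map_pow, hφ]
    refine ih _ ?_ ⟨pow_mem h p, pow_mem (Subgroup.Normal.conj_mem' inferInstance u hu.2 t) p⟩ rfl
    obtain ⟨k, hk⟩ := P.2 ⟨u, hu.1⟩
    change orderOf ((t⁻¹ * u * t) ^ p) < n
    rw [← inv_inv t, inv_inv t⁻¹, conj_pow, H11.orderOf_conj, ← hn]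
    exact orderOf_pow_lt ⟨k, congrArg Subtype.val hk⟩ h0
  have small2 : ∀ (k : ℕ) (t : G) (h : t⁻¹ * u ^ k * t ∈ (P : Subgroup G)),
      t⁻¹ * u * t ∉ (P : Subgroup G) → φ ⟨_, h⟩ = 1 := fun k t h h' => by
    obtain ⟨j, hj⟩ := P.2 ⟨u, hu.1⟩
    have hj' : u ^ p ^ j = 1 := congrArg Subtype.val hj
    have h2 : p ∣ k := by
      by_contra h2
      refine h' (mem_of_pow_mem_of_coprime (m := k) (n := p ^ j)
        (((Nat.Prime.coprime_iff_not_dvd Fact.out).mpr h2).symm.pow_right j) ?_ ?_)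
      · rwa [← inv_inv t, inv_inv t⁻¹, conj_pow, inv_inv]
      · rw [← inv_inv t, inv_inv t⁻¹, conj_pow, hj']
        simp
    obtain ⟨m, rfl⟩ := h2
    rw [hφ]
    refine ih _ ?_ ⟨h, Subgroup.Normal.conj_mem' inferInstance _ (pow_mem hu.2 _) t⟩ rfl
    change orderOf (t⁻¹ * u ^ (p * m) * t) < n
    rw [← inv_inv t, inv_inv t⁻¹, H11.orderOf_conj, ← hn, pow_mul]
    exact (Nat.le_of_dvd (orderOf_pos _) (orderOf_pow_dvd m)).trans_lt
      (orderOf_pow_lt ⟨j, hj'⟩ fun h0 => h' (by simp [h0]))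
  let := Fintype.ofFinite (G ⧸ (P : Subgroup G))
  have hc := isCocycle_tc φ
  have hup : φ ⟨u, hu.1⟩ ^ p = 1 := by simpa using small 1 (by rw [inv_one, one_mul, mul_one]; exact hu.1)
  have key := prod_eq_of_forall_orb (Ω := G ⧸ (P : Subgroup G)) (P : Subgroup G) (X := Finset.univ)
    (fun _ _ => Finset.subset_univ _) (F := tc φ u) (F' := fun _ => φ ⟨u, hu.1⟩) fun ω _ => ?_
  · rw [← transfer_eq_prod_tc, Finset.prod_const, Finset.card_univ, ← Nat.card_eq_fintype_card,
      show MonoidHom.transfer φ u = 1 from Abelianization.commutator_subset_ker _ hu.2] at key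
    exact (hφ ⟨u, hu.1⟩).mp (mem_of_pow_mem_of_coprime (K := ⊥)
      ((Nat.Prime.coprime_iff_not_dvd Fact.out).mpr P.not_dvd_index) hup key.symm)
  obtain ⟨t, rfl⟩ := QuotientGroup.mk_surjective ω
  by_cases ht : t ∈ Subgroup.normalizer ((P : Subgroup G) : Set G)
  · have h2 := H1.conj_mem_of_le_normalizer' le_rfl ht hu.1
    rw [orb_eq_singleton fun g hg => smul_coe_eq_iff.mpr
      (H1.conj_mem_of_le_normalizer' le_rfl ht hg), Finset.prod_singleton, Finset.prod_singleton,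
      tc_coe φ h2]
    refine (hφ2 _ _ (Subgroup.mem_sup_left (Subgroup.mem_inf.mpr
      ⟨mul_mem (inv_mem hu.1) h2, ?_⟩))).symm
    simpa using commutator_mem_of_mem (Subgroup.le_normalizer hu.1) (inv_mem ht)
  have h2 : p ∣ (orb (P : Subgroup G) (t : G ⧸ (P : Subgroup G))).card := by
    have h3 : (orb (P : Subgroup G) (t : G ⧸ (P : Subgroup G))).card =
        (MulAction.stabilizer P (t : G ⧸ (P : Subgroup G))).index := by
      rw [MulAction.index_stabilizer, ← Set.ncard_coe_finset]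
      congr 1
      ext y
      simp only [Finset.mem_coe, mem_orb, MulAction.mem_orbit_iff]
      exact ⟨fun ⟨g, hg, he⟩ => ⟨⟨g, hg⟩, he⟩, fun ⟨g, he⟩ => ⟨g, g.2, he⟩⟩
    obtain ⟨k, hk⟩ := IsPGroup.index P.2 (MulAction.stabilizer P (t : G ⧸ (P : Subgroup G)))
    rw [h3, hk]
    refine dvd_pow_self p fun h0 => ht ?_
    rw [h0, pow_zero, Subgroup.index_eq_one] at hk
    refine inv_mem_iff.mp (mem_normalizer_of_conj_mem fun x hx => ?_)
    simpa using smul_coe_eq_iff.mp (hk.ge (Subgroup.mem_top ⟨x, hx⟩))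
  obtain ⟨m, hm⟩ := h2
  rw [Finset.prod_const, hm, pow_mul, hup, one_pow]
  have hX : ∀ ω ∈ orb (P : Subgroup G) (t : G ⧸ (P : Subgroup G)),
      u • ω ∈ orb (P : Subgroup G) (t : G ⧸ (P : Subgroup G)) := fun ω hω =>
    smul_orb_of_mem (ω := (t : G ⧸ (P : Subgroup G))) hu.1 ▸ Finset.smul_mem_smul_finset hω
  by_cases hfix : ∃ s ∈ (P : Subgroup G), (s * t)⁻¹ * u * (s * t) ∈ (P : Subgroup G)
  · obtain ⟨s, hs, h3⟩ := hfix
    rw [hc.prod_eq_pow hX (φ ⟨_, h3⟩), hm, pow_mul, small, one_pow]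
    intro ω hω k hk
    obtain ⟨r, hr, rfl⟩ := mem_orb.mp hω
    have hk' := smul_coe_eq_iff.mp (show u ^ k • ((r * t : G) : G ⧸ (P : Subgroup G)) = _ from hk)
    by_cases h4 : (r * t)⁻¹ * u * (r * t) ∈ (P : Subgroup G)
    · erw [hc.pow_of_fixed (smul_coe_eq_iff.mpr h4), tc_coe φ h4]
      congr 1
      refine hφ2 _ _ (Subgroup.mem_sup_right (le_iSup (fun z : G => (P : Subgroup G) ⊓
        (⁅(P : Subgroup G), (P : Subgroup G)⁆).map (MulAut.conj z).toMonoidHom) t⁻¹
        (Subgroup.mem_inf.mpr ⟨mul_mem (inv_mem h4) h3, ?_⟩)))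
      rw [map_conj_eq_smul, mem_conj_smul]
      have := commutator_mem_of_mem (mul_mem (mul_mem (inv_mem hr) hu.1) hr)
        (mul_mem (inv_mem hs) hr)
      simpa [mul_assoc] using this
    · erw [tc_coe φ hk', small2 k _ hk' h4]
      by_cases h5 : p ∣ k
      · obtain ⟨j, rfl⟩ := h5
        rw [pow_mul, small, one_pow]
      · obtain ⟨j, hj⟩ := P.2 ⟨u, hu.1⟩
        refine (h4 (mem_of_pow_mem_of_coprime (m := k) (n := p ^ j)
          (((Nat.Prime.coprime_iff_not_dvd Fact.out).mpr h5).symm.pow_right j) ?_ ?_)).elim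
        · rwa [← inv_inv (r * t), inv_inv (r * t)⁻¹, conj_pow, inv_inv]
        · rw [← inv_inv (r * t), inv_inv (r * t)⁻¹, conj_pow,
            show u ^ p ^ j = 1 from congrArg Subtype.val hj]
          simp
  · rw [hc.prod_eq_pow hX 1, one_pow]
    intro ω hω k hk
    obtain ⟨r, hr, rfl⟩ := mem_orb.mp hω
    have hk' := smul_coe_eq_iff.mp (show u ^ k • ((r * t : G) : G ⧸ (P : Subgroup G)) = _ from hk)
    erw [tc_coe φ hk', small2 k _ hk' fun h => hfix ⟨r, hr, h⟩, one_pow]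

end Cfsg.Agent.S4216
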