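import Cfsg.Statements.S4217
import Cfsg.Agent.H1.Gaschutz
import Cfsg.Agent.H1.Cores
import Cfsg.Agent.H26.PElt
import Cfsg.Agent.H2.Frattini

set_option autoImplicit false
open Cfsg

namespace Cfsg.Agent.S4217

open scoped IsMulCommutative

theorem local_step {G : Type*} [Group G] [Finite G] (A : Subgroup G) [A.Normal] [IsMulCommutative A]
    {q : ℕ} [hq : Fact q.Prime] {U K : Subgroup G} (hU : ¬ q ∣ U.index) (h1 : K ⊓ A = ⊥) (h2 : K ⊔ A = U) :
    ∃ H : Subgroup G, ¬ q ∣ Nat.card (H ⊓ A : Subgroup G) ∧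
      H.index = q ^ (Nat.card A).factorization q := by
  set B := (pPrimeCore q A).map A.subtype with hB
  have hBA : B ≤ A := Subgroup.map_subtype_le _
  have hBq : ¬ q ∣ Nat.card B := hq.out.coprime_iff_not_dvd.mp (H1.coprime_card_map_pPrimeCore q A).symm
  have hs := QuotientGroup.mk'_surjective B
  have hAq : IsPGroup q (A.map (QuotientGroup.mk' B)) := by
    rintro ⟨_, a, ha, rfl⟩
    obtain ⟨x, y, hx, hy, h3, h4, h5⟩ := H26.exists_pi_decomp {q} a
    have hyA : y ∈ A := Subgroup.zpowers_le.mpr ha hy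
    have hyB : y ∈ B := by
      refine H1.le_map_pPrimeCore (N := Subgroup.zpowers y) (Subgroup.zpowers_le.mpr hyA)
        (H2.le_normalizer_of_le_of_isMulCommutative (Subgroup.zpowers_le.mpr hyA)) ?_
        (Subgroup.mem_zpowers y)
      rw [Nat.card_zpowers]
      exact (H1.isPiNum_compl_singleton_iff hq.out).mp h4
    obtain ⟨k, hk⟩ := (H1.isPiNum_singleton_iff hq.out (orderOf_pos x).ne').mp h3
    refine ⟨k, Subtype.ext ?_⟩
    change (QuotientGroup.mk' B a) ^ q ^ k = 1
    rw [h5, map_mul, show QuotientGroup.mk' B y = 1 from (QuotientGroup.eq_one_iff y).mpr hyB, mul_one,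
      ← map_pow, ← hk, pow_orderOf_eq_one, map_one]
  have : (A.map (QuotientGroup.mk' B)).Normal := Subgroup.Normal.map inferInstance _ hs
  obtain ⟨H, hH⟩ := H1.gaschutz_exists (K := A.map (QuotientGroup.mk' B))
    (U := U.map (QuotientGroup.mk' B)) (A := K.map (QuotientGroup.mk' B))
    (H1.coprime_card_of_isPGroup hAq fun h => hU (h.trans (Subgroup.index_map_dvd _ hs))) (by
      rw [eq_bot_iff]
      rintro _ ⟨⟨k, hk, rfl⟩, a, ha, e⟩
      have h3 : k ∈ K ⊓ A := ⟨hk, by
        have := A.mul_mem ha (hBA (QuotientGroup.eq.mp e))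
        simpa using this⟩
      rw [h1, Subgroup.mem_bot] at h3
      simp [h3]) (by rw [← Subgroup.map_sup, sup_comm, h2])
  have h3 : H.comap (QuotientGroup.mk' B) ⊓ A = B := by
    refine le_antisymm (fun x hx => ?_) (le_inf (QuotientGroup.le_comap_mk' _ _) hBA)
    exact (QuotientGroup.eq_one_iff x).mp (Subgroup.disjoint_def.mp hH.disjoint ⟨x, hx.2, rfl⟩ hx.1)
  refine ⟨H.comap (QuotientGroup.mk' B), by rwa [h3], ?_⟩
  rw [Subgroup.index_comap_of_surjective _ hs, hH.index_eq_card]
  have h4 := H1.card_map_mul_card_ker_inf (QuotientGroup.mk' B) A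
  obtain ⟨n, hn⟩ := IsPGroup.iff_card.mp hAq
  rw [QuotientGroup.ker_mk', inf_of_le_left hBA, hn] at h4
  rw [← h4, hn, Nat.factorization_mul (pow_pos hq.out.pos n).ne' Nat.card_pos.ne', Finsupp.add_apply,
    Nat.factorization_eq_zero_of_not_dvd hBq, hq.out.factorization_pow]
  simp

/-- Let `A` be an abelian normal subgroup of the finite group `G`. Then `A` has a complement in `G` if and only if, for every prime `p` dividing the index of `A`, there are a Sylow `p`-subgroup `S` of `G/A` and a subgroup `K` of `G` with `K ∩ A = 1` and `KA` equal to the preimage of `S` (that is, `A` has a complement in the preimage of a Sylow `p`-subgroup of `G/A`). -/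
theorem result {G : Type*} [Group G] [Finite G] (A : Subgroup G) [A.Normal] (hA : IsMulCommutative A) : (∃ K : Subgroup G, K.IsComplement' A) ↔ ∀ p : ℕ, p.Prime → p ∣ A.index → ∃ (S : Sylow p (G ⧸ A)) (K : Subgroup G), K ⊓ A = ⊥ ∧ K ⊔ A = (S : Subgroup (G ⧸ A)).comap (QuotientGroup.mk' A) := by
  constructor
  · rintro ⟨K, hK⟩ p hp -
    obtain ⟨S⟩ : Nonempty (Sylow p (G ⧸ A)) := inferInstance
    refine ⟨S, K ⊓ (S : Subgroup (G ⧸ A)).comap (QuotientGroup.mk' A), ?_, ?_⟩
    · rw [inf_right_comm, hK.disjoint.eq_bot, bot_inf_eq]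
    · rw [sup_comm, ← H1.sup_inf_of_le_normalizer Subgroup.le_normalizer_of_normal
        (QuotientGroup.le_comap_mk' _ _), hK.symm.sup_eq_top, top_inf_eq]
  · intro h
    have key : ∀ q : (Nat.card A).primeFactors, ∃ H : Subgroup G, ¬ q.1 ∣ Nat.card (H ⊓ A : Subgroup G) ∧
        H.index = q.1 ^ (Nat.card A).factorization q := by
      rintro ⟨q, hq⟩
      have hq' := Nat.prime_of_mem_primeFactors hq
      have := Fact.mk hq'
      by_cases hd : q ∣ A.index
      · obtain ⟨S, K, h1, h2⟩ := h q hq' hd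
        refine local_step A ?_ h1 h2
        rw [Subgroup.index_comap_of_surjective _ (QuotientGroup.mk'_surjective A)]
        exact S.not_dvd_index
      · exact local_step A hd (bot_inf_eq _) (bot_sup_eq _)
    choose H h1 h2 using key
    have h3 : (⨅ q, H q) ⊓ A = ⊥ := by
      rw [← Subgroup.card_eq_one]
      by_contra hne
      obtain ⟨q, hq, hd⟩ := Nat.exists_prime_and_dvd hne
      exact h1 ⟨q, Nat.mem_primeFactors.mpr ⟨hq, hd.trans (Subgroup.card_dvd_of_le inf_le_right),
        Nat.card_pos.ne'⟩⟩ (hd.trans (Subgroup.card_dvd_of_le (inf_le_inf_right _ (iInf_le _ _))))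
    have h4 := Subgroup.index_iInf_le H
    rw [Finset.prod_congr rfl fun q _ => h2 q, Finset.prod_coe_sort (Nat.card A).primeFactors
      (fun q => q ^ (Nat.card A).factorization q)] at h4
    have h5 : ∏ q ∈ (Nat.card A).primeFactors, q ^ (Nat.card A).factorization q = Nat.card A :=
      Nat.prod_factorization_pow_eq_self Nat.card_pos.ne'
    rw [h5] at h4
    refine ⟨⨅ q, H q, (H2.isComplement'_of_normal (by rw [inf_comm, h3]) ?_).symm⟩
    rw [← Subgroup.card_eq_iff_eq_top]
    refine le_antisymm (Subgroup.card_le_card_group _) ?_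
    rw [H1.card_sup_of_disjoint Subgroup.le_normalizer_of_normal (by rw [inf_comm, h3]),
      ← (⨅ q, H q).index_mul_card]
    exact Nat.mul_le_mul_right _ h4

end Cfsg.Agent.S4217
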