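import Cfsg.Statements.S4218
import Cfsg.Agent.H26.AutP
import Cfsg.Agent.H9.PSolv
import Cfsg.Agent.H2.Frattini

set_option autoImplicit false
open Cfsg

namespace Cfsg.Agent.S4218
open scoped commutatorElement

theorem core {G : Type*} [Group G] [Finite G] {p : ℕ} [Fact p.Prime]
    (hC : Subgroup.centralizer (pCore p G : Set G) ≤ pCore p G) (g : G)
    (h : ∀ x ∈ pCore p G, g * x * g⁻¹ * x⁻¹ ∈ (frattini (pCore p G)).map (pCore p G).subtype) :
    g ∈ pCore p G := by
  have hP := H1.isPGroup_pCore p G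
  have h1 : IsPGroup p (H26.quotAut (frattini (pCore p G))).ker := by
    obtain ⟨r, hr⟩ := hP.index (frattini (pCore p G))
    obtain ⟨n, hn⟩ := IsPGroup.iff_card.mp (hP.to_subgroup (frattini (pCore p G)))
    have := H26.card_dvd_of_frattini hP hr _ fun a ha => (H26.mem_ker_quotAut _).mp ha
    rw [hn, ← pow_mul] at this
    obtain ⟨j, -, hj⟩ := (Nat.dvd_prime_pow Fact.out).mp this
    exact IsPGroup.of_card hj
  have h2 := h1.comap_of_ker_isPGroup (MulAut.conjNormal (H := pCore p G)) (hP.to_le fun x hx => hC fun y hy => by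
    have := congrArg Subtype.val (MulEquiv.congr_fun (MonoidHom.mem_ker.mp hx) ⟨y, hy⟩)
    rw [MulAut.conjNormal_apply] at this
    exact (mul_inv_eq_iff_eq_mul.mp this).symm)
  refine H1.le_pCore h2 ((H26.mem_ker_quotAut _).mpr fun x => ?_)
  exact (Subgroup.mem_map_iff_mem (pCore p G).subtype_injective).mp (h x x.2)

/-- Let `G` be a finite `p`-solvable group, `N₀ = O_{p'}(G)`, `P₁ = O_{p',p}(G)`, and let `F ≤ P₁` be the preimage of the Frattini subgroup of `P₁/N₀`. Then an element `g` of `G` induces the identity on `P₁/F` by conjugation (that is, `g x g⁻¹ x⁻¹ ∈ F` for all `x ∈ P₁`) if and only if `g ∈ P₁`: the group `G/P₁` acts faithfully on `P₁/F`. -/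
theorem result {G : Type*} [Group G] [Finite G] {p : ℕ} [Fact p.Prime] (hG : Cfsg.IsPSolvable p G) (g : G) : (∀ x ∈ Cfsg.pPrimePCore p G, g * x * g⁻¹ * x⁻¹ ∈ ((frattini (↥(Cfsg.pPrimePCore p G) ⧸ (Cfsg.pPrimeCore p G).subgroupOf (Cfsg.pPrimePCore p G))).comap (QuotientGroup.mk' ((Cfsg.pPrimeCore p G).subgroupOf (Cfsg.pPrimePCore p G)))).map (Cfsg.pPrimePCore p G).subtype) ↔ g ∈ Cfsg.pPrimePCore p G := by
  have hQ : IsPGroup p (↥(pPrimePCore p G) ⧸ (pPrimeCore p G).subgroupOf (pPrimePCore p G)) := by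
    rintro ⟨x⟩
    obtain ⟨k, hk⟩ := H1.isPGroup_pCore p (G ⧸ pPrimeCore p G) ⟨_, x.2⟩
    refine ⟨k, (QuotientGroup.eq_one_iff (x ^ p ^ k)).mpr ?_⟩
    exact (QuotientGroup.eq_one_iff ((x : G) ^ p ^ k)).mp (congrArg Subtype.val hk)
  constructor
  · intro h
    refine core (H9.centralizer_pCore_le_of_isPSolvable (H9.isPSolvable_quotient hG _)
      (H1.pPrimeCore_quotient_pPrimeCore p)) (g : G ⧸ pPrimeCore p G) ?_
    rintro ⟨x⟩ hx
    obtain ⟨y, hy, e⟩ := h x hx
    let φ : pPrimePCore p G →* pCore p (G ⧸ pPrimeCore p G) :=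
      ((QuotientGroup.mk' (pPrimeCore p G)).comp (pPrimePCore p G).subtype).codRestrict _ fun z => z.2
    let ψ := QuotientGroup.lift ((pPrimeCore p G).subgroupOf (pPrimePCore p G)) φ fun z hz =>
      Subtype.ext ((QuotientGroup.eq_one_iff (z : G)).mpr hz)
    have hψ : Function.Surjective ψ := by
      rintro ⟨⟨z⟩, hz⟩
      exact ⟨(⟨z, hz⟩ : pPrimePCore p G), rfl⟩
    refine ⟨_, H2.map_frattini_le_of_surjective hψ ⟨_, hy, rfl⟩, ?_⟩
    exact congrArg (QuotientGroup.mk' (pPrimeCore p G)) e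
  · intro hg x hx
    have := hQ.isNilpotent
    refine ⟨⁅(⟨g, hg⟩ : pPrimePCore p G), ⟨x, hx⟩⁆, ?_, rfl⟩
    refine H1.commutator_le_frattini ?_
    rw [map_commutatorElement]
    exact Subgroup.commutator_mem_commutator trivial trivial

end Cfsg.Agent.S4218
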