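import Cfsg.Statements.S4219
import Cfsg.Agent.H1.SylowIn

set_option autoImplicit false
open Cfsg

namespace Cfsg.Agent.S4219

open scoped Pointwise
theorem aux {G : Type*} [Group G] [Finite G] {β : Type*} [MulAction G β] {p : ℕ} [Fact p.Prime]
    {x a : β} {Q : Subgroup G} (hQ : H1.IsSylowIn p Q (MulAction.stabilizer G x))
    (h : ∃ g : G, g • x = a) {R : Subgroup G} (hc : Nat.card R = Nat.card Q)
    (hR : R ≤ MulAction.stabilizer G a) : H1.IsSylowIn p R (MulAction.stabilizer G a) := by
  obtain ⟨g, rfl⟩ := h
  have h1 := hQ.map (MulAut.conj g).toMonoidHom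
  rw [← MulAction.stabilizer_smul_eq_stabilizer_map_conj] at h1
  refine h1.of_card_eq hR ?_
  rw [hc, ← H1.conj_smul_eq_map, H1.card_conj_smul]

/-- Let a finite group `G` act `t`-fold transitively on a finite set, let `H` be the stabilizer of `t` distinct points and `P` a Sylow `p`-subgroup of `H`. Then the normalizer of `P` in `G` is `t`-fold transitive on the fixed points of `P`: any `t` distinct fixed points of `P` can be carried to any other `t` distinct fixed points of `P` by an element normalizing `P`. -/
theorem result {G : Type*} [Group G] [Finite G] {α : Type*} [Fintype α] [MulAction G α] {t : ℕ} (hG : MulAction.IsMultiplyPretransitive G α t) (x : Fin t ↪ α) {p : ℕ} [Fact p.Prime] (P : Sylow p (MulAction.stabilizer G x)) (a b : Fin t ↪ α) (ha : ∀ i, a i ∈ MulAction.fixedPoints ((P : Subgroup (MulAction.stabilizer G x)).map (MulAction.stabilizer G x).subtype) α) (hb : ∀ i, b i ∈ MulAction.fixedPoints ((P : Subgroup (MulAction.stabilizer G x)).map (MulAction.stabilizer G x).subtype) α) : ∃ g ∈ Subgroup.normalizer ((((P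 : Subgroup (MulAction.stabilizer G x)).map (MulAction.stabilizer G x).subtype) : Subgroup G) : Set G), g • a = b := by
  have hP := H1.isSylowIn_map_subtype P
  set Q := ((P : Subgroup (MulAction.stabilizer G x)).map (MulAction.stabilizer G x).subtype)
  have hle : ∀ a : Fin t ↪ α, (∀ i, a i ∈ MulAction.fixedPoints Q α) → Q ≤ MulAction.stabilizer G a := by
    intro a ha g hg
    ext i
    exact ha i ⟨g, hg⟩
  obtain ⟨g, hg⟩ := hG.exists_smul_eq a b
  have h1 := aux hP (hG.exists_smul_eq x b) rfl (hle b hb)
  have h2 := aux hP (hG.exists_smul_eq x b) (H1.card_conj_smul g Q) (by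
    rw [← hg, MulAction.stabilizer_smul_eq_stabilizer_map_conj, H1.conj_smul_eq_map]
    exact Subgroup.map_mono (hle a ha))
  obtain ⟨k, hk, h3⟩ := h2.exists_conj_eq h1
  refine ⟨k * g, ?_, by rw [mul_smul, hg]; exact hk⟩
  rw [← H1.conj_smul_eq_iff_mem_normalizer, map_mul, mul_smul, h3]

end Cfsg.Agent.S4219
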