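import Cfsg.Statements.S4222
import Cfsg.Agent.H2.Frattini

set_option autoImplicit false
open Cfsg

namespace Cfsg.Agent.S4222


/-- If a normal subgroup `N` of a finite group is complete (its centre is trivial and every automorphism of `N` is inner), then the group is the internal direct product of `N` and the centralizer of `N`: the centralizer is a complement to `N`. -/
theorem result {T : Type*} [Group T] [Finite T] (N : Subgroup T) [N.Normal] (hz : Subgroup.center ↥N = ⊥) (ha : Function.Surjective (MulAut.conj : ↥N →* MulAut ↥N)) : (Subgroup.centralizer (N : Set T)).IsComplement' N := by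
  apply H2.isComplement'_of_normal
  · rw [eq_bot_iff]
    rintro x ⟨h1, h2⟩
    have : (⟨x, h2⟩ : N) ∈ Subgroup.center N := by
      rw [Subgroup.mem_center_iff]
      intro g
      exact Subtype.ext (h1 g g.2)
    rw [hz, Subgroup.mem_bot] at this
    exact congrArg Subtype.val this
  · rw [eq_top_iff]
    intro t _
    obtain ⟨n, hn⟩ := ha (MulAut.conjNormal t)
    have h1 : (n : T)⁻¹ * t ∈ Subgroup.centralizer (N : Set T) := by
      intro y hy
      have := congrArg (fun φ : MulAut N => ((φ ⟨y, hy⟩ : N) : T)) hn
      simp only [MulAut.conj_apply, MulAut.conjNormal_apply, Subgroup.coe_mul, Subgroup.coe_inv] at this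
      calc y * ((n : T)⁻¹ * t) = (n : T)⁻¹ * ((n : T) * y * (n : T)⁻¹) * t := by group
        _ = (n : T)⁻¹ * (t * y * t⁻¹) * t := by rw [this]
        _ = _ := by group
    have h2 : t = n * ((n : T)⁻¹ * t) := by group
    rw [h2]
    exact Subgroup.mul_mem _ (Subgroup.mem_sup_right n.2) (Subgroup.mem_sup_left h1)

end Cfsg.Agent.S4222
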