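import Cfsg.Statements.S4227
import Cfsg.Agent.H9.PLen
import Cfsg.Agent.H9.UpperP
import Cfsg.Agent.H4.Burnside
import Cfsg.Agent.H26.PElt

set_option autoImplicit false
open Cfsg

namespace Cfsg.Agent.S4227


/-- A finite group in which every element has order dividing `6` has `2`-length at most `1` and `3`-length at most `1`. -/
theorem result {G : Type*} [Group G] [Finite G] (h : ∀ x : G, x ^ 6 = 1) : Cfsg.PLengthLE 2 1 G ∧ Cfsg.PLengthLE 3 1 G := by
  haveI : Fact (Nat.Prime 2) := ⟨Nat.prime_two⟩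
  haveI : Fact (Nat.Prime 3) := ⟨Nat.prime_three⟩
  have hs : Group.IsSolvable G := by
    refine H4.isSolvable_of_forall_prime_dvd Nat.prime_two Nat.prime_three fun r hr hd => ?_
    haveI := Fact.mk hr
    obtain ⟨x, hx⟩ := exists_prime_orderOf_dvd_card' r hd
    have h1 := orderOf_dvd_of_pow_eq_one (h x)
    rw [hx, show (6 : ℕ) = 2 * 3 by rfl, hr.dvd_mul] at h1
    exact h1.imp (Nat.prime_dvd_prime_iff_eq hr Nat.prime_two).1 (Nat.prime_dvd_prime_iff_eq hr Nat.prime_three).1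
  have h2 : ∀ x : G, (∃ k, x ^ 2 ^ k = 1) → x ^ 2 = 1 := by
    rintro x ⟨k, hk⟩
    have h1 := Nat.dvd_gcd (orderOf_dvd_of_pow_eq_one hk) (orderOf_dvd_of_pow_eq_one (h x))
    have h3 : Nat.gcd (2 ^ k) 6 ∣ 2 := by
      rw [show (6 : ℕ) = 2 * 3 by rfl, Nat.Coprime.gcd_mul_right_cancel_right _ (Nat.Coprime.pow_right k (by norm_num))]
      exact Nat.gcd_dvd_right _ _
    exact orderOf_dvd_iff_pow_eq_one.1 (h1.trans h3)
  have h3 : ∀ x : G, (∃ k, x ^ 3 ^ k = 1) → x ^ 3 = 1 := by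
    rintro x ⟨k, hk⟩
    have h1 := Nat.dvd_gcd (orderOf_dvd_of_pow_eq_one hk) (orderOf_dvd_of_pow_eq_one (h x))
    have h3 : Nat.gcd (3 ^ k) 6 ∣ 3 := by
      rw [show (6 : ℕ) = 3 * 2 by rfl, Nat.Coprime.gcd_mul_right_cancel_right _ (Nat.Coprime.pow_right k (by norm_num))]
      exact Nat.gcd_dvd_right _ _
    exact orderOf_dvd_iff_pow_eq_one.1 (h1.trans h3)
  have hab : ∀ Q : Sylow 2 G, IsMulCommutative Q := by
    intro Q
    have hq : ∀ x : Q, x * x = 1 := fun x => by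
      obtain ⟨k, hk⟩ := Q.isPGroup' x
      exact Subtype.ext (by rw [← pow_two]; exact h2 x ⟨k, congrArg Subtype.val hk⟩)
    refine ⟨⟨fun a b => ?_⟩⟩
    have h1 := hq (a * b)
    rw [mul_eq_one_iff_eq_inv, mul_inv_rev, ← mul_eq_one_iff_eq_inv.1 (hq a), ← mul_eq_one_iff_eq_inv.1 (hq b)] at h1
    exact h1
  constructor
  · obtain ⟨S⟩ := (inferInstance : Nonempty (Sylow 2 G))
    refine H9.pLengthLE_of_lowerCentralSeries (H9.isPSolvable_of_isSolvable hs) S ?_
    change ⁅(S : Subgroup G), (S : Subgroup G)⁆ = ⊥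
    rw [Subgroup.commutator_eq_bot_iff_le_centralizer, Subgroup.le_centralizer_iff_isMulCommutative]
    exact hab S
  · refine H9.pLengthLE_of_exponent 1 (H9.isPSolvable_of_isSolvable hs) (H9.noExc_of_sylow ?_) (by simpa using h3)
    intro n q m hq h1 _ e Q
    obtain ⟨rfl, -⟩ := H9.eq_two_of_pow_sub_one_eq (by norm_num) hq.out h1 e
    exact hab Q

end Cfsg.Agent.S4227
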