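import Cfsg.Statements.S4275
import Cfsg.Agent.H1.Basic

set_option autoImplicit false
open Cfsg

namespace Cfsg.Agent.S4275


/-- Let G be a transitive group of permutations of a finite set Ω, let o ∈ Ω, and let α be an automorphism of G. Then α is induced by conjugation by a permutation of Ω normalizing G if and only if the image under α of the stabilizer of o fixes some point of Ω. -/
theorem result {Ω : Type*} [Fintype Ω] (G : Subgroup (Equiv.Perm Ω)) (htr : MulAction.IsPretransitive G Ω) (o : Ω) (α : G ≃* G) : (∃ σ : Equiv.Perm Ω, σ ∈ Subgroup.normalizer (G : Set (Equiv.Perm Ω)) ∧ ∀ g : G, ((α g : G) : Equiv.Perm Ω) = σ * (g : Equiv.Perm Ω) * σ⁻¹) ↔ ∃ ω : Ω, ∀ g ∈ (MulAction.stabilizer G o).map α.toMonoidHom, g • ω = ω := by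
  constructor
  · rintro ⟨σ, -, hσ⟩
    refine ⟨σ o, ?_⟩
    rintro _ ⟨g, hg, rfl⟩
    have h1 : (g : Equiv.Perm Ω) o = o := hg
    change ((α g : G) : Equiv.Perm Ω) (σ o) = σ o
    rw [hσ]
    simp [h1]
  · rintro ⟨ω, hω⟩
    have h1 : (MulAction.stabilizer G o).map α.toMonoidHom = MulAction.stabilizer G ω := by
      refine Subgroup.eq_of_le_of_card_ge hω ?_
      obtain ⟨g, rfl⟩ := htr.exists_smul_eq o ω
      rw [MulAction.stabilizer_smul_eq_stabilizer_map_conj, Subgroup.card_map_of_injective,
        Subgroup.card_map_of_injective α.injective]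
      exact (MulAut.conj g).injective
    have h2 : ∀ g h : G, g • o = h • o ↔ α g • ω = α h • ω := by
      intro g h
      have e : ∀ (g h : G) (o : Ω), g • o = h • o ↔ h⁻¹ * g ∈ MulAction.stabilizer G o := by
        intro g h o
        rw [MulAction.mem_stabilizer_iff, mul_smul, inv_smul_eq_iff]
      rw [e, e, ← h1, ← map_inv, ← map_mul]
      exact (Subgroup.mem_map_iff_mem α.injective).symm
    choose r hr using htr.exists_smul_eq o
    have hinj : Function.Injective fun x => α (r x) • ω := by
      intro x y h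
      rw [← hr x, ← hr y, h2]
      exact h
    let σ : Equiv.Perm Ω := Equiv.ofBijective _ (Finite.injective_iff_bijective.mp hinj)
    have h3 : ∀ g : G, ((α g : G) : Equiv.Perm Ω) = σ * (g : Equiv.Perm Ω) * σ⁻¹ := by
      intro g
      rw [eq_mul_inv_iff_mul_eq]
      ext x
      change α g • α (r x) • ω = α (r (g • x)) • ω
      rw [← mul_smul, ← map_mul, ← h2, mul_smul, hr, hr]
    refine ⟨σ, ?_, h3⟩
    intro g
    constructor
    · intro hg
      rw [← h3 ⟨g, hg⟩]
      exact (α _).2
    · intro hg
      have := h3 (α.symm ⟨_, hg⟩)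
      rw [α.apply_symm_apply] at this
      simp only [mul_left_inj, mul_right_inj] at this
      rw [this]
      exact (α.symm _).2

end Cfsg.Agent.S4275
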