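import Cfsg.Statements.S4277
import Cfsg.Agent.H26.TwoTr
import Cfsg.Agent.S0675
import Cfsg.Agent.H3.PNil
import Cfsg.Agent.H2.Wiel
import Cfsg.Agent.H1.Coprime
import Cfsg.Agent.H26.PElt

set_option autoImplicit false
open Cfsg

namespace Cfsg.Agent.S4277

open MulAction in
theorem key {G Ω : Type*} [Group G] [Finite G] [MulAction G Ω] [FaithfulSMul G Ω] [Fintype Ω]
    (h2 : IsMultiplyPretransitive G Ω 2) (o : Ω) (hp : (stabilizer G o).index.Prime)
    (hH : (Nat.card (stabilizer G o)).Coprime (stabilizer G o).index) : Group.IsSolvable (Out G) := by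
  haveI := isPretransitive_of_is_two_pretransitive (h2 := h2)
  haveI : Fact (Nat.Prime 2) := ⟨Nat.prime_two⟩
  set p := (stabilizer G o).index with hpdef
  haveI := Fact.mk hp
  let B : Subgroup (MulAut G) :=
    { carrier := {α | ∃ σ : Equiv.Perm Ω, ∀ (g : G) (x : Ω), α g • σ x = σ (g • x)}
      one_mem' := ⟨1, fun _ _ => rfl⟩
      mul_mem' := by
        rintro α β ⟨σ, hσ⟩ ⟨τ, hτ⟩
        exact ⟨σ * τ, fun g x => by rw [MulAut.mul_apply, Equiv.Perm.mul_apply, hσ, hτ, Equiv.Perm.mul_apply]⟩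
      inv_mem' := by
        rintro α ⟨σ, hσ⟩
        refine ⟨σ⁻¹, fun g x => σ.injective ?_⟩
        rw [← hσ, MulAut.apply_inv_self]
        simp }
  have hI : ∀ g : G, MulAut.conj g ∈ B := fun g => ⟨toPerm g, fun h x => by simp [mul_smul]⟩
  obtain ⟨x, hx⟩ := exists_prime_orderOf_dvd_card' (G := G) p (Subgroup.index_dvd_card _)
  have hP : H1.IsSylowIn p (Subgroup.zpowers x) ⊤ := by
    refine ⟨le_top, H26.isPGroup_zpowers_of_orderOf (k := 1) (by rw [hx, pow_one]), fun hd => ?_⟩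
    have h1 := (Subgroup.zpowers x).card_mul_index
    rw [Nat.card_zpowers, hx, ← (stabilizer G o).index_mul_card] at h1
    rw [Subgroup.relIndex_top_right, Nat.eq_of_mul_eq_mul_left hp.pos h1] at hd
    exact (Nat.Prime.coprime_iff_not_dvd hp).1 hH.symm hd
  have htr : ∀ y : Ω, ∃ u ∈ Subgroup.zpowers x, u • o = y := by
    intro y
    obtain ⟨g, rfl⟩ := exists_smul_eq G o y
    obtain ⟨u, hu, v, hv, rfl⟩ := H1.exists_mul_of_coprime_relIndex (K := ⊤) (H := Subgroup.zpowers x)
      (L := stabilizer G o) le_top le_top (by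
        rw [Subgroup.relIndex_top_right (H := stabilizer G o)]
        exact ((Nat.Prime.coprime_iff_not_dvd hp).2 hP.not_dvd).symm) (Subgroup.mem_top g)
    exact ⟨u, hu, by rw [mul_smul, mem_stabilizer_iff.1 hv]⟩
  have h3 : ∀ γ ∈ B, γ x = x → γ ∈ Inn G := by
    rintro γ ⟨σ, hσ⟩ hγ
    obtain ⟨u, ⟨i, rfl⟩, hu⟩ := htr (σ o)
    have h4 : ∀ y, σ y = x ^ i • y := by
      intro y
      obtain ⟨_, ⟨j, rfl⟩, rfl⟩ := htr y
      rw [← hσ, map_zpow, hγ, ← hu, smul_smul, smul_smul, zpow_mul_comm]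
    refine ⟨x ^ i, MulEquiv.ext fun g => eq_of_smul_eq_smul (α := Ω) fun y => ?_⟩
    obtain ⟨y, rfl⟩ := σ.surjective y
    rw [hσ, h4, h4, MulAut.conj_apply, mul_smul, mul_smul, inv_smul_smul]
  have h4 : ∀ α ∈ B, ∃ α' ∈ B, QuotientGroup.mk' (Inn G) α' = QuotientGroup.mk' (Inn G) α ∧ ∃ i : ℤ, α' x = x ^ i := by
    intro α hα
    obtain ⟨k, -, hk⟩ := hP.exists_le_conj le_top (hP.isPGroup.map α.toMonoidHom)
    obtain ⟨i, hi⟩ := H1.mem_conj_smul.1 (hk ⟨x, Subgroup.mem_zpowers x, rfl⟩)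
    refine ⟨MulAut.conj k⁻¹ * α, B.mul_mem (hI _) hα, ?_, i, by simpa using hi.symm⟩
    rw [map_mul, show QuotientGroup.mk' (Inn G) (MulAut.conj k⁻¹) = 1 from (QuotientGroup.eq_one_iff _).2 ⟨_, rfl⟩, one_mul]
  have h5 : IsMulCommutative (B.map (QuotientGroup.mk' (Inn G))) := by
    apply H2.isMulCommutative_of_forall
    rintro _ ⟨α, hα, rfl⟩ _ ⟨β, hβ, rfl⟩
    obtain ⟨α', hα', e1, i, hi⟩ := h4 α hα
    obtain ⟨β', hβ', e2, j, hj⟩ := h4 β hβ
    rw [← e1, ← e2, ← map_mul, ← map_mul, QuotientGroup.mk'_apply, QuotientGroup.mk'_apply, QuotientGroup.eq]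
    refine h3 _ (B.mul_mem (B.inv_mem (B.mul_mem hα' hβ')) (B.mul_mem hβ' hα')) ?_
    rw [MulAut.mul_apply, MulAut.inv_apply, MulEquiv.symm_apply_eq, MulAut.mul_apply, MulAut.mul_apply, hi, hj, map_zpow,
      map_zpow, hi, hj, ← zpow_mul, ← zpow_mul, mul_comm]
  have h6 : pResidual 2 (MulAut G) ≤ B := by
    rw [pResidual, Subgroup.closure_le]
    intro α hα
    exact H26.exists_perm_of_hall h2 o (Nat.coprime_two_right.1 hα) hH
  refine H2.isSolvable_of_normal_of_quotient (pResidual 2 (Out G)) (H1.isSolvable_of_le ?_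
    (H1.isSolvable_of_isMulCommutative (B.map (QuotientGroup.mk' (Inn G)))))
    (H1.isSolvable_of_isPGroup H3.isPGroup_quotient_pResidual)
  rw [← H3.pResidual_map_of_surjective (QuotientGroup.mk'_surjective (Inn G))]
  exact Subgroup.map_mono h6

/-- A case of the Schreier conjecture: if a finite simple group G has a subgroup of prime index, then the outer automorphism group of G is solvable. -/
theorem result {G : Type*} [Group G] [Finite G] [IsSimpleGroup G] (H : Subgroup G) (hH : H.index.Prime) : Group.IsSolvable (Cfsg.Out G) := by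
  classical
  by_cases hc : IsMulCommutative G
  · haveI : IsCyclic G := by
      letI : CommGroup G := { (inferInstance : Group G) with mul_comm := hc.is_comm.comm }
      infer_instance
    haveI : Group.IsSolvable (MulAut G) := H1.isSolvable_of_mulEquiv (IsCyclic.mulAutMulEquiv G).symm inferInstance
    infer_instance
  have hn : H.normalCore = ⊥ := by
    rcases (inferInstance : H.normalCore.Normal).eq_bot_or_eq_top with h | h
    · exact h
    · have := H.normalCore_le
      rw [h, top_le_iff] at this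
      rw [this, Subgroup.index_top] at hH
      exact absurd hH Nat.not_prime_one
  have hi : Function.Injective (MulAction.toPermHom G (G ⧸ H)) := by
    rw [← MonoidHom.ker_eq_bot_iff, ← Subgroup.normalCore_eq_ker, hn]
  haveI : FaithfulSMul G (G ⧸ H) := ⟨fun h => hi (Equiv.ext h)⟩
  haveI := Fintype.ofFinite (G ⧸ H)
  have hcard : Fintype.card (G ⧸ H) = H.index := Fintype.card_eq_nat_card
  haveI : MulAction.IsPretransitive (MulAction.toPermHom G (G ⧸ H)).range (G ⧸ H) := ⟨fun a b => by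
    obtain ⟨g, hg⟩ := MulAction.exists_smul_eq G a b
    exact ⟨⟨_, g, rfl⟩, hg⟩⟩
  rcases S0675.result (hcard ▸ hH) (MulAction.toPermHom G (G ⧸ H)).range with h | h
  · exfalso
    have := H1.isSolvable_of_mulEquiv (MonoidHom.ofInjective hi).symm h
    exact hc ⟨⟨IsSimpleGroup.comm_iff_isSolvable.2 this⟩⟩
  refine key (Ω := G ⧸ H) (MulAction.is_two_pretransitive_iff.2 fun h1 h2 => ?_) ((1 : G) : G ⧸ H) ?_ ?_
  · obtain ⟨⟨_, g, rfl⟩, hg⟩ := MulAction.is_two_pretransitive_iff.1 h h1 h2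
    exact ⟨g, hg⟩
  · rwa [MulAction.stabilizer_quotient]
  · rw [MulAction.stabilizer_quotient]
    have h1 := Subgroup.card_dvd_of_injective _ hi
    rw [Nat.card_perm, ← H.index_mul_card] at h1
    change _ ∣ H.index.factorial at h1
    rw [← Nat.mul_factorial_pred hH.ne_zero, Nat.mul_dvd_mul_iff_left hH.pos] at h1
    exact Nat.Coprime.coprime_dvd_left h1 (hH.coprime_factorial_of_lt (Nat.sub_lt hH.pos one_pos)).symm

end Cfsg.Agent.S4277
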