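import Cfsg.Statements.S4278
import Cfsg.Agent.H14.SS6

set_option autoImplicit false
open Cfsg

namespace Cfsg.Agent.S4278

/-- In the Chevalley group of type G₂ over a finite field of odd order, any two involutions are conjugate. -/
theorem result {F : Type*} [Field F] [Fintype F] (hF : Odd (Fintype.card F)) (s t : ↥(Cfsg.Lie.chevG2.group F)) (hs : orderOf s = 2) (ht : orderOf t = 2) : IsConj s t := by
  have key := fun x hx => H14.exists_conj_sg H14.goodG2 H14.bridgeG2 hF H14.stG2 (H14.centerG2 _) (θ := 11) (m := [3, 2])
    (ω := [[1, 2]]) (by decide +kernel) (x := x) hx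
  simp only [List.mem_singleton, exists_eq_left] at key
  exact (key s hs).trans (key t ht).symm

end Cfsg.Agent.S4278
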