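import Cfsg.Statements.S4279
import Cfsg.Agent.H14.SS7

set_option autoImplicit false
open Cfsg

namespace Cfsg.Agent.S4279

/-- In the Chevalley group G of type G₂ over a finite field F of odd order q, the centralizer of an involution t has order q²(q² − 1)² and contains two elementwise commuting subgroups, each isomorphic to SL(2, F), which meet exactly in the subgroup generated by t and whose join has index 2 in the centralizer. -/
theorem result {F : Type*} [Field F] [Fintype F] (hF : Odd (Fintype.card F)) (t : ↥(Cfsg.Lie.chevG2.group F)) (ht : orderOf t = 2) : Nat.card (Subgroup.centralizer ({t} : Set ↥(Cfsg.Lie.chevG2.group F))) = Fintype.card F ^ 2 * (Fintype.card F ^ 2 - 1) ^ 2 ∧ ∃ L₁ L₂ : Subgroup ↥(Cfsg.Lie.chevG2.group F), Nonempty (L₁ ≃* Matrix.SpecialLinearGroup (Fin 2) F) ∧ Nonempty (L₂ ≃* Matrix.SpecialLinearGroup (Fin 2) F) ∧ (∀ x ∈ L₁, ∀ y ∈ L₂, x * y = y * x) ∧ L₁ ⊓ L₂ = Subgroup.zpowers t ∧ L₁ ⊔ L₂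 ≤ Subgroup.centralizer ({t} : Set ↥(Cfsg.Lie.chevG2.group F)) ∧ (L₁ ⊔ L₂).relIndex (Subgroup.centralizer ({t} : Set ↥(Cfsg.Lie.chevG2.group F))) = 2 := by
  obtain ⟨-, a2⟩ := H14.card_cent_sg H14.goodG2 H14.bridgeG2 hF (H14.centerG2 _) (ρ := [6, 10]) (e := [1, 2]) (N := 2)
    (β := H14.bG2_1) (A := H14.AG2_1) (d := H14.dG2_1) (P := H14.PG2_1) (M := H15.Weyl.tab H14.MG2_1) (c := H14.cG2_1)
    (L := [[0, 1], [0, 1]]) (by decide +kernel) (by decide +kernel) (by decide +kernel) (by decide +kernel)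
  obtain ⟨_, a3, a4⟩ := H14.exists_conj_sg H14.goodG2 H14.bridgeG2 hF H14.stG2 (H14.centerG2 _) (θ := 11) (m := [3, 2])
    (ω := [[1, 2]]) (by decide +kernel) ht
  obtain rfl := List.mem_singleton.1 a3
  have h1 : 1 ≤ Fintype.card F := Fintype.card_pos
  have h2 := fun k => Nat.one_le_pow k _ h1
  have a5 := (H14.card_centralizer_of_isConj a4).trans (a2.trans
    (show _ = Fintype.card F ^ 2 * (Fintype.card F ^ 2 - 1) ^ 2 by
      rw [show Cfsg.Lie.chevG2.rank = 2 from rfl]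
      simp only [List.map_cons, List.map_nil, List.sum_cons, List.sum_nil, List.prod_cons, List.prod_nil]; zify [h1, h2]; ring))
  have p := H14.bridgeG2.pr_eq H14.goodG2
  have b0 : H14.goodG2.R.simple (0 : Fin 2) = (7 : Fin 12) := Fin.ext (H14.goodG2.simple_eq _)
  have b1 : ∀ r : Fin 12, ∀ i : Fin 2, H14.goodG2.R.cov r i = H14.tabG2.cov r i := fun r i =>
    (H14.goodG2.cov_eq r i).trans (H14.bridgeG2.cov_eq r r.2 i i.2)
  obtain ⟨φ, c1, c2, c3⟩ := (H14.goodG2.rgD F).exists_SL2_inj (H14.goodG2.rgD_hmul F) (r := (11 : Fin 12)) (s := (6 : Fin 12))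
    (fun i => (H14.goodG2.R.cov_nonneg_iff _ i).1 (b1 _ i ▸ (by decide +kernel : ∀ i : Fin 2, 0 ≤ H14.tabG2.cov 11 i) i))
    (p _ _ ▸ by decide +kernel)
  obtain ⟨ψ, d1, d2, d3⟩ := (H14.goodG2.rgD F).exists_SL2_inj (H14.goodG2.rgD_hmul F) (r := (7 : Fin 12)) (s := (9 : Fin 12))
    (b0 ▸ H14.goodG2.R.pos_simple _) (p _ _ ▸ by decide +kernel)
  have e : ∀ r : Fin 12, (∀ i : Fin 2, 2 ∣ H14.tabG2.cov r i - [1, 2].getD i 0) →
      (H14.goodG2.rgD F).h r (-1) = H14.goodG2.sg F fun i => [1, 2].getD i 0 := fun r hr =>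
    ((H14.goodG2.rgD F).h_eq_torX (H14.goodG2.rgD_hmul F) r (-1)).trans (congrArg _ (funext fun i => by
      rw [← mul_inv_eq_one, ← zpow_sub, H14.neg_one_zpow_eq hF]; exact b1 r i ▸ hr i))
  obtain ⟨c, rfl⟩ := isConj_iff.1 a4.symm
  exact ⟨a5, H14.sl2_pair (φ := (MulAut.conj c).toMonoidHom.comp φ) (ψ := (MulAut.conj c).toMonoidHom.comp ψ)
    ((MulAut.conj c).injective.comp c1) ((MulAut.conj c).injective.comp d1) (fun x y => by
      simp only [MonoidHom.comp_apply, ← map_mul]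
      exact congrArg _ ((H14.goodG2.rgD F).commute_of_long (p _ _ ▸ by decide +kernel) (fun k => p _ k ▸ Fin.ext ∘
        (by decide +kernel : ∀ k : Fin 12, 2 ≤ H14.tabG2.pr 2 11 k → k.1 = 11) k) (c2 ⟨x, rfl⟩) (d2 ⟨y, rfl⟩)))
    (congrArg (MulAut.conj c) (c3.trans (e _ (by decide +kernel)))) (congrArg (MulAut.conj c) (d3.trans (e _ (by decide +kernel)))) ht a5⟩

end Cfsg.Agent.S4279
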