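import Cfsg.Statements.S4280
import Cfsg.Agent.H14.SS6

set_option autoImplicit false
open Cfsg

namespace Cfsg.Agent.S4280

/-- In the Chevalley group of type F₄ over a finite field of odd order q there are exactly two conjugacy classes of involutions; the centralizer of an involution in one class has order q¹⁶(q² − 1)(q⁴ − 1)(q⁶ − 1)(q⁸ − 1), and in the other class q¹⁰(q² − 1)²(q⁴ − 1)(q⁶ − 1). -/
theorem result {F : Type*} [Field F] [Fintype F] (hF : Odd (Fintype.card F)) : ∃ s t : ↥(Cfsg.Lie.chevF4.group F), orderOf s = 2 ∧ orderOf t = 2 ∧ ¬ IsConj s t ∧ (∀ u : ↥(Cfsg.Lie.chevF4.group F), orderOf u = 2 → IsConj u s ∨ IsConj u t) ∧ Nat.card (Subgroup.centralizer ({s} : Set ↥(Cfsg.Lie.chevF4.group F))) = Fintype.card F ^ 16 * (Fintype.card F ^ 2 - 1) * (Fintype.card F ^ 4 - 1) * (Fintype.card F ^ 6 - 1) * (Fintype.card F ^ 8 - 1) ∧ Nat.card (Subgroup.centralizer ({t} : Set ↥(Cfsg.Lie.chevF4.group F))) = Fintype.card F ^ 10 * (Fintype.card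 F ^ 2 - 1) ^ 2 * (Fintype.card F ^ 4 - 1) * (Fintype.card F ^ 6 - 1) := by
  obtain ⟨a1, a2⟩ := H14.card_cent_sg H14.goodF4 H14.bridgeF4 hF (H14.centerF4 _) (ρ := [16, 30, 42, 22]) (e := [2, 3, 4, 2]) (N := 16)
    (β := H14.bF4_0) (A := H14.AF4_0) (d := H14.dF4_0) (P := H14.PF4_0) (M := H15.Weyl.tab H14.MF4_0) (c := H14.cF4_0)
    (L := [[0, 1, 2, 3, 4, 5, 6, 7], [0, 1, 2, 3, 4, 5], [0, 1, 2, 3], [0, 1]])
    (by decide +kernel) (by decide +kernel) (by decide +kernel) (by decide +kernel)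
  obtain ⟨b1, b2⟩ := H14.card_cent_sg H14.goodF4 H14.bridgeF4 hF (H14.centerF4 _) (ρ := [16, 30, 42, 22]) (e := [1, 2, 3, 2]) (N := 10)
    (β := H14.bF4_3) (A := H14.AF4_3) (d := H14.dF4_3) (P := H14.PF4_3) (M := H15.Weyl.tab H14.MF4_3) (c := H14.cF4_3)
    (L := [[0, 1], [0, 1, 2, 3, 4, 5], [0, 1, 2, 3], [0, 1]])
    (by decide +kernel) (by decide +kernel) (by decide +kernel) (by decide +kernel)
  have h1 : 1 ≤ Fintype.card F := Fintype.card_pos
  have h2 := fun k => Nat.one_le_pow k _ h1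
  refine ⟨_, _, H14.goodF4.orderOf_sg hF (H14.centerF4 _) (i := (1 : Fin 4)) (by decide), H14.goodF4.orderOf_sg hF (H14.centerF4 _)
    (i := (0 : Fin 4)) (by decide), fun h => absurd (a1.symm.trans ((H14.goodF4.ncard_eq_of_isConj h).trans b1)) (by decide), fun u hu => by
      simpa only [List.mem_cons, List.not_mem_nil, or_false, exists_eq_or_imp, exists_eq_left] using H14.exists_conj_sg H14.goodF4
        H14.bridgeF4 hF H14.stF4 (H14.centerF4 _) (θ := 47) (m := [2, 4, 3, 2]) (ω := [[2, 3, 4, 2], [1, 2, 3, 2]]) (by decide +kernel) hu,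
    a2.trans ?_, b2.trans ?_⟩ <;> rw [show Cfsg.Lie.chevF4.rank = 4 from rfl] <;>
    simp only [List.map_cons, List.map_nil, List.sum_cons, List.sum_nil, List.prod_cons, List.prod_nil] <;> zify [h1, h2] <;> ring

end Cfsg.Agent.S4280
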