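import Cfsg.Statements.S4281
import Cfsg.Agent.H14.SS6

set_option autoImplicit false
open scoped BigOperators
open Cfsg

namespace Cfsg.Agent.S4281

/-- In the Chevalley group of type E₈ over a finite field of odd order q there are exactly two conjugacy classes of involutions; the centralizer of an involution in one class has order q⁵⁶(q⁸ − 1)·∏_{i=1}^{7}(q^{2i} − 1), and in the other class q⁶⁴(q² − 1)²(q⁶ − 1)(q⁸ − 1)(q¹⁰ − 1)(q¹² − 1)(q¹⁴ − 1)(q¹⁸ − 1). -/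
theorem result {F : Type*} [Field F] [Fintype F] (hF : Odd (Fintype.card F)) : ∃ s t : ↥(Cfsg.Lie.chevE8.group F), orderOf s = 2 ∧ orderOf t = 2 ∧ ¬ IsConj s t ∧ (∀ u : ↥(Cfsg.Lie.chevE8.group F), orderOf u = 2 → IsConj u s ∨ IsConj u t) ∧ Nat.card (Subgroup.centralizer ({s} : Set ↥(Cfsg.Lie.chevE8.group F))) = Fintype.card F ^ 56 * (Fintype.card F ^ 8 - 1) * ∏ i ∈ Finset.Icc 1 7, (Fintype.card F ^ (2 * i) - 1) ∧ Nat.card (Subgroup.centralizer ({t} : Set ↥(Cfsg.Lie.chevE8.group F))) = Fintype.card F ^ 64 * (Fintype.card F ^ 2 - 1) ^ 2 * (Fintype.card F ^ 6 - 1) * (Fintype.card F ^ 8 - 1) * (Fintype.card F ^ 10 - 1) * (Fintype.card F ^ 12 - 1) * (Fintype.card F ^ 14 - 1) * (Fintype.card F ^ 18 - 1) := by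
  obtain ⟨a1, a2⟩ := H14.card_cent_sg H14.goodE8 H14.bridgeE8 hF (H14.centerE8 _) (ρ := [92, 136, 182, 270, 220, 168, 114, 58])
    (e := [4, 5, 7, 10, 8, 6, 4, 2]) (N := 56)
    (β := H14.bE8_0) (A := H14.AE8_0) (d := H14.dE8_0) (P := H14.PE8_0) (M := H15.Weyl.tab H14.ME8_0) (c := H14.cE8_0)
    (L := [[0, 1, 2, 3, 4, 5, 6, 7, 7, 8, 9, 10, 11, 12, 13, 14], [0, 1, 2, 3, 4, 5, 6, 6, 7, 8, 9, 10, 11, 12],
      [0, 1, 2, 3, 4, 5, 5, 6, 7, 8, 9, 10], [0, 1, 2, 3, 4, 4, 5, 6, 7, 8], [0, 1, 2, 3, 3, 4, 5, 6], [0, 1, 2, 3], [0, 1, 2], [0, 1]])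
    (by decide +kernel) (by decide +kernel) (by decide +kernel) (by decide +kernel)
  obtain ⟨b1, b2⟩ := H14.card_cent_sg H14.goodE8 H14.bridgeE8 hF (H14.centerE8 _) (ρ := [92, 136, 182, 270, 220, 168, 114, 58])
    (e := [2, 3, 4, 6, 5, 4, 3, 2]) (N := 64)
    (β := H14.bE8_7) (A := H14.AE8_7) (d := H14.dE8_7) (P := H14.PE8_7) (M := H15.Weyl.tab H14.ME8_7) (c := H14.cE8_7)
    (L := [[0, 1], [0, 1, 2, 3, 4, 5, 5, 6, 6, 7, 7, 8, 8, 9, 9, 9, 10, 10, 10, 11, 11, 11, 12, 12, 12, 13, 13, 13, 14, 14, 14, 15, 15,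
      15, 16, 16, 16, 17, 17, 17, 18, 18, 18, 19, 19, 20, 20, 21, 21, 22, 22, 23, 24, 25, 26, 27], [0, 1, 2, 3, 4, 4, 5, 5, 6, 6, 7, 7,
      8, 8, 8, 9, 9, 10, 10, 11, 11, 12, 12, 13, 14, 15, 16], [0, 1, 2, 3, 4, 4, 5, 6, 7, 8], [0, 1, 2, 3, 3, 4, 5, 6], [0, 1, 2, 3],
      [0, 1, 2], [0, 1]])
    (by decide +kernel) (by decide +kernel) (by decide +kernel) (by decide +kernel)
  have h1 : 1 ≤ Fintype.card F := Fintype.card_pos
  have h2 := fun k => Nat.one_le_pow k _ h1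
  refine ⟨_, _, H14.goodE8.orderOf_sg hF (H14.centerE8 _) (i := (1 : Fin 8)) (by decide), H14.goodE8.orderOf_sg hF (H14.centerE8 _)
    (i := (1 : Fin 8)) (by decide), fun h => absurd (a1.symm.trans ((H14.goodE8.ncard_eq_of_isConj h).trans b1)) (by decide), fun u hu => by
      simpa only [List.mem_cons, List.not_mem_nil, or_false, exists_eq_or_imp, exists_eq_left] using H14.exists_conj_sg H14.goodE8
        H14.bridgeE8 hF H14.stE8 (H14.centerE8 _) (θ := 239) (m := [2, 3, 4, 6, 5, 4, 3, 2])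
        (ω := [[4, 5, 7, 10, 8, 6, 4, 2], [2, 3, 4, 6, 5, 4, 3, 2]]) (by decide +kernel) hu,
    a2.trans ?_, b2.trans ?_⟩ <;> rw [show Cfsg.Lie.chevE8.rank = 8 from rfl] <;>
    simp only [List.map_cons, List.map_nil, List.sum_cons, List.sum_nil, List.prod_cons, List.prod_nil,
      show Finset.Icc 1 7 = {1, 2, 3, 4, 5, 6, 7} from rfl] <;> (try simp -failIfUnchanged only [Finset.mem_insert, Finset.mem_singleton,
      Nat.reduceEqDiff, or_self, not_false_eq_true, Finset.prod_insert, Finset.prod_singleton]) <;> zify [h1, h2] <;> ring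

end Cfsg.Agent.S4281
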