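import Cfsg.Statements.S4282
import Cfsg.Agent.H9.HH2

set_option autoImplicit false
open Cfsg

namespace Cfsg.Agent.S4282

/-- A critical case behind the Hall–Higman theorem. Let p ≠ q be primes and G a finite group generated by a normal q-subgroup Q and a cyclic p-subgroup generated by x, such that the centralizer of every non-identity element of that cyclic subgroup is its product with the centre of G. Let K be an algebraically closed field of characteristic p and ρ a faithful representation of G on a nonzero finite-dimensional K-space whose restriction to Q is irreducible. If s is the least exponent with (ρ(x) − 1)^s = 0, then |⟨x⟩| − 1 ≤ s ≤ |⟨x⟩|; and if s = |⟨x⟩| − 1 then |⟨x⟩| − 1 is a power of q and Q is non-abelian. -/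
theorem result {G : Type*} [Group G] [Finite G] (p q : ℕ) [Fact p.Prime] [Fact q.Prime] (hpq : p ≠ q) (Q : Subgroup G) [Q.Normal] (hQ : IsPGroup q Q) (x : G) (hx : IsPGroup p (Subgroup.zpowers x)) (hgen : Q ⊔ Subgroup.zpowers x = ⊤) (hC : ∀ y ∈ Subgroup.zpowers x, y ≠ 1 → Subgroup.centralizer ({y} : Set G) = Subgroup.zpowers x ⊔ Subgroup.center G) {K : Type*} [Field K] [IsAlgClosed K] [CharP K p] {V : Type*} [AddCommGroup V] [Module K V] [FiniteDimensional K V] [Nontrivial V] (ρ : Representation K G V) (hfaith : Function.Injective ρ) (hirr : ∀ W : Submodule K V, (∀ g ∈ Q, Submodule.map (ρ g) W ≤ W) → W = ⊥ ∨ W = ⊤) (s : ℕ) (hs : (ρ x - 1) ^ s = 0) (hmin : ∀ k < s, (ρ x - 1) ^ k ≠ 0) : Nat.card (Subgroup.zpowers x) - 1 ≤ s ∧ s ≤ Nat.card (Subgroup.zpowers x) ∧ (s = Nat.card (Subgroup.zpowers x) - 1 → (∃ b : ℕ, Nat.card (Subgroup.zpowers x) - 1 = q ^ b) ∧ ¬ IsMulCommutative Q) := by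
  have hp : p.Prime := Fact.out
  have hq : q.Prime := Fact.out
  obtain ⟨n, hn⟩ := IsPGroup.iff_card.mp hx
  obtain ⟨a, ha⟩ := IsPGroup.iff_card.mp hQ
  have hqK : (q : K) ≠ 0 := by
    rw [Ne, CharP.cast_eq_zero_iff K p, Nat.prime_dvd_prime_iff_eq hp hq]; exact hpq
  have hσ : H9.IrrRep (ρ.comp Q.subtype) := ⟨inferInstance, fun W hW => hirr W fun g hg => by
    rintro _ ⟨v, hv, rfl⟩; exact hW ⟨g, hg⟩ v hv⟩
  have hxn : x ^ p ^ n = 1 := by rw [← hn, Nat.card_zpowers, pow_orderOf_eq_one]
  have hu : ρ x ^ p ^ n = 1 := by rw [← map_pow, hxn, map_one]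
  have hs0 : s ≠ 0 := by rintro rfl; simp at hs
  have h1 : ρ x = 1 → p ^ n = 1 := fun h => by
    rw [← hn, hfaith (h.trans (map_one ρ).symm)]; simp
  have key : s < p ^ n → s + 1 = p ^ n ∧ Module.finrank K V = s := fun hlt => by
    refine (hσ.critical (by rw [ha]; simp [hqK]) (α := MulAut.conjNormal x) hu
      (by rw [← map_pow, hxn, map_one]) (fun t => ?_) (fun i t ht => ?_) hs hlt).resolve_left
      fun h => by have := h1 h; omega
    · simp only [MonoidHom.comp_apply, ← map_mul]; simp
    · by_cases hi : x ^ i = 1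
      · rw [← hn, Nat.card_zpowers, orderOf_dvd_iff_pow_eq_one]; exact Or.inl hi
      refine Or.inr (hσ.exists_eq_smul fun r => ?_)
      have h2 : (t : G) ∈ Subgroup.centralizer {x ^ i} := by
        rw [Subgroup.mem_centralizer_singleton_iff, eq_comm, ← mul_inv_eq_iff_eq_mul]
        rw [← map_pow] at ht
        exact congrArg Subtype.val ht
      rw [hC _ (pow_mem (Subgroup.mem_zpowers x) i) hi, sup_comm, H3.mem_sup_zpowers_iff
        (by simp [Subgroup.normalizer_eq_top])] at h2
      obtain ⟨z, hz, k, h2⟩ := h2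
      have h3 : (t : G) ^ p ^ n ∈ Subgroup.center G := by
        rw [h2, Commute.mul_pow (Subgroup.mem_center_iff.mp hz _).symm, ← zpow_natCast (x ^ k),
          ← zpow_mul, mul_comm k, zpow_mul, zpow_natCast, hxn, one_zpow, mul_one]
        exact pow_mem hz _
      have h4 : (t : G) ∈ Subgroup.center G := by
        refine (Subgroup.zpowers_le.mpr h3) ?_
        refine mem_zpowers_pow_iff.mpr (Nat.Coprime.coprime_dvd_right
          (Subgroup.orderOf_dvd_natCard Q t.2) ?_)
        rw [ha]
        exact Nat.Coprime.pow _ _ ((Nat.coprime_primes hp hq).mpr hpq)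
      simp only [MonoidHom.comp_apply, ← map_mul]
      exact congrArg ρ (Subgroup.mem_center_iff.mp h4 _)
  have h2 : s ≤ p ^ n := by
    by_contra! hlt
    refine hmin _ hlt ?_
    haveI := charP_of_injective_algebraMap (algebraMap K (Module.End K V)).injective p
    rw [sub_pow_char_pow_of_commute _ _ (Commute.one_right _), hu, one_pow, sub_self]
  have h3 := pow_pos hp.pos n
  rw [hn]
  refine ⟨by have := fun h => (key h).1; omega, h2, fun h => ?_⟩
  obtain ⟨h4, h5⟩ := key (by omega)
  obtain ⟨b, hb⟩ := H9.IrrRep.exists_finrank_eq_pow hqK a ha hσ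
  refine ⟨⟨b, by omega⟩, fun hc => ?_⟩
  rw [hσ.finrank_eq_one fun t => hσ.exists_eq_smul fun r => by
    rw [← map_mul, ← map_mul, hc.is_comm.comm]] at h5
  subst h5
  have := h1 (sub_eq_zero.mp (by simpa using hs))
  omega

end Cfsg.Agent.S4282
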