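import Cfsg.Statements.S4283
import Cfsg.Agent.H26.Frob2

set_option autoImplicit false
open Cfsg

namespace Cfsg.Agent.S4283


/-- Let G be a finite group with centre Z and let K, H be abelian subgroups of G containing Z such that G/Z is a Frobenius group with complement H/Z and kernel K/Z. Then the conjugacy class sizes of G are exactly 1, [G : K] and [G : H], and these two indices are coprime. (This is the converse half of the characterization of finite groups whose conjugacy class sizes are exactly 1, m and n with m and n coprime.) -/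
theorem result {G : Type*} [Group G] [Finite G] (K H : Subgroup G) (hZK : Subgroup.center G ≤ K) (hZH : Subgroup.center G ≤ H) (hK : IsMulCommutative K) (hH : IsMulCommutative H) (hFrob : Cfsg.IsFrobeniusComplement (H.map (QuotientGroup.mk' (Subgroup.center G)))) (hker : Cfsg.frobeniusKernel (H.map (QuotientGroup.mk' (Subgroup.center G))) = (K.map (QuotientGroup.mk' (Subgroup.center G)) : Set (G ⧸ Subgroup.center G))) : Set.range (fun x : G => (Subgroup.centralizer ({x} : Set G)).index) = ({1, K.index, H.index} : Set ℕ) ∧ K.index.Coprime H.index := by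
  obtain ⟨N, h1, h2, h3, h4, h5, h6, h7⟩ := H26.exists_frobeniusKernel hFrob
  have hN : N = K.map (QuotientGroup.mk' (Subgroup.center G)) :=
    SetLike.coe_injective (h1.trans hker)
  have hcK : N.comap (QuotientGroup.mk' (Subgroup.center G)) = K := by
    rw [hN, Subgroup.comap_map_eq_self (by rwa [QuotientGroup.ker_mk'])]
  have hcH : (H.map (QuotientGroup.mk' (Subgroup.center G))).comap
      (QuotientGroup.mk' (Subgroup.center G)) = H := by
    rw [Subgroup.comap_map_eq_self (by rwa [QuotientGroup.ker_mk'])]
  have hCK : ∀ x ∈ K, x ∉ Subgroup.center G → Subgroup.centralizer ({x} : Set G) = K := by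
    intro x hx hxZ
    refine le_antisymm (fun y hy => ?_) fun y hy => H26.mem_cent.mpr (Subgroup.mul_comm_of_mem_isMulCommutative K hy hx)
    rw [← hcK] at hx ⊢
    refine h7 _ hx (fun e => hxZ ((QuotientGroup.eq_one_iff x).mp e)) (H26.mem_cent.mpr ?_)
    rw [← map_mul, H26.mem_cent.mp hy, map_mul]
  have hCH : ∀ x ∈ H, x ∉ Subgroup.center G → Subgroup.centralizer ({x} : Set G) = H := by
    intro x hx hxZ
    refine le_antisymm (fun y hy => ?_) fun y hy => H26.mem_cent.mpr (Subgroup.mul_comm_of_mem_isMulCommutative H hy hx)
    rw [← hcH] at hx ⊢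
    refine H1.centralizer_le_of_isFrobeniusComplement hFrob hx
      (fun e => hxZ ((QuotientGroup.eq_one_iff x).mp e)) (H26.mem_cent.mpr ?_)
    rw [← map_mul, H26.mem_cent.mp hy, map_mul]
  constructor
  · ext n
    simp only [Set.mem_range, Set.mem_insert_iff, Set.mem_singleton_iff]
    constructor
    · rintro ⟨x, rfl⟩
      by_cases hxZ : x ∈ Subgroup.center G
      · exact Or.inl (H26.index_cent_eq_one_iff.mpr hxZ)
      by_cases hx : x ∈ K
      · rw [hCK x hx hxZ]; simp
      rw [← hcK, Subgroup.mem_comap, ← SetLike.mem_coe, h1] at hx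
      obtain ⟨-, g, hg⟩ := H26.exists_conj_of_not_mem_frobeniusKernel hx
      obtain ⟨g, rfl⟩ := QuotientGroup.mk'_surjective _ g
      rw [← map_inv, ← map_mul, ← map_mul, ← Subgroup.mem_comap, hcH] at hg
      have e := H26.index_cent_conj g⁻¹ x
      rw [inv_inv, hCH _ hg] at e
      · exact Or.inr (Or.inr e.symm)
      · intro h
        apply hxZ
        have := Subgroup.Normal.conj_mem inferInstance _ h g
        simpa [mul_assoc] using this
    · rintro (rfl | rfl | rfl)
      · exact ⟨1, H26.index_cent_eq_one_iff.mpr (Subgroup.one_mem _)⟩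
      · by_contra h
        apply h4
        rw [hN, Subgroup.map_eq_bot_iff, QuotientGroup.ker_mk']
        intro x hx
        by_contra hxZ
        exact h ⟨x, by rw [hCK x hx hxZ]⟩
      · by_contra h
        apply hFrob.1
        rw [Subgroup.map_eq_bot_iff, QuotientGroup.ker_mk']
        intro x hx
        by_contra hxZ
        exact h ⟨x, by rw [hCH x hx hxZ]⟩
  · rw [← hcK, ← hcH, Subgroup.index_comap_of_surjective _ (QuotientGroup.mk'_surjective _),
      Subgroup.index_comap_of_surjective _ (QuotientGroup.mk'_surjective _), h3.index_eq_card,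
      h3.symm.index_eq_card]
    exact h6

end Cfsg.Agent.S4283
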