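import Cfsg.Statements.S4292
import Cfsg.Agent.H1.FreeFun

set_option autoImplicit false
open Cfsg

namespace Cfsg.Agent.S4292

/-- Let A and B be nontrivial finite groups. Then the direct product A × B occurs as a Frobenius complement if and only if A and B both occur as Frobenius complements and the orders of A and B are coprime. -/
theorem result {A B : Type*} [Group A] [Finite A] [Nontrivial A] [Group B] [Finite B] [Nontrivial B] :
    (∃ (L : Type) (_ : Group L) (_ : Finite L) (H : Subgroup L), Cfsg.IsFrobeniusComplement H ∧ Nonempty ((A × B) ≃* H)) ↔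
    ((∃ (L : Type) (_ : Group L) (_ : Finite L) (H : Subgroup L), Cfsg.IsFrobeniusComplement H ∧ Nonempty (A ≃* H)) ∧
     (∃ (L : Type) (_ : Group L) (_ : Finite L) (H : Subgroup L), Cfsg.IsFrobeniusComplement H ∧ Nonempty (B ≃* H)) ∧
     (Nat.card A).Coprime (Nat.card B)) := by
  constructor
  · rintro ⟨L, _, _, H, hH, ⟨e⟩⟩
    have h := H1.freeRep_of_frob hH e
    refine ⟨(h.of_injective (MonoidHom.inl A B) fun _ _ e => congrArg Prod.fst e).exists_frob,
      (h.of_injective (MonoidHom.inr A B) fun _ _ e => congrArg Prod.snd e).exists_frob, ?_⟩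
    refine Nat.coprime_of_dvd fun p hp h1 h2 => ?_
    haveI := Fact.mk hp
    obtain ⟨a, ha⟩ := exists_prime_orderOf_dvd_card' p h1
    obtain ⟨b, hb⟩ := exists_prime_orderOf_dvd_card' p h2
    obtain ⟨k, hk⟩ := h.mem_zpowers_of hp (x := (a, 1)) (y := (1, b)) (by simp) (by simp [Prod.orderOf, ha])
      (by simp [← hb])
    have : b = 1 := by simpa using (congrArg Prod.snd hk).symm
    exact hp.one_lt.ne (by rw [← hb, this, orderOf_one])
  · rintro ⟨⟨L, _, _, H, hH, ⟨e⟩⟩, ⟨L', _, _, H', hH', ⟨e'⟩⟩, hc⟩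
    obtain ⟨f, h0, h⟩ := (H1.freeRep_of_frob hH e).exists_fun
    obtain ⟨f', h0', h'⟩ := (H1.freeRep_of_frob hH' e').exists_fun
    refine (H1.freeRep_of_fun (f := fun x => (f x.1 * f' x.2 : ℚ))
      (fun e => mul_ne_zero h0 h0' (Rat.cast_eq_zero.mp (congrFun e 1))) ?_).exists_frob
    rintro ⟨x, y⟩ ⟨a, b⟩ hp
    have h1 : a = 1 ∨ b = 1 := by
      by_contra! h1
      have h3 := ((Nat.dvd_prime hp).mp (orderOf_fst_dvd_orderOf (x := (a, b)))).resolve_left
        (by simpa using h1.1)
      have h4 := ((Nat.dvd_prime hp).mp (orderOf_snd_dvd_orderOf (x := (a, b)))).resolve_left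
        (by simpa using h1.2)
      exact hp.one_lt.ne' (Nat.eq_one_of_dvd_coprimes hc (h3 ▸ orderOf_dvd_natCard _)
        (h4 ▸ orderOf_dvd_natCard _))
    rw [← Rat.cast_sum, Rat.cast_eq_zero]
    rcases h1 with rfl | rfl
    · simpa [Prod.orderOf, ← Finset.mul_sum] using Or.inr (h' y b fun e => by
        simp [e, Prod.orderOf, Nat.not_prime_one] at hp)
    · simpa [Prod.orderOf, ← Finset.sum_mul] using Or.inl (h x a fun e => by
        simp [e, Prod.orderOf, Nat.not_prime_one] at hp)

end Cfsg.Agent.S4292
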