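import Cfsg.Statements.S4294
import Cfsg.Agent.S4293
import Cfsg.Agent.S3359
import Cfsg.Agent.H2.DivD

set_option autoImplicit false
open Cfsg

namespace Cfsg.Agent.S4294

/-- A finite non-solvable subgroup of the multiplicative group of a division ring is isomorphic to the binary icosahedral group SL(2,5). -/
theorem result {D : Type*} [DivisionRing D] (H : Subgroup Dˣ) [Finite H] (hH : ¬ Group.IsSolvable H) :
    Nonempty (H ≃* Matrix.SpecialLinearGroup (Fin 2) (ZMod 5)) := by
  have hb : H ≠ ⊥ := by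
    rintro rfl
    exact hH inferInstance
  obtain ⟨G₀, hN, hidx, S, M, hSM, -, hc, ⟨e⟩, -, h30⟩ := S3359.result hH (S4293.result H hb)
  let ι : H →* D := (Units.coeHom D).comp H.subtype
  have hι : Function.Injective ι := fun x y h => Subtype.ext (Units.ext h)
  let ψ : H2Div.G5 →* H := S.subtype.comp e.symm.toMonoidHom
  have hψ : Function.Injective ψ := S.subtype_injective.comp e.symm.injective
  have hψS : ∀ u, ψ u ∈ S := fun u => (e.symm u).2
  have hSψ : ∀ x ∈ S, ∃ u, ψ u = x := fun x hx => ⟨e ⟨x, hx⟩, by simp [ψ]⟩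
  let φ : H2Div.G5 →* D := ι.comp ψ
  have hφ : Function.Injective φ := hι.comp hψ
  have hM : M = ⊥ := by
    by_contra hM
    have h1 : Nat.card M ≠ 1 := fun h => hM (Subgroup.eq_bot_of_card_eq M h)
    obtain ⟨p, hp, hpM⟩ := Nat.exists_prime_and_dvd h1
    haveI : Fact p.Prime := ⟨hp⟩
    obtain ⟨m, hm⟩ := exists_prime_orderOf_dvd_card' p hpM
    refine H2Div.no_prime' φ hφ (ι m) (fun u => ?_) p hp (Nat.Coprime.coprime_dvd_left hpM h30) ?_ ?_
    · exact (Commute.map (show Commute (m : H) (ψ u) from (hc _ (hψS u) _ m.2).symm) ι)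
    · rw [← map_pow, ← Subgroup.coe_pow, ← hm, pow_orderOf_eq_one]; simp
    · intro h
      have : m = 1 := Subtype.ext (hι (by rw [h]; simp))
      rw [this, orderOf_one] at hm
      exact hp.one_lt.ne hm
  rw [hM, sup_bot_eq] at hSM
  subst hSM
  rcases hidx with h | h
  · rw [Subgroup.index_eq_one] at h
    subst h
    exact ⟨Subgroup.topEquiv.symm.trans e⟩
  · exfalso
    obtain ⟨g, hg⟩ : ∃ g : H, g ∉ S := by
      by_contra hh
      push Not at hh
      rw [(Subgroup.eq_top_iff' S).mpr hh, Subgroup.index_top] at h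
      norm_num at h
    refine H2Div.no_outer φ hφ (ι g) (Units.ne_zero _) (fun u => ?_) (fun u hu => ?_) ?_
    · obtain ⟨u', hu'⟩ := hSψ _ (hN.conj_mem _ (hψS u) g)
      refine ⟨u', ?_⟩
      show ι g * ι (ψ u) = ι (ψ u') * ι g
      rw [← map_mul, ← map_mul, hu', inv_mul_cancel_right]
    · exact hg (by rw [hι hu]; exact hψS u)
    · obtain ⟨w, hw⟩ := hSψ _ (Subgroup.mul_self_mem_of_index_two h g)
      exact ⟨w, by rw [← map_mul, ← hw]; rfl⟩

end Cfsg.Agent.S4294
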