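import Cfsg.Statements.S4296
import Cfsg.Agent.H1.FreeFun

set_option autoImplicit false
open Cfsg

namespace Cfsg.Agent.S4296

/-- Let H be a Frobenius complement in a finite group, and suppose some Sylow subgroup of H is not cyclic. Then the number of elements of the Frobenius kernel (the identity together with the elements lying in no conjugate of H) is an odd perfect square. -/
theorem result {L : Type*} [Group L] [Finite L] (H : Subgroup L) (hF : Cfsg.IsFrobeniusComplement H)
    (hZ : ∃ (p : ℕ) (_ : Fact p.Prime) (P : Sylow p H), ¬ IsCyclic P) :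
    Odd (Nat.card (Cfsg.frobeniusKernel H)) ∧ IsSquare (Nat.card (Cfsg.frobeniusKernel H)) := by
  obtain ⟨p, _, P, hP⟩ := hZ
  obtain ⟨V, _, φ, h, h1⟩ := H26.exists_semireg_of_frob hF
  obtain ⟨-, n, hn, ⟨e⟩⟩ := (h.freeRep.cyc_or_quat P.isPGroup').resolve_left hP
  obtain ⟨n, rfl⟩ := Nat.exists_eq_add_of_le' hn
  have h2 : (2 ^ n + 2 ^ n : ZMod (2 * 2 ^ (n + 1))) = (2 ^ (n + 1) : ℕ) := by push_cast; ring
  have h3 : (2 ^ n + 2 ^ n + (2 ^ n + 2 ^ n) : ZMod (2 * 2 ^ (n + 1))) = 0 := by
    rw [← ZMod.natCast_self]; push_cast; ring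
  rw [h1]
  refine (h.comp ((P : Subgroup H).subtype.comp e.symm.toMonoidHom) ((Subgroup.subtype_injective _).comp
    e.symm.injective)).isSquare (i := .a (2 ^ n)) (j := .xa 0) ?_ ?_ ?_ ?_
  · rw [QuaternionGroup.a_mul_a, h2, QuaternionGroup.one_def, Ne, QuaternionGroup.a.injEq,
      ZMod.natCast_eq_zero_iff]
    exact Nat.not_dvd_of_pos_of_lt (by positivity) (by have := Nat.two_pow_pos (n + 1); omega)
  · simp only [QuaternionGroup.a_mul_a, h3, QuaternionGroup.one_def]
  · simp [h2]
  · simp only [QuaternionGroup.a_mul_a, QuaternionGroup.a_mul_xa, QuaternionGroup.xa_mul_a]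
    congr 1
    linear_combination h3

end Cfsg.Agent.S4296
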