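import Cfsg.Statements.S4295
import Cfsg.Agent.H1.FreeFun
import Cfsg.Agent.S4296
import Cfsg.Agent.H11.Invol

set_option autoImplicit false
open Cfsg

namespace Cfsg.Agent.S4295

open Matrix

theorem exists_semireg {k : ℕ} (hk : Odd k) : ∃ φ : QuaternionGroup 2 →* MulAut (Multiplicative (Fin 2 → ZMod k)),
    H1.Semireg φ := by
  obtain ⟨a, b, h⟩ := H1.exists_sq_add_sq hk
  rw [← ZMod.natCast_eq_zero_iff] at h
  push_cast at h
  let I : Matrix (Fin 2) (Fin 2) (ZMod k) := !![0, -1; 1, 0]
  let J : Matrix (Fin 2) (Fin 2) (ZMod k) := !![a, b; b, -a]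
  have hI : I * I = -1 := by ext i j; fin_cases i <;> fin_cases j <;> simp [I]
  have hJ : J * J = -1 := by
    ext i j; fin_cases i <;> fin_cases j <;> simp [J] <;> first | linear_combination h | ring
  have hIJ : J * I = -(I * J) := by ext i j; fin_cases i <;> fin_cases j <;> simp [I, J]
  let I' : GL (Fin 2) (ZMod k) := ⟨I, -I, by simp [hI], by simp [hI]⟩
  let J' : GL (Fin 2) (ZMod k) := ⟨J, -J, by simp [hJ], by simp [hJ]⟩
  have h1 : I' ^ 2 = -1 := Units.ext (by simp [sq, I', hI])
  let f := H11.quaternionHom (a := I') (s := J') (n := 2) (by rw [pow_mul, h1]; simp)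
    (Units.ext (show J * I * -J = -I by rw [hIJ, neg_mul_neg, mul_assoc, hJ, mul_neg_one]))
    (Units.ext (by simp [sq, I', J', hI, hJ]))
  letI : DistribMulAction (QuaternionGroup 2) (Fin 2 → ZMod k) := DistribMulAction.compHom _ f
  refine ⟨H26.repAut (Representation.ofDistribMulAction ℤ _ _), fun g hg v hv => ?_⟩
  have h2 : g • v.toAdd = v.toAdd := congrArg Multiplicative.toAdd hv
  have h3 : (QuaternionGroup.a 2 : QuaternionGroup 2) • v.toAdd = v.toAdd := by
    rcases (by decide : ∀ g : QuaternionGroup 2, g ≠ 1 → .a 2 = g ∨ .a 2 = g * g) g hg with e | e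
    · rw [e, h2]
    · rw [e, mul_smul, h2, h2]
  change (I' ^ 2) • v.toAdd = _ at h3
  rw [h1, Units.neg_smul, one_smul, neg_eq_iff_add_eq_zero, ← two_smul (ZMod k)] at h3
  exact ((ZMod.isUnit_iff_coprime 2 k).mpr (Nat.coprime_two_left.mpr hk)).smul_eq_zero.mp h3

/-- For a natural number m the following are equivalent: (a) some finite group has a Frobenius complement isomorphic to the quaternion group of order 8 whose Frobenius kernel (the identity together with the elements lying in no conjugate of the complement) has exactly m elements; (b) m is an odd perfect square greater than 1. -/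
theorem result (m : ℕ) :
    (∃ (L : Type) (_ : Group L) (_ : Finite L) (H : Subgroup L), Cfsg.IsFrobeniusComplement H ∧
        Nonempty (H ≃* QuaternionGroup 2) ∧ Nat.card (Cfsg.frobeniusKernel H) = m) ↔
    (Odd m ∧ IsSquare m ∧ 1 < m) := by
  constructor
  · rintro ⟨L, _, _, H, hH, ⟨e⟩, rfl⟩
    obtain ⟨h1, h2⟩ := S4296.result H hH ⟨2, inferInstance, default, fun h => by
      have h3 : IsPGroup 2 H := IsPGroup.of_equiv (IsPGroup.of_card (n := 3) (by
        simp [QuaternionGroup.card])) e.symm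
      have h4 := (default : Sylow 2 H).3 (h3.to_subgroup ⊤) le_top
      rw [← h4, H21.cyclic_top_iff, e.isCyclic] at h
      exact absurd (h.isMulCommutative.is_comm.comm (.a 1) (.xa 0)) (by decide)⟩
    obtain ⟨V, _, -, -, h3⟩ := H26.exists_semireg_of_frob hH
    exact ⟨h1, h2, h3 ▸ Finite.one_lt_card⟩
  · rintro ⟨h1, ⟨k, rfl⟩, h2⟩
    have hk := (Nat.odd_mul.mp h1).1
    haveI : NeZero k := ⟨hk.pos.ne'⟩
    haveI : Fact (1 < k) := ⟨by nlinarith⟩
    obtain ⟨φ, h⟩ := exists_semireg hk
    obtain ⟨L, _, _, H, h3, ⟨e⟩, h4⟩ := H26.exists_frob_of_semireg h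
    exact ⟨L, _, inferInstance, H, h3, ⟨e.symm⟩, by simp [h4, sq]⟩

end Cfsg.Agent.S4295
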