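import Cfsg.Statements.S4297
import Cfsg.Agent.H26.Frob

set_option autoImplicit false
open Cfsg

namespace Cfsg.Agent.S4297

open QuaternionGroup

theorem aux (n : ℕ) [NeZero n] (χ : ZMod (2 * n) → ℂ) (h0 : χ 0 = 1)
    (hadd : ∀ i j, χ (i + j) = χ i * χ j) (hn : χ n = -1) (hinj : ∀ i, χ i = 1 → i = 0) :
    ∃ (L : Type) (_ : Group L) (_ : Finite L) (H : Subgroup L), Cfsg.IsFrobeniusComplement H ∧
      Nonempty (QuaternionGroup n ≃* H) := by
  have hnn : (n : ZMod (2 * n)) + n = 0 := by
    have : ((2 * n : ℕ) : ZMod (2 * n)) = 0 := ZMod.natCast_self _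
    rw [← this]; push_cast; ring
  have hneg : χ (-n) = -1 := by
    rw [← hn]; congr 1; linear_combination -hnn
  let act : QuaternionGroup n → ℂ × ℂ → ℂ × ℂ := fun g v =>
    match g with
    | a i => (χ i * v.1, χ (-i) * v.2)
    | xa i => (-(χ (-i) * v.2), χ i * v.1)
  let _ : DistribMulAction (QuaternionGroup n) (ℂ × ℂ) :=
    { smul := act
      one_smul := fun v => by
        show (χ 0 * v.1, χ (-0) * v.2) = v
        simp [h0]
      mul_smul := by
        rintro (i | i) (j | j) v
        · show (χ (i + j) * v.1, χ (-(i + j)) * v.2) = (χ i * (χ j * v.1), χ (-i) * (χ (-j) * v.2))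
          rw [neg_add, hadd, hadd]; ext <;> simp only <;> ring
        · show (-(χ (-(j - i)) * v.2), χ (j - i) * v.1) = (χ i * (-(χ (-j) * v.2)), χ (-i) * (χ j * v.1))
          rw [neg_sub, sub_eq_add_neg, sub_eq_add_neg, hadd, hadd]; ext <;> simp only <;> ring
        · show (-(χ (-(i + j)) * v.2), χ (i + j) * v.1) = (-(χ (-i) * (χ (-j) * v.2)), χ i * (χ j * v.1))
          rw [neg_add, hadd, hadd]; ext <;> simp only <;> ring
        · show (χ (n + j - i) * v.1, χ (-(n + j - i)) * v.2) =
            (-(χ (-i) * (χ j * v.1)), χ i * (-(χ (-j) * v.2)))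
          rw [show -((n : ZMod (2 * n)) + j - i) = -n + -j + i by ring, sub_eq_add_neg, hadd, hadd,
            hadd, hadd, hn, hneg]
          ext <;> simp only <;> ring
      smul_zero := by
        rintro (i | i)
        · show (χ i * 0, χ (-i) * 0) = 0
          simp
        · show (-(χ (-i) * 0), χ i * 0) = 0
          simp
      smul_add := by
        rintro (i | i) v w
        · show (χ i * (v.1 + w.1), χ (-i) * (v.2 + w.2)) = (χ i * v.1, χ (-i) * v.2) + (χ i * w.1, χ (-i) * w.2)
          ext <;> simp <;> ring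
        · show (-(χ (-i) * (v.2 + w.2)), χ i * (v.1 + w.1)) =
            (-(χ (-i) * v.2), χ i * v.1) + (-(χ (-i) * w.2), χ i * w.1)
          ext <;> simp <;> ring }
  refine H26.exists_frob_of_fpf_action (W := ℂ × ℂ) ?_
  rintro (i | i) hg v hv
  · have hi : i ≠ 0 := by rintro rfl; exact hg rfl
    have e : (χ i * v.1, χ (-i) * v.2) = v := hv
    have e1 : χ i * v.1 = v.1 := congrArg Prod.fst e
    have e2 : χ (-i) * v.2 = v.2 := congrArg Prod.snd e
    ext
    · by_contra h
      exact hi (hinj i ((mul_eq_right₀ h).mp e1))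
    · by_contra h
      exact hi (neg_eq_zero.mp (hinj _ ((mul_eq_right₀ h).mp e2)))
  · have e : (-(χ (-i) * v.2), χ i * v.1) = v := hv
    have e1 : -(χ (-i) * v.2) = v.1 := congrArg Prod.fst e
    have e2 : χ i * v.1 = v.2 := congrArg Prod.snd e
    have e3 : χ (-i) * χ i = 1 := by rw [← hadd, neg_add_cancel, h0]
    have e4 : v.1 = 0 := by
      rw [← e2, ← mul_assoc, e3] at e1
      linear_combination (-1 / 2 : ℂ) * e1
    ext
    · exact e4
    · rw [← e2, e4]; simp

/-- For every n ≥ 2 the dicyclic group of order 4n (generated by an element a of order 2n and an element x with x² = aⁿ and x a x⁻¹ = a⁻¹) occurs as a Frobenius complement of some finite Frobenius group. -/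
theorem result (n : ℕ) (hn : 2 ≤ n) :
    ∃ (L : Type) (_ : Group L) (_ : Finite L) (H : Subgroup L), Cfsg.IsFrobeniusComplement H ∧ Nonempty (H ≃* QuaternionGroup n) := by
  have : NeZero n := ⟨by omega⟩
  have hζ := Complex.isPrimitiveRoot_exp (2 * n) (by omega)
  set ζ := Complex.exp (2 * Real.pi * Complex.I / ((2 * n : ℕ) : ℂ))
  obtain ⟨L, _, _, H, h1, ⟨e⟩⟩ := aux n (fun i => ζ ^ i.val) (by simp) (fun i j => by
      rw [← pow_add, ZMod.val_add, ← pow_eq_pow_mod _ hζ.pow_eq_one]) (by
      show ζ ^ ((n : ZMod (2 * n))).val = -1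
      rw [ZMod.val_cast_of_lt (by omega)]
      exact (IsPrimitiveRoot.pow (by omega) hζ (mul_comm 2 n)).eq_neg_one_of_two_right)
    (fun i hi => by
      have := (hζ.pow_eq_one_iff_dvd _).mp hi
      exact (ZMod.val_eq_zero i).mp (Nat.eq_zero_of_dvd_of_lt this (ZMod.val_lt i)))
  exact ⟨L, inferInstance, inferInstance, H, h1, ⟨e.symm⟩⟩

end Cfsg.Agent.S4297
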