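import Cfsg.Statements.S4301


set_option autoImplicit false
open Cfsg

namespace Cfsg.Agent.S4301


/-- One-point extension of a multiply transitive group. Let X be a set and G a group of permutations of Option X (the set X with one extra point ∗ = none) all of whose elements fix ∗, such that G is k-transitive on the points of X for some k ≥ 2, X having at least k points. Suppose a permutation h of Option X and an element g of G satisfy: h interchanges ∗ with a point x of X and fixes a point y of X; g interchanges x and y; (g h)³ and h² lie in G; and for every f in G fixing x, the product h f h lies in G and fixes x. Then an element of the group generated by G and h fixes ∗ exactly when it lies in G, and that group acts (k+1)-transitively on Option X. -/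
theorem result {X : Type*} (G : Subgroup (Equiv.Perm (Option X))) (hfix : ∀ f ∈ G, f none = none)
    (k : ℕ) (hk : 2 ≤ k) (hkX : Nonempty (Fin k ↪ X))
    (htrans : ∀ a b : Fin k ↪ X, ∃ f ∈ G, ∀ i, f (some (a i)) = some (b i))
    (h g : Equiv.Perm (Option X)) (hg : g ∈ G) (x y : X)
    (h1 : h none = some x) (h2 : h (some x) = none) (h3 : h (some y) = some y)
    (h4 : g (some x) = some y) (h5 : g (some y) = some x)
    (h6 : (g * h) ^ 3 ∈ G) (h7 : h ^ 2 ∈ G)
    (h8 : ∀ f ∈ G, f (some x) = some x → h * f * h ∈ G ∧ (h * f * h) (some x) = some x) :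
    (∀ f ∈ Subgroup.closure ((G : Set (Equiv.Perm (Option X))) ∪ {h}), f none = none ↔ f ∈ G) ∧
      MulAction.IsMultiplyPretransitive (Subgroup.closure ((G : Set (Equiv.Perm (Option X))) ∪ {h})) (Option X) (k + 1) := by
  have hsome : ∀ f ∈ G, ∀ z : X, ∃ w : X, f (some z) = some w := by
    intro f hf z
    cases e : f (some z) with
    | none => exact absurd (f.injective (e.trans (hfix f hf).symm)) (by simp)
    | some w => exact ⟨w, rfl⟩
  have hxy : x ≠ y := by
    rintro rfl
    rw [h2] at h3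
    simp at h3
  have hcard : (k : ℕ∞) ≤ ENat.card X := by
    obtain ⟨e⟩ := hkX
    simpa using ENat.card_le_card_of_injective e.injective
  have two : ∀ a b c d : X, a ≠ b → c ≠ d → ∃ f ∈ G, f (some a) = some c ∧ f (some b) = some d := by
    intro a b c d hab hcd
    have hi : ∀ a b : X, a ≠ b → Function.Injective ![a, b] := by
      intro a b hab i j hij
      fin_cases i <;> fin_cases j
      · rfl
      · exact absurd hij hab
      · exact absurd hij.symm hab
      · rfl
    obtain ⟨u, hu⟩ := Fin.Embedding.restrictSurjective_of_le_ENatCard hk hcard ⟨_, hi a b hab⟩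
    obtain ⟨v, hv⟩ := Fin.Embedding.restrictSurjective_of_le_ENatCard hk hcard ⟨_, hi c d hcd⟩
    obtain ⟨f, hf, hf'⟩ := htrans u v
    refine ⟨f, hf, ?_, ?_⟩
    · have := hf' (Fin.castLE hk 0)
      rwa [show u (Fin.castLE hk 0) = a from congrArg (fun e : Fin 2 ↪ X => e 0) hu,
        show v (Fin.castLE hk 0) = c from congrArg (fun e : Fin 2 ↪ X => e 0) hv] at this
    · have := hf' (Fin.castLE hk 1)
      rwa [show u (Fin.castLE hk 1) = b from congrArg (fun e : Fin 2 ↪ X => e 1) hu,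
        show v (Fin.castLE hk 1) = d from congrArg (fun e : Fin 2 ↪ X => e 1) hv] at this
  have hsq : h * h ∈ G := by rwa [← sq]
  have key : ∀ f ∈ G, h * f * h ∈ G ∨ ∃ a ∈ G, ∃ b ∈ G, h * f * h = a * h * b := by
    intro f hf
    obtain ⟨z, hz⟩ := hsome f hf x
    by_cases hzx : z = x
    · exact Or.inl (h8 f hf (hzx ▸ hz)).1
    right
    obtain ⟨a, ha, ha1, ha2⟩ := two x y x z hxy (Ne.symm hzx)
    have hb : g⁻¹ * a⁻¹ * f ∈ G := G.mul_mem (G.mul_mem (G.inv_mem hg) (G.inv_mem ha)) hf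
    have hb1 : (g⁻¹ * a⁻¹ * f) (some x) = some x := by
      rw [Equiv.Perm.mul_apply, Equiv.Perm.mul_apply, hz, ← ha2, Equiv.Perm.inv_eq_iff_eq, h4,
        Equiv.Perm.inv_eq_iff_eq]
    refine ⟨h * a * h * (h * h)⁻¹ * (g⁻¹ * (g * h) ^ 3 * (h * h)⁻¹), ?_,
      g⁻¹ * (h * h)⁻¹ * (h * (g⁻¹ * a⁻¹ * f) * h), ?_, ?_⟩
    · exact G.mul_mem (G.mul_mem (h8 a ha ha1).1 (G.inv_mem hsq))
        (G.mul_mem (G.mul_mem (G.inv_mem hg) h6) (G.inv_mem hsq))
    · exact G.mul_mem (G.mul_mem (G.inv_mem hg) (G.inv_mem hsq)) (h8 _ hb hb1).1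
    · rw [pow_succ, sq]
      group
  have hK : ∀ f ∈ Subgroup.closure ((G : Set (Equiv.Perm (Option X))) ∪ {h}),
      f ∈ G ∨ ∃ a ∈ G, ∃ b ∈ G, f = a * h * b := by
    have hG : ∀ c ∈ G, ∀ f, (f ∈ G ∨ ∃ a ∈ G, ∃ b ∈ G, f = a * h * b) →
        (c * f ∈ G ∨ ∃ a ∈ G, ∃ b ∈ G, c * f = a * h * b) := by
      rintro c hc f (hf | ⟨a, ha, b, hb, rfl⟩)
      · exact Or.inl (G.mul_mem hc hf)
      · exact Or.inr ⟨c * a, G.mul_mem hc ha, b, hb, by group⟩
    have hH : ∀ f, (f ∈ G ∨ ∃ a ∈ G, ∃ b ∈ G, f = a * h * b) →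
        (h * f ∈ G ∨ ∃ a ∈ G, ∃ b ∈ G, h * f = a * h * b) := by
      rintro f (hf | ⟨a, ha, b, hb, rfl⟩)
      · exact Or.inr ⟨1, G.one_mem, f, hf, by group⟩
      · rcases key a ha with h9 | ⟨c, hc, d, hd, h9⟩
        · exact Or.inl (by simpa only [mul_assoc] using G.mul_mem h9 hb)
        · exact Or.inr ⟨c, hc, d * b, G.mul_mem hd hb, by rw [← mul_assoc, ← mul_assoc, h9]; group⟩
    intro f hf
    induction hf using Subgroup.closure_induction_left with
    | one => exact Or.inl G.one_mem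
    | mul_left c hc f _ ih =>
      rcases hc with hc | rfl
      · exact hG c hc f ih
      · exact hH f ih
    | inv_mul_cancel c hc f _ ih =>
      rcases hc with hc | rfl
      · exact hG _ (G.inv_mem hc) f ih
      · have := hG _ (G.inv_mem hsq) _ (hH f ih)
        rwa [show (c * c)⁻¹ * (c * f) = c⁻¹ * f by group] at this
  have hGK : G ≤ Subgroup.closure ((G : Set (Equiv.Perm (Option X))) ∪ {h}) :=
    fun f hf => Subgroup.subset_closure (Or.inl hf)
  have hhK : h ∈ Subgroup.closure ((G : Set (Equiv.Perm (Option X))) ∪ {h}) :=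
    Subgroup.subset_closure (Or.inr rfl)
  refine ⟨fun f hf => ⟨fun h0 => ?_, hfix f⟩, ?_⟩
  · rcases hK f hf with h9 | ⟨a, ha, b, hb, rfl⟩
    · exact h9
    · rw [Equiv.Perm.mul_apply, Equiv.Perm.mul_apply, hfix b hb, h1] at h0
      obtain ⟨w, hw⟩ := hsome a ha x
      rw [hw] at h0
      simp at h0
  have hone : ∀ a : Fin (k + 1) ↪ Option X, ∃ u ∈ Subgroup.closure ((G : Set (Equiv.Perm (Option X))) ∪ {h}),
      ∃ e : Fin k ↪ X, u (a 0) = none ∧ ∀ i, u (a i.succ) = some (e i) := by
    intro a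
    obtain ⟨u, hu, hu0⟩ : ∃ u ∈ Subgroup.closure ((G : Set (Equiv.Perm (Option X))) ∪ {h}),
        u (a 0) = none := by
      cases e : a 0 with
      | none => exact ⟨1, Subgroup.one_mem _, rfl⟩
      | some z =>
        obtain ⟨f, hf, hf'⟩ : ∃ f ∈ G, f (some z) = some x := by
          by_cases hz : z = x
          · exact ⟨1, G.one_mem, by rw [hz]; rfl⟩
          · obtain ⟨f, hf, hf', -⟩ := two z x x z hz (Ne.symm hz)
            exact ⟨f, hf, hf'⟩
        exact ⟨h * f, Subgroup.mul_mem _ hhK (hGK hf), by rw [Equiv.Perm.mul_apply, hf', h2]⟩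
    have : ∀ i : Fin k, ∃ w, u (a i.succ) = some w := by
      intro i
      cases e : u (a i.succ) with
      | none => exact absurd (a.injective (u.injective (e.trans hu0.symm))) (Fin.succ_ne_zero i)
      | some w => exact ⟨w, rfl⟩
    choose e he using this
    refine ⟨u, hu, ⟨e, fun i j hij => ?_⟩, hu0, he⟩
    have := he i
    rw [hij, ← he j] at this
    exact Fin.succ_injective _ (a.injective (u.injective this))
  refine ⟨fun a b => ?_⟩
  obtain ⟨u, hu, e, hu0, he⟩ := hone a
  obtain ⟨v, hv, e', hv0, he'⟩ := hone b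
  obtain ⟨f, hf, hf'⟩ := htrans e e'
  refine ⟨⟨v⁻¹ * f * u, Subgroup.mul_mem _ (Subgroup.mul_mem _ (Subgroup.inv_mem _ hv) (hGK hf)) hu⟩, ?_⟩
  ext1 i
  change v⁻¹ (f (u (a i))) = b i
  rw [Equiv.Perm.inv_eq_iff_eq]
  refine Fin.cases ?_ (fun j => ?_) i
  · rw [hu0, hv0, hfix f hf]
  · rw [he, he', hf']

end Cfsg.Agent.S4301
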