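import Cfsg.Statements.S4302
import Cfsg.Agent.H24.TFA

set_option autoImplicit false
open Cfsg

namespace Cfsg.Agent.S4302

/-- Let `X` be a finite solvable group whose Fitting subgroup is a 2-group (equivalently `F(X) = O₂(X)`), `T` a Sylow 2-subgroup of `X`, `J(T)` the subgroup generated by the abelian subgroups of `T` of largest order, `C` the largest normal subgroup of `X` centralizing the centre `Z(T)`, and `Y` the normal closure of `J(T)` in `X`. Then `X = C · Y · N_X(J(T))`, and either `Y ≤ C`, or `CY/C` is isomorphic to a direct product of at least one copy of the symmetric group of degree 3. -/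
theorem result {X : Type*} [Group X] [Finite X]
    [Group.IsSolvable X] (hF : Cfsg.fittingSubgroup X = Cfsg.pCore 2 X) (T : Sylow 2 X) :
    ((Subgroup.centralizer (((T : Subgroup X) ⊓ Subgroup.centralizer ((T : Subgroup X) : Set X) : Subgroup X) : Set X)).normalCore
        ⊔ Subgroup.normalClosure (Cfsg.thompsonSubgroupAOf (T : Subgroup X) : Set X)
        ⊔ Subgroup.normalizer (Cfsg.thompsonSubgroupAOf (T : Subgroup X) : Set X) = ⊤) ∧
    (Subgroup.normalClosure (Cfsg.thompsonSubgroupAOf (T : Subgroup X) : Set X)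
        ≤ (Subgroup.centralizer (((T : Subgroup X) ⊓ Subgroup.centralizer ((T : Subgroup X) : Set X) : Subgroup X) : Set X)).normalCore
      ∨ ∃ n : ℕ, 1 ≤ n ∧
        Nonempty (↥(Subgroup.normalClosure (Cfsg.thompsonSubgroupAOf (T : Subgroup X) : Set X)) ⧸
            ((Subgroup.centralizer (((T : Subgroup X) ⊓ Subgroup.centralizer ((T : Subgroup X) : Set X) : Subgroup X) : Set X)).normalCore).subgroupOf
              (Subgroup.normalClosure (Cfsg.thompsonSubgroupAOf (T : Subgroup X) : Set X))
          ≃* (Fin n → Equiv.Perm (Fin 3)))) := by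
  open Subgroup Cfsg.Agent.H24 in
  open scoped commutatorElement in
  open Cfsg.Agent.H10 (SubnormalIn OqOf) in
  open Cfsg.Agent.H9 (maxEA) in
  have hT := sylIn_top T
  rw [Cfsg.Agent.H9.thompsonSubgroupAOf_eq, ← ncl_top]
  have hc : CharP 2 (⊤ : Subgroup X) := charP_top_iff.2 (hF ▸ Cfsg.Agent.H1.centralizer_fittingSubgroup_le inferInstance)
  constructor
  · have h1 := (hT.inf_normal le_top (top_le_normalizer (ncl (thompsonSubgroupOf 0 (T : Subgroup X)) ⊤))).frattini_sup
      le_top (top_le_normalizer _)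
    refine eq_top_iff.2 (h1.ge.trans (sup_le (le_sup_of_le_left le_sup_right) (le_sup_of_le_right ?_)))
    exact (le_normalizer_thompsonOf (p := 0) inf_le_right).trans_eq (by
      rw [Cfsg.Agent.H9.thompsonOf_eq_of_le (le_inf (Cfsg.Agent.H9.thompsonOf_le 0 _) (le_ncl _ ⊤)) inf_le_left])
  obtain ⟨n, ⟨e⟩⟩ := tfa (Cfsg.Agent.H9.isPSolvable_of_isSolvable inferInstance) hc hT
  obtain ⟨f⟩ := sl2_two_equiv
  rcases n.eq_zero_or_pos with rfl | hn
  · refine Or.inl (subgroupOf_eq_top.1 (QuotientGroup.subsingleton_iff.1 e.toEquiv.subsingleton))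
  · exact Or.inr ⟨n, hn, ⟨e.trans (MulEquiv.piCongrRight fun _ => f)⟩⟩

end Cfsg.Agent.S4302
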