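import Cfsg.Statements.S4304
import Cfsg.Agent.H26.SylNum2

set_option autoImplicit false
open Cfsg

namespace Cfsg.Agent.S4304


/-- No finite group has exactly 15 Sylow 7-subgroups. -/
theorem result {G : Type*} [Group G] [Finite G] : Nat.card (Sylow 7 G) ≠ 15 := by
  have : Fact (Nat.Prime 7) := ⟨by norm_num⟩
  exact H26.card_sylow_ne_two_mul_add_one (p := 7) (by norm_num) (by norm_num) (by norm_num)

end Cfsg.Agent.S4304
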