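import Cfsg.Statements.S4305
import Cfsg.Agent.H26.PQ3

set_option autoImplicit false
open Cfsg

namespace Cfsg.Agent.S4305

open Subgroup Cfsg.Agent.H20 Cfsg.Agent.H21 Cfsg.Agent.BG Cfsg.Agent.H25 Cfsg.Agent.H26

/-- Let the symmetric group of degree 3 act by automorphisms on a finite solvable group `G` of order prime to 6, so that only the identity of `G` is fixed by all of it. Then the derived subgroup of `G` is nilpotent. -/
theorem result {G : Type*} [Group G] [Finite G] [Group.IsSolvable G]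
    [MulDistribMulAction (Equiv.Perm (Fin 3)) G] (hcop : (Nat.card G).Coprime 6)
    (hfpf : ∀ g : G, (∀ a : Equiv.Perm (Fin 3), a • g = g) → g = 1) :
    Group.IsNilpotent ↥(commutator G) := by
  let φ := MulDistribMulAction.toMulAut (Equiv.Perm (Fin 3)) G
  have hA' : ♯((⊤ : Subgroup (Equiv.Perm (Fin 3))).map (Hol.r φ)) = 3 * 2 := by
    rw [Hol.card_r_top, Nat.card_eq_fintype_card, Fintype.card_perm]; rfl
  have hn : ¬ IsMulCommutative ((⊤ : Subgroup (Equiv.Perm (Fin 3))).map (Hol.r φ)) := by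
    rw [isMulCommutative_map_iff (Hol.r_inj φ), comm_top_iff]
    intro h
    have := h.1.1 (Equiv.swap 0 1) (Equiv.swap 1 2)
    revert this; decide
  obtain ⟨F, c⟩ := exists_PQ Nat.prime_three Nat.prime_two (by norm_num) hA' hn
  have h1 := c.der_le_fitting (K := (⊤ : Subgroup G).map (Hol.l φ)) (sol_map _ (sol_top_iff.2 ‹_›))
    (Hol.le_norm_top _) (by rwa [hA', Hol.card_l_top]) (hol_fpf φ hfpf)
  rw [← map_commutator, ← map_fittingOf (Hol.l_inj φ), map_le_map_iff_inj (Hol.l_inj φ)] at h1
  exact nil_of_le (nil_fittingOf _) h1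

end Cfsg.Agent.S4305
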