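import Cfsg.Statements.S4306
import Cfsg.Agent.H26.PQ3

set_option autoImplicit false
open Cfsg

namespace Cfsg.Agent.S4306

open Subgroup Cfsg.Agent.H20 Cfsg.Agent.H21 Cfsg.Agent.BG Cfsg.Agent.H25 Cfsg.Agent.H26

/-- Let `A` be a non-abelian group of order `pq` with `p, q` distinct primes, acting by automorphisms on a finite solvable group `G` of order prime to `pq`, so that only the identity of `G` is fixed by all of `A`. Then `G` has Fitting height at most 2: there is a normal nilpotent subgroup `F` of `G` with `G/F` nilpotent. -/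
theorem result {G A : Type*} [Group G] [Finite G]
    [Group.IsSolvable G] [Group A] [Finite A] [MulDistribMulAction A G] (p q : ℕ) (hp : p.Prime) (hq : q.Prime) (hpq : p ≠ q)
    (hA : Nat.card A = p * q) (hAna : ¬ IsMulCommutative A) (hcop : (Nat.card G).Coprime (p * q))
    (hfpf : ∀ g : G, (∀ a : A, a • g = g) → g = 1) :
    ∃ F : Subgroup G, ∃ hF : F.Normal, Group.IsNilpotent ↥F ∧ Group.IsNilpotent (G ⧸ F) := by
  let φ := MulDistribMulAction.toMulAut A G
  have hA' : ♯((⊤ : Subgroup A).map (Hol.r φ)) = p * q := by rw [Hol.card_r_top, hA]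
  have hn : ¬ IsMulCommutative ((⊤ : Subgroup A).map (Hol.r φ)) := by
    rwa [isMulCommutative_map_iff (Hol.r_inj φ), comm_top_iff]
  obtain ⟨f, h, F, c⟩ : ∃ f h F, PQ f h ((⊤ : Subgroup A).map (Hol.r φ)) F := by
    rcases lt_or_gt_of_ne hpq with h | h
    · exact ⟨q, p, exists_PQ hq hp h (by rw [hA', mul_comm]) hn⟩
    · exact ⟨p, q, exists_PQ hp hq h hA' hn⟩
  obtain ⟨n, h1⟩ := c.lcs_le_fitting (K := (⊤ : Subgroup G).map (Hol.l φ)) (sol_map _ (sol_top_iff.2 ‹_›))
    (Hol.le_norm_top _) (by rwa [hA', Hol.card_l_top]) (hol_fpf φ hfpf)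
  rw [← map_lowerCentralSeries, ← map_fittingOf (Hol.l_inj φ), map_le_map_iff_inj (Hol.l_inj φ), fittingOf_top] at h1
  haveI : (fittingSubgroup G).Normal := fittingSubgroup_normal
  refine ⟨fittingSubgroup G, this, nil_fittingSubgroup, ?_⟩
  rw [← nil_top_iff, isNilpotent_iff_lowerCentralSeries]
  refine ⟨n, ?_⟩
  rw [← map_top_of_surjective _ (QuotientGroup.mk'_surjective (fittingSubgroup G)), ← map_lowerCentralSeries,
    Subgroup.map_eq_bot_iff, QuotientGroup.ker_mk']
  exact h1

end Cfsg.Agent.S4306
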