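import Cfsg.Statements.S4310
import Cfsg.Agent.FT
import Cfsg.Agent.H1.Separable

set_option autoImplicit false
open Cfsg

namespace Cfsg.Agent.S4310

open H1 Subgroup
open scoped Pointwise

theorem hallHyp_three {G : Type*} [Group G] [Finite G] {π : Set ℕ} (D M : Subgroup G) [hD : D.Normal] [hM : M.Normal]
    (h1 : IsPiNum π (Nat.card D)) (h2 : IsPiNum πᶜ (D.relIndex M)) (h3 : IsPiNum π M.index) : HallHyp π G := by
  refine hallHyp_of_separable (fun X _ _ h => FT.solvable_of_odd h) (n := 3) ![⊥, D, M, ⊤] rfl rfl ?_ ?_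
  · intro i; fin_cases i
    · exact normal_bot
    · exact hD
    · exact hM
    · exact normal_top
  · intro i; fin_cases i
    · left; simpa using h1
    · right; simpa using h2
    · left; simpa using h3

/-- Let `π` be a set of primes and `A` a normal subgroup of the finite group `G`. Suppose `A` has a Hall `π`-subgroup and all Hall `π`-subgroups of `A` are conjugate in `A`, and likewise for `G/A`. Then `G` has a Hall `π`-subgroup and all Hall `π`-subgroups of `G` are conjugate. (The conjugacy of complements of coprime order that the usual proof uses rests, in general, on the odd order Theorem.) -/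
theorem result {G : Type*} [Group G] [Finite G] (π : Set ℕ) (A : Subgroup G) [A.Normal]
    (hA : Cfsg.IsCPiGroup π ↥A) (hQ : Cfsg.IsCPiGroup π (G ⧸ A)) : Cfsg.IsCPiGroup π G := by
  obtain ⟨⟨D0, hD0⟩, hAc⟩ := hA
  obtain ⟨⟨Kb, hKb⟩, hQc⟩ := hQ
  set D := D0.map A.subtype with hDdef
  have hD : IsPiHallOf π D A := isPiHallOf_map_subtype.2 hD0
  have hconjA : ∀ E : Subgroup G, IsPiHallOf π E A → ∃ a ∈ A, MulAut.conj a • E = D := by
    intro E hE
    obtain ⟨a, ha⟩ := hAc _ _ ((isPiHallOf_iff_subgroupOf hE.1).1 hE) hD0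
    refine ⟨a, a.2, ?_⟩
    rw [hDdef, ha]
    ext x
    rw [mem_conj_smul]
    constructor
    · intro hx
      have hxA : x ∈ A := by simpa [mul_assoc] using A.mul_mem (A.mul_mem a.2 (hE.1 hx)) (A.inv_mem a.2)
      exact ⟨⟨x, hxA⟩, mem_map_conj.2 hx, rfl⟩
    · rintro ⟨y, hy, rfl⟩
      exact (mem_map_conj.1 hy : a⁻¹ * y * a ∈ E.subgroupOf A)
  have hAn : ∀ g : G, g ∈ normalizer (A : Set G) := fun g => by rw [normalizer_eq_top]; trivial
  set K := Kb.comap (QuotientGroup.mk' A) with hK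
  have hAK : A ≤ K := fun a ha => by
    rw [hK, mem_comap, QuotientGroup.mk'_apply, (QuotientGroup.eq_one_iff a).2 ha]; exact one_mem _
  have hKi : K.index = Kb.index := index_comap_of_surjective _ (QuotientGroup.mk'_surjective A)
  set L := K ⊓ normalizer (D : Set G) with hL
  have hDL : D ≤ L := le_inf (hD.1.trans hAK) le_normalizer
  have hAL : A ⊔ L = K := by
    apply le_antisymm (sup_le hAK inf_le_left)
    intro g hg
    obtain ⟨a, ha, h⟩ := hconjA _ (isPiHallOf_conj_smul hD (hAn g))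
    rw [← mul_smul, ← map_mul, conj_smul_eq_iff_mem_normalizer] at h
    have : g = a⁻¹ * (a * g) := by group
    rw [this]
    exact mul_mem (mem_sup_left (inv_mem ha)) (mem_sup_right ⟨mul_mem (hAK ha) hg, h⟩)
  have hrel : A.relIndex L = Nat.card Kb := by
    rw [← relIndex_sup_left, hAL]
    have h1 := card_mul_relIndex hAK
    rw [hK, card_comap_mk'] at h1
    exact Nat.eq_of_mul_eq_mul_left Nat.card_pos h1
  have hπKb : IsPiNum π (Nat.card Kb) := (isPiHall_iff.1 hKb).1
  have hDA : IsPiNum πᶜ (D.relIndex A) := (isPiHallOf_iff.1 hD).2.2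
  have hLH : HallHyp π L := by
    haveI : (D.subgroupOf L).Normal := (normal_subgroupOf_iff_le_normalizer hDL).2 inf_le_right
    refine hallHyp_three (D.subgroupOf L) (A.subgroupOf L) ?_ ?_ ?_
    · rw [card_subgroupOf_of_le hDL]; exact (isPiHallOf_iff.1 hD).2.1
    · rw [← inf_subgroupOf_right A L, relIndex_subgroupOf inf_le_right]
      exact hDA.of_dvd ⟨_, (relIndex_mul_relIndex D (A ⊓ L) A (le_inf hD.1 hDL) inf_le_left).symm⟩
    · have : (A.subgroupOf L).index = Nat.card Kb := hrel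
      rw [this]; exact hπKb
  have hLi : IsPiNum πᶜ L.index := by
    rw [← relIndex_mul_index (inf_le_left : L ≤ K), hKi]
    refine IsPiNum.mul ?_ (isPiHall_iff.1 hKb).2
    have h1 := card_mul_relIndex (inf_le_left : L ≤ K)
    have h2 := card_inf_mul_relIndex A L
    have h3 := card_mul_relIndex (inf_le_left : A ⊓ L ≤ A)
    have h4 : Nat.card K = Nat.card A * Nat.card Kb := card_comap_mk' A Kb
    have h5 : L.relIndex K = (A ⊓ L).relIndex A := by
      rw [hrel] at h2
      rw [h4, ← h2, ← h3] at h1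
      apply Nat.eq_of_mul_eq_mul_left (Nat.mul_pos (Nat.card_pos (α := (A ⊓ L : Subgroup G))) (Nat.card_pos (α := Kb)))
      rw [h1]; ring
    rw [h5]
    exact hDA.of_dvd ⟨_, ((relIndex_mul_relIndex D (A ⊓ L) A (le_inf hD.1 hDL) inf_le_left).symm.trans (mul_comm _ _))⟩
  obtain ⟨H0, hH0⟩ := hLH.exists_isPiHallOf
  have hH0' : IsPiHall π H0 := by
    rw [isPiHall_iff, ← relIndex_mul_index hH0.1]
    exact ⟨(isPiHallOf_iff.1 hH0).2.1, (isPiHallOf_iff.1 hH0).2.2.mul hLi⟩
  have key : ∀ H : Subgroup G, IsPiHall π H → ∃ g : G, MulAut.conj g • H = H0 := by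
    intro H hH
    obtain ⟨g, hg⟩ := hQc _ _ (isPiHall_map hH (QuotientGroup.mk'_surjective A)) hKb
    obtain ⟨g, rfl⟩ := QuotientGroup.mk_surjective g
    have h1 : MulAut.conj g • H ≤ K := by
      intro x hx
      rw [hK, mem_comap, hg, mem_map_conj]
      exact ⟨_, mem_conj_smul.1 hx, rfl⟩
    have h2 := isPiHall_conj_smul hH g
    obtain ⟨a, ha, h3⟩ := hconjA _ (isPiHallOf_inf (isPiHallOf_top.2 h2) le_top (fun x _ => hAn x))
    have h4 : MulAut.conj a • MulAut.conj g • H ≤ L := by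
      refine le_inf (conj_smul_le_of_le_normalizer h1 (le_normalizer (hAK ha))) ?_
      rw [← h3, smul_inf, conj_smul_eq_iff_mem_normalizer.2 (hAn a)]
      exact le_normalizer_inf le_normalizer (fun x _ => hAn x)
    have h5 := isPiHall_conj_smul h2 a
    obtain ⟨l, -, hl⟩ := hLH.exists_conj_eq (isPiHallOf_of_card_eq hH0 h4 (card_eq_of_isPiHall h5 hH0')) hH0
    exact ⟨l * a * g, by rw [map_mul, map_mul, mul_smul, mul_smul, hl]⟩
  refine ⟨⟨H0, hH0'⟩, fun H H' hH hH' => ?_⟩
  obtain ⟨g, hg⟩ := key H hH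
  obtain ⟨g', hg'⟩ := key H' hH'
  refine ⟨g'⁻¹ * g, ?_⟩
  rw [← conj_smul_eq_map, map_mul, mul_smul, hg, ← hg', map_inv, inv_smul_smul]

end Cfsg.Agent.S4310
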