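import Cfsg.Statements.S4316
import Cfsg.Agent.H25.GK5

set_option autoImplicit false
universe u
open Cfsg

namespace Cfsg.Agent.S4316

open Subgroup Cfsg.Agent.H20 Cfsg.Agent.H21 Cfsg.Agent.H25.GK

/-- There is a function `f` of two natural-number arguments with the following property. Let `q` be a prime and `A` an elementary abelian group of order `q³` acting by automorphisms on a finite group `G` of order prime to `q`, and suppose that for every non-identity `a ∈ A` the derived subgroup of the fixed-point subgroup `C_G(a)` has order at most `m`. Then the derived subgroup of `G` has order at most `f(q, m)`. -/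
theorem result :
    ∃ f : ℕ → ℕ → ℕ, ∀ (q m : ℕ) (A G : Type u) [Group A] [Finite A] [Group G] [Finite G] [MulDistribMulAction A G],
      q.Prime → Nat.card A = q ^ 3 → (∀ a b : A, a * b = b * a) → (∀ a : A, a ^ q = 1) → ¬ q ∣ Nat.card G →
      (∀ a : A, a ≠ 1 → Nat.card ↥(commutator ↥(FixedPoints.subgroup (Subgroup.zpowers a) G)) ≤ m) →
      Nat.card ↥(commutator G) ≤ f q m := by
  refine ⟨fun q m => db (q ^ 3) m, fun q m A G _ _ _ _ _ hq hA hc he hcop h => ?_⟩
  haveI := Fact.mk hq
  let φ := MulDistribMulAction.toMulAut A G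
  have hamb : Amb q ((⊤ : Subgroup A).map (Hol.r φ)) ((⊤ : Subgroup G).map (Hol.l φ)) := by
    refine ⟨⟨comm_iff.2 ?_, ?_⟩, fun e => ?_, Hol.le_norm_top _, by
      rw [Hol.card_l_top]; exact ((Nat.Prime.coprime_iff_not_dvd hq).2 hcop).symm⟩
    · rintro _ ⟨a, -, rfl⟩ _ ⟨b, -, rfl⟩
      rw [← map_mul, ← map_mul, hc]
    · rintro _ ⟨a, -, rfl⟩
      rw [← map_pow, he, map_one]
    · have := Hol.card_r_top φ
      rw [e, card_bot, hA] at this
      have h1 := Nat.one_lt_pow (n := 3) (by omega) hq.one_lt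
      omega
  have h1 := hamb.der_le ((Hol.card_r_top _).trans hA) (m := m) (by
    rintro _ ⟨a, -, rfl⟩ ha
    have e : (⊤ : Subgroup G).map (Hol.l φ) ⊓ C₁⟦Hol.r φ a⟧ =
        (⊤ : Subgroup ↥(FixedPoints.subgroup (zpowers a) G)).map
          ((Hol.l φ).comp (Subgroup.subtype _)) := by
      ext x
      constructor
      · rintro ⟨⟨y, -, rfl⟩, hy⟩
        have h2 : a • y = y := (Hol.comm_iff _).1 (mem_centralizer_singleton_iff.1 hy)
        exact ⟨⟨y, fun b => (zpowers_le.2 h2 : zpowers a ≤ MulAction.stabilizer A y) b.2⟩, trivial, rfl⟩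
      · rintro ⟨y, -, rfl⟩
        exact ⟨⟨y, trivial, rfl⟩, mem_centralizer_singleton_iff.2
          ((Hol.comm_iff _).2 (y.2 ⟨a, mem_zpowers a⟩))⟩
    rw [e, ← map_commutator, ← map_map, Hol.card_l, card_map_of_injective (subtype_injective _)]
    exact h a fun e => ha (by rw [e, map_one]))
  rwa [← map_commutator, Hol.card_l] at h1

end Cfsg.Agent.S4316
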