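import Cfsg.Statements.S4320
import Cfsg.Agent.H1.Basic

set_option autoImplicit false
open Cfsg

namespace Cfsg.Agent.S4320

open Module

theorem det_kill {R ι : Type*} [CommRing R] [Fintype ι] [DecidableEq ι] (ε : R →+* ℤ)
    (Rel : Submodule R (ι → R)) (L : Submodule ℤ (ι → ℤ)) [hf : Finite ((ι → ℤ) ⧸ L)]
    (hL : ∀ x ∈ L, ∃ v ∈ Rel, ∀ j, ε (v j) = x j) :
    ∃ μ : R, (ε μ).natAbs = Nat.card ((ι → ℤ) ⧸ L) ∧ ∀ i, Pi.single i μ ∈ Rel := by
  obtain ⟨-, -, b, -⟩ := Submodule.exists_smith_normal_form_of_rank_eq (Pi.basisFun ℤ ι)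
    ((Submodule.finiteQuotient_iff L).1 hf)
  choose B hB hε using fun k => hL (b k) (b k).2
  refine ⟨(Matrix.of B).det, ?_, fun i => ?_⟩
  · rw [← Submodule.natAbs_det_basis_change (Pi.basisFun ℤ ι) L b, Pi.basisFun_det, RingHom.map_det]
    congr 1
    show Matrix.det _ = Matrix.det _
    congr 1
    ext k j
    exact hε k j
  · have h : (Pi.single i (Matrix.of B).det : ι → R) = ∑ k, (Matrix.of B).adjugate i k • B k := by
      ext j
      have := congrFun (congrFun (Matrix.adjugate_mul (Matrix.of B)) i) j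
      rw [Matrix.mul_apply, Matrix.smul_apply, Matrix.one_apply] at this
      simp only [Finset.sum_apply, Pi.smul_apply, smul_eq_mul]
      rw [Pi.single_apply]
      simp only [Matrix.of_apply] at this
      rw [this]
      by_cases h : i = j
      · simp [h]
      · simp [h, Ne.symm h]
    rw [h]
    exact Rel.sum_mem fun k _ => Rel.smul_mem _ (hB k)

theorem card_quot_dvd {G Q : Type*} [Group G] [Fintype G] [DecidableEq G] [Group Q] (π : G →* Q)
    (hπ : Function.Surjective π) (hk : π.ker ≤ commutator G) (L : Submodule ℤ (G → ℤ))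
    (hL : ∀ g h : G, (Pi.single (g * h) 1 - Pi.single g 1 - Pi.single h 1 : G → ℤ) ∈ L) :
    Nat.card ((G → ℤ) ⧸ L) ∣ Nat.card Q := by
  let f : G →* Multiplicative ((G → ℤ) ⧸ L) := MonoidHom.mk'
    (fun g => Multiplicative.ofAdd (L.mkQ (Pi.single g 1))) fun g h => by
      rw [← ofAdd_add, ← map_add]
      congr 1
      rw [Submodule.mkQ_apply, Submodule.mkQ_apply, Submodule.Quotient.eq, ← sub_sub]
      exact hL g h
  have hs : f.range = ⊤ := by
    rw [eq_top_iff]
    intro y _
    obtain ⟨x, hx⟩ := L.mkQ_surjective y.toAdd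
    have e : y = ∏ g, f g ^ x g := by
      apply Multiplicative.toAdd.injective
      rw [← hx, toAdd_prod]
      conv_lhs => rw [← Finset.univ_sum_single x, map_sum]
      refine Finset.sum_congr rfl fun g _ => ?_
      rw [toAdd_zpow]
      show _ = x g • L.mkQ (Pi.single g 1)
      rw [← map_smul, ← Pi.single_smul, smul_eq_mul, mul_one]
    rw [e]
    exact Subgroup.prod_mem _ fun g _ => Subgroup.zpow_mem _ (MonoidHom.mem_range.2 ⟨g, rfl⟩) _
  have h1 := Subgroup.index_dvd_of_le (hk.trans (Abelianization.commutator_subset_ker f))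
  rw [Subgroup.index_ker, Subgroup.index_ker, hs, MonoidHom.range_eq_top.2 hπ, Subgroup.card_top,
    Subgroup.card_top] at h1
  exact h1

theorem abstract {G Q A : Type*} [Group G] [Finite G] [CommGroup Q] [Fintype Q] [AddCommGroup A]
    (π : G →* Q) (hπ : Function.Surjective π) (hk : π.ker ≤ commutator G) (c : G → Q → A)
    (hc : ∀ g h x, c (g * h) x = c g (π h * x) + c h x) (g : G) : ∑ x, c g x = 0 := by
  classical
  haveI := Fintype.ofFinite G
  let ρ : Representation ℤ Q (Q → A) :=
    { toFun := fun y => LinearMap.funLeft ℤ A fun x => y * x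
      map_one' := by ext f x; simp
      map_mul' := fun y z => by
        refine LinearMap.ext fun f => funext fun x => ?_
        simp [LinearMap.funLeft_apply, mul_left_comm, mul_assoc] }
  have hρ : ∀ y f x, ρ y f x = f (y * x) := fun _ _ _ => rfl
  let R := MonoidAlgebra ℤ Q
  let ε : R →+* ℤ := (MonoidAlgebra.lift ℤ ℤ Q 1).toRingHom
  let o : G → R := fun g => MonoidAlgebra.of ℤ Q (π g)
  let Rel : Submodule R (G → R) :=
    { carrier := {v | ∑ j, ρ.asAlgebraHom (v j) (c j) = 0 ∧ ∑ j, v j * (o j - 1) = 0}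
      add_mem' := by
        rintro u v ⟨a, b⟩ ⟨a', b'⟩
        simp only [Set.mem_setOf_eq, Pi.add_apply, map_add, LinearMap.add_apply, add_mul,
          Finset.sum_add_distrib, a, b, a', b', add_zero, and_self]
      zero_mem' := by simp
      smul_mem' := by
        rintro r v ⟨a, b⟩
        simp only [Set.mem_setOf_eq, Pi.smul_apply, smul_eq_mul, map_mul, Module.End.mul_apply,
          mul_assoc, ← map_sum, ← Finset.mul_sum, a, b, map_zero, mul_zero, and_self] }
  have hsing : ∀ (i : G) (μ : R), (∑ j, ρ.asAlgebraHom ((Pi.single i μ : G → R) j) (c j) =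
      ρ.asAlgebraHom μ (c i)) ∧ ∑ j, (Pi.single i μ : G → R) j * (o j - 1) = μ * (o i - 1) := by
    intro i μ
    constructor <;> rw [Finset.sum_eq_single i (fun j _ hj => by simp [Pi.single_eq_of_ne hj])
      (by simp), Pi.single_eq_same]
  let L : Submodule ℤ (G → ℤ) := Submodule.span ℤ
    {x | ∃ g h : G, x = Pi.single (g * h) 1 - Pi.single g 1 - Pi.single h 1}
  have hd := card_quot_dvd π hπ hk L fun g h => Submodule.subset_span ⟨g, h, rfl⟩
  have hQ : Nat.card Q ≠ 0 := Nat.card_pos.ne'
  haveI : Finite ((G → ℤ) ⧸ L) := Nat.finite_of_card_ne_zero fun h => hQ (by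
    rw [h] at hd; exact Nat.eq_zero_of_zero_dvd hd)
  obtain ⟨μ, h1, h2⟩ := det_kill ε Rel L (by
    intro x hx
    induction hx using Submodule.span_induction with
    | mem x hx =>
      obtain ⟨g, h, rfl⟩ := hx
      refine ⟨Pi.single (g * h) 1 - Pi.single g (o h) - Pi.single h 1, ⟨?_, ?_⟩, fun j => ?_⟩
      · simp only [Pi.sub_apply, map_sub, LinearMap.sub_apply, Finset.sum_sub_distrib, (hsing _ _).1,
          map_one, Module.End.one_apply, o, Representation.asAlgebraHom_of]
        ext x
        simp only [Pi.sub_apply, hρ, hc, Pi.zero_apply]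
        abel
      · simp only [Pi.sub_apply, sub_mul, Finset.sum_sub_distrib, (hsing _ _).2, o, map_mul]
        ring
      · have : ε (o h) = 1 := MonoidAlgebra.lift_of (1 : Q →* ℤ) (π h)
        simp only [Pi.sub_apply, map_sub, Pi.single_apply]
        split_ifs <;> simp [this]
    | zero => exact ⟨0, Rel.zero_mem, fun j => by simp⟩
    | add x y _ _ hx hy =>
      obtain ⟨u, hu, hu'⟩ := hx
      obtain ⟨v, hv, hv'⟩ := hy
      exact ⟨u + v, Rel.add_mem hu hv, fun j => by simp [hu', hv']⟩
    | smul a x _ hx =>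
      obtain ⟨u, hu, hu'⟩ := hx
      exact ⟨(a : R) • u, Rel.smul_mem _ hu, fun j => by simp [hu']⟩)
  have h3 : ∀ y : Q, μ.coeff y = μ.coeff 1 := by
    intro y
    obtain ⟨i, rfl⟩ := hπ y
    have := ((hsing i⁻¹ μ).2).symm.trans (h2 i⁻¹).2
    rw [mul_sub, mul_one, sub_eq_zero] at this
    conv_rhs => rw [← this]
    show _ = MonoidAlgebra.coeff (μ * MonoidAlgebra.single (π i⁻¹) 1) 1
    rw [MonoidAlgebra.coeff_mul_single_eq_coeff_mul (m₂ := π i) (H := fun m' _ => by
      rw [map_inv, mul_inv_eq_one]), mul_one]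
  have h4 : ε μ = μ.coeff 1 * Nat.card Q := by
    show MonoidAlgebra.lift ℤ ℤ Q 1 μ = _
    rw [MonoidAlgebra.lift_apply, Finsupp.sum_fintype _ _ (by simp)]
    simp [h3, mul_comm]
  have h5 : (μ.coeff 1).natAbs = 1 := by
    rw [← h1, h4, Int.natAbs_mul, Int.natAbs_natCast] at hd
    exact Nat.eq_one_of_dvd_one (Nat.dvd_of_mul_dvd_mul_right (Nat.pos_of_ne_zero hQ) (by simpa using hd))
  have h6 := congrFun (((hsing g μ).1).symm.trans (h2 g).1) 1
  rw [Representation.asAlgebraHom_def, MonoidAlgebra.lift_apply, Finsupp.sum_fintype _ _ (by simp)] at h6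
  simp only [h3, LinearMap.sum_apply, LinearMap.smul_apply, Finset.sum_apply, Pi.smul_apply, hρ, mul_one,
    ← Finset.smul_sum, Pi.zero_apply] at h6
  rcases Int.natAbs_eq_iff.1 h5 with h | h <;> rw [h] at h6 <;> simpa using h6

/-- The Principal Ideal Theorem of class field theory in its group-theoretic form: for every finite group `G`, the transfer homomorphism from `G` into the abelianization `G'/G''` of its derived subgroup `G'` is the trivial homomorphism. -/
theorem result {G : Type*} [Group G] [Finite G] :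
    MonoidHom.transfer (Abelianization.of : ↥(commutator G) →* Abelianization ↥(commutator G)) =
      (1 : G →* Abelianization ↥(commutator G)) := by
  classical
  ext g
  let T : (commutator G).LeftTransversal := default
  let α := T.2.leftQuotientEquiv
  have hα : ∀ q, ((α q : G) : G ⧸ commutator G) = q := fun q => T.2.quotientGroupMk_leftQuotientEquiv q
  have hm : ∀ (g : G) (x : G ⧸ commutator G), (α (g • x) : G)⁻¹ * (g * α x) ∈ commutator G := by
    intro g x
    rw [← QuotientGroup.eq, hα]
    conv_lhs => rw [← hα x]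
    rfl
  letI : Fintype (G ⧸ commutator G) := (commutator G).fintypeQuotientOfFiniteIndex
  letI : Fintype (Abelianization G) := (commutator G).fintypeQuotientOfFiniteIndex
  have := abstract (A := Additive (Abelianization (commutator G))) (Abelianization.of (G := G))
    QuotientGroup.mk_surjective (Abelianization.ker_of G).le
    (fun g x => Additive.ofMul (Abelianization.of ⟨_, hm g x⟩)) (fun g h x => by
      rw [← ofMul_mul, ← map_mul]
      congr 2
      obtain ⟨x, rfl⟩ := QuotientGroup.mk_surjective (s := commutator G) x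
      apply Subtype.ext
      show (α ((g * h) • (x : G ⧸ commutator G)) : G)⁻¹ * (g * h * α x) =
        (α (g • h • (x : G ⧸ commutator G)) : G)⁻¹ * (g * α (h • (x : G ⧸ commutator G))) *
          ((α (h • (x : G ⧸ commutator G)) : G)⁻¹ * (h * α x))
      rw [mul_smul]
      group) g
  rw [← ofMul_prod, ofMul_eq_zero] at this
  rw [MonoidHom.transfer_def _ T, MonoidHom.one_apply, ← this]
  refine (Fintype.prod_equiv (MulAction.toPerm g) _ _ fun x => ?_).symm
  simp only [Subgroup.smul_apply_eq_smul_apply_inv_smul, MulAction.toPerm_apply, inv_smul_smul, smul_eq_mul]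
  rfl

end Cfsg.Agent.S4320
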