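import Cfsg.Statements.S4323
import Cfsg.Agent.H25.Mart

set_option autoImplicit false
open Cfsg

namespace Cfsg.Agent.S4323

open Subgroup Cfsg.Agent.H20 Cfsg.Agent.H21 Cfsg.Agent.BG Cfsg.Agent.H25

/-- Let `q` be a prime and `A` a non-cyclic group of order `q²` acting by automorphisms on a finite group `G` of order prime to `q`, such that the fixed-point subgroup `C_G(a)` is abelian for every non-identity `a ∈ A`. Then `G` is solvable. -/
theorem result {A G : Type*} [Group A] [Finite A]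
    [Group G] [Finite G] [MulDistribMulAction A G] (q : ℕ) (hq : q.Prime) (hA : Nat.card A = q ^ 2) (hnc : ¬ IsCyclic A)
    (hcop : ¬ q ∣ Nat.card G) (h : ∀ a : A, a ≠ 1 → IsMulCommutative ↥(FixedPoints.subgroup (Subgroup.zpowers a) G)) :
    Group.IsSolvable G := by
  haveI := Fact.mk hq
  let φ := MulDistribMulAction.toMulAut A G
  have hc : IsMulCommutative A := IsPGroup.isMulCommutative_of_card_eq_prime_sq hA
  have hexp : ∀ a : A, a ^ q = 1 := fun a => by
    obtain ⟨i, hi, e⟩ := (Nat.dvd_prime_pow hq).1 (hA ▸ orderOf_dvd_natCard a)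
    rcases hi.lt_or_eq with hi | rfl
    · exact orderOf_dvd_iff_pow_eq_one.1 (e ▸ (pow_dvd_pow q (Nat.lt_succ_iff.1 hi)).trans (pow_one q).dvd)
    · exact absurd (isCyclic_of_orderOf_eq_card a (e.trans hA.symm)) hnc
  have H : Hy q ((⊤ : Subgroup G).map (Hol.l φ)) ((⊤ : Subgroup A).map (Hol.r φ)) := by
    refine ⟨elem_map ⟨comm_top_iff.2 hc, fun a _ => hexp a⟩ _, by rw [Hol.card_r_top, hA], Hol.le_norm_top _,
      by rw [Hol.card_l_top, Hol.card_r_top, hA]; exact ((hq.coprime_iff_not_dvd.2 hcop).symm.pow_right 2),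
      fun X hX hXq => ?_⟩
    obtain ⟨x, hx, h1⟩ := exists_ne_one (ne_bot_of_card_prime (hXq ▸ hq))
    obtain ⟨a, -, rfl⟩ := hX hx
    refine comm_iff.2 ?_
    rintro _ ⟨⟨g, -, rfl⟩, hg⟩ _ ⟨⟨k, -, rfl⟩, hk⟩
    have key : ∀ g : G, Hol.l φ g ∈ C⟦X⟧ → g ∈ FixedPoints.subgroup (zpowers a) G := fun g hg b =>
      Hol.l_mem_cent_iff.1 (cent_anti (show (zpowers a).map (Hol.r φ) ≤ X by
        rw [MonoidHom.map_zpowers]; exact zpowers_le.2 hx) hg) b b.2
    rw [← map_mul, ← map_mul, comm_iff.1 (h a fun e => h1 (by rw [e, map_one])) g (key g hg) k (key k hk)]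
  haveI := H.solvable_aux _ rfl
  exact solvable_of_solvable_injective (f := (Hol.l φ).codRestrict _ fun g => mem_map_of_mem _ (mem_top g))
    fun a b e => Hol.l_inj φ (congrArg Subtype.val e)

end Cfsg.Agent.S4323
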