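import Cfsg.Statements.S4416
import Cfsg.Agent.H26.ES2

set_option autoImplicit false
open Cfsg

namespace Cfsg.Agent.S4416

theorem aux {E : Type*} [Group E] [Finite E] {n : ℕ} (c : H26.ES 2 E (Fin n → ZMod 2)) (hc : c.ND)
    {m : ℕ} (hm : 1 ≤ m) (h : Module.finrank (ZMod 2) (Fin n → ZMod 2) = 2 * m) :
    (H13.IsPlus c.Q ∧ Nat.card {x : E // x ^ 2 = 1} = 2 ^ (2 * m) + 2 ^ m) ∨
    (¬ H13.IsPlus c.Q ∧ Nat.card {x : E // x ^ 2 = 1} + 2 ^ m = 2 ^ (2 * m)) := by
  obtain ⟨k, rfl⟩ := Nat.exists_eq_add_of_le' hm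
  have h1 : 2 ^ (k + 1) ≤ 2 ^ (2 * k + 1) := Nat.pow_le_pow_right two_pos (by omega)
  have h2 : 2 ^ (2 * (k + 1)) = 2 * 2 ^ (2 * k + 1) := by ring
  have h3 : 2 * (k + 1) - 1 = 2 * k + 1 := by omega
  by_cases hP : H13.IsPlus c.Q
  · refine Or.inl ⟨hP, ?_⟩
    rw [c.card_sq_eq_one, (c.nd_Q_iff.mpr hc).nz_plus hP hm h, Nat.card_zmod, h3, h2,
      Nat.add_sub_cancel, pow_succ 2 k]
    omega
  · refine Or.inr ⟨hP, ?_⟩
    rw [c.card_sq_eq_one, (c.nd_Q_iff.mpr hc).nz_minus hP hm h, Nat.card_zmod, h3, h2,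
      Nat.add_sub_cancel]
    rw [pow_succ 2 k] at h1 ⊢
    omega

/-- Classification of extraspecial 2-groups in intrinsic form. An extraspecial 2-group has order 2^(2m+1) for some m ≥ 1, and the number of its elements squaring to the identity is either 2^(2m) + 2^m or 2^(2m) − 2^m; two extraspecial 2-groups of the same order with the same number of such elements are isomorphic. (The two cases are the central products of m dihedral groups of order 8, and of m − 1 dihedral groups with one quaternion group.) -/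
theorem result (E : Type*) [Group E] [Finite E] (hE : Cfsg.IsExtraspecial 2 E) :
    (∃ m : ℕ, 1 ≤ m ∧ Nat.card E = 2 ^ (2 * m + 1) ∧
      (Nat.card {x : E // x ^ 2 = 1} = 2 ^ (2 * m) + 2 ^ m ∨ Nat.card {x : E // x ^ 2 = 1} = 2 ^ (2 * m) - 2 ^ m)) ∧
    ∀ (E' : Type*) [Group E'] [Finite E'], Cfsg.IsExtraspecial 2 E' → Nat.card E' = Nat.card E →
      Nat.card {x : E' // x ^ 2 = 1} = Nat.card {x : E // x ^ 2 = 1} → Nonempty (E ≃* E') := by
  obtain ⟨n, c, hc⟩ := H26.exists_ES_of_isExtraspecial hE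
  obtain ⟨m, hm⟩ := hc.exists_finrank
  have := c.nontrivial_of_isExtraspecial hE
  have h1 : 0 < Module.finrank (ZMod 2) (Fin n → ZMod 2) := Module.finrank_pos
  have h2 : 1 ≤ m := by omega
  have h3 := aux c hc h2 hm
  refine ⟨⟨m, h2, by rw [c.card_eq_pow, hm], h3.imp (fun h => h.2) fun h => by omega⟩,
    fun E' _ _ hE' h4 h5 => ?_⟩
  obtain ⟨n', d, hd⟩ := H26.exists_ES_of_isExtraspecial hE'
  rw [c.card_eq_pow, d.card_eq_pow] at h4
  have e := Nat.succ_injective (Nat.pow_right_injective le_rfl h4)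
  have h6 := aux d hd h2 (e.trans hm)
  have h7 : 0 < 2 ^ m := by positivity
  refine c.nonempty_mulEquiv_of_type d hc hd e.symm ?_
  rcases h3 with h3 | h3 <;> rcases h6 with h6 | h6
  · exact iff_of_true h3.1 h6.1
  · omega
  · omega
  · exact iff_of_false h3.1 h6.1

end Cfsg.Agent.S4416
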