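import Cfsg.Statements.S4421
import Cfsg.Agent.H1.Basic

set_option autoImplicit false
open Cfsg

namespace Cfsg.Agent.S4421


/-- A factorization of a normalizer from two-step control of fusion. Let `G` be a finite group and `A ≤ S ≤ H` subgroups of `G` such that: (i) `S` controls the `G`-fusion of `A` in the sense that every `G`-conjugate of `A` lying in `S` is an `S`-conjugate of `A`; (ii) `H` controls the `G`-fusion of `S` in the same sense; (iii) every conjugate of `S` by an element of the normalizer of `A` lies in `H`. Then `N_G(A) = N_H(A) · (N_G(S) ∩ N_G(A))`: every element of the normalizer of `A` is a product of an element of `H` normalizing `A` and an element normalizing both `S` and `A`. -/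
theorem result {G : Type*} [Group G] [Finite G] (A S H : Subgroup G)
    (hAS : A ≤ S) (hSH : S ≤ H)
    (h1 : ∀ g : G, A.map (MulAut.conj g).toMonoidHom ≤ S → ∃ s ∈ S, A.map (MulAut.conj g).toMonoidHom = A.map (MulAut.conj s).toMonoidHom)
    (h2 : ∀ g : G, S.map (MulAut.conj g).toMonoidHom ≤ H → ∃ y ∈ H, S.map (MulAut.conj g).toMonoidHom = S.map (MulAut.conj y).toMonoidHom)
    (h3 : ∀ x ∈ Subgroup.normalizer (A : Set G), S.map (MulAut.conj x).toMonoidHom ≤ H) :
    ∀ x ∈ Subgroup.normalizer (A : Set G), ∃ y ∈ H ⊓ Subgroup.normalizer (A : Set G),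
      ∃ z ∈ Subgroup.normalizer (S : Set G) ⊓ Subgroup.normalizer (A : Set G), x = y * z := by
  intro x hx
  have hmul : ∀ (K : Subgroup G) (a b : G), K.map (MulAut.conj (a * b)).toMonoidHom =
      (K.map (MulAut.conj b).toMonoidHom).map (MulAut.conj a).toMonoidHom := by
    intro K a b
    ext y
    simp only [H1.mem_map_conj, mul_inv_rev, mul_assoc]
  have hnorm : ∀ (K : Subgroup G) (a : G), a ∈ Subgroup.normalizer (K : Set G) ↔
      K.map (MulAut.conj a).toMonoidHom = K := fun K a => H1.conj_smul_eq_iff_mem_normalizer.symm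
  obtain ⟨y, hy, hxy⟩ := h2 x (h3 x hx)
  have hz : y⁻¹ * x ∈ Subgroup.normalizer (S : Set G) := by
    rw [hnorm, hmul, hxy, ← hmul, inv_mul_cancel, ← hnorm]
    exact Subgroup.one_mem _
  have hA : A.map (MulAut.conj (y⁻¹ * x)).toMonoidHom ≤ S := by
    rw [← (hnorm S _).mp hz]
    exact Subgroup.map_mono hAS
  obtain ⟨s, hs, hs2⟩ := h1 _ hA
  have hz2 : s⁻¹ * (y⁻¹ * x) ∈ Subgroup.normalizer (A : Set G) := by
    rw [hnorm, hmul, hs2, ← hmul, inv_mul_cancel, ← hnorm]
    exact Subgroup.one_mem _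
  refine ⟨y * s, ⟨H.mul_mem hy (hSH hs), ?_⟩, s⁻¹ * (y⁻¹ * x),
    ⟨Subgroup.mul_mem _ (Subgroup.inv_mem _ (Subgroup.le_normalizer hs)) hz, hz2⟩, by group⟩
  have : y * s = x * (s⁻¹ * (y⁻¹ * x))⁻¹ := by group
  rw [this]
  exact Subgroup.mul_mem _ hx (Subgroup.inv_mem _ hz2)

end Cfsg.Agent.S4421
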