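import Cfsg.Statements.S4422


set_option autoImplicit false
open Cfsg

namespace Cfsg.Agent.S4422


/-- Primitive divisors of `q^e - 1` are congruent to 1 modulo `e`. Let `q ≥ 2` and `e ≥ 1` be natural numbers and let `m` be a divisor of `q^e - 1` that is coprime to `q^i - 1` for every `1 ≤ i < e` (so `m` divides the primitive part of `q^e - 1`, the largest such divisor). Then `m ≡ 1 (mod e)`. -/
theorem result (q e m : ℕ) (hq : 2 ≤ q) (he : 1 ≤ e)
    (hm : m ∣ q ^ e - 1) (hcop : ∀ i : ℕ, 1 ≤ i → i < e → Nat.Coprime m (q ^ i - 1)) :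
    m % e = 1 % e := by
  have hm0 : m ≠ 0 := by
    rintro rfl
    have h1 : q ^ e - 1 = 0 := Nat.eq_zero_of_zero_dvd hm
    have : 1 < q ^ e := Nat.one_lt_pow (by omega) (by omega)
    omega
  have key : ∀ p : ℕ, p.Prime → p ∣ m → p ≡ 1 [MOD e] := by
    intro p hp hd
    have : Fact p.Prime := ⟨hp⟩
    have hq1 : 1 ≤ q ^ e := Nat.one_le_pow _ _ (by omega)
    have h1 : (q : ZMod p) ^ e = 1 := by
      have := (ZMod.natCast_eq_zero_iff (q ^ e - 1) p).mpr (hd.trans hm)
      rw [Nat.cast_sub hq1] at this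
      simpa [sub_eq_zero] using this
    have hq0 : (q : ZMod p) ≠ 0 := by
      intro h
      rw [h, zero_pow (by omega)] at h1
      exact zero_ne_one h1
    have h2 : orderOf (q : ZMod p) = e := by
      rw [orderOf_eq_iff (by omega)]
      refine ⟨h1, fun i hi hi0 h => ?_⟩
      have hq2 : 1 ≤ q ^ i := Nat.one_le_pow _ _ (by omega)
      have : p ∣ q ^ i - 1 := by
        rw [← ZMod.natCast_eq_zero_iff, Nat.cast_sub hq2]
        simp [h]
      exact hp.one_lt.ne' (Nat.eq_one_of_dvd_coprimes (hcop i hi0 hi) hd this)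
    have h3 := ZMod.orderOf_dvd_card_sub_one hq0
    rw [h2] at h3
    exact ((Nat.modEq_iff_dvd' hp.one_le).mpr h3).symm
  have : ∀ n : ℕ, n ≠ 0 → (∀ p : ℕ, p.Prime → p ∣ n → p ≡ 1 [MOD e]) → n ≡ 1 [MOD e] := by
    intro n
    induction n using induction_on_primes with
    | zero => simp
    | one => intro _ _; rfl
    | prime_mul p a hp ih =>
      intro h0 h
      have := (h p hp (Dvd.intro _ rfl)).mul (ih (by rintro rfl; simp at h0)
        fun r hr hd => h r hr (hd.mul_left p))
      simpa using this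
  exact this m hm0 key

end Cfsg.Agent.S4422
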