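import Cfsg.Statements.S4426
import Mathlib
import Cfsg.Agent.H8.Height

set_option autoImplicit false
open Cfsg

namespace Cfsg.Agent.S4426

-- OPENS
open Cfsg.Agent.H8
open Cfsg.Agent.H6 hiding block_eq_blockOf block_eq_of_mem block_nonempty centralChar_mem
  char_mem conj_char_mem irrOne_mem_principal isPBlock_blockOf isPBlock_principal
  mem_blockOf_self orderOf_conj' sameBlock_refl sameBlock_symm sameBlock_trans weak_orth
open Cfsg.Agent.H4
open Cfsg.Agent.H5
open Cfsg.Agent.H3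


/-- Let χ be an irreducible character in the p-block B of the finite group G (relative to a maximal ideal M of the algebraic integers containing p), let p^a be the p-part of the order of G, and let χ̃ be the class function equal to p^a · χ on p-regular elements and zero elsewhere. For ξ ∈ B the inner product [χ̃, ξ] is an integer. The following are equivalent: (a) χ has height zero in B; (b) for some ξ ∈ B the integer [χ̃, ξ] is nonzero and the exact power of p dividing it equals the exact power of p dividing ξ(1); (c) the same holds for every ξ ∈ B. -/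
theorem result {G : Type*} [Group G] [Fintype G] (p : ℕ) [Fact p.Prime] (M : Ideal Cfsg.AlgInt) (hM : Cfsg.IsPModular p M) (B : Set (Cfsg.IrrCharacter G)) (hB : Cfsg.IsPBlock M B) (χ : Cfsg.IrrCharacter G) (hχ : χ ∈ B) : (Cfsg.blockHeight p B (χ : G → ℂ) = 0 ↔ ∃ ξ ∈ B, ∃ n : ℤ, Cfsg.classInner (fun x : G => if p ∣ orderOf x then (0 : ℂ) else ((p ^ (Nat.card G).factorization p : ℕ) : ℂ) * (χ : G → ℂ) x) (ξ : G → ℂ) = (n : ℂ) ∧ n ≠ 0 ∧ padicValInt p n = (Cfsg.charDegree (ξ : G → ℂ)).factorization p) ∧ (Cfsg.blockHeight p B (χ : G → ℂ) = 0 ↔ ∀ ξ ∈ B, ∃ n : ℤ, Cfsg.classInner (fun x : G => if p ∣ orderOf x then (0 : ℂ) else ((p ^ (Nat.card G).factorization p : ℕ) : ℂ) * (χ : G → ℂ) x) (ξ : G → ℂ) = (n : ℂ) ∧ n ≠ 0 ∧ padicValInt p n = (Cfsg.charDegree (ξ : G → ℂ)).factorization p) := by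
  rw [ite_eq_tilde]
  have hp : p.Prime := Fact.out
  have key : ∀ ξ ∈ B, ((∃ n : ℤ, classInner (tilde p (χ : G → ℂ)) (ξ : G → ℂ) = (n : ℂ) ∧ n ≠ 0 ∧
      padicValInt p n = (charDegree (ξ : G → ℂ)).factorization p) ↔
        blockHeight p B (χ : G → ℂ) = 0) := by
    intro ξ hξ
    rw [← tm_cast χ.2.isGen ξ.2.isGen]
    constructor
    · rintro ⟨n, hn, h⟩
      have hn' : tm p (χ : G → ℂ) ξ = n := by exact_mod_cast hn
      rw [padicValInt_eq_iff hp, ← hn'] at h
      by_contra h0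
      exact h.2 (dvd_tm_of_height_pos hM hB hχ h0 hξ)
    · intro h0
      exact ⟨_, rfl, (padicValInt_eq_iff hp).mpr
        ⟨pow_dvd_tm_right χ.2.isGen ξ, not_dvd_tm_of_height_zero hM hB hχ h0 hξ⟩⟩
  refine ⟨⟨fun h0 => ⟨χ, hχ, (key χ hχ).mpr h0⟩, fun ⟨ξ, hξ, h⟩ => (key ξ hξ).mp h⟩,
    ⟨fun h0 ξ hξ => (key ξ hξ).mpr h0, fun h => (key χ hχ).mp (h χ hχ)⟩⟩

end Cfsg.Agent.S4426
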