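import Cfsg.Statements.S4428
import Mathlib
import Cfsg.Agent.H8.Subsec2

set_option autoImplicit false
open Cfsg

namespace Cfsg.Agent.S4428

-- OPENS
open Cfsg.Agent.H8
open Cfsg.Agent.H6 hiding blockCoeff_eq_zero blockCoeff_mem blockPart_add
  blockPart_eq_zero_of_regular blockPart_eq_zero_of_singular blockPart_irr_of_mem
  blockPart_irr_of_not_mem blockPart_isClassFunction blockPart_smul blockPart_sub blockPart_sum
  blockPart_zero block_eq_blockOf block_eq_of_mem block_nonempty centralChar_mem char_mem
  conj_char_mem irrOne_mem_principal isPBlock_blockOf isPBlock_principal mem_blockOf_self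
  orderOf_conj' sameBlock_refl sameBlock_symm sameBlock_trans weak_orth weak_orth'
open Cfsg.Agent.H4 hiding exists_int_of_isIntegral_rat
open Cfsg.Agent.H5
open Cfsg.Agent.H3


/-- Let χ be an irreducible character of height zero in the p-block B of the finite group G (relative to a maximal ideal M of the algebraic integers containing p). Let x be a p-element of G with centralizer C, and let b be a block of C that induces B. Form the class function ϑ(c) = χ(x c) on C and its b-part (the sum over ψ ∈ b of the inner product of ϑ with ψ, times ψ). Then the b-part of ϑ does not vanish identically on the p-regular elements of C. (Compare the second main Theorem, which gives vanishing when b does not induce B.) -/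
theorem result {G : Type*} [Group G] [Finite G] (p : ℕ) [Fact p.Prime] (M : Ideal Cfsg.AlgInt) (hM : Cfsg.IsPModular p M) (B : Set (Cfsg.IrrCharacter G)) (hB : Cfsg.IsPBlock M B) (χ : Cfsg.IrrCharacter G) (hχ : χ ∈ B) (h0 : Cfsg.blockHeight p B (χ : G → ℂ) = 0) (x : G) (hx : ∃ k : ℕ, orderOf x = p ^ k) (b : Set (Cfsg.IrrCharacter (Subgroup.centralizer ({x} : Set G)))) (hb : Cfsg.IsInducedBlock M (Subgroup.centralizer ({x} : Set G)) b B) : ∃ y : Subgroup.centralizer ({x} : Set G), ¬ p ∣ orderOf y ∧ Cfsg.blockPart b (fun c : Subgroup.centralizer ({x} : Set G) => (χ : G → ℂ) (x * (c : G))) y ≠ 0 := by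
  have := hM.2.1
  have := Fintype.ofFinite G
  have := Fintype.ofFinite (Subgroup.centralizer ({x} : Set G))
  have h1 := (secData_centralizer hx).sub_ne_zero hM hb hχ h0
  by_contra hcon
  push Not at hcon
  apply h1
  ext y
  rw [sub, pReg_eq_ite]
  split_ifs with hy
  · rfl
  · exact hcon y hy

end Cfsg.Agent.S4428
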