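import Cfsg.Statements.S4431
import Mathlib
import Cfsg.Agent.H8.Induced

set_option autoImplicit false
open Cfsg

namespace Cfsg.Agent.S4431

-- OPENS
open Cfsg.Agent.H8
open Cfsg.Agent.H6 hiding blockCoeff_eq_zero blockCoeff_mem blockPart_add
  blockPart_eq_zero_of_regular blockPart_eq_zero_of_singular blockPart_irr_of_mem
  blockPart_irr_of_not_mem blockPart_isClassFunction blockPart_smul blockPart_sub blockPart_sum
  blockPart_zero block_eq_blockOf block_eq_of_mem block_nonempty centralChar_mem char_mem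
  conj_char_mem irrOne_mem_principal isPBlock_blockOf isPBlock_principal mem_blockOf_self
  orderOf_conj' sameBlock_refl sameBlock_symm sameBlock_trans weak_orth weak_orth'
open Cfsg.Agent.H4 hiding exists_int_of_isIntegral_rat
open Cfsg.Agent.H5
open Cfsg.Agent.H3


/-- Let H be a subgroup of the finite group G and b a block of H whose induced block B₀ in G is defined (relative to a maximal ideal M of the algebraic integers containing p). Let χ be an irreducible character of G, ψ ∈ b, and let η be the class function on H equal to p^a · χ on the p-regular elements of H and zero elsewhere, p^a being the p-part of the order of H. Then (a) if χ ∉ B₀, the number [η, ψ]/ψ(1) lies in the local ideal at M; (b) if χ ∈ B₀ has height zero, it does not. -/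
theorem result {G : Type*} [Group G] [Fintype G] (p : ℕ) [Fact p.Prime] (M : Ideal Cfsg.AlgInt) (hM : Cfsg.IsPModular p M) (H : Subgroup G) [Fintype H] (b : Set (Cfsg.IrrCharacter H)) (B₀ : Set (Cfsg.IrrCharacter G)) (hind : Cfsg.IsInducedBlock M H b B₀) (χ : Cfsg.IrrCharacter G) (ψ : Cfsg.IrrCharacter H) (hψ : ψ ∈ b) : (χ ∉ B₀ → Cfsg.MemLocalIdeal M (Cfsg.classInner (fun h : H => if p ∣ orderOf h then (0 : ℂ) else ((p ^ (Nat.card H).factorization p : ℕ) : ℂ) * (χ : G → ℂ) h) (ψ : H → ℂ) / (ψ : H → ℂ) 1)) ∧ (χ ∈ B₀ → Cfsg.blockHeight p B₀ (χ : G → ℂ) = 0 → ¬ Cfsg.MemLocalIdeal M (Cfsg.classInner (fun h : H => if p ∣ orderOf h then (0 : ℂ) else ((p ^ (Nat.card H).factorization p : ℕ) : ℂ) * (χ : G → ℂ) h) (ψ : H → ℂ) / (ψ : H → ℂ) 1)) := by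
  have := hM.2.1
  have h0 := ite_eq_tilde (p := p) (fun h : H => (χ : G → ℂ) h)
  rw [h0, ← tm_cast (χ.2.isGen.restrict H) ψ.2.isGen,
    ← redC_eq_zero_iff (tm_div_mem hM (χ.2.isGen.restrict H) ψ.2)]
  obtain ⟨χ', hχ'⟩ := block_nonempty hind.2.1
  have key := redC_tm_res_div hM hind hψ hχ' χ.2.isGen
  have h1 := redC_pow_div_ne_zero hM (n := Nat.card G) Nat.card_pos.ne'
  have h2 := redC_pow_div_ne_zero hM (n := Nat.card H) Nat.card_pos.ne'
  constructor
  · intro hχ
    rw [tm_symm χ.2.isGen χ'.2.isGen, tm_eq_zero_of_mem hM hind.2.1 hχ' hχ] at key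
    rwa [Int.cast_zero, zero_div, redC_zero, mul_zero, mul_eq_zero, or_iff_right h1] at key
  · intro hχ hh h
    rw [h, mul_zero, eq_comm, mul_eq_zero, or_iff_right h2,
      redC_tm_div_eq_zero_iff hM χ.2.isGen] at key
    exact not_dvd_tm_of_height_zero hM hind.2.1 hχ hh hχ' key

end Cfsg.Agent.S4431
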