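import Cfsg.Statements.S4434
import Cfsg.Agent.H7.Quot
-- import your own Cfsg.Agent.* helpers here

set_option autoImplicit false
open Cfsg

namespace Cfsg.Agent.S4434

open MonoidAlgebra Cfsg.Agent.H3 Cfsg.Agent.H4 Cfsg.Agent.H7
open Cfsg.Agent.H6 (Res locRing redC redA eB fB intAlg classSum omega chiL)
open scoped Pointwise
set_option linter.style.haveILetI false


/-- Let N be a normal p-subgroup of the finite group G and write Ḡ = G/N; fix a maximal ideal M of the algebraic integers containing p. Then every block B of G contains a block B̄ of Ḡ (the inflation of every member of B̄ lies in B) whose defect groups are exactly the images in Ḡ of the defect groups of B. -/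
theorem result {G : Type*} [Group G] [Finite G] (p : ℕ) [Fact p.Prime] (M : Ideal Cfsg.AlgInt) (hM : Cfsg.IsPModular p M) (N : Subgroup G) [N.Normal] (hN : IsPGroup p N) (B : Set (Cfsg.IrrCharacter G)) (hB : Cfsg.IsPBlock M B) : ∃ Bbar : Set (Cfsg.IrrCharacter (G ⧸ N)), Cfsg.IsPBlock M Bbar ∧ (∀ χ ∈ Bbar, ∀ ψ : Cfsg.IrrCharacter G, (ψ : G → ℂ) = (χ : G ⧸ N → ℂ) ∘ QuotientGroup.mk → ψ ∈ B) ∧ ∀ Dbar : Subgroup (G ⧸ N), Cfsg.IsDefectGroup p M Bbar Dbar ↔ ∃ P : Subgroup G, Cfsg.IsDefectGroup p M B P ∧ Dbar = P.map (QuotientGroup.mk' N) := by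
  haveI := hM.2.1
  haveI := H6.charP_res hM
  have hs := QuotientGroup.mk'_surjective N
  obtain ⟨P, hP⟩ := exists_isDef p (blk_eB hB)
  obtain ⟨b, hb, h1, h2⟩ := exists_blk_isDef_map hs (by rwa [QuotientGroup.ker_mk']) (blk_eB hB) hP
  obtain ⟨b, hb', rfl⟩ := exists_eB_eq hb
  refine ⟨b, hb', (forall_comp_mem_iff hs hB hb').2 h1, fun D => ?_⟩
  rw [isDefectGroup_iff hM hb']
  constructor
  · intro hD
    obtain ⟨x, -, hx⟩ := h2.exists_conj hD
    obtain ⟨x, rfl⟩ := hs x
    exact ⟨_, (isDefectGroup_iff hM hB).2 (hP.conj_mem (eB_mem_Fix B).2 (g := x) trivial),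
      by rw [← hx, conj_smul_map']⟩
  · rintro ⟨Q, hQ, rfl⟩
    obtain ⟨x, -, rfl⟩ := hP.exists_conj ((isDefectGroup_iff hM hB).1 hQ)
    rw [← conj_smul_map']
    exact h2.conj_mem (eB_mem_Fix b).2 trivial

end Cfsg.Agent.S4434
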