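import Cfsg.Statements.S4435
import Cfsg.Agent.H7.Cover2
-- import your own Cfsg.Agent.* helpers here

set_option autoImplicit false
open Cfsg

namespace Cfsg.Agent.S4435

open MonoidAlgebra Cfsg.Agent.H3 Cfsg.Agent.H4 Cfsg.Agent.H7
open Cfsg.Agent.H6 (Res locRing redC redA eB fB intAlg classSum omega chiL)
open scoped Pointwise
set_option linter.style.haveILetI false


/-- Let N be a normal subgroup of the finite group G, b a block of N (relative to a maximal ideal M of the algebraic integers containing p), and T the stabilizer of b in G (the elements g such that conjugating any member of b by g gives a member of b); N ≤ T. Say that a block of T (or of G) covers b when some member has a constituent in b on restriction to N. Then: (i) every block B′ of T covering b induces a block B of G, B covers b, every ψ ∈ B′ induces to an irreducible character of G, and B consists exactly of the characters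 induced from members of B′; (ii) distinct blocks of T covering b induce distinct blocks of G; (iii) every block of G covering b is induced by some block of T covering b. -/
theorem result {G : Type*} [Group G] [Fintype G] (p : ℕ) [Fact p.Prime] (M : Ideal Cfsg.AlgInt) (hM : Cfsg.IsPModular p M) (N : Subgroup G) [hN : N.Normal] [Fintype N] (b : Set (Cfsg.IrrCharacter N)) (hb : Cfsg.IsPBlock M b) (T : Subgroup G) [Fintype T] (hT : ∀ g : G, g ∈ T ↔ ∀ θ ∈ b, ∀ θ' : Cfsg.IrrCharacter N, (∀ n : N, (θ' : N → ℂ) n = (θ : N → ℂ) ⟨g * n * g⁻¹, hN.conj_mem n n.2 g⟩) → θ' ∈ b) (hNT : N ≤ T) : (∀ B' : Set (Cfsg.IrrCharacter T), Cfsg.IsPBlock M B' → (∃ ψ ∈ B', ∃ θ ∈ b, Cfsg.classInner (fun n : N => (ψ : T → ℂ) ⟨(n : G), hNT n.2⟩) (θ : N → ℂ) ≠ 0) → ∃ B : Set (Cfsg.IrrCharacter G), Cfsg.IsInducedBlock M T B' B ∧ (∃ χ ∈ B, ∃ θ ∈ b, Cfsg.classInner (fun n : N => (χ : G → ℂ) n) (θ : N → ℂ) ≠ 0) ∧ (∀ ψ ∈ B',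 Cfsg.IsIrrCharacter G (Cfsg.indFun T (ψ : T → ℂ))) ∧ ∀ χ : Cfsg.IrrCharacter G, χ ∈ B ↔ ∃ ψ ∈ B', (χ : G → ℂ) = Cfsg.indFun T (ψ : T → ℂ)) ∧ (∀ B'₁ B'₂ : Set (Cfsg.IrrCharacter T), Cfsg.IsPBlock M B'₁ → Cfsg.IsPBlock M B'₂ → (∃ ψ ∈ B'₁, ∃ θ ∈ b, Cfsg.classInner (fun n : N => (ψ : T → ℂ) ⟨(n : G), hNT n.2⟩) (θ : N → ℂ) ≠ 0) → (∃ ψ ∈ B'₂, ∃ θ ∈ b, Cfsg.classInner (fun n : N => (ψ : T → ℂ) ⟨(n : G), hNT n.2⟩) (θ : N → ℂ) ≠ 0) → ∀ B : Set (Cfsg.IrrCharacter G), Cfsg.IsInducedBlock M T B'₁ B → Cfsg.IsInducedBlock M T B'₂ B → B'₁ = B'₂) ∧ (∀ B : Set (Cfsg.IrrCharacter G), Cfsg.IsPBlock M B → (∃ χ ∈ B, ∃ θ ∈ b, Cfsg.classInner (fun n : N => (χ : G → ℂ) n) (θ : N → ℂ) ≠ 0) → ∃ B' : Set (Cfsg.IrrCharacter T), Cfsg.IsPBlock M B' ∧ (∃ ψ ∈ B', ∃ θ ∈ b, Cfsg.classInner (fun n : N => (ψ : T → ℂ) ⟨(n : G), hNT n.2⟩) (θ : N → ℂ) ≠ 0) ∧ Cfsg.IsInducedBlock M T B' B) := by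
  haveI := hM.2.1
  haveI := H6.charP_res hM
  have hN' : (⊤ : Subgroup G) ≤ Subgroup.normalizer (N : Set G) := Subgroup.le_normalizer_of_normal
  have hT' := stab_eq_of_forall hb hT
  refine ⟨fun B' hB' h => ?_, fun B₁ B₂ h1 h2 h3 h4 B h5 h6 => ?_, fun B hB h => ?_⟩
  · have h1 := (covers_iff_eb_eb hNT hB' hb).1 h
    obtain ⟨B, hB, h2⟩ := (fr_ind le_top hN' (blk_eb hb) hT' (blk_eb hB') h1).exists_isInducedBlock
      hB'
    refine ⟨B, hB, (covers_iff_eb hB.2.1 hb).2 ?_, fun ψ hψ => fr_isIrr_indFun hb hT' ?_,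
      fr_mem_iff hb hT' hB' h1 hB.2.1 h2.symm⟩
    · rw [h2, fr_orbSum_mul le_top hN' (blk_eb hb) hT' (blk_eb hB') h1]
      exact (blk_eb hB').ne_zero
    · rwa [← H6.block_eq_blockOf hB' hψ]
  · have h3' := (covers_iff_eb_eb hNT h1 hb).1 h3
    have h4' := (covers_iff_eb_eb hNT h2 hb).1 h4
    refine eb_injective h1 h2 ?_
    rw [← fr_orbSum_mul le_top hN' (blk_eb hb) hT' (blk_eb h1) h3',
      ← fr_orbSum_mul le_top hN' (blk_eb hb) hT' (blk_eb h2) h4',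
      (fr_ind le_top hN' (blk_eb hb) hT' (blk_eb h1) h3').unique (IsInducedBlock.ind h5),
      (fr_ind le_top hN' (blk_eb hb) hT' (blk_eb h2) h4').unique (IsInducedBlock.ind h6)]
  · obtain ⟨B', h1, h2, h3⟩ := fr_exists le_top hN' (blk_eb hb) hT' (blk_eB hB)
      ((covers_iff_eb hB hb).1 h)
    obtain ⟨B', hB', rfl⟩ := exists_eb_eq h1
    exact ⟨B', hB', (covers_iff_eb_eb hNT hB' hb).2 h2, isInducedBlock_iff_ind.2
      ⟨hB', hB, h3 ▸ fr_ind le_top hN' (blk_eb hb) hT' h1 h2⟩⟩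

end Cfsg.Agent.S4435
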