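import Cfsg.Statements.S4436
import Cfsg.Agent.H7.Cover2
import Cfsg.Agent.H8.Basic
-- import your own Cfsg.Agent.* helpers here

set_option autoImplicit false
open Cfsg

namespace Cfsg.Agent.S4436

open MonoidAlgebra Cfsg.Agent.H3 Cfsg.Agent.H4 Cfsg.Agent.H7
open Cfsg.Agent.H6 (Res locRing redC redA eB fB intAlg classSum omega chiL)
open scoped Pointwise
set_option linter.style.haveILetI false


/-- Let N be a normal subgroup of the finite group G, b a block of N (relative to a maximal ideal M of the algebraic integers containing p), T the stabilizer of b in G, N ≤ T, and B′ a block of T covering b (some member of B′ has a constituent in b on restriction to N) that induces the block B of G. Then every defect group of B′ is a defect group of B, and for every ψ ∈ B′ the induced character ψ^G is an irreducible character of G lying in B with the same height as ψ. -/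
theorem result {G : Type*} [Group G] [Fintype G] (p : ℕ) [Fact p.Prime] (M : Ideal Cfsg.AlgInt) (hM : Cfsg.IsPModular p M) (N : Subgroup G) [hN : N.Normal] [Fintype N] (b : Set (Cfsg.IrrCharacter N)) (hb : Cfsg.IsPBlock M b) (T : Subgroup G) [Fintype T] (hT : ∀ g : G, g ∈ T ↔ ∀ θ ∈ b, ∀ θ' : Cfsg.IrrCharacter N, (∀ n : N, (θ' : N → ℂ) n = (θ : N → ℂ) ⟨g * n * g⁻¹, hN.conj_mem n n.2 g⟩) → θ' ∈ b) (hNT : N ≤ T) (B' : Set (Cfsg.IrrCharacter T)) (hB' : Cfsg.IsPBlock M B') (hcov : (∃ ψ ∈ B', ∃ θ ∈ b, Cfsg.classInner (fun n : N => (ψ : T → ℂ) ⟨(n : G), hNT n.2⟩) (θ : N → ℂ) ≠ 0)) (B : Set (Cfsg.IrrCharacter G)) (hind : Cfsg.IsInducedBlock M T B' B) : (∀ D : Subgroup T, Cfsg.IsDefectGroup p M B' D → Cfsg.IsDefectGroup p M B (D.map T.subtype)) ∧ ∀ ψ ∈ B', ∃ χ ∈ B, (χ : G → ℂ) = Cfsg.indFun T (ψ : T → ℂ) ∧ Cfsg.blockHeight p B (χ : G → ℂ) = Cfsg.blockHeight p B' (ψ : T → ℂ) := by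
  haveI := hM.2.1
  haveI := H6.charP_res hM
  have hN' : (⊤ : Subgroup G) ≤ Subgroup.normalizer (N : Set G) := Subgroup.le_normalizer_of_normal
  have hT' := stab_eq_of_forall hb hT
  have h1 := (covers_iff_eb_eb hNT hB' hb).1 hcov
  have hB := hind.2.1
  have h2 := (fr_ind le_top hN' (blk_eb hb) hT' (blk_eb hB') h1).unique (IsInducedBlock.ind hind)
  refine ⟨fun D hD => (isDefectGroup_iff hM hB).2 (h2 ▸ fr_isDef le_top hN' (blk_eb hb) hT'
    (blk_eb hB') h1 ((isDefectGroup_iff_eb hM hB').1 hD)), fun ψ hψ => ?_⟩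
  have h3 := fr_mem_iff hb hT' hB' h1 hB h2
  have h4 : ∀ ψ ∈ B', IsIrrCharacter G (indFun T (ψ : T → ℂ)) := fun ψ hψ =>
    fr_isIrr_indFun hb hT' (by rwa [← H6.block_eq_blockOf hB' hψ])
  have h5 : ∀ ψ : IrrCharacter T, (charDegree (indFun T (ψ : T → ℂ))).factorization p =
      T.index.factorization p + (charDegree (ψ : T → ℂ)).factorization p := fun ψ => by
    rw [H8.charDegree_eq_of_apply_one (n := T.index * charDegree (ψ : T → ℂ)) (by
      rw [H5.indFun_one, Nat.cast_mul, H8.irr_coe_charDegree]), Nat.factorization_mul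
      Subgroup.index_ne_zero_of_finite (H8.irr_charDegree_ne_zero ψ), Finsupp.add_apply]
  have h6 : H6.minExp p B = T.index.factorization p + H6.minExp p B' := by
    apply le_antisymm
    · obtain ⟨φ, hφ, h⟩ := H6.exists_minExp (p := p) (H6.block_nonempty hB')
      have := H6.minExp_le (p := p) ((h3 ⟨_, h4 φ hφ⟩).2 ⟨φ, hφ, rfl⟩)
      rwa [h5, h] at this
    · obtain ⟨χ, hχ, h⟩ := H6.exists_minExp (p := p) (H6.block_nonempty hB)
      obtain ⟨φ, hφ, h'⟩ := (h3 χ).1 hχ
      rw [← h, h', h5]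
      exact Nat.add_le_add_left (H6.minExp_le hφ) _
  refine ⟨⟨_, h4 ψ hψ⟩, (h3 _).2 ⟨ψ, hψ, rfl⟩, rfl, ?_⟩
  rw [H6.blockHeight_eq, H6.blockHeight_eq, h6, h5, Nat.add_sub_add_left]

end Cfsg.Agent.S4436
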