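import Cfsg.Statements.S4437
import Cfsg.Agent.H7.Local5
-- import your own Cfsg.Agent.* helpers here

set_option autoImplicit false
open Cfsg

namespace Cfsg.Agent.S4437

open MonoidAlgebra Cfsg.Agent.H3 Cfsg.Agent.H4 Cfsg.Agent.H7
open Cfsg.Agent.H6 (Res locRing redC redA eB fB intAlg classSum omega chiL)
open scoped Pointwise
set_option linter.style.haveILetI false


/-- Let P be a p-subgroup of the finite group G, H = P·C_G(P), and b a block of H (relative to a maximal ideal M of the algebraic integers containing p) having P as a defect group; let B be the block of G induced by b. Let T be the stabilizer of b in N_G(P): the elements g of N_G(P) such that the g-conjugate of every member of b is again a member of b. Then B has defect group P if and only if p does not divide the index of H in T. -/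
theorem result {G : Type*} [Group G] [Fintype G] (p : ℕ) [Fact p.Prime] (M : Ideal Cfsg.AlgInt) (hM : Cfsg.IsPModular p M) (P : Subgroup G) (hP : IsPGroup p P) (H : Subgroup G) [Fintype H] (hH : H = P ⊔ Subgroup.centralizer (P : Set G)) (b : Set (Cfsg.IrrCharacter H)) (hb : Cfsg.IsPBlock M b) (hbP : Cfsg.IsDefectGroup p M b (P.subgroupOf H)) (B : Set (Cfsg.IrrCharacter G)) (hind : Cfsg.IsInducedBlock M H b B) (T : Subgroup G) (hT : ∀ g : G, g ∈ T ↔ (g ∈ Subgroup.normalizer (P : Set G) ∧ ∀ θ ∈ b, ∀ θ' : Cfsg.IrrCharacter H, (∀ h h' : H, (h' : G) = g * h * g⁻¹ → (θ' : H → ℂ) h' = (θ : H → ℂ) h) → θ' ∈ b)) : Cfsg.IsDefectGroup p M B P ↔ ¬ p ∣ H.relIndex T := by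
  haveI := hM.2.1; haveI := H6.charP_res hM
  subst hH
  have hN : P ⊔ Subgroup.centralizer (P : Set G) ≤ Subgroup.normalizer (P : Set G) :=
    sup_le Subgroup.le_normalizer (Subgroup.centralizer_le_normalizer _)
  have hNH : Subgroup.normalizer (P : Set G) ≤
      Subgroup.normalizer ((P ⊔ Subgroup.centralizer (P : Set G) : Subgroup G) : Set G) :=
    fun g hg => mem_normalizer_sup hg (normalizer_le_normalizer_centralizer P hg)
  have he : IsPair p ⊤ P (eb M _ b) :=
    isPair_top_iff.2 ⟨hP, (blk_sup_centralizer_iff hP).1 (blk_eb hb)⟩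
  have hbr : br P (eB M B) * eb M _ b = eb M _ b :=
    (IsInducedBlock.ind hind).br_mul hP le_top (le_sup_left.trans Subgroup.le_normalizer)
      (by rw [CK_top]; exact le_sup_right) hN le_top
  obtain rfl : T = NS ⊤ P (eb M _ b) := by
    ext g
    rw [hT, mem_NS]
    exact and_congr_right fun hg => by
      rw [forall_conj_mem_iff (hNH hg) hb]; simp
  rw [isDefectGroup_iff hM hind.2.1]
  have hD := (isDefectGroup_subgroupOf_iff' hM hb le_sup_left).1 hbP
  refine ⟨fun h => ?_, fun h => ?_⟩
  · have S : MaxP p ⊤ ⊤ (eB M B) P (eb M _ b) :=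
      ⟨le_rfl, Subgroup.le_normalizer_of_normal, blk_eB hind.2.1, h, he.blk, hbr⟩
    have := S.not_dvd_relIndex he S.isDef_NS
    rwa [CK_top, sup_comm] at this
  · refine isDef_of_isDef_NS le_rfl Subgroup.le_normalizer_of_normal (blk_eB hind.2.1) he le_top hbr
      (hD.of_not_dvd (sup_le (he.le_NS le_top) he.centralizer_le_NS)
        (fun g hg => hNH (mem_NS.1 hg).1) h)

end Cfsg.Agent.S4437
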