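import Cfsg.Statements.S4439
import Mathlib
import Cfsg.Agent.H8.Fong1

set_option autoImplicit false
open Cfsg

namespace Cfsg.Agent.S4439

open scoped ComplexConjugate commutatorElement Pointwise
-- OPENS
open Cfsg.Agent.H8
open Cfsg.Agent.H6 hiding blockCoeff_eq_zero blockCoeff_mem blockDefect_eq blockHeight_eq
  blockPart_add blockPart_eq_zero_of_regular blockPart_eq_zero_of_singular blockPart_irr_of_mem
  blockPart_irr_of_not_mem blockPart_isClassFunction blockPart_smul blockPart_sub blockPart_sum
  blockPart_zero block_eq_blockOf block_eq_of_mem block_nonempty card_defectGroup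
  centralChar_mem char_mem conj_char_mem deg_factorization_le exists_height_zero
  irrOne_mem_principal isPBlock_blockOf isPBlock_principal mem_blockOf_self orderOf_conj'
  sameBlock_refl sameBlock_symm sameBlock_trans weak_orth weak_orth'
open Cfsg.Agent.H4 hiding exists_int_of_isIntegral_rat
open Cfsg.Agent.H5
open Cfsg.Agent.H3 hiding mem_of_pow_mem_of_coprime


/-- Let G be a finite p-solvable group and B a p-block of G with defect group P (relative to a maximal ideal M of the algebraic integers containing p). Then the height of every irreducible character in B is at most the exponent of p in the index of the centre of P in P. -/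
theorem result {G : Type*} [Group G] [Finite G] (p : ℕ) [Fact p.Prime] (M : Ideal Cfsg.AlgInt) (hM : Cfsg.IsPModular p M) (hsolv : Cfsg.IsPSolvable p G) (B : Set (Cfsg.IrrCharacter G)) (hB : Cfsg.IsPBlock M B) (P : Subgroup G) (hP : Cfsg.IsDefectGroup p M B P) (χ : Cfsg.IrrCharacter G) (hχ : χ ∈ B) : Cfsg.blockHeight p B (χ : G → ℂ) ≤ ((Subgroup.center P).index).factorization p := by
  exact fong_height hM _ rfl hsolv hB hP hχ

end Cfsg.Agent.S4439
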