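import Cfsg.Statements.S4440
import Mathlib
import Cfsg.Agent.H8.Fong2

set_option autoImplicit false
open Cfsg

namespace Cfsg.Agent.S4440

open scoped ComplexConjugate commutatorElement Pointwise
-- OPENS
open Cfsg.Agent.H8
open Cfsg.Agent.H6 hiding blockCoeff_eq_zero blockCoeff_mem blockDefect_eq blockHeight_eq
  blockPart_add blockPart_eq_zero_of_regular blockPart_eq_zero_of_singular blockPart_irr_of_mem
  blockPart_irr_of_not_mem blockPart_isClassFunction blockPart_smul blockPart_sub blockPart_sum
  blockPart_zero block_eq_blockOf block_eq_of_mem block_nonempty card_defectGroup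
  centralChar_mem char_mem conj_char_mem deg_factorization_le exists_height_zero
  irrOne_mem_principal isPBlock_blockOf isPBlock_principal mem_blockOf_self orderOf_conj'
  sameBlock_refl sameBlock_symm sameBlock_trans weak_orth weak_orth'
open Cfsg.Agent.H4 hiding exists_int_of_isIntegral_rat
open Cfsg.Agent.H5
open Cfsg.Agent.H3 hiding mem_of_pow_mem_of_coprime


/-- Let G be a finite p-solvable group and fix a maximal ideal M of the algebraic integers containing p. Let U be a set of irreducible characters of G such that the class function Σ_{χ ∈ U} χ(1)·χ vanishes at every p-singular element of G. Then U is a union of p-blocks: if χ ∈ U and ψ lies in the same block as χ, then ψ ∈ U. -/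
theorem result {G : Type*} [Group G] [Finite G] (p : ℕ) [Fact p.Prime] (M : Ideal Cfsg.AlgInt) (hM : Cfsg.IsPModular p M) (hsolv : Cfsg.IsPSolvable p G) (U : Set (Cfsg.IrrCharacter G)) (hU : ∀ x : G, p ∣ orderOf x → ∑ᶠ χ ∈ U, (χ : G → ℂ) 1 * (χ : G → ℂ) x = 0) (χ : Cfsg.IrrCharacter G) (hχ : χ ∈ U) (ψ : Cfsg.IrrCharacter G) (hψ : Cfsg.SameBlock M (χ : G → ℂ) (ψ : G → ℂ)) : ψ ∈ U := by
  classical
  haveI := Fintype.ofFinite G
  have key : ∀ φ : IrrCharacter G, classInner (∑ ξ : IrrCharacter G,
      (if ξ ∈ U then (ξ : G → ℂ) 1 else 0) • (ξ : G → ℂ)) φ = if φ ∈ U then (φ : G → ℂ) 1 else 0 :=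
    fun φ => classInner_sum_irr_left _ φ
  have h := harada_pSolvable hM _ rfl hsolv (Φ := ∑ ξ : IrrCharacter G,
      (if ξ ∈ U then (ξ : G → ℂ) 1 else 0) • (ξ : G → ℂ))
    ⟨isClassFunction_sum _ _ fun ξ _ => ξ.2.isClassFunction.smul _, fun φ hφ => by
      rw [key ⟨φ, hφ⟩]
      split_ifs
      · exact Or.inr rfl
      · exact Or.inl rfl⟩ (fun x hx => by
      refine Eq.trans ?_ (hU x hx)
      rw [finsum_mem_bfin, bfin, Finset.sum_filter, Finset.sum_apply]
      refine Finset.sum_congr rfl fun ξ _ => ?_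
      split_ifs <;> simp) hψ (by rw [key, if_pos hχ]; exact χ.2.apply_one_ne_zero)
  rw [key] at h
  by_contra h1
  exact h (if_neg h1)

end Cfsg.Agent.S4440
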