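import Cfsg.Statements.S4442
import Cfsg.Agent.H19.Gen7

set_option autoImplicit false
open Cfsg

namespace Cfsg.Agent.S4442

open Cfsg.Agent.H19 Cfsg.Agent.H4

/-- Blocks of defect one. Let p be an odd prime and G a finite group whose Sylow p-subgroup P has order p; let C = C_G(P) and N = N_G(P), and fix a maximal ideal M of the algebraic integers containing p. Let B be a block of G with defect group P, b a block of C inducing B, and θ the member of b having P in its kernel (there is exactly one). Let T be the stabilizer of θ in N (the elements g ∈ N with θ(g c g⁻¹) = θ(c) for all c ∈ C) and e the index of C in T. Then e divides p − 1 and B contains exactly e + (p − 1)/e irreducible characters. Moreover B is the disjoint union of a set X of e characters and a set Y of (p − 1)/e characters such that, with f the index of C in N: every χ ∈ X has χ(1) ≡ ±(f/e)·θ(1) (mod p), there is one sign ε with ψ(1) ≡ ε f θ(1) (mod p) for all ψ ∈ Y,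 and all members of Y agree on the p-regular elements of G. -/
theorem result {G : Type*} [Group G] [Finite G] (p : ℕ) [Fact p.Prime] (M : Ideal Cfsg.AlgInt) (hM : Cfsg.IsPModular p M) (hodd : p ≠ 2) (P : Sylow p G) (hP : Nat.card P = p) (B : Set (Cfsg.IrrCharacter G)) (hB : Cfsg.IsPBlock M B) (hBP : Cfsg.IsDefectGroup p M B P) (b : Set (Cfsg.IrrCharacter (Subgroup.centralizer ((P : Subgroup G) : Set G)))) (hind : Cfsg.IsInducedBlock M (Subgroup.centralizer ((P : Subgroup G) : Set G)) b B) (θ : Cfsg.IrrCharacter (Subgroup.centralizer ((P : Subgroup G) : Set G))) (hθ : θ ∈ b) (hθP : ∀ x : Subgroup.centralizer ((P : Subgroup G) : Set G), (x : G) ∈ (P : Subgroup G) → (θ : Subgroup.centralizer ((P : Subgroup G) : Set G) → ℂ) x = (θ : Subgroup.centralizer ((P : Subgroup G) : Set G) → ℂ) 1) (T : Subgroup G) (hT : ∀ g : G, g ∈ T ↔ (g ∈ Subgroup.normalizer ((P : Subgroup G) : Set G) ∧ ∀ c c' : Subgroup.centralizer ((P : Subgroup G) : Set G),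 (c' : G) = g * c * g⁻¹ → (θ : Subgroup.centralizer ((P : Subgroup G) : Set G) → ℂ) c' = (θ : Subgroup.centralizer ((P : Subgroup G) : Set G) → ℂ) c)) (e f : ℕ) (he : (Subgroup.centralizer ((P : Subgroup G) : Set G)).relIndex T = e) (hf : (Subgroup.centralizer ((P : Subgroup G) : Set G)).relIndex (Subgroup.normalizer ((P : Subgroup G) : Set G)) = f) : e ∣ p - 1 ∧ Nat.card B = e + (p - 1) / e ∧ ∃ X Y : Set (Cfsg.IrrCharacter G), B = X ∪ Y ∧ Disjoint X Y ∧ Nat.card X = e ∧ Nat.card Y = (p - 1) / e ∧ (∀ χ ∈ X, (Cfsg.charDegree (χ : G → ℂ) : ℤ) ≡ ((f / e * Cfsg.charDegree (θ : Subgroup.centralizer ((P : Subgroup G) : Set G) → ℂ) : ℕ) : ℤ) [ZMOD p] ∨ (Cfsg.charDegree (χ : G → ℂ) : ℤ) ≡ -((f / e * Cfsg.charDegree (θ : Subgroup.centralizer ((P : Subgroup G) : Set G) → ℂ) : ℕ) : ℤ) [ZMOD p]) ∧ (∃ ε : ℤ, (ε = 1 ∨ ε = -1) ∧ ∀ ψ ∈ Y, (Cfsg.charDegree (ψ : G → ℂ) : ℤ) ≡ ε * ((f * Cfsg.charDegree (θ : Subgroup.centralizer ((P : Subgroup G) : Set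 G) → ℂ) : ℕ) : ℤ) [ZMOD p]) ∧ ∀ ψ ∈ Y, ∀ ψ' ∈ Y, ∀ g : G, ¬ p ∣ orderOf g → (ψ : G → ℂ) g = (ψ' : G → ℂ) g := by
  classical
  haveI := Fintype.ofFinite G
  obtain ⟨x, hx, hxP, hsq⟩ := exists_gen_of_sylow P hP
  obtain ⟨K, h⟩ := exists_PO hx hsq
  haveI := Fintype.ofFinite K
  have hC : Subgroup.centralizer ((P : Subgroup G) : Set G) = CC x := by
    rw [← hxP, Subgroup.zpowers_eq_closure, Subgroup.centralizer_closure]
  generalize Subgroup.centralizer ((P : Subgroup G) : Set G) = H at *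
  subst hC
  rw [← hxP] at hθP hT hf
  let ι : K →* CC x := Subgroup.inclusion h.K_le_CC
  let θ₀ : K → ℂ := fun y => (θ : CC x → ℂ) (ι y)
  have h1 : ∀ c : CC x, θ₀ (h.piK c) = (θ : CC x → ℂ) c := by
    intro c
    obtain ⟨a, rfl⟩ := h.eC.surjective c
    have e : h.eC a = ⟨xp x a.1, H6.mem_centralizer_singleton.mpr ((Commute.refl x).pow_right _)⟩ *
      ι a.2 := rfl
    rw [h.piK_eC, e, H4.apply_mul_of_mem_charKer
      (θ.2.isCharacter.mem_charKer.mpr (hθP _ (xp_mem x a.1)))]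
  have h2 : IsIrrCharacter K θ₀ := (θ.2.isCharacter.comp ι).isIrr_of_comp h.piK (by
    convert θ.2 using 1; exact funext h1)
  have h3 : h.hat h2 = θ := Subtype.ext (funext h1)
  obtain ⟨D⟩ := h.nonempty_GD h2
  have hTT : T = h.TT θ₀ := by
    ext g
    rw [hT]
    refine ⟨fun ⟨hN, hg⟩ => ⟨hN, fun y => hg _ _ rfl⟩, fun ⟨hN, hg⟩ => ⟨hN, fun c c' e => ?_⟩⟩
    obtain ⟨a, rfl⟩ := h.eC.surjective c
    have : c' = h.eC ((actN h.ord ⟨g, hN⟩ : ZMod p) * a.1, h.cK ⟨g, hN⟩ a.2) := Subtype.ext (by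
      rw [e, h.coe_eC, h.coe_eC, ← conj_xp h.ord (actN_spec h.ord ⟨g, hN⟩), PO.coe_cK]
      group)
    rw [this, ← h1, ← h1, h.piK_eC, h.piK_eC, hg]
  have he' : e = D.e := by rw [← he, hTT, GD.e, h.card_EW h2.isClassFunction]
  have hf' : f = D.e * D.r := by rw [← hf, D.e_mul_r, eN, card_EE]
  have hd : charDegree (θ : CC x → ℂ) = D.d := by
    simp only [GD.d, charDegree, θ₀, map_one]
  have ht : (p - 1) / e = D.t := by rw [he', ← D.e_mul_t, Nat.mul_div_cancel_left _ D.e_pos]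
  have hB' : B = (D.X : Set _) ∪ Set.range D.μ := by
    ext χ
    exact D.mem_block_iff hM hind (h3 ▸ hθ)
  have hdis : Disjoint (D.X : Set _) (Set.range D.μ) :=
    Set.disjoint_right.mpr fun _ ⟨q, e⟩ => e ▸ D.notX q
  have cX : Nat.card (D.X : Set (IrrCharacter G)) = e := by
    rw [he', GD.e, ← D.cardX, Nat.card_coe_set_eq, Set.ncard_coe_finset]
  have cY : Nat.card (Set.range D.μ) = (p - 1) / e := by
    rw [ht, Nat.card_range_of_injective D.inj, GD.t]
  refine ⟨he' ▸ Dvd.intro _ D.e_mul_t, ?_, D.X, Set.range D.μ, hB', hdis, cX, cY, fun χ hχ => ?_,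
    ⟨D.ε, D.hε, ?_⟩, ?_⟩
  · rw [← cY, ← cX, hB', Nat.card_coe_set_eq, Set.ncard_union_eq hdis]; rfl
  · have := D.degX hχ
    rw [hf', he', Nat.mul_div_cancel_left _ D.e_pos, hd]
    rcases D.ha χ hχ with e | e <;> rw [e] at this
    · left; simpa using this
    · right; simpa using this
  · rintro _ ⟨q, rfl⟩
    have := D.degμ q
    rw [hf', hd]
    simpa [mul_assoc] using this
  · rintro _ ⟨q, rfl⟩ _ ⟨r, rfl⟩ g hg
    exact D.μ_eq q r hg

end Cfsg.Agent.S4442
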