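import Cfsg.Statements.S4443
import Cfsg.Agent.H7.Count
-- import your own Cfsg.Agent.* helpers here

set_option autoImplicit false
open Cfsg

namespace Cfsg.Agent.S4443

open MonoidAlgebra Cfsg.Agent.H3 Cfsg.Agent.H4 Cfsg.Agent.H7
open Cfsg.Agent.H6 (Res locRing redC redA eB fB intAlg classSum omega chiL)
open scoped Pointwise
set_option linter.style.haveILetI false


/-- Let D be a normal p-subgroup of the finite group G, of order p^d, let p^a be the p-part of the order of G, and fix a Sylow p-subgroup S and a maximal ideal M of the algebraic integers containing p. Index by a finite type ι (via an injective map K) exactly the conjugacy classes of p-regular elements x of G for which D is a Sylow p-subgroup of C_G(x). For classes K_i, K_j let ω(i, j) be the number of pairs (y, z) ∈ K_i × K_j with z y⁻¹ ∈ S; this number is divisible by p^(a−d). Then the number of p-blocks of G having D as a defect group equals the rank over ℤ/pℤ of the matrix with (i, j) entry ω(i, j)/p^(a−d) reduced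 modulo p. -/
theorem result {G : Type*} [Group G] [Finite G] (p : ℕ) [Fact p.Prime] (M : Ideal Cfsg.AlgInt) (hM : Cfsg.IsPModular p M) (D : Subgroup G) [D.Normal] (hD : IsPGroup p D) (S : Sylow p G) {ι : Type*} [Fintype ι] [DecidableEq ι] (K : ι → ConjClasses G) (hKinj : Function.Injective K) (hK : ∀ C : ConjClasses G, (∃ i, K i = C) ↔ ∃ x ∈ C.carrier, ¬ p ∣ orderOf x ∧ ∃ Q : Sylow p (Subgroup.centralizer ({x} : Set G)), (Q : Subgroup (Subgroup.centralizer ({x} : Set G))).map (Subgroup.centralizer ({x} : Set G)).subtype = D) : Nat.card {B : Set (Cfsg.IrrCharacter G) // Cfsg.IsPBlock M B ∧ Cfsg.IsDefectGroup p M B D} = (Matrix.of fun i j : ι => ((Nat.card {yz : G × G // yz.1 ∈ (K i).carrier ∧ yz.2 ∈ (K j).carrier ∧ yz.2 * yz.1⁻¹ ∈ (S : Subgroup G)} / p ^ ((Nat.card G).factorization p - (Nat.card D).factorization p) : ℕ) : ZMod p)).rank := by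
  classical
  haveI := hM.2.1
  haveI := H6.charP_res hM
  haveI := Fintype.ofFinite {B : Set (IrrCharacter G) // IsPBlock M B ∧ IsDefectGroup p M B D}
  have hx := fun i => (hK (K i)).1 ⟨i, rfl⟩
  choose x hxK hxp hxD using hx
  replace hxD : ∀ i, SylowIn p D (Subgroup.centralizer {x i}) := fun i =>
    sylowIn_iff_exists_sylow.2 (hxD i)
  replace hxK : ∀ i, ConjClasses.mk (x i) = K i := fun i =>
    ConjClasses.mem_carrier_iff_mk_eq.1 (hxK i)
  have h1 := param_mul_eq_one hM (D := D) x (fun i j h => hKinj (by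
      rw [← hxK, ← hxK]; exact ConjClasses.mk_eq_mk_iff_isConj.2 h)) (fun y h1 h2 => by
    obtain ⟨i, hi⟩ := (hK (ConjClasses.mk y)).2 ⟨y, ConjClasses.mem_carrier_mk, h1,
      sylowIn_iff_exists_sylow.1 h2⟩
    exact ⟨i, ConjClasses.mk_eq_mk_iff_isConj.1 ((hxK i).trans hi)⟩)
  rw [Nat.card_eq_fintype_card, ← rank_mul_eq_of_mul_eq_one _ _ h1,
    ← rank_map (ZMod.castHom (dvd_refl p) (Res M))]
  obtain ⟨e, he⟩ : ∃ e, e = (Nat.card G).factorization p - (Nat.card D).factorization p :=
    ⟨_, rfl⟩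
  rw [← he]
  have hind : ∀ i, ((Subgroup.centralizer ({x i} : Set G)).index).factorization p = e := by
    intro i
    have h2 := H8.index_centralizer_factorization (p := p) (x i)
    have h3 := SylowIn.card_eq_pow (hxD i)
    rw [he, h3, Nat.Prime.factorization_pow Fact.out, Finsupp.single_eq_same]
    omega
  have hpe : p ^ e ≠ 0 := pow_ne_zero _ (Fact.out : p.Prime).ne_zero
  have hpf : (p ^ e).factorization p = e := by
    rw [Nat.Prime.factorization_pow Fact.out, Finsupp.single_eq_same]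
  let u : ι → Res M := fun i =>
    redC M (((Subgroup.centralizer ({x i} : Set G)).index : ℂ) / ((p ^ e : ℕ) : ℂ))
  have hu : ∀ i, u i ≠ 0 := fun i =>
    H8.redC_natCast_div_ne_zero hM Subgroup.index_ne_zero_of_finite hpe (by rw [hind, hpf])
  rw [← Matrix.rank_mul_eq_right_of_det_ne_zero (Matrix.diagonal u) _ (by
    rw [Matrix.det_diagonal]; exact Finset.prod_ne_zero_iff.2 fun i _ => hu i)]
  congr 1
  ext i j
  rw [Matrix.diagonal_mul, Matrix.mul_apply, Matrix.map_apply, Matrix.of_apply, map_natCast]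
  simp only [Matrix.of_apply]
  have h2 := redC_rr_classSum' hM S (hxD j) (Commute.one_left (x i)) (k := 0) (one_pow _)
      (hxp i) (Subgroup.mem_centralizer_iff.2 fun d hd =>
        (Subgroup.mem_centralizer_singleton_iff.1 ((hxD i).le hd)))
  rw [← h2, one_mul]
  have h3 := card_pairs_eq (S : Subgroup G) (x i) (x j)
  have h4 : Nat.card {yz : G × G // yz.1 ∈ (K i).carrier ∧ yz.2 ∈ (K j).carrier ∧
      yz.2 * yz.1⁻¹ ∈ (S : Subgroup G)} = Nat.card {yz : G × G // IsConj (x i) yz.1 ∧
        IsConj (x j) yz.2 ∧ yz.2 * yz.1⁻¹ ∈ (S : Subgroup G)} := by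
    refine Nat.card_congr (Equiv.subtypeEquivRight fun a => ?_)
    rw [← hxK, ← hxK, ConjClasses.mem_carrier_iff_mk_eq, ConjClasses.mem_carrier_iff_mk_eq,
      ConjClasses.mk_eq_mk_iff_isConj, ConjClasses.mk_eq_mk_iff_isConj, isConj_comm,
      isConj_comm (g := a.2)]
  rw [h4]
  generalize Nat.card {yz : G × G // IsConj (x i) yz.1 ∧
        IsConj (x j) yz.2 ∧ yz.2 * yz.1⁻¹ ∈ (S : Subgroup G)} = n at h3
  have hm1 : ((Subgroup.centralizer ({x i} : Set G)).index : ℂ) / ((p ^ e : ℕ) : ℂ) ∈ locRing M :=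
    (H6.natCast_div_mem_iff hM Subgroup.index_ne_zero_of_finite hpe).2 (by rw [hind, hpf])
  have h5 : (n : ℂ) / ((p ^ e : ℕ) : ℂ) = ((Subgroup.centralizer ({x i} : Set G)).index : ℂ) /
      ((p ^ e : ℕ) : ℂ) * rr (S : Subgroup G) (classSum ℂ (x j)) (x i) := by
    rw [h3]; ring
  have h6 : p ^ e ∣ n := by
    rcases eq_or_ne n 0 with rfl | hn
    · exact dvd_zero _
    have : (n : ℂ) / ((p ^ e : ℕ) : ℂ) ∈ locRing M :=
      h5 ▸ (locRing M).mul_mem hm1 (rr_classSum_mem hM S _ _)
    rw [H6.natCast_div_mem_iff hM hn hpe, hpf] at this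
    exact ((Fact.out : p.Prime).pow_dvd_iff_le_factorization hn).2 this
  rw [← H6.redC_mul hm1 (rr_classSum_mem hM S _ _), ← h5, ← Nat.cast_div h6 (Nat.cast_ne_zero.2 hpe),
    H6.redC_natCast]

end Cfsg.Agent.S4443
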