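import Cfsg.Statements.S4444
import Mathlib
import Cfsg.Agent.H8.Glaub2

set_option autoImplicit false
open Cfsg

namespace Cfsg.Agent.S4444

open scoped ComplexConjugate commutatorElement Pointwise
-- OPENS
open Cfsg.Agent.H8
open Cfsg.Agent.H6
open Cfsg.Agent.H4 hiding exists_int_of_isIntegral_rat
open Cfsg.Agent.H5
open Cfsg.Agent.H3


/-- The Glauberman correspondence for a p-group of operators. Inside a finite group Γ let S normalise G with the orders of G and S coprime, S a p-group, and let C = G ⊓ C(S) be the fixed points. Call an irreducible character χ of G S-invariant when χ(s g s⁻¹) = χ(g) for s ∈ S, g ∈ G. Then: (i) for every S-invariant χ there is exactly one irreducible character β of C whose multiplicity [χ_C, β] in the restriction of χ is not divisible by p; (ii) that multiplicity is ≡ 1 or ≡ −1 (mod p); (iii) distinct S-invariant χ give distinct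 β; (iv) every irreducible character of C arises in this way. So χ ↦ β is a bijection from the S-invariant irreducible characters of G onto the irreducible characters of C. -/
theorem result {Γ : Type*} [Group Γ] [Fintype Γ] (G S : Subgroup Γ) [Fintype G] (hnorm : ∀ s ∈ S, ∀ g ∈ G, s * g * s⁻¹ ∈ G) (hcop : (Nat.card G).Coprime (Nat.card S)) (p : ℕ) (hp : p.Prime) (hS : IsPGroup p S) (C : Subgroup Γ) [Fintype C] (hC : C = G ⊓ Subgroup.centralizer (S : Set Γ)) (hCG : C ≤ G) : (∀ χ : Cfsg.IrrCharacter G, (∀ s ∈ S, ∀ g g' : G, (g' : Γ) = s * g * s⁻¹ → (χ : G → ℂ) g' = (χ : G → ℂ) g) → ∃! β : Cfsg.IrrCharacter C, ∃ m : ℕ, Cfsg.classInner (fun c : C => (χ : G → ℂ) ⟨c, hCG c.2⟩) (β : C → ℂ) = (m : ℂ) ∧ ¬ p ∣ m) ∧ (∀ χ : Cfsg.IrrCharacter G, (∀ s ∈ S, ∀ g g' : G, (g' : Γ) = s * g * s⁻¹ → (χ : G → ℂ) g' = (χ : G → ℂ) g) → ∀ β : Cfsg.IrrCharacter C, ∀ m : ℕ, Cfsg.classInner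 (fun c : C => (χ : G → ℂ) ⟨c, hCG c.2⟩) (β : C → ℂ) = (m : ℂ) → ¬ p ∣ m → ((m : ℤ) ≡ 1 [ZMOD p] ∨ (m : ℤ) ≡ -1 [ZMOD p])) ∧ (∀ χ χ' : Cfsg.IrrCharacter G, (∀ s ∈ S, ∀ g g' : G, (g' : Γ) = s * g * s⁻¹ → (χ : G → ℂ) g' = (χ : G → ℂ) g) → (∀ s ∈ S, ∀ g g' : G, (g' : Γ) = s * g * s⁻¹ → (χ' : G → ℂ) g' = (χ' : G → ℂ) g) → ∀ β : Cfsg.IrrCharacter C, ∀ m m' : ℕ, Cfsg.classInner (fun c : C => (χ : G → ℂ) ⟨c, hCG c.2⟩) (β : C → ℂ) = (m : ℂ) → ¬ p ∣ m → Cfsg.classInner (fun c : C => (χ' : G → ℂ) ⟨c, hCG c.2⟩) (β : C → ℂ) = (m' : ℂ) → ¬ p ∣ m' → χ = χ') ∧ (∀ β : Cfsg.IrrCharacter C, ∃ χ : Cfsg.IrrCharacter G, (∀ s ∈ S, ∀ g g' : G, (g' : Γ) = s * g * s⁻¹ → (χ : G → ℂ) g' = (χ : G → ℂ) g) ∧ ∃ m : ℕ, Cfsg.classInner (fun c : C => (χ : G → ℂ) ⟨c, hCG c.2⟩) (β : C → ℂ) = (m : ℂ) ∧ ¬ p ∣ m) := by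
  have := Fact.mk hp
  have H := gCorr' hS (Subgroup.le_normalizer_iff.mpr hnorm) hcop hC hCG
  have hi : ∀ ξ : C → ℂ, SInv S ξ := sInv_of_le_centralizer (hC ▸ inf_le_right)
  have hm : ∀ (χ : IrrCharacter G) (β : IrrCharacter C),
      classInner (fun c : C => (χ : G → ℂ) ⟨c, hCG c.2⟩) (β : C → ℂ) = gmul hCG χ.1 β.1 :=
    fun χ β => (gmul_cast hCG χ.2.isCharacter β.2.isCharacter).symm
  simp only [hm, Nat.cast_inj]
  refine ⟨fun χ hχ => ?_, fun χ hχ β m h1 h2 => ?_, fun χ χ' hχ hχ' β m m' h1 h2 h3 h4 => ?_,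
    fun β => ?_⟩
  · obtain ⟨ξ, -, h1, h2⟩ := H.down χ hχ
    refine ⟨ξ, ⟨_, rfl, not_dvd_of_sq_eq_one h1⟩, ?_⟩
    rintro β ⟨m, rfl, h3⟩
    exact by_contra fun hne => h3 (h2 β (hi _) hne)
  · obtain ⟨ξ, -, h3, h4⟩ := H.down χ hχ
    subst h1
    have : β = ξ := by_contra fun hne => h2 (h4 β (hi _) hne)
    subst this
    exact zmod_sq_eq_one h3
  · obtain ⟨χ₀, -, -, h5⟩ := H.up β (hi _)
    subst h1 h3
    rw [h5 χ hχ h2, h5 χ' hχ' h4]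
  · obtain ⟨χ₀, h1, h2, -⟩ := H.up β (hi _)
    exact ⟨χ₀, h1, _, rfl, h2⟩

end Cfsg.Agent.S4444
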