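import Cfsg.Statements.S4445
import Mathlib
import Cfsg.Agent.H8.Glaub3

set_option autoImplicit false
open Cfsg

namespace Cfsg.Agent.S4445

open scoped ComplexConjugate commutatorElement Pointwise
-- OPENS
open Cfsg.Agent.H8
open Cfsg.Agent.H6
open Cfsg.Agent.H4 hiding exists_int_of_isIntegral_rat
open Cfsg.Agent.H5
open Cfsg.Agent.H3


/-- Inside a finite group Γ let the solvable subgroup S normalise G with the orders of G and S coprime. Then the number of S-invariant irreducible characters of G (χ(s g s⁻¹) = χ(g) for all s ∈ S, g ∈ G) equals the number of conjugacy classes of G mapped to themselves by conjugation by every element of S. -/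
theorem result {Γ : Type*} [Group Γ] [Fintype Γ] (G S : Subgroup Γ) [Fintype G] (hnorm : ∀ s ∈ S, ∀ g ∈ G, s * g * s⁻¹ ∈ G) (hcop : (Nat.card G).Coprime (Nat.card S)) (hsolv : Group.IsSolvable S) : Nat.card {χ : Cfsg.IrrCharacter G // (∀ s ∈ S, ∀ g g' : G, (g' : Γ) = s * g * s⁻¹ → (χ : G → ℂ) g' = (χ : G → ℂ) g)} = Nat.card {K : ConjClasses G // ∀ s ∈ S, ∀ g g' : G, (g' : Γ) = s * g * s⁻¹ → ConjClasses.mk g = K → ConjClasses.mk g' = K} := by
  have hSG := Subgroup.le_normalizer_iff.mpr hnorm
  refine (card_sInv_eq hsolv _ rfl hSG hcop rfl).trans ?_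
  rw [card_irr_eq_card_conjClasses, card_inv_classes_eq hSG hcop.symm (Or.inl hsolv) rfl
    inf_le_left _ (fun _ => True) (fun _ h => h) (fun c => iff_of_true
      (fun s hs g g' hg h => inv_class_of_mem_centralizer hSG c.2.2 hs hg h) trivial)]
  exact Nat.card_congr (Equiv.subtypeUnivEquiv fun _ => trivial).symm

end Cfsg.Agent.S4445
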