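import Cfsg.Statements.S4446
import Mathlib
import Cfsg.Agent.H8.Glaub4

set_option autoImplicit false
open Cfsg

namespace Cfsg.Agent.S4446

open scoped ComplexConjugate commutatorElement Pointwise
-- OPENS
open Cfsg.Agent.H8
open Cfsg.Agent.H6
open Cfsg.Agent.H4 hiding exists_int_of_isIntegral_rat
open Cfsg.Agent.H5
open Cfsg.Agent.H3


/-- Let the finite group Γ be generated by a normal subgroup G and a cyclic subgroup S of coprime orders, C = G ⊓ C(S), and let χ be an S-invariant irreducible character of G with canonical extension χ̂ to Γ (the extension whose determinantal order is coprime to the order of S). Then there are exactly one irreducible character β of C and one sign ε such that χ̂(c s) = ε β(c) for every c ∈ C and every generator s of S; this β is a constituent of the restriction of χ to C; distinct S-invariant χ give distinct β; and every irreducible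 character of C arises in this way. -/
theorem result {Γ : Type*} [Group Γ] [Fintype Γ] (G S : Subgroup Γ) [Fintype G] (hnorm : ∀ s ∈ S, ∀ g ∈ G, s * g * s⁻¹ ∈ G) (hcop : (Nat.card G).Coprime (Nat.card S)) (htop : G ⊔ S = ⊤) (hcyc : IsCyclic S) (C : Subgroup Γ) [Fintype C] (hC : C = G ⊓ Subgroup.centralizer (S : Set Γ)) (hCG : C ≤ G) : (∀ (χ : Cfsg.IrrCharacter G) (χh : Cfsg.IrrCharacter Γ), (∀ s ∈ S, ∀ g g' : G, (g' : Γ) = s * g * s⁻¹ → (χ : G → ℂ) g' = (χ : G → ℂ) g) → (∀ g : G, (χh : Γ → ℂ) g = (χ : G → ℂ) g) → (Cfsg.detOrder (χh : Γ → ℂ)).Coprime (Nat.card S) → (∃! βε : Cfsg.IrrCharacter C × ℤ, (βε.2 = 1 ∨ βε.2 = -1) ∧ ∀ c : C, ∀ s : Γ, Subgroup.zpowers s = S → (χh : Γ → ℂ) ((c : Γ) * s) = (βε.2 : ℂ) * (βε.1 : C → ℂ) c) ∧ ∀ β : Cfsg.IrrCharacter C, ∀ ε : ℤ, (ε = 1 ∨ ε = -1) → (∀ c : C, ∀ s : Γ, Subgroup.zpowers s = S → (χh : Γ → ℂ) ((c : Γ) * s) = (ε : ℂ) * (β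 : C → ℂ) c) → Cfsg.classInner (fun c : C => (χ : G → ℂ) ⟨c, hCG c.2⟩) (β : C → ℂ) ≠ 0) ∧ (∀ (χ χ' : Cfsg.IrrCharacter G) (χh χh' : Cfsg.IrrCharacter Γ), (∀ s ∈ S, ∀ g g' : G, (g' : Γ) = s * g * s⁻¹ → (χ : G → ℂ) g' = (χ : G → ℂ) g) → (∀ s ∈ S, ∀ g g' : G, (g' : Γ) = s * g * s⁻¹ → (χ' : G → ℂ) g' = (χ' : G → ℂ) g) → (∀ g : G, (χh : Γ → ℂ) g = (χ : G → ℂ) g) → (∀ g : G, (χh' : Γ → ℂ) g = (χ' : G → ℂ) g) → (Cfsg.detOrder (χh : Γ → ℂ)).Coprime (Nat.card S) → (Cfsg.detOrder (χh' : Γ → ℂ)).Coprime (Nat.card S) → ∀ β : Cfsg.IrrCharacter C, ∀ ε ε' : ℤ, (ε = 1 ∨ ε = -1) → (ε' = 1 ∨ ε' = -1) → (∀ c : C, ∀ s : Γ, Subgroup.zpowers s = S → (χh : Γ → ℂ) ((c : Γ) * s) = (ε : ℂ) * (β : C → ℂ) c) → (∀ c : C, ∀ s : Γ, Subgroup.zpowers s = S → (χh' : Γ → ℂ) ((c : Γ) * s) = (ε' : ℂ) * (β : C → ℂ) c) → χ = χ') ∧ (∀ β : Cfsg.IrrCharacter C, ∃ (χ : Cfsg.IrrCharacter G) (χh : Cfsg.IrrCharacter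 Γ) (ε : ℤ), (∀ s ∈ S, ∀ g g' : G, (g' : Γ) = s * g * s⁻¹ → (χ : G → ℂ) g' = (χ : G → ℂ) g) ∧ (∀ g : G, (χh : Γ → ℂ) g = (χ : G → ℂ) g) ∧ (Cfsg.detOrder (χh : Γ → ℂ)).Coprime (Nat.card S) ∧ (ε = 1 ∨ ε = -1) ∧ ∀ c : C, ∀ s : Γ, Subgroup.zpowers s = S → (χh : Γ → ℂ) ((c : Γ) * s) = (ε : ℂ) * (β : C → ℂ) c) := by
  have hSG := Subgroup.le_normalizer_iff.mpr hnorm
  have hn := normal_of_sup_eq_top hSG htop
  obtain ⟨s₀, hs₀⟩ := (Subgroup.isCyclic_iff_exists_zpowers_eq_top S).mp hcyc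
  have hsS : s₀ ∈ S := hs₀ ▸ Subgroup.mem_zpowers s₀
  have hCS : C ≤ Subgroup.centralizer (S : Set Γ) := hC ▸ inf_le_right
  have hirr : ∀ (χ : IrrCharacter G) (χh : IrrCharacter Γ), (∀ g : G, χh.1 g = χ.1 g) →
      IsIrrCharacter G (fun g : G => χh.1 g) := fun χ χh h => by rw [funext h]; exact χ.2
  have hne : ∀ ε : ℤ, (ε = 1 ∨ ε = -1) → (ε : ℂ) ≠ 0 := by rintro _ (rfl | rfl) <;> simp
  have inj : ∀ (χ χ' : IrrCharacter G) (χh χh' : IrrCharacter Γ), (∀ g : G, χh.1 g = χ.1 g) →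
      (∀ g : G, χh'.1 g = χ'.1 g) → ∀ β : IrrCharacter C, ∀ ε ε' : ℤ, (ε = 1 ∨ ε = -1) →
      (ε' = 1 ∨ ε' = -1) → (∀ c : C, χh.1 (c * s₀) = ε * β.1 c) →
      (∀ c : C, χh'.1 (c * s₀) = ε' * β.1 c) → χ = χ' := by
    intro χ χ' χh χh' h1 h2 β ε ε' h3 h4 h5 h6
    have := res_eq_of_inner_coset (z := s₀) (by rw [← Nat.card_zpowers, hs₀]; exact hcop.symm) hCG
      (mem_iff_comm_of_zpowers hs₀ hC) χh.2.isCharacter (hirr _ _ h1) χh'.2.isCharacter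
      (hirr _ _ h2) (by
        rw [show (fun c : C => χh.1 (c * s₀)) = (ε : ℂ) • β.1 from funext h5,
          show (fun c : C => χh'.1 (c * s₀)) = (ε' : ℂ) • β.1 from funext h6,
          classInner_smul_left, classInner_smul_right, β.2.classInner_self]
        simp [hne _ h3, hne _ h4, -Int.cast_eq_zero])
    exact Subtype.ext ((funext h1).symm.trans (this.trans (funext h2)))
  refine ⟨fun χ χh _ h2 h3 => ⟨?_, fun β ε h4 h5 => ?_⟩,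
    fun χ χ' χh χh' _ _ h1 h2 _ _ β ε ε' h3 h4 h5 h6 => inj χ χ' χh χh' h1 h2 β ε ε' h3 h4
      (fun c => h5 c s₀ hs₀) (fun c => h6 c s₀ hs₀), ?_⟩
  · obtain ⟨β, ε, h4, h5⟩ := exists_beta hSG htop hcop hcyc hC χh.2.isCharacter (hirr _ _ h2) h3
    refine ⟨(β, ε), ⟨h4, h5⟩, ?_⟩
    rintro ⟨β', ε'⟩ ⟨h6, h7⟩
    have h8 := eta_eq_of (S := S) (x := ⟨s₀, hsS⟩) β'.2 (fun c => h7 c s₀ hs₀)
    obtain rfl : β = β' := by
      by_contra h9
      rw [eta, show (fun c : C => χh.1 (c * s₀)) = (ε : ℂ) • β.1 from funext (h5 · s₀ hs₀),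
        classInner_smul_left, β.2.classInner_of_ne β'.2 (fun e => h9 (Subtype.ext e)),
        mul_zero] at h8
      exact hne _ h6 h8.symm
    rw [eta_eq_of (S := S) (x := ⟨s₀, hsS⟩) β.2 (fun c => h5 c s₀ hs₀)] at h8
    exact Prod.ext rfl (by exact_mod_cast h8.symm)
  · intro h0
    have h6 := (isCharacter_eta hCS χh.2.isCharacter β.2.isCharacter).eq_zero_of_apply_one (by
      rw [← h0, eta]; simp only [OneMemClass.coe_one, mul_one, ← h2])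
    have h8 := eta_eq_of (S := S) (x := ⟨s₀, hsS⟩) β.2 (fun c => h5 c s₀ hs₀)
    rw [h6] at h8
    exact hne _ h4 h8.symm
  · choose ext he1 he2 using fun χ : {χ : IrrCharacter G // SInv S χ.1} =>
      exists_canon hSG htop hcop χ.2
    choose f ε hf1 hf2 using fun χ : {χ : IrrCharacter G // SInv S χ.1} =>
      exists_beta hSG htop hcop hcyc hC (ext χ).2.isCharacter (hirr _ _ (he1 χ)) (he2 χ)
    have hsurj := (Function.Injective.bijective_of_nat_card_le (f := f) (fun χ χ' h =>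
      Subtype.ext (inj _ _ _ _ (he1 χ) (he1 χ') (f χ) _ _ (hf1 χ) (hf1 χ')
        (fun c => hf2 χ c s₀ hs₀) (fun c => h ▸ hf2 χ' c s₀ hs₀)))
      (card_sInv_eq (hs₀ ▸ H1.isSolvable_zpowers s₀) _ rfl hSG hcop hC).ge).2
    intro β
    obtain ⟨χ, rfl⟩ := hsurj β
    exact ⟨χ.1, ext χ, ε χ, χ.2, he1 χ, he2 χ, hf1 χ, hf2 χ⟩

end Cfsg.Agent.S4446
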