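import Cfsg.Statements.S4447
import Mathlib
import Cfsg.Agent.H8.Glaub3

set_option autoImplicit false
open Cfsg

namespace Cfsg.Agent.S4447

open scoped ComplexConjugate commutatorElement Pointwise
-- OPENS
open Cfsg.Agent.H8
open Cfsg.Agent.H6
open Cfsg.Agent.H4 hiding exists_int_of_isIntegral_rat
open Cfsg.Agent.H5
open Cfsg.Agent.H3


/-- Inside a finite group Γ let S normalise G and also normalise a normal subgroup N of G, with the order of S coprime to the index of N in G and S or G/N solvable. Then for every S-invariant irreducible character χ of G, the restriction of χ to N has an S-invariant irreducible constituent. -/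
theorem result {Γ : Type*} [Group Γ] [Fintype Γ] (G S N : Subgroup Γ) [Fintype G] [Fintype N] (hnorm : ∀ s ∈ S, ∀ g ∈ G, s * g * s⁻¹ ∈ G) (hNG : N ≤ G) [hNn : (N.subgroupOf G).Normal] (hNS : ∀ s ∈ S, ∀ n ∈ N, s * n * s⁻¹ ∈ N) (hcop : (N.relIndex G).Coprime (Nat.card S)) (hsolv : Group.IsSolvable S ∨ Group.IsSolvable (G ⧸ N.subgroupOf G)) (χ : Cfsg.IrrCharacter G) (hinv : (∀ s ∈ S, ∀ g g' : G, (g' : Γ) = s * g * s⁻¹ → (χ : G → ℂ) g' = (χ : G → ℂ) g)) : ∃ θ : Cfsg.IrrCharacter N, Cfsg.classInner (fun n : N => (χ : G → ℂ) ⟨n, hNG n.2⟩) (θ : N → ℂ) ≠ 0 ∧ (∀ s ∈ S, ∀ g g' : N, (g' : Γ) = s * g * s⁻¹ → (θ : N → ℂ) g' = (θ : N → ℂ) g) := by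
  have hSG := Subgroup.le_normalizer_iff.mpr hnorm
  have hSN := Subgroup.le_normalizer_iff.mpr hNS
  have hGN := (Subgroup.normal_subgroupOf_iff_le_normalizer hNG).mp hNn
  obtain ⟨θ, h1, h2⟩ := exists_sInv_under hSG hSN hGN
    (hcop.symm.coprime_dvd_left (Subgroup.relIndex_dvd_card N S)) (hsolv.imp
      (fun h => isSolvable_range_of_ker_le (MonoidHom.id _) h _
        fun k hk => by rw [show k = 1 from hk, map_one])
      (fun h => isSolvable_range_of_ker_le (QuotientGroup.mk' _) h _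
        fun k hk => permIrr_eq_one _ ((QuotientGroup.eq_one_iff k).mp hk))) hNG (χ := χ) hinv
  exact ⟨θ, (gmul_ne_zero_iff hNG χ.2.isCharacter θ.2.isCharacter).mp h1, h2⟩

end Cfsg.Agent.S4447
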