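import Cfsg.Statements.S4449
import Mathlib
import Cfsg.Agent.H8.Glaub3

set_option autoImplicit false
open Cfsg

namespace Cfsg.Agent.S4449

open scoped ComplexConjugate commutatorElement Pointwise
-- OPENS
open Cfsg.Agent.H8
open Cfsg.Agent.H6
open Cfsg.Agent.H4 hiding exists_int_of_isIntegral_rat
open Cfsg.Agent.H5
open Cfsg.Agent.H3


/-- Inside a finite group Γ let the solvable subgroup S normalise G with the orders of G and S coprime, and let N be a normal subgroup of G normalised by S. Then for every S-invariant irreducible character ϑ of N, the induced character ϑ^G has an S-invariant irreducible constituent. -/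
theorem result {Γ : Type*} [Group Γ] [Fintype Γ] (G S N : Subgroup Γ) [Fintype G] [Fintype N] (hnorm : ∀ s ∈ S, ∀ g ∈ G, s * g * s⁻¹ ∈ G) (hNG : N ≤ G) (hNnormal : ∀ g ∈ G, ∀ n ∈ N, g * n * g⁻¹ ∈ N) (hNS : ∀ s ∈ S, ∀ n ∈ N, s * n * s⁻¹ ∈ N) (hcop : (Nat.card G).Coprime (Nat.card S)) (hsolv : Group.IsSolvable S) (θ : Cfsg.IrrCharacter N) (hinv : (∀ s ∈ S, ∀ g g' : N, (g' : Γ) = s * g * s⁻¹ → (θ : N → ℂ) g' = (θ : N → ℂ) g)) : ∃ χ : Cfsg.IrrCharacter G, Cfsg.classInner (fun n : N => (χ : G → ℂ) ⟨n, hNG n.2⟩) (θ : N → ℂ) ≠ 0 ∧ (∀ s ∈ S, ∀ g g' : G, (g' : Γ) = s * g * s⁻¹ → (χ : G → ℂ) g' = (χ : G → ℂ) g) := by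
  have hSG := Subgroup.le_normalizer_iff.mpr hnorm
  have hSN := Subgroup.le_normalizer_iff.mpr hNS
  have hGN := Subgroup.le_normalizer_iff.mpr hNnormal
  obtain ⟨χ, h1, h2⟩ := exists_sInv_over_of_solvable_left hSN (MonoidHom.id _) hsolv
    (fun k hk => by rw [show k = 1 from hk]; exact one_mem _) (θ := θ) hinv _ rfl hSG hGN
    ((hcop.symm.coprime_dvd_left (Subgroup.relIndex_dvd_card N S)).coprime_dvd_right
      (Subgroup.relIndex_dvd_card N G)) hNG
  exact ⟨χ, (gmul_ne_zero_iff hNG χ.2.isCharacter θ.2.isCharacter).mp h1, h2⟩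

end Cfsg.Agent.S4449
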