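import Cfsg.Statements.S4450
import Mathlib
import Cfsg.Agent.H8.Glaub3

set_option autoImplicit false
open Cfsg

namespace Cfsg.Agent.S4450

open scoped ComplexConjugate commutatorElement Pointwise
-- OPENS
open Cfsg.Agent.H8
open Cfsg.Agent.H6
open Cfsg.Agent.H4 hiding exists_int_of_isIntegral_rat
open Cfsg.Agent.H5
open Cfsg.Agent.H3


/-- Let N ≤ G be normal subgroups of the finite group Γ with the index of G in Γ coprime to the index of N in G, and Γ/G or G/N solvable. Then for every irreducible character ϑ of N invariant under conjugation by Γ, the induced character ϑ^G has an irreducible constituent invariant under conjugation by Γ. -/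
theorem result {Γ : Type*} [Group Γ] [Fintype Γ] (G N : Subgroup Γ) [hG : G.Normal] [hN : N.Normal] [Fintype G] [Fintype N] (hNG : N ≤ G) (hcop : (G.index).Coprime (N.relIndex G)) (hsolv : Group.IsSolvable (Γ ⧸ G) ∨ Group.IsSolvable (G ⧸ N.subgroupOf G)) (θ : Cfsg.IrrCharacter N) (hinv : ∀ (x : Γ) (n : N), (θ : N → ℂ) ⟨x * n * x⁻¹, hN.conj_mem n n.2 x⟩ = (θ : N → ℂ) n) : ∃ χ : Cfsg.IrrCharacter G, Cfsg.classInner (fun n : N => (χ : G → ℂ) ⟨n, hNG n.2⟩) (θ : N → ℂ) ≠ 0 ∧ ∀ (x : Γ) (g : G), (χ : G → ℂ) ⟨x * g * x⁻¹, hG.conj_mem g g.2 x⟩ = (χ : G → ℂ) g := by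
  have hc : Nat.card (G.map (QuotientGroup.mk' N)) = N.relIndex G := by
    rw [← Subgroup.relIndex_ker, QuotientGroup.ker_mk']
  have hi : (G.map (QuotientGroup.mk' N)).index = G.index :=
    Subgroup.index_map_eq _ (QuotientGroup.mk'_surjective N) (by rwa [QuotientGroup.ker_mk'])
  have hn : (G.map (QuotientGroup.mk' N)).Normal := hG.map _ (QuotientGroup.mk'_surjective N)
  obtain ⟨K, hK⟩ := Subgroup.exists_right_complement'_of_coprime
    (N := G.map (QuotientGroup.mk' N)) (by rw [hc, hi]; exact hcop.symm)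
  set S := K.comap (QuotientGroup.mk' N)
  have h1 : N.relIndex S = G.index := by
    have := Subgroup.relIndex_ker S (QuotientGroup.mk' N)
    rw [QuotientGroup.ker_mk', Subgroup.map_comap_eq_self_of_surjective
      (QuotientGroup.mk'_surjective N)] at this
    rw [this, ← hi, hK.symm.index_eq_card]
  have hSG : S ≤ Subgroup.normalizer (G : Set Γ) := by rw [Subgroup.normalizer_eq_top]; exact le_top
  have hSN : S ≤ Subgroup.normalizer (N : Set Γ) := by rw [Subgroup.normalizer_eq_top]; exact le_top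
  have hGN : G ≤ Subgroup.normalizer (N : Set Γ) := by rw [Subgroup.normalizer_eq_top]; exact le_top
  have hθ : SInv S θ.1 := fun s _ g g' hg => by
    rw [← hinv s g]; exact congrArg _ (Subtype.ext hg)
  obtain ⟨χ, h2, h3⟩ : ∃ χ : IrrCharacter G, gmul hNG χ.1 θ.1 ≠ 0 ∧ SInv S χ.1 := by
    rcases hsolv with h | h
    · refine exists_sInv_over_of_solvable_left hSN ((QuotientGroup.mk' G).comp S.subtype) h
        (fun s hs => ?_) hθ _ rfl hSG hGN (h1 ▸ hcop) hNG
      have h2 : (s : Γ) ∈ G := (QuotientGroup.eq_one_iff _).mp hs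
      exact (QuotientGroup.eq_one_iff _).mp (Subgroup.disjoint_def.mp hK.disjoint
        ⟨_, h2, rfl⟩ s.2)
    · exact exists_sInv_over_of_solvable_right hSN hθ h _ rfl hSG hGN (h1 ▸ hcop)
        (QuotientGroup.mk' _) (fun k hk => (QuotientGroup.eq_one_iff k).mp hk) hNG
  refine ⟨χ, (gmul_ne_zero_iff hNG χ.2.isCharacter θ.2.isCharacter).mp h2, fun x g => ?_⟩
  obtain ⟨⟨⟨_, a, ha, rfl⟩, ⟨b, hb⟩⟩, h4⟩ := hK.2 (x : Γ ⧸ N)
  obtain ⟨b, rfl⟩ := QuotientGroup.mk_surjective b
  have h5 : (a * b)⁻¹ * x ∈ N := QuotientGroup.eq.mp h4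
  have h6 : b * ((a * b)⁻¹ * x) ∈ S := S.mul_mem hb (by
    change QuotientGroup.mk' N _ ∈ K
    rw [show QuotientGroup.mk' N ((a * b)⁻¹ * x) = 1 from (QuotientGroup.eq_one_iff _).mpr h5]
    exact one_mem _)
  exact EInv.mul (hSG h6) (eInv_of_mem ha χ.2.isClassFunction) (h3 _ h6) g _ (by
    change x * g * x⁻¹ = _; group)

end Cfsg.Agent.S4450
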