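import Cfsg.Statements.S4451
import Mathlib
import Cfsg.Agent.H8.Glaub4

set_option autoImplicit false
open Cfsg

namespace Cfsg.Agent.S4451

open scoped ComplexConjugate commutatorElement Pointwise
-- OPENS
open Cfsg.Agent.H8
open Cfsg.Agent.H6
open Cfsg.Agent.H4 hiding exists_int_of_isIntegral_rat
open Cfsg.Agent.H5
open Cfsg.Agent.H3


/-- Let the finite group Γ be generated by a normal subgroup G and a cyclic subgroup S of coprime orders such that every non-identity element of S has the same centraliser C = G ⊓ C(S) in G. Let χ be an S-invariant irreducible character of G, χ̂ its canonical extension to Γ (determinantal order coprime to the order of S), and β the irreducible character of C with χ̂(c s) = ε₀ β(c) for c ∈ C and generators s of S (ε₀ = ±1). Then there are a sign ε = ±1, which may differ from ε₀, and a linear character μ of S with μ² = 1, such that: (a) χ̂(c x) = ε β(c) μ(x) for all c ∈ C and all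 x ∈ S other than 1; (b) the restriction of χ to C equals |S|·ϑ + ε β for some character ϑ of C or ϑ = 0; (c) |S| divides χ(1) − ε β(1). -/
theorem result {Γ : Type*} [Group Γ] [Fintype Γ] (G S : Subgroup Γ) [Fintype G] (hnorm : ∀ s ∈ S, ∀ g ∈ G, s * g * s⁻¹ ∈ G) (hcop : (Nat.card G).Coprime (Nat.card S)) (htop : G ⊔ S = ⊤) (hcyc : IsCyclic S) (C : Subgroup Γ) [Fintype C] (hC : C = G ⊓ Subgroup.centralizer (S : Set Γ)) (hCG : C ≤ G) (hfpf : ∀ x ∈ S, x ≠ 1 → G ⊓ Subgroup.centralizer ({x} : Set Γ) = C) (χ : Cfsg.IrrCharacter G) (hinv : (∀ s ∈ S, ∀ g g' : G, (g' : Γ) = s * g * s⁻¹ → (χ : G → ℂ) g' = (χ : G → ℂ) g)) (χh : Cfsg.IrrCharacter Γ) (hext : (∀ g : G, (χh : Γ → ℂ) g = (χ : G → ℂ) g)) (hdet : (Cfsg.detOrder (χh : Γ → ℂ)).Coprime (Nat.card S)) (β : Cfsg.IrrCharacter C) (ε₀ : ℤ) (hε₀ : ε₀ = 1 ∨ ε₀ = -1) (hβ : ∀ c : C, ∀ s : Γ, Subgroup.zpowers s = S → (χh : Γ → ℂ) ((c : Γ) * s) = (ε₀ : ℂ) * (β : C → ℂ) c) : ∃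 ε : ℤ, (ε = 1 ∨ ε = -1) ∧ (∃ μ : S → ℂ, Cfsg.IsCharacter S μ ∧ μ 1 = 1 ∧ (∀ x : S, μ x * μ x = 1) ∧ ∀ c : C, ∀ x : S, x ≠ 1 → (χh : Γ → ℂ) ((c : Γ) * x) = (ε : ℂ) * (β : C → ℂ) c * μ x) ∧ (∃ ϑ : C → ℂ, Cfsg.IsCharacter C ϑ ∧ (fun c : C => (χ : G → ℂ) ⟨c, hCG c.2⟩) = fun c => (Nat.card S : ℂ) * ϑ c + (ε : ℂ) * (β : C → ℂ) c) ∧ (Nat.card S : ℤ) ∣ (Cfsg.charDegree (χ : G → ℂ) : ℤ) - ε * (Cfsg.charDegree (β : C → ℂ) : ℤ) := by
  classical
  have hSG := Subgroup.le_normalizer_iff.mpr hnorm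
  have hn := normal_of_sup_eq_top hSG htop
  obtain ⟨s₀, hs₀⟩ := (Subgroup.isCyclic_iff_exists_zpowers_eq_top S).mp hcyc
  have hsS : s₀ ∈ S := hs₀ ▸ Subgroup.mem_zpowers s₀
  have hCS : C ≤ Subgroup.centralizer (S : Set Γ) := hC ▸ inf_le_right
  have hirr : IsIrrCharacter G (fun g : G => χh.1 g) := by rw [funext hext]; exact χ.2
  have hch := fun β : IrrCharacter C => isCharacter_eta hCS χh.2.isCharacter β.2.isCharacter
  have key := fun (x : S) (hx : x ≠ 1) => exists_eta_norm hCS χh.2.isCharacter x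
    (inner_coset_self (G := G) (hcop.symm.coprime_dvd_left (by
      rw [Subgroup.orderOf_coe]; exact orderOf_dvd_natCard x)) hCG (fun k hk => by
      rw [← hfpf x x.2 (fun h => hx (Subtype.ext h))]
      simp [hk, Subgroup.mem_centralizer_iff]) χh.2.isCharacter hirr)
  have h1 : ∀ k : ℕ, k ≠ 0 → (⟨s₀, hsS⟩ : S) ^ k ≠ 1 →
      ‖eta C S χh.1 β.1 ((⟨s₀, hsS⟩ : S) ^ k)‖ = 1 := by
    intro k
    induction k using induction_on_primes with
    | zero => simp
    | one =>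
      intro _ _
      rw [pow_one, eta_eq_of (S := S) (x := ⟨s₀, hsS⟩) β.2 (fun c => hβ c s₀ hs₀)]
      rcases hε₀ with rfl | rfl <;> simp
    | prime_mul p a hp ih =>
      intro h0 hne
      have h2 := apply_pow_ne_zero_of_norm_eq_one (hch β) (ih (right_ne_zero_of_mul h0)
        (fun h => hne (by rw [mul_comm, pow_mul, h, one_pow]))) hp
      rw [← pow_mul, mul_comm] at h2
      obtain ⟨β', h3, h4, -⟩ := key _ hne
      obtain rfl : β = β' := by_contra fun h => h2 (h4 β h)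
      exact h3
  have h2 : ∀ x : S, x ≠ 1 → ‖eta C S χh.1 β.1 x‖ = 1 := by
    intro x hx
    obtain ⟨k, hk⟩ := (mem_powers_iff_mem_zpowers.mpr (hs₀ ▸ x.2) : (x : Γ) ∈ Submonoid.powers s₀)
    obtain rfl : x = (⟨s₀, hsS⟩ : S) ^ k := Subtype.ext hk.symm
    exact h1 k (by rintro rfl; simp at hx) hx
  have h3 : ∀ x : S, x ≠ 1 → (∀ β' : IrrCharacter C, β' ≠ β → eta C S χh.1 β' x = 0) ∧
      ∀ c : C, χh.1 (c * x) = eta C S χh.1 β x * β.1 c := by
    intro x hx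
    obtain ⟨β', -, h4, h5⟩ := key x hx
    obtain rfl : β = β' := by_contra fun h => by simpa [h4 β h] using h2 x hx
    exact ⟨h4, h5⟩
  have hcomm : ∀ a b : S, a * b = b * a := fun a b => hcyc.commutative.is_comm.comm a b
  obtain ⟨a, ε, μ, hε, h4⟩ := exists_reg_add_linear hcomm (hch β) h2
  have h5 : ∀ x : S, x ≠ 1 → eta C S χh.1 β.1 x = ε * (μ x : ℂ) := fun x hx => by
    rw [h4, regChar_of_ne hx]; simp
  have h6 : ∀ β' : IrrCharacter C, ∃ m : ℕ, classInner (fun c : C => χ.1 ⟨c, hCG c.2⟩) β'.1 =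
      Nat.card S * m + if β' = β then (ε : ℂ) else 0 := by
    intro β'
    have h7 : classInner (fun c : C => χ.1 ⟨c, hCG c.2⟩) β'.1 = eta C S χh.1 β'.1 1 := by
      rw [eta]; simp only [OneMemClass.coe_one, mul_one, ← hext]
    rw [h7]
    split_ifs with h8
    · exact ⟨a, by rw [h8, h4, regChar_one]; simp [mul_comm]⟩
    · simpa using exists_nat_of_vanish (hch β') fun x hx => (h3 x hx).1 β' h8
  choose m hm using h6
  have h7 : (fun c : C => χ.1 ⟨c, hCG c.2⟩) = fun c => (Nat.card S : ℂ) *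
      (∑ β' : IrrCharacter C, (m β' : ℂ) • β'.1) c + (ε : ℂ) * β.1 c := by
    ext c
    rw [(χ.2.isCharacter.restrict_le hCG).isClassFunction.apply_eq_sum c]
    simp [hm, add_mul, Finset.sum_add_distrib, Finset.mul_sum, mul_assoc]
  have h8 : IsCharacter C (∑ β' : IrrCharacter C, (m β' : ℂ) • β'.1) :=
    isCharacter_iff_exists_nat.mpr ⟨m, rfl⟩
  refine ⟨ε, hε, ⟨fun x => μ x, isCharacter_linear μ, by simp, fun x => ?_, fun c x hx => ?_⟩,
    ⟨_, h8, h7⟩, ?_⟩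
  · have h9 : μ ⟨s₀, hsS⟩ ^ 2 = 1 := by
      by_cases h : (⟨s₀, hsS⟩ : S) = 1
      · simp [h]
      have h10 := h5 _ h
      rw [eta_eq_of (S := S) (x := ⟨s₀, hsS⟩) β.2 (fun c => hβ c s₀ hs₀)] at h10
      have e1 : (ε₀ : ℂ) ^ 2 = 1 := by rcases hε₀ with rfl | rfl <;> simp
      have e2 : (ε : ℂ) ^ 2 = 1 := by rcases hε with rfl | rfl <;> simp
      rw [h10, mul_pow, e2, one_mul] at e1
      exact Units.ext (by simpa using e1)
    obtain ⟨k, hk⟩ := (mem_powers_iff_mem_zpowers.mpr (hs₀ ▸ x.2) : (x : Γ) ∈ Submonoid.powers s₀)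
    obtain rfl : x = (⟨s₀, hsS⟩ : S) ^ k := Subtype.ext hk.symm
    rw [← Units.val_mul, map_pow, ← mul_pow, ← sq, h9]; simp
  · rw [(h3 x hx).2, h5 x hx]; ring
  · refine ⟨charDegree (∑ β' : IrrCharacter C, (m β' : ℂ) • β'.1), ?_⟩
    apply Int.cast_injective (α := ℂ)
    push_cast
    rw [χ.2.isCharacter.charDegree_cast, β.2.isCharacter.charDegree_cast, h8.charDegree_cast]
    have := congrFun h7 1
    exact sub_eq_of_eq_add this

end Cfsg.Agent.S4451
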