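import Cfsg.Statements.S4454
import Mathlib
import Cfsg.Agent.H8.Glaub4

set_option autoImplicit false
open Cfsg

namespace Cfsg.Agent.S4454

open scoped ComplexConjugate commutatorElement Pointwise
-- OPENS
open Cfsg.Agent.H8
open Cfsg.Agent.H6
open Cfsg.Agent.H4 hiding exists_int_of_isIntegral_rat
open Cfsg.Agent.H5
open Cfsg.Agent.H3


/-- Let N ≤ G be normal subgroups of the finite group Γ with Γ/G cyclic and Γ/N a Frobenius group with kernel G/N: G ≠ Γ, N ≠ G, and no element of Γ outside G fixes a non-identity coset of N in G under conjugation. Let ϑ be an irreducible character of N invariant under conjugation by Γ and suppose ϑ is fully ramified in G: the character of G induced from ϑ equals e·χ for an irreducible character χ of G and a natural number e. Then the index of G in Γ divides e − 1 or e + 1. -/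
theorem result {Γ : Type*} [Group Γ] [Fintype Γ] (G N : Subgroup Γ) [hG : G.Normal] [hN : N.Normal] [Fintype G] [Fintype N] (hNG : N ≤ G) (hGlt : G ≠ ⊤) (hNlt : N ≠ G) (hcyc : IsCyclic (Γ ⧸ G)) (hfrob : ∀ x : Γ, x ∉ G → ∀ g : Γ, g ∈ G → x * g * x⁻¹ * g⁻¹ ∈ N → g ∈ N) (θ : Cfsg.IrrCharacter N) (hinv : ∀ (x : Γ) (n : N), (θ : N → ℂ) ⟨x * n * x⁻¹, hN.conj_mem n n.2 x⟩ = (θ : N → ℂ) n) (χ : Cfsg.IrrCharacter G) (e : ℕ) (hram : Cfsg.indFun (N.subgroupOf G) (fun n : N.subgroupOf G => (θ : N → ℂ) ⟨(n : G), n.2⟩) = fun g => (e : ℂ) * (χ : G → ℂ) g) : (G.index : ℤ) ∣ (e : ℤ) - 1 ∨ (G.index : ℤ) ∣ (e : ℤ) + 1 := by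
  classical
  have hn : ∀ (X Y : Subgroup Γ) [Y.Normal], X ≤ Subgroup.normalizer (Y : Set Γ) := fun X Y _ => by
    rw [Subgroup.normalizer_eq_top]; exact le_top
  have h1 : ∀ ψ : IrrCharacter G, (gmul hNG ψ.1 θ.1 : ℂ) = e * classInner ψ.1 χ.1 := fun ψ => by
    rw [gmul_cast _ ψ.2.isCharacter θ.2.isCharacter]
    refine (inner_indHom_right (Subgroup.inclusion hNG) θ.1 ψ.2.isClassFunction).symm.trans ?_
    rw [indHom_inclusion, hram, show (fun g => (e : ℂ) * χ.1 g) = (e : ℂ) • χ.1 from rfl,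
      classInner_smul_right]; simp
  have h2 : ∀ ψ : IrrCharacter G, gmul hNG ψ.1 θ.1 ≠ 0 → ψ = χ := fun ψ h =>
    Subtype.ext (ψ.2.eq_of_classInner_ne_zero χ.2 fun h0 => h (by
      apply Nat.cast_injective (R := ℂ); rw [h1, h0]; simp))
  obtain ⟨ψ, h3⟩ := exists_over hNG θ
  obtain rfl := h2 ψ h3
  have hθ : ∀ x : Γ, cjI (hn ⊤ N (Subgroup.mem_top x)) θ = θ := fun x =>
    Subtype.ext (funext (hinv x))
  have h4 : ∀ x : Γ, cjI (hn ⊤ G (Subgroup.mem_top x)) ψ = ψ := fun x =>
    h2 _ (by rwa [← hθ x, gmul_cjI])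
  obtain ⟨χh, h5, h6⟩ := (NEmb.ofNormal G).exists_ext_of_isCyclic ψ.2
    (fun g n => congrFun (congrArg Subtype.val (h4 g)) n) (by
      exact isCyclic_of_surjective (QuotientGroup.quotientMulEquivOfEq
        (NEmb.ofNormal_range G).symm) (MulEquiv.surjective _))
  obtain ⟨s, hs⟩ := hcyc.exists_generator
  obtain ⟨s, rfl⟩ := QuotientGroup.mk_surjective s
  set S := N ⊔ Subgroup.zpowers s
  have htop : G ⊔ S = ⊤ := by
    rw [eq_top_iff]
    intro x _
    obtain ⟨k, hk⟩ := hs x
    have h7 : (s ^ k)⁻¹ * x ∈ G := QuotientGroup.eq.mp hk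
    have h8 : s ^ k ∈ G ⊔ S := Subgroup.mem_sup_right (Subgroup.mem_sup_right ⟨k, rfl⟩)
    simpa using (G ⊔ S).mul_mem h8 (Subgroup.mem_sup_left h7)
  have hsG : s ∉ G := fun h => hGlt (by
    rw [← htop, left_eq_sup]; exact sup_le hNG (Subgroup.zpowers_le.mpr h))
  have := Fintype.ofFinite S
  let E : NEmb N S := embN le_sup_left (hn S N)
  have hgen : ∀ l : S, ∃ (b : N) (n : ℕ), l = E.f b *
      (⟨s, Subgroup.mem_sup_right (Subgroup.mem_zpowers s)⟩ : S) ^ n := fun l => by
    obtain ⟨k, hk, n, h⟩ := exists_eq_mul_pow_of_mem_sup (hn ⊤ N (Subgroup.mem_top s)) l.2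
    exact ⟨⟨k, hk⟩, n, Subtype.ext h⟩
  obtain ⟨φ, h7, h8⟩ := exists_ext_of_gen E hgen θ.2 (fun b => hinv s b)
  have hirr : IsIrrCharacter N fun n => φ (E.f n) := by rw [funext h8]; exact θ.2
  have hirr' : IsIrrCharacter G fun n : G => χh n := by
    rw [show (fun n : G => χh n) = ψ.1 from funext h6]; exact ψ.2
  have h9 : ∀ n : N, χh n = e * θ.1 n := fun n => by
    have := congrFun ((embN hNG (hn G N)).clifford_of_invariant ψ.2 θ.2 (fun g n => hinv g n)
      ((gmul_ne_zero_iff hNG ψ.2.isCharacter θ.2.isCharacter).mp h3)) n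
    refine (h6 ⟨n, hNG n.2⟩).trans (this.trans ?_)
    have h10 := h1 ψ
    rw [ψ.2.classInner_self, mul_one, gmul_cast _ ψ.2.isCharacter θ.2.isCharacter] at h10
    rw [← h10]; rfl
  obtain ⟨η, h10, h11⟩ := exists_eq_mul_of_res E (h5.isCharacter.restrict S) h7.isCharacter hirr
    (e := e) (fun n => by rw [h8]; exact h9 n)
  obtain ⟨a, ε, μ, hε, h12⟩ := exists_reg_add_linear (fun a b => by
      obtain ⟨a, rfl⟩ := QuotientGroup.mk_surjective a
      obtain ⟨b, rfl⟩ := QuotientGroup.mk_surjective b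
      exact commutatorElement_eq_one_iff_mul_comm.mp
        ((QuotientGroup.eq_one_iff (a * b * a⁻¹ * b⁻¹)).mpr (comm_of_gen E hgen a b))) h10 (by
      intro x hx
      obtain ⟨x, rfl⟩ := QuotientGroup.mk_surjective x
      have hxG : (x : Γ) ∉ G := fun h => hx (by
        obtain ⟨b, n, rfl⟩ := hgen x
        have h1 : s ^ n ∈ G := (G.mul_mem_cancel_left (hNG b.2)).mp h
        have h2 := hfrob s hsG _ h1 (by group; exact one_mem _)
        rw [QuotientGroup.eq_one_iff, embN_range]
        exact N.mul_mem b.2 h2)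
      have h13 := inner_coset_eq (G := G) (z := x) (hn ⊤ N (Subgroup.mem_top _)) hNG
        (fun k hk b hb b' hb' h => hfrob x hxG k hk (by
          have := N.mul_mem (N.inv_mem hb') (hN.conj_mem b hb k)
          convert this using 1
          rw [eq_mul_inv_of_mul_eq h.symm]; group))
        h5.isClassFunction h5.isClassFunction
      rw [cosIn_self _ h5.isCharacter hirr'] at h13
      have h14 : (fun b : N => χh (b * x)) = η x • fun b : N => φ (E.f b * x) := by
        ext b
        have := h11 (E.f b * x)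
        rwa [QuotientGroup.mk_mul, (QuotientGroup.eq_one_iff (N := E.f.range) (E.f b)).mpr
          ⟨b, rfl⟩, one_mul] at this
      rw [h14, classInner_smul_left, classInner_smul_right,
        show classInner _ _ = 1 from cosIn_self E h7.isCharacter hirr x, mul_one,
        Complex.mul_conj'] at h13
      have h15 : ‖η x‖ ^ 2 = 1 := by exact_mod_cast h13
      exact (pow_eq_one_iff_of_nonneg (norm_nonneg _) two_ne_zero).mp h15)
  have h13 : η 1 = e := by
    have h14 := h11 1
    have h15 := h8 1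
    have h16 := h9 1
    simp only [map_one, OneMemClass.coe_one, QuotientGroup.mk_one] at h14 h15 h16
    rw [h14, h15] at h16
    exact mul_right_cancel₀ θ.2.apply_one_ne_zero h16
  have h14 : G.index ∣ Nat.card (S ⧸ E.f.range) := by
    rw [← Subgroup.relIndex_top_right, ← htop, H1.relIndex_sup_of_le_normalizer (hn S G),
      ← Subgroup.index, embN_index]
    exact Subgroup.relIndex_dvd_of_le_left S hNG
  have h15 : (e : ℤ) - ε = a * Nat.card (S ⧸ E.f.range) := by
    apply Int.cast_injective (α := ℂ)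
    push_cast
    rw [← h13, h12, regChar_one]; simp
  have h16 : (G.index : ℤ) ∣ e - ε := h15 ▸ Dvd.dvd.mul_left (by exact_mod_cast h14) _
  rcases hε with rfl | rfl
  · exact Or.inl h16
  · exact Or.inr (by simpa using h16)

end Cfsg.Agent.S4454
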