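import Cfsg.Statements.S4457
import Mathlib
import Cfsg.Agent.H8.Deg5

set_option autoImplicit false
open Cfsg

namespace Cfsg.Agent.S4457

open scoped ComplexConjugate commutatorElement Pointwise
-- OPENS H8
open Cfsg.Agent.H8
open Cfsg.Agent.H6 hiding blockCoeff_eq_zero blockDefect_eq blockHeight_eq blockPart_add
  blockPart_eq_zero_of_regular blockPart_eq_zero_of_singular blockPart_irr_of_mem
  blockPart_irr_of_not_mem blockPart_isClassFunction blockPart_smul blockPart_sub blockPart_sum
  blockPart_zero block_eq_blockOf block_eq_of_mem block_nonempty centralChar_mem char_mem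
  conj_char_mem deg_factorization_le exists_height_zero irrOne_mem_principal isPBlock_blockOf
  isPBlock_principal mem_blockOf_self orderOf_conj' sameBlock_refl sameBlock_symm
  sameBlock_trans weak_orth weak_orth'
open Cfsg.Agent.H4 hiding exists_int_of_isIntegral_rat
open Cfsg.Agent.H5
open Cfsg.Agent.H3 hiding mem_of_pow_mem_of_coprime


/-- Let G be a finite group whose irreducible character degrees are exactly 1 and m (m ≠ 1). Then either G has an abelian normal subgroup of index m, or m is a power of a prime p and G is the direct product of a p-group and an abelian group: there are normal subgroups P and A with P a p-group, A abelian, P ⊓ A = 1 and P ⊔ A = G. -/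
theorem result {G : Type*} [Group G] [Finite G] (m : ℕ) (hcd : ∀ χ : Cfsg.IrrCharacter G, Cfsg.charDegree (χ : G → ℂ) = 1 ∨ Cfsg.charDegree (χ : G → ℂ) = m) (hm : ∃ χ : Cfsg.IrrCharacter G, Cfsg.charDegree (χ : G → ℂ) = m) (hm1 : m ≠ 1) : (∃ A : Subgroup G, A.Normal ∧ (∀ a ∈ A, ∀ b ∈ A, a * b = b * a) ∧ A.index = m) ∨ ∃ p e : ℕ, p.Prime ∧ m = p ^ e ∧ ∃ P A : Subgroup G, P.Normal ∧ A.Normal ∧ IsPGroup p P ∧ (∀ a ∈ A, ∀ b ∈ A, a * b = b * a) ∧ P ⊓ A = ⊥ ∧ P ⊔ A = ⊤ := by
  refine (two_degrees_structure (fun d ⟨χ, h⟩ => h ▸ hcd χ) hm hm1).imp_right ?_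
  rintro ⟨p, e, hp, h1, P, A, h2, h3, h4, h5, h6, h7⟩
  exact ⟨p, e, hp, h1, P, A, h2, h3, h4, fun a _ b hb => Subgroup.mem_center_iff.1 (h5 hb) a, h6, h7⟩

end Cfsg.Agent.S4457
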