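import Cfsg.Statements.S4458
import Mathlib
import Cfsg.Agent.H8.Deg3

set_option autoImplicit false
open Cfsg

namespace Cfsg.Agent.S4458

open scoped ComplexConjugate commutatorElement Pointwise
-- OPENS H8
open Cfsg.Agent.H8
open Cfsg.Agent.H6 hiding blockCoeff_eq_zero blockDefect_eq blockHeight_eq blockPart_add
  blockPart_eq_zero_of_regular blockPart_eq_zero_of_singular blockPart_irr_of_mem
  blockPart_irr_of_not_mem blockPart_isClassFunction blockPart_smul blockPart_sub blockPart_sum
  blockPart_zero block_eq_blockOf block_eq_of_mem block_nonempty centralChar_mem char_mem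
  conj_char_mem deg_factorization_le exists_height_zero irrOne_mem_principal isPBlock_blockOf
  isPBlock_principal mem_blockOf_self orderOf_conj' sameBlock_refl sameBlock_symm
  sameBlock_trans weak_orth weak_orth'
open Cfsg.Agent.H4 hiding exists_int_of_isIntegral_rat
open Cfsg.Agent.H5
open Cfsg.Agent.H3 hiding mem_of_pow_mem_of_coprime


/-- If a finite group has exactly two irreducible character degrees, 1 and m with m ≠ 1, then its commutator subgroup is abelian. -/
theorem result {G : Type*} [Group G] [Finite G] (m : ℕ) (hcd : ∀ χ : Cfsg.IrrCharacter G, Cfsg.charDegree (χ : G → ℂ) = 1 ∨ Cfsg.charDegree (χ : G → ℂ) = m) (hm : ∃ χ : Cfsg.IrrCharacter G, Cfsg.charDegree (χ : G → ℂ) = m) (hm1 : m ≠ 1) : ∀ a ∈ commutator G, ∀ b ∈ commutator G, a * b = b * a := by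
  have h := two_degrees G m fun d ⟨χ, h⟩ => h ▸ hcd χ
  intro a ha b hb
  rw [← commutatorElement_eq_one_iff_mul_comm, ← Subgroup.mem_bot, ← h, derivedSeries_succ,
    derivedSeries_one]
  exact Subgroup.commutator_mem_commutator ha hb

end Cfsg.Agent.S4458
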