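import Cfsg.Statements.S4459
import Mathlib
import Cfsg.Agent.H8.Deg5

set_option autoImplicit false
open Cfsg

namespace Cfsg.Agent.S4459

open scoped ComplexConjugate commutatorElement Pointwise
-- OPENS H8
open Cfsg.Agent.H8
open Cfsg.Agent.H6 hiding blockCoeff_eq_zero blockDefect_eq blockHeight_eq blockPart_add
  blockPart_eq_zero_of_regular blockPart_eq_zero_of_singular blockPart_irr_of_mem
  blockPart_irr_of_not_mem blockPart_isClassFunction blockPart_smul blockPart_sub blockPart_sum
  blockPart_zero block_eq_blockOf block_eq_of_mem block_nonempty centralChar_mem char_mem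
  conj_char_mem deg_factorization_le exists_height_zero irrOne_mem_principal isPBlock_blockOf
  isPBlock_principal mem_blockOf_self orderOf_conj' sameBlock_refl sameBlock_symm
  sameBlock_trans weak_orth weak_orth'
open Cfsg.Agent.H4 hiding exists_int_of_isIntegral_rat
open Cfsg.Agent.H5
open Cfsg.Agent.H3 hiding mem_of_pow_mem_of_coprime


/-- Let G be a non-abelian finite group and p a prime. Then the irreducible character degrees of G are exactly 1 and p if and only if either G has an abelian normal subgroup of index p or the centre of G has index p³. -/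
theorem result {G : Type*} [Group G] [Finite G] (hG : ∃ a b : G, a * b ≠ b * a) (p : ℕ) (hp : p.Prime) : ((∀ χ : Cfsg.IrrCharacter G, Cfsg.charDegree (χ : G → ℂ) = 1 ∨ Cfsg.charDegree (χ : G → ℂ) = p) ∧ ∃ χ : Cfsg.IrrCharacter G, Cfsg.charDegree (χ : G → ℂ) = p) ↔ ((∃ A : Subgroup G, A.Normal ∧ (∀ a ∈ A, ∀ b ∈ A, a * b = b * a) ∧ A.index = p) ∨ (Subgroup.center G).index = p ^ 3) := by
  have hna : commutator G ≠ ⊥ := fun h => by
    obtain ⟨a, b, h1⟩ := hG
    exact h1 (comm_of_derivedSeries_one (by rwa [derivedSeries_one]) a b)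
  constructor
  · rintro ⟨h1, h2⟩
    have h : ∀ d ∈ charDegrees G, d = 1 ∨ d = p := fun d ⟨χ, h⟩ => h ▸ h1 χ
    refine or_iff_not_imp_left.2 fun hno => ?_
    obtain ⟨q, e, hq, h3, P, A, h4, h5, h6, h7, -, h8⟩ :=
      (two_degrees_structure h h2 hp.ne_one).resolve_left hno
    obtain rfl : q = p := ((Nat.Prime.pow_eq_iff hp).1 h3.symm).1
    haveI := Fact.mk hq
    obtain ⟨k, hk⟩ := IsPGroup.iff_card.1 h6
    have h9 : A.index ∣ q ^ k := by
      rw [← Subgroup.relIndex_top_right, ← h8, Subgroup.relIndex_sup_right, ← hk]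
      exact Subgroup.relIndex_dvd_card A P
    obtain ⟨j, -, hj⟩ := (Nat.dvd_prime_pow hq).1 ((Subgroup.index_dvd_of_le h7).trans h9)
    exact center_index_of_prime_degree hq hj h hna hno
  · intro h
    have h1 : ∀ d ∈ charDegrees G, d = 1 ∨ d = p := fun d hd => by
      rcases h with ⟨A, hA, h1, h2⟩ | h
      · exact (Nat.dvd_prime hp).1 (h2 ▸ cd_dvd_index_of_comm h1 hd)
      · obtain ⟨χ, hχ, h1⟩ := mem_cd.1 hd
        obtain ⟨j, -, rfl⟩ := (Nat.dvd_prime_pow hp).1 (h ▸ hχ.degree_dvd_index_center h1)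
        have h2 := (hχ.degree_sq_le_index_charCenter h1).trans
          (Subgroup.index_antitone hχ.center_le_charCenter)
        rw [h, ← pow_mul, Nat.pow_le_pow_iff_right hp.one_lt] at h2
        obtain rfl | rfl : j = 0 ∨ j = 1 := by omega
        · exact Or.inl rfl
        · exact Or.inr (pow_one p)
    refine ⟨fun χ => h1 _ ⟨χ, rfl⟩, ?_⟩
    obtain ⟨d, hd, hd1⟩ := exists_cd_ne_one hna
    exact (h1 d hd).resolve_left hd1 ▸ hd

end Cfsg.Agent.S4459
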