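import Cfsg.Statements.S4460
import Mathlib
import Cfsg.Agent.H8.Deg3

set_option autoImplicit false
open Cfsg

namespace Cfsg.Agent.S4460

open scoped ComplexConjugate commutatorElement Pointwise
-- OPENS H8
open Cfsg.Agent.H8
open Cfsg.Agent.H6 hiding blockCoeff_eq_zero blockDefect_eq blockHeight_eq blockPart_add
  blockPart_eq_zero_of_regular blockPart_eq_zero_of_singular blockPart_irr_of_mem
  blockPart_irr_of_not_mem blockPart_isClassFunction blockPart_smul blockPart_sub blockPart_sum
  blockPart_zero block_eq_blockOf block_eq_of_mem block_nonempty centralChar_mem char_mem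
  conj_char_mem deg_factorization_le exists_height_zero irrOne_mem_principal isPBlock_blockOf
  isPBlock_principal mem_blockOf_self orderOf_conj' sameBlock_refl sameBlock_symm
  sameBlock_trans weak_orth weak_orth'
open Cfsg.Agent.H4 hiding exists_int_of_isIntegral_rat
open Cfsg.Agent.H5
open Cfsg.Agent.H3 hiding mem_of_pow_mem_of_coprime


/-- A finite group with exactly three distinct irreducible character degrees is solvable of derived length at most 3: its third derived subgroup is trivial. -/
theorem result {G : Type*} [Group G] [Finite G] (hcd : Nat.card {n : ℕ // ∃ χ : Cfsg.IrrCharacter G, Cfsg.charDegree (χ : G → ℂ) = n} = 3) : derivedSeries G 3 = ⊥ := by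
  obtain ⟨m, n, h⟩ := exists_three_of_ncard (finite_cd (G := G)) one_mem_cd hcd.le
  exact three_degrees G m n h

end Cfsg.Agent.S4460
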