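import Cfsg.Statements.S4461
import Mathlib
import Cfsg.Agent.H8.Deg4

set_option autoImplicit false
open Cfsg

namespace Cfsg.Agent.S4461

open scoped ComplexConjugate commutatorElement Pointwise
-- OPENS H8
open Cfsg.Agent.H8
open Cfsg.Agent.H6 hiding blockCoeff_eq_zero blockDefect_eq blockHeight_eq blockPart_add
  blockPart_eq_zero_of_regular blockPart_eq_zero_of_singular blockPart_irr_of_mem
  blockPart_irr_of_not_mem blockPart_isClassFunction blockPart_smul blockPart_sub blockPart_sum
  blockPart_zero block_eq_blockOf block_eq_of_mem block_nonempty centralChar_mem char_mem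
  conj_char_mem deg_factorization_le exists_height_zero irrOne_mem_principal isPBlock_blockOf
  isPBlock_principal mem_blockOf_self orderOf_conj' sameBlock_refl sameBlock_symm
  sameBlock_trans weak_orth weak_orth'
open Cfsg.Agent.H4 hiding exists_int_of_isIntegral_rat
open Cfsg.Agent.H5
open Cfsg.Agent.H3 hiding mem_of_pow_mem_of_coprime


/-- Let χ be an irreducible character of the finite group G and K its kernel (the elements where χ takes the value χ(1)). Suppose either that K is not contained in the Fitting subgroup F(G), or that K = F(G) with G/K solvable and K ≠ G. Then there is an irreducible character ψ of G with ψ(1) > χ(1) whose kernel is properly contained in K. -/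
theorem result {G : Type*} [Group G] [Finite G] (χ : Cfsg.IrrCharacter G) (K : Subgroup G) [K.Normal] (hK : (∀ g : G, g ∈ K ↔ (χ : G → ℂ) g = (χ : G → ℂ) 1)) (h : ¬ K ≤ Cfsg.fittingSubgroup G ∨ (K = Cfsg.fittingSubgroup G ∧ Group.IsSolvable (G ⧸ K) ∧ K ≠ ⊤)) : ∃ ψ : Cfsg.IrrCharacter G, Cfsg.charDegree (χ : G → ℂ) < Cfsg.charDegree (ψ : G → ℂ) ∧ ∃ L : Subgroup G, (∀ g : G, g ∈ L ↔ (ψ : G → ℂ) g = (ψ : G → ℂ) 1) ∧ L < K := by
  have e : charKer χ.1 = K := Subgroup.ext fun g => χ.2.isCharacter.mem_charKer.trans (hK g).symm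
  have key : ∃ ψ, IsIrrCharacter G ψ ∧ charDegree χ.1 < charDegree ψ ∧
      charKer ψ < charKer χ.1 := by
    rcases h with h | ⟨h1, h2, h3⟩
    · exact exists_larger_of_not_nilpotent χ.2 fun h1 => h (H1.le_fittingSubgroup (e ▸ h1))
    · exact exists_larger_of_eq_fitting χ.2 e h1 h2 h3
  obtain ⟨ψ, hψ, h1, h2⟩ := key
  exact ⟨⟨ψ, hψ⟩, h1, charKer ψ, fun g => hψ.isCharacter.mem_charKer, e ▸ h2⟩

end Cfsg.Agent.S4461
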