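import Cfsg.Statements.S4468
import Cfsg.Agent.H6.LinP
import Cfsg.Agent.H8.Blich
import Cfsg.Agent.H9.PSolv
-- import your own Cfsg.Agent.* helpers here

set_option autoImplicit false
open Cfsg

namespace Cfsg.Agent.S4468

open Cfsg.Agent.H4 Cfsg.Agent.H5 Cfsg.Agent.H6 Cfsg.Agent.H1

open scoped Pointwise


/-- Let the finite p-solvable group G have a faithful character χ of degree n ≤ p − 1 and suppose that a Sylow p-subgroup of G is not normal. Then n = p − 1, n is a power of 2, and χ is irreducible. -/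
theorem result {G : Type*} [Group G] [Finite G] (χ : G → ℂ) (hχ : Cfsg.IsCharacter G χ) (hfaith : ∀ g : G, χ g = χ 1 → g = 1) (n : ℕ) (hn : Cfsg.charDegree χ = n) (p : ℕ) (hp : p.Prime) (hsolv : Cfsg.IsPSolvable p G) (hnp : n + 1 ≤ p) (P : Sylow p G) (hP : ¬ (P : Subgroup G).Normal) : n + 1 = p ∧ (∃ k : ℕ, n = 2 ^ k) ∧ Cfsg.IsIrrCharacter G χ := by
  haveI : Fact p.Prime := ⟨hp⟩
  subst hn
  have hk : charKer χ = ⊥ := eq_bot_iff.2 fun g hg => hfaith g (apply_of_mem_charKer hg)
  have hab : ∀ a ∈ (P : Subgroup G), ∀ b ∈ (P : Subgroup G), a * b = b * a :=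
    H8.LinDeg.comm_of_le ⟨χ, hχ, hk, le_rfl⟩ fun q hq hd => by
      obtain ⟨k, hk⟩ := IsPGroup.iff_card.1 P.isPGroup'
      rw [hk] at hd
      rw [(Nat.prime_dvd_prime_iff_eq hq hp).1 (hq.dvd_of_dvd_pow hd)]
      exact hnp
  have hc : ¬ pPrimeCore p G ≤ Subgroup.centralizer ((P : Subgroup G) : Set G) := by
    intro hc
    apply hP
    let π := QuotientGroup.mk' (pPrimeCore p G)
    have hπ : Function.Surjective π := QuotientGroup.mk'_surjective _
    have h1 := (isSylowIn_top P).map π
    have h2 : pCore p _ ≤ (P : Subgroup G).map π :=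
      h1.le_of_le_normalizer (by rw [Subgroup.map_top_of_surjective π hπ]; exact le_top)
        (isPGroup_pCore p _) Subgroup.le_normalizer_of_normal
    have h3 : (P : Subgroup G).map π ≤ pCore p _ := by
      refine le_trans ?_ (H9.centralizer_pCore_le_of_isPSolvable (H9.isPSolvable_quotient hsolv _)
        (pPrimeCore_quotient_pPrimeCore p))
      rintro _ ⟨a, ha, rfl⟩ y hy
      obtain ⟨b, hb, rfl⟩ := h2 hy
      rw [← map_mul, ← map_mul, hab a ha b hb]
    have h4 : (pCore p _).comap π ≤ Subgroup.normalizer ((P : Subgroup G) : Set G) := by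
      refine (Subgroup.comap_mono h2).trans ?_
      rw [Subgroup.comap_map_eq, QuotientGroup.ker_mk']
      exact sup_le Subgroup.le_normalizer (hc.trans (Subgroup.centralizer_le_normalizer _))
    refine ⟨fun a ha g => ?_⟩
    have h5 : MulAut.conj g • (P : Subgroup G) ≤ P := by
      refine (isSylowIn_top P).le_of_le_normalizer' le_top (P.isPGroup'.map _) fun x hx => h4 ?_
      have h6 := (inferInstance : ((pCore p _).comap π).Normal).conj_mem _
        (Subgroup.map_le_iff_le_comap.1 h3 (mem_conj_smul.1 hx)) g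
      simpa [mul_assoc] using h6
    exact h5 (mem_conj_smul.2 (by simpa [mul_assoc] using ha))
  obtain ⟨H, _, ψ, hψ, hne, hg⟩ := exists_goodDeg_of_coprime hχ hk P.isPGroup'
    Subgroup.le_normalizer_of_normal (not_dvd_card_pPrimeCore p G) hc
  have h1 : charDegree ψ ≤ charDegree χ := (hχ.restrict H).degree_le_of_constituent hψ hne
    hχ.charDegree_cast.symm hψ.isCharacter.charDegree_cast.symm
  obtain ⟨h2, h3⟩ := hg.eq_of_le hψ.charDegree_pos (by omega)
  have h4 : charDegree ψ = charDegree χ := by omega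
  refine ⟨h4 ▸ h2, h4 ▸ h3, hχ.isIrr_of_comp H.subtype ?_⟩
  have h5 := eq_of_constituent_of_degree_le (hχ.restrict H) hψ hne (by
    simp only [OneMemClass.coe_one]
    rw [← hχ.charDegree_cast, ← hψ.isCharacter.charDegree_cast, h4])
  change IsIrrCharacter H fun x : H => χ x
  rw [h5]; exact hψ

end Cfsg.Agent.S4468
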