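import Cfsg.Statements.S4471
import Mathlib
import Cfsg.Agent.H8.Jordan3

set_option autoImplicit false
open Cfsg

namespace Cfsg.Agent.S4471

open scoped ComplexConjugate commutatorElement Pointwise
-- OPENS H8
open Cfsg.Agent.H8
open Cfsg.Agent.H6 hiding blockCoeff_eq_zero blockCoeff_mem blockDefect_eq blockHeight_eq
  blockPart_add blockPart_eq_zero_of_regular blockPart_eq_zero_of_singular blockPart_irr_of_mem
  blockPart_irr_of_not_mem blockPart_isClassFunction blockPart_smul blockPart_sub blockPart_sum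
  blockPart_zero block_eq_blockOf block_eq_of_mem block_nonempty card_defectGroup
  centralChar_mem char_mem conj_char_mem deg_factorization_le exists_height_zero
  irrOne_mem_principal isPBlock_blockOf isPBlock_principal isPGroup_zpowers mem_blockOf_self
  orderOf_conj' sameBlock_refl sameBlock_symm sameBlock_trans weak_orth weak_orth'
open Cfsg.Agent.H4 hiding exists_int_of_isIntegral_rat
open Cfsg.Agent.H5
open Cfsg.Agent.H3 hiding mem_of_pow_mem_of_coprime


/-- Let p ≥ 7 be a prime and let the finite group G have a faithful irreducible character of degree n with n < 2p and n ≠ p. If the Sylow p-subgroups of G are non-abelian then p² does not divide the index of O_p(G) in G; consequently, in every case G/O_p(G) has abelian Sylow p-subgroups. -/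
theorem result {G : Type*} [Group G] [Finite G] (χ : Cfsg.IrrCharacter G) (hfaith : ∀ g : G, (χ : G → ℂ) g = (χ : G → ℂ) 1 → g = 1) (n : ℕ) (hn : Cfsg.charDegree (χ : G → ℂ) = n) (p : ℕ) (hp : p.Prime) (h7 : 7 ≤ p) (hn2 : n < 2 * p) (hnp : n ≠ p) : ((∃ P : Sylow p G, ∃ x ∈ (P : Subgroup G), ∃ y ∈ (P : Subgroup G), x * y ≠ y * x) → ¬ p ^ 2 ∣ (Cfsg.pCore p G).index) ∧ ∀ Q : Sylow p (G ⧸ Cfsg.pCore p G), ∀ x ∈ (Q : Subgroup (G ⧸ Cfsg.pCore p G)), ∀ y ∈ (Q : Subgroup (G ⧸ Cfsg.pCore p G)), x * y = y * x := by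
  have h : (∃ P : Sylow p G, ∃ x ∈ (P : Subgroup G), ∃ y ∈ (P : Subgroup G), x * y ≠ y * x) →
      ¬ p ^ 2 ∣ (Cfsg.pCore p G).index := by
    rintro ⟨P, x, hx, y, hy, h⟩
    subst hn
    obtain ⟨D, hD, h1, h2⟩ := exists_normal_comm_index hp h7 χ.2 hfaith hn2 hnp P.2 fun h1 => h (by
      have h2 : ⁅(⟨x, hx⟩ : P), (⟨y, hy⟩ : P)⁆ ∈ commutator P :=
        Subgroup.commutator_mem_commutator trivial trivial
      rw [h1, Subgroup.mem_bot, commutatorElement_eq_one_iff_mul_comm] at h2
      exact congrArg Subtype.val h2)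
    exact not_sq_dvd_index_pCore hp h1 hn2 h2
  exact ⟨h, sylow_quotient_pCore_comm hp h⟩

end Cfsg.Agent.S4471
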