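import Cfsg.Statements.S4473
import Cfsg.Agent.H6.Prim
import Cfsg.Agent.H12.DicksonCount
import Cfsg.Agent.H12.PGL2
-- import your own Cfsg.Agent.* helpers here

set_option autoImplicit false
open Cfsg

namespace Cfsg.Agent.S4473

open Cfsg.Agent.H4 Cfsg.Agent.H12 Subgroup MulAction MatrixGroups

theorem not_mem_unip_C {g : PGL(2, ℂ)} (hg : g ≠ 1) (hfin : IsOfFinOrder g) (x : P1 ℂ) :
    g ∉ unip x := by
  intro h
  obtain ⟨k, rfl⟩ := exists_pgl_point x
  rw [mem_unip_smul, mem_unip_inf] at h
  obtain ⟨b, hb⟩ := h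
  obtain ⟨n, hn, hgn⟩ := isOfFinOrder_iff_pow_eq_one.1 hfin
  have h1 : (k⁻¹ * g * k) ^ n = 1 := conj_pow_eq_one_iff.2 hgn
  rw [hb, affPGL_one_pow, affPGL_eq_one] at h1
  have hb0 : b = 0 := by
    rcases mul_eq_zero.1 h1.2 with h | h
    · exact absurd (Nat.cast_eq_zero.1 h) hn.ne'
    · exact h
  rw [hb0, affPGL_one_zero] at hb
  apply hg
  calc g = k * (k⁻¹ * g * k) * k⁻¹ := by group
    _ = 1 := by rw [hb]; group

theorem finite_pgl2_C (H : Subgroup PGL(2, ℂ)) [Finite H] :
    (∃ x : P1 ℂ, (orbit H x).ncard ≤ 2) ∨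
      (Nat.card H = 12 ∨ Nat.card H = 24 ∨ Nat.card H = 60) := by
  by_cases horb : ∃ x : P1 ℂ, (orbit H x).ncard ≤ 2
  · exact Or.inl horb
  right
  push Not at horb
  have hnt : Nontrivial H := by
    by_contra h
    rw [not_nontrivial_iff_subsingleton] at h
    have h1 := horb (inf ℂ)
    have : orbit H (inf ℂ) = {inf ℂ} := by
      ext y
      constructor
      · rintro ⟨g, rfl⟩
        simp [Subsingleton.elim g 1]
      · rintro rfl; exact mem_orbit_self _
    rw [this, Set.ncard_singleton] at h1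
    omega
  have := dickson_count (H := H) (X := P1 ℂ) 1 (fun g hg => ?_) (fun _ => ⊥) (fun x g => ?_)
    (fun x hx => absurd rfl hx) (fun x => horb x)
  · rcases this with ⟨-, h⟩ | ⟨-, x, h⟩ | ⟨x, h, -⟩
    · exact h
    · simp at h
    · simp at h
  · right
    refine ⟨by simpa using hg, ?_⟩
    have hg' : (g : PGL(2, ℂ)) ≠ 1 := fun h => hg (Subtype.ext h)
    obtain ⟨x, hx⟩ := exists_fixed_point (g : PGL(2, ℂ))
    have hfin : IsOfFinOrder (g : PGL(2, ℂ)) :=
      H.subtype.isOfFinOrder (isOfFinOrder_of_finite g)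
    obtain ⟨y, hxy, hy⟩ := exists_fixedBy_of_not_mem_unip hx (not_mem_unip_C hg' hfin x)
    have : fixedBy (P1 ℂ) g = fixedBy (P1 ℂ) (g : PGL(2, ℂ)) := rfl
    rw [this, hy, Set.ncard_pair hxy]
  · simp only [mem_bot, pow_one]
    constructor
    · rintro rfl; simp
    · exact fun h => h.2


/-- Let the finite group G have a faithful irreducible character χ of degree 2 that is primitive: χ is not induced from a character of any proper subgroup. Then the centre of G has index 12, 24 or 60. -/
theorem result {G : Type*} [Group G] [Fintype G] (χ : Cfsg.IrrCharacter G) (hfaith : ∀ g : G, (χ : G → ℂ) g = (χ : G → ℂ) 1 → g = 1) (h2 : Cfsg.charDegree (χ : G → ℂ) = 2) (hprim : ∀ H : Subgroup G, H ≠ ⊤ → ∀ θ : H → ℂ, Cfsg.IsCharacter H θ → (χ : G → ℂ) ≠ Cfsg.indFun H θ) : (Subgroup.center G).index = 12 ∨ (Subgroup.center G).index = 24 ∨ (Subgroup.center G).index = 60 := by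
  classical
  obtain ⟨χ, hχ⟩ := χ
  simp only at hfaith h2 hprim
  have hker : charKer χ = ⊥ := by
    rw [eq_bot_iff]
    intro g hg
    exact mem_bot.2 (hfaith g (apply_of_mem_charKer hg))
  have hP : H6.IsPrim χ := fun T ψ hψ h => by
    by_contra hT
    exact hprim T hT ψ hψ.isCharacter h.symm
  have hcc := hχ.charCenter_eq_center hker
  have hd : χ 1 = (2 : ℕ) := by
    obtain ⟨n, -, hn⟩ := hχ.exists_degree
    rw [charDegree, hn] at h2
    simp at h2
    rw [hn, h2]
  have hidx := hχ.degree_sq_le_index_charCenter hd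
  rw [hcc] at hidx
  obtain ⟨n, ρ, hρ, hρχ⟩ := id hχ
  have hn : n = 2 := by
    have := ρ.char_one
    rw [hρχ, hd] at this
    simp at this
    exact_mod_cast this.symm
  subst hn
  let f : G →* GL (Fin 2) ℂ :=
    ((LinearMap.toMatrixAlgEquiv' (R := ℂ) (n := Fin 2)).toMulEquiv.toMonoidHom.comp ρ).toHomUnits
  have hf : ∀ g, ((f g : GL (Fin 2) ℂ) : Matrix (Fin 2) (Fin 2) ℂ) =
      LinearMap.toMatrixAlgEquiv' (ρ g) := fun g => rfl
  have hρinj : Function.Injective ρ := by
    rw [← MonoidHom.ker_eq_bot_iff, ← charKer_character, hρχ, hker]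
  have hfinj : Function.Injective f := by
    intro a b hab
    apply hρinj
    apply (LinearMap.toMatrixAlgEquiv' (R := ℂ) (n := Fin 2)).injective
    rw [← hf, ← hf, hab]
  let π : G →* PGL(2, ℂ) := Matrix.ProjGenLinGroup.mk.comp f
  have hπ : π.ker = center G := by
    ext g
    rw [MonoidHom.mem_ker]
    change Matrix.ProjGenLinGroup.mk (f g) = 1 ↔ _
    rw [Matrix.ProjGenLinGroup.mk_eq_one]
    constructor
    · intro h
      rw [mem_center_iff]
      intro a
      apply hfinj
      rw [map_mul, map_mul, mem_center_iff.1 h]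
    · intro h
      rw [← hcc, ← hρχ, mem_charCenter_character_iff] at h
      obtain ⟨ω, -, hω⟩ := h
      rw [Matrix.GeneralLinearGroup.mem_center_iff_val_mem_range_scalar]
      refine ⟨ω, ?_⟩
      rw [hf, hω, map_smul]
      have : (LinearMap.id : (Fin 2 → ℂ) →ₗ[ℂ] (Fin 2 → ℂ)) = 1 := rfl
      rw [this, map_one, Matrix.scalar_apply, Matrix.smul_one_eq_diagonal]
  have hcard : (center G).index = Nat.card π.range := by
    rw [← hπ, index_ker]
  have : Finite π.range := Finite.of_surjective _ π.rangeRestrict_surjective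
  rcases finite_pgl2_C π.range with ⟨x, hx⟩ | h
  swap
  · rw [hcard]; exact h
  exfalso
  let B : Subgroup PGL(2, ℂ) := π.range ⊓ stabilizer PGL(2, ℂ) x
  have : Finite B := Finite.of_injective _ (inclusion_injective (inf_le_left : B ≤ π.range))
  have hBc : IsCyclic B := by
    refine isCyclic_of_fix_of_inf_unip B (x := x) (fun g hg => hg.2) ?_
    rw [eq_bot_iff]
    rintro g ⟨hg, hu⟩
    by_contra h1
    exact not_mem_unip_C h1
      (B.subtype.isOfFinOrder (isOfFinOrder_of_finite (⟨g, hg⟩ : B))) x hu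
  let A : Subgroup G := B.comap π
  have hAi : A.index ≤ 2 := by
    have h1 : A = (stabilizer π.range x).comap π.rangeRestrict := by
      ext g
      simp only [A, B, mem_comap, mem_inf, mem_stabilizer_iff]
      exact ⟨fun h => h.2, fun h => ⟨⟨g, rfl⟩, h⟩⟩
    rw [h1, index_comap_of_surjective _ π.rangeRestrict_surjective, index_stabilizer]
    exact hx
  have hAn : A.Normal := by
    have h0 : A.index ≠ 0 := index_ne_zero_of_finite
    have : A.index = 1 ∨ A.index = 2 := by omega
    rcases this with h | h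
    · rw [index_eq_one.1 h]; infer_instance
    · exact normal_of_index_eq_two h
  have hAc : ∀ a ∈ A, ∀ b ∈ A, a * b = b * a := by
    intro a ha b hb
    let φ : A →* B := (π.comp A.subtype).codRestrict B (fun g => g.2)
    have hk : φ.ker ≤ center A := by
      intro z hz
      have : (z : G) ∈ center G := by
        rw [← hπ, MonoidHom.mem_ker]
        exact congrArg Subtype.val (MonoidHom.mem_ker.1 hz)
      rw [mem_center_iff] at this ⊢
      exact fun g => Subtype.ext (this g)
    exact congrArg Subtype.val (commutative_of_cyclic_center_quotient φ hk ⟨a, ha⟩ ⟨b, hb⟩)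
  have hle : A ≤ center G := by
    rw [← hcc]
    refine hP.le_charCenter hχ A ?_
    rw [commutator_le]
    intro a ha b hb
    rw [commutatorElement_eq_one_iff_mul_comm.2 (hAc a ha b hb)]
    exact one_mem _
  have := index_antitone hle
  omega

end Cfsg.Agent.S4473
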