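import Cfsg.Statements.S4474
import Mathlib
import Cfsg.Agent.H8.FS2

set_option autoImplicit false
open Cfsg

namespace Cfsg.Agent.S4474

open scoped ComplexConjugate commutatorElement Pointwise
-- OPENS
open Cfsg.Agent.H8
open Cfsg.Agent.H6
open Cfsg.Agent.H4 hiding exists_int_of_isIntegral_rat
open Cfsg.Agent.H5
open Cfsg.Agent.H3


/-- Let χ be an irreducible character of the finite group G. Then the Frobenius–Schur indicator of χ (the average over s ∈ G of χ(s²)) equals 1 if and only if χ is afforded by a real representation: there is a representation of G on a real coordinate space whose trace function, viewed in ℂ, is χ. -/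
theorem result {G : Type*} [Group G] [Fintype G] (χ : Cfsg.IrrCharacter G) : ((Nat.card G : ℂ)⁻¹ * ∑ s : G, (χ : G → ℂ) (s * s)) = 1 ↔ ∃ (n : ℕ) (ρ : Representation ℝ G (Fin n → ℝ)), ∀ g : G, ((LinearMap.trace ℝ (Fin n → ℝ) (ρ g) : ℝ) : ℂ) = (χ : G → ℂ) g := by
  constructor
  · intro h
    obtain ⟨n, Y, h1, h2⟩ := exists_real_of_fsInd χ.2 h
    have h3 : ∀ g, ((Y g).map Complex.re).map Complex.ofRealHom = Y g := fun g => by
      ext i j
      exact Complex.ext (by simp) (by simp [h1])
    have h4 : Function.Injective fun A : Matrix (Fin n) (Fin n) ℝ => A.map Complex.ofRealHom :=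
      Matrix.map_injective Complex.ofReal_injective
    let X : G →* Matrix (Fin n) (Fin n) ℝ :=
      { toFun := fun g => (Y g).map Complex.re
        map_one' := h4 (by simp only; rw [h3, map_one, Matrix.map_one _ (map_zero _) (map_one _)])
        map_mul' := fun a b => h4 (by simp only; rw [Matrix.map_mul, h3, h3, h3, map_mul]) }
    refine ⟨n, repOfMatrix X, fun g => ?_⟩
    rw [← h2, ← h3]
    change (((repOfMatrix X).character g : ℝ) : ℂ) = _
    rw [repOfMatrix_character]
    simp [Matrix.trace, X]
  · rintro ⟨n, ρ, h⟩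
    have h1 : (fun g => (((Complex.ofRealHom.mapMatrix (m := Fin n)).toMonoidHom.comp (matrixOfRep ρ)) g).trace) = χ.1 := funext fun g => by
      rw [← h]
      change _ = ((ρ.character g : ℝ) : ℂ)
      rw [← trace_matrixOfRep]
      simp [Matrix.trace]
    have := fsInd_eq_one_of_real _ (h1 ▸ χ.2) (fun g i j => by simp)
    rwa [h1] at this

end Cfsg.Agent.S4474
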