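import Cfsg.Statements.S4476
import Mathlib
import Cfsg.Agent.H8.FS1

set_option autoImplicit false
open Cfsg

namespace Cfsg.Agent.S4476

open scoped ComplexConjugate commutatorElement Pointwise
-- OPENS
open Cfsg.Agent.H8
open Cfsg.Agent.H6
open Cfsg.Agent.H4 hiding exists_int_of_isIntegral_rat
open Cfsg.Agent.H5
open Cfsg.Agent.H3


/-- Let G be a finite group of even order g with exactly t involutions, and put α = (g − 1)/t (a rational number). Then (a) some non-identity element x of G has at most α² conjugates; and (b) some non-principal real-valued irreducible character of G has degree at most α. -/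
theorem result {G : Type*} [Group G] [Fintype G] (heven : Even (Nat.card G)) (t : ℕ) (ht : Nat.card {x : G // orderOf x = 2} = t) : (∃ x : G, x ≠ 1 ∧ ((Subgroup.centralizer ({x} : Set G)).index : ℚ) ≤ (((Nat.card G : ℚ) - 1) / t) ^ 2) ∧ ∃ χ : Cfsg.IrrCharacter G, (χ : G → ℂ) ≠ (fun _ => 1) ∧ (∀ g : G, ((χ : G → ℂ) g).im = 0) ∧ (Cfsg.charDegree (χ : G → ℂ) : ℚ) ≤ ((Nat.card G : ℚ) - 1) / t := by
  classical
  have t0 : 0 < t := ht ▸ card_invol_pos heven
  have h1 : t ≤ ∑ χ ∈ realNT G, charDegree (χ : G → ℂ) := ht ▸ card_invol_le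
  have h2 := sum_realNT_sq_le (G := G)
  have h3 := card_realNT_le (G := G)
  have h4 := sum_card_centralizer (G := G)
  have t0' : (0 : ℚ) < t := by exact_mod_cast t0
  set α : ℚ := ((Nat.card G : ℚ) - 1) / t with hα
  have hαt : α * t = Nat.card G - 1 := div_mul_cancel₀ _ t0'.ne'
  have h1' : (t : ℚ) ≤ ∑ χ ∈ realNT G, (charDegree (χ : G → ℂ) : ℚ) := by exact_mod_cast h1
  have h2' : ∑ χ ∈ realNT G, (charDegree (χ : G → ℂ) : ℚ) ^ 2 + 1 ≤ Nat.card G := by exact_mod_cast h2
  have hne : (realNT G).Nonempty := by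
    rw [Finset.nonempty_iff_ne_empty]; intro h; rw [h, Finset.sum_empty] at h1; omega
  have g1 : (1 : ℚ) < Nat.card G := by
    have := Nat.le_of_dvd Nat.card_pos heven.two_dvd
    exact_mod_cast this
  have α0 : 0 < α := div_pos (by linarith) t0'
  constructor
  · by_contra hc
    push Not at hc
    have h5 : (t : ℚ) ^ 2 ≤ (realNT G).card * ∑ χ ∈ realNT G, (charDegree (χ : G → ℂ) : ℚ) ^ 2 :=
      (pow_le_pow_left₀ t0'.le h1' 2).trans sq_sum_le_card_mul_sum_sq
    have h3' : ((realNT G).card : ℚ) + 1 ≤ Nat.card (IrrCharacter G) := by exact_mod_cast h3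
    have h4' : ∑ g : G, (Nat.card (Subgroup.centralizer ({g} : Set G)) : ℚ) = Nat.card G * Nat.card (IrrCharacter G) := by
      exact_mod_cast h4
    rw [← Finset.add_sum_erase _ _ (Finset.mem_univ (1 : G))] at h4'
    have h6 : Nat.card (Subgroup.centralizer ({1} : Set G)) = Nat.card G := by
      rw [show Subgroup.centralizer ({1} : Set G) = ⊤ from by
        rw [eq_top_iff]; intro g _; simp [Subgroup.mem_centralizer_iff], Subgroup.card_top]
    have h7 : ∑ g ∈ Finset.univ.erase (1 : G), α ^ 2 * (Nat.card (Subgroup.centralizer ({g} : Set G)) : ℚ) <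
        ∑ g ∈ Finset.univ.erase (1 : G), (Nat.card G : ℚ) := by
      refine Finset.sum_lt_sum_of_nonempty ?_ fun g hg => ?_
      · obtain ⟨x, hx⟩ := exists_prime_orderOf_dvd_card' (G := G) 2 heven.two_dvd
        exact ⟨x, Finset.mem_erase.mpr ⟨by rintro rfl; simp at hx, Finset.mem_univ _⟩⟩
      · rw [← index_centralizer_mul_card g, Nat.cast_mul]
        exact mul_lt_mul_of_pos_right (hc g (Finset.mem_erase.mp hg).1) (by exact_mod_cast Nat.card_pos)
    rw [← Finset.mul_sum, Finset.sum_const, Finset.card_erase_of_mem (Finset.mem_univ _), Finset.card_univ,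
      Fintype.card_eq_nat_card, nsmul_eq_mul, Nat.cast_sub Nat.card_pos, Nat.cast_one] at h7
    rw [h6] at h4'
    set n : ℚ := (Nat.card G : ℚ)
    set k : ℚ := (Nat.card (IrrCharacter G) : ℚ)
    set S := ∑ g ∈ Finset.univ.erase (1 : G), (Nat.card (Subgroup.centralizer ({g} : Set G)) : ℚ)
    set r : ℚ := ((realNT G).card : ℚ)
    set Q := ∑ χ ∈ realNT G, (charDegree (χ : G → ℂ) : ℚ) ^ 2
    have r0 : 0 ≤ r := Nat.cast_nonneg _
    have e1 : S = n * (k - 1) := by linarith
    have e2 : α ^ 2 * (k - 1) < n - 1 := by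
      rw [e1] at h7
      have : n * (α ^ 2 * (k - 1)) < n * (n - 1) := by linarith
      exact lt_of_mul_lt_mul_left this (by linarith)
    have e3 : (t : ℚ) ^ 2 ≤ (k - 1) * (n - 1) :=
      h5.trans (mul_le_mul (by linarith) (by linarith) (Finset.sum_nonneg fun _ _ => sq_nonneg _) (by linarith))
    have e4 : (n - 1) ^ 2 = α ^ 2 * t ^ 2 := by rw [← hαt]; ring
    have e5 : α ^ 2 * t ^ 2 ≤ α ^ 2 * ((k - 1) * (n - 1)) := mul_le_mul_of_nonneg_left e3 (sq_nonneg _)
    have e6 : α ^ 2 * (k - 1) * (n - 1) < (n - 1) * (n - 1) := mul_lt_mul_of_pos_right e2 (by linarith)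
    nlinarith
  · by_contra hc
    push Not at hc
    have h5 : ∑ χ ∈ realNT G, α * (charDegree (χ : G → ℂ) : ℚ) < ∑ χ ∈ realNT G, (charDegree (χ : G → ℂ) : ℚ) ^ 2 := by
      refine Finset.sum_lt_sum_of_nonempty hne fun χ hχ => ?_
      rw [pow_two]
      exact mul_lt_mul_of_pos_right (hc χ (mem_realNT.mp hχ).1 (mem_realNT.mp hχ).2)
        (by exact_mod_cast irr_charDegree_pos χ)
    rw [← Finset.mul_sum] at h5
    have := mul_le_mul_of_nonneg_left h1' α0.le
    linarith

end Cfsg.Agent.S4476
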