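import Cfsg.Statements.S4477
import Cfsg.Agent.H4.Char4
import Cfsg.Agent.H4.Integral
import Cfsg.Agent.H8.FS1
import Cfsg.Agent.H1.Quaternion
import Cfsg.Agent.H9.MaxClass
import Cfsg.Agent.H3.PGroup1
import Cfsg.Agent.H2.Perm4
-- import your own Cfsg.Agent.* helpers here

set_option autoImplicit false
open Cfsg

namespace Cfsg.Agent.S4477

open Cfsg.Agent.H4 Subgroup

open scoped ComplexConjugate

universe u

theorem abel {G : Type*} [Group G] [Finite G] (hG : IsPGroup 2 G) [hc : IsMulCommutative G]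
    (h : Nat.card {s : G // s * s = 1} % 4 = 2) : IsCyclic G := by
  let A : Subgroup G :=
    { carrier := {s | s * s = 1}
      mul_mem' := fun {a b} ha hb => by
        change a * b * (a * b) = 1
        rw [mul_assoc, hc.is_comm.comm b, mul_assoc, hb, mul_one, ha]
      one_mem' := mul_one 1
      inv_mem' := fun {a} ha => by
        change a⁻¹ * a⁻¹ = 1
        rw [← mul_inv_rev, ha, inv_one] }
  change Nat.card A % 4 = 2 at h
  obtain ⟨k, hk⟩ := IsPGroup.iff_card.1 (hG.to_subgroup A)
  have h2 : Nat.card A = 2 := by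
    rw [hk] at h ⊢
    rcases k with _ | _ | k
    · simp at h
    · rfl
    · rw [pow_add, pow_add] at h; omega
  refine H1.isCyclic_of_unique_order_p hG fun x y hx hy => ?_
  have : zpowers x = A := eq_of_le_of_card_ge
    (zpowers_le.2 (show x * x = 1 by rw [← sq, ← hx, pow_orderOf_eq_one])) (by rw [h2, Nat.card_zpowers, hx])
  rw [this]
  exact (sq y).symm.trans hy

theorem index_of_odd {G : Type*} [Group G] [Finite G] (hG : IsPGroup 2 G) (hc : ¬ IsMulCommutative G)
    {z : G} (hz : z ∈ commutator G)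
    (h : ¬ 2 ∣ Nat.card {χ : IrrCharacter G // (χ : G → ℂ) z ≠ (χ : G → ℂ) 1 ∧ (χ : G → ℂ) 1 = 2}) :
    (commutator G).index = 4 := by
  haveI := Fintype.ofFinite G
  have hl : ∀ l : G →* ℂˣ, l z = 1 := fun l => Abelianization.commutator_subset_ker l hz
  letI : MulAction (G →* ℂˣ)
      {χ : IrrCharacter G // (χ : G → ℂ) z ≠ (χ : G → ℂ) 1 ∧ (χ : G → ℂ) 1 = 2} :=
    { smul := fun l χ => ⟨⟨_, χ.1.2.mul_linear l⟩, by simpa [hl] using χ.2⟩
      one_smul := fun χ => Subtype.ext (Subtype.ext (funext fun g => by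
        show (χ.1 : G → ℂ) g * _ = _
        simp))
      mul_smul := fun l m χ => Subtype.ext (Subtype.ext (funext fun g => by
        show (χ.1 : G → ℂ) g * _ = (χ.1 : G → ℂ) g * _ * _
        simp; ring)) }
  obtain ⟨k, hk⟩ := hG.index (commutator G)
  obtain ⟨⟨χ, hχz, hχ⟩, hf⟩ := (IsPGroup.of_card (G := G →* ℂˣ)
    (card_monoidHom_units.trans hk)).nonempty_fixed_point_of_prime_not_dvd_card _ h
  have hv : ∀ g, g ∉ commutator G → (χ : G → ℂ) g = 0 := fun g hg => by
    obtain ⟨ψ, h1, h2, h3⟩ := exists_irr_ker_apply_ne (commutator G) hg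
    obtain ⟨l, rfl⟩ := h1.isCharacter.exists_linear (h1.commutator_le_charKer_iff.1 h2)
    have h4 : (χ : G → ℂ) g * l g = (χ : G → ℂ) g :=
      congrFun (congrArg Subtype.val (congrArg Subtype.val (hf l))) g
    by_contra h0
    exact h3 (by simpa using (mul_right_eq_self₀.1 h4).resolve_right h0)
  haveI := Fintype.ofFinite (commutator G)
  have h1 := congrArg Complex.re ((classInner_restrict_self_eq_iff _ _).2 hv)
  rw [χ.2.classInner_self, mul_one, classInner_self_re, Complex.natCast_re] at h1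
  have h2 : ∑ x : commutator G, ‖(χ : G → ℂ) x‖ ^ 2 ≤ Nat.card (commutator G) * 4 := by
    rw [Nat.card_eq_fintype_card, ← nsmul_eq_mul, ← Finset.card_univ]
    refine Finset.sum_le_card_nsmul _ _ _ fun x _ => ?_
    have := χ.2.isCharacter.norm_le x
    rw [hχ] at this
    have h3 := norm_nonneg ((χ : G → ℂ) x)
    simp at this
    nlinarith
  have h3 : (0 : ℝ) < Nat.card (commutator G) := by exact_mod_cast Nat.card_pos
  have h4 : (commutator G).index ≤ 4 := by
    have : ((commutator G).index : ℝ) ≤ 4 := by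
      rw [← h1, inv_mul_le_iff₀ h3]; exact h2
    exact_mod_cast this
  by_contra h5
  refine hc (H9.isMulCommutative_of_isCyclic_quotient_commutator hG.isNilpotent
    (isCyclic_of_card_dvd_prime (p := 2) ?_))
  change (commutator G).index ∣ 2
  rw [hk] at h4 h5 ⊢
  rcases k with _ | _ | _ | k
  · simp
  · simp
  · simp at h5
  · have := Nat.two_pow_pos k
    rw [pow_add, pow_add, pow_add] at h4; omega

theorem key {G : Type*} [Group G] [Finite G] (hG : IsPGroup 2 G) {z : G} (hz : z ∈ commutator G)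
    (hc : z ∈ center G) (h2 : z * z = 1)
    (h : 2 ∣ Nat.card {χ : IrrCharacter G // (χ : G → ℂ) z ≠ (χ : G → ℂ) 1 ∧ (χ : G → ℂ) 1 = 2}) :
    (8 : ℤ) ∣ Nat.card {s : G // s * s = 1} - Nat.card {s : G // s * s = z} := by
  classical
  haveI := Fintype.ofFinite G
  choose deg hpos hdeg using fun ψ : IrrCharacter G => ψ.2.exists_degree
  have hν : ∀ χ : IrrCharacter G, ∃ n : ℤ, fsInd (χ : G → ℂ) = n ∧
      (n : ZMod 2) = if (χ : G → ℂ) = fun g => conj ((χ : G → ℂ) g) then 1 else 0 := fun χ => by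
    split_ifs with h
    · rcases χ.2.fsInd_of_real h with h | h
      · exact ⟨1, by simp [h], rfl⟩
      · exact ⟨-1, by simp [h], rfl⟩
    · exact ⟨0, by simp [χ.2.fsInd_eq_zero_of_ne h], rfl⟩
  choose ν hν hν' using hν
  have hneg : ∀ χ : IrrCharacter G, (χ : G → ℂ) z ≠ (χ : G → ℂ) 1 → (χ : G → ℂ) z = -(χ : G → ℂ) 1 := by
    intro χ hχ
    have h1 := apply_mul_of_mem_charCenter (χ.2.center_le_charCenter hc) χ.2.apply_one_ne_zero z
    rw [h2, div_mul_eq_mul_div, eq_div_iff χ.2.apply_one_ne_zero] at h1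
    exact (mul_self_eq_mul_self_iff.1 h1.symm).resolve_left hχ
  have e : (Nat.card {s : G // s * s = 1} - Nat.card {s : G // s * s = z} : ℤ) =
      ∑ χ ∈ Finset.univ.filter (fun χ : IrrCharacter G => (χ : G → ℂ) z ≠ (χ : G → ℂ) 1),
        2 * (ν χ * deg χ) := by
    have : ((Nat.card {s : G // s * s = 1} : ℂ) - Nat.card {s : G // s * s = z}) =
        ∑ χ ∈ Finset.univ.filter (fun χ : IrrCharacter G => (χ : G → ℂ) z ≠ (χ : G → ℂ) 1),
        2 * ((ν χ : ℂ) * deg χ) := by
      rw [card_sqrt_eq_sum, card_sqrt_eq_sum, ← Finset.sum_sub_distrib, Finset.sum_filter]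
      refine Finset.sum_congr rfl fun χ _ => ?_
      split_ifs with h
      · rw [hneg χ h, hν, hdeg]; ring
      · rw [not_not.1 h, sub_self]
    exact_mod_cast this
  rw [e, ← Finset.sum_filter_add_sum_filter_not _ (fun χ : IrrCharacter G => (χ : G → ℂ) 1 = 2)]
  refine dvd_add ?_ (Finset.dvd_sum fun χ hχ => ?_)
  · rw [Finset.filter_filter, Finset.sum_congr rfl (g := fun χ => 4 * ν χ) (fun χ hχ => by
      have : deg χ = 2 := by exact_mod_cast (hdeg χ).symm.trans (Finset.mem_filter.1 hχ).2.2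
      rw [this]; push_cast; ring), ← Finset.mul_sum]
    refine mul_dvd_mul_left 4 ((ZMod.intCast_zmod_eq_zero_iff_dvd _ 2).1 ?_)
    let s : Equiv.Perm (IrrCharacter G) := Function.Involutive.toPerm
      (fun χ => ⟨_, χ.2.conj⟩) (fun χ => Subtype.ext (by simp))
    have h3 := H2.Pm.card_filter_modEq s (fun χ => Subtype.ext (funext fun g => star_star _))
      (Finset.univ.filter fun χ : IrrCharacter G => (χ : G → ℂ) z ≠ (χ : G → ℂ) 1 ∧ (χ : G → ℂ) 1 = 2)
      (fun χ hχ => by
        rw [Finset.mem_filter] at hχ ⊢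
        refine ⟨Finset.mem_univ _, fun e => hχ.2.1 (star_injective e), ?_⟩
        change conj ((χ : G → ℂ) 1) = 2
        rw [χ.2.isCharacter.conj_apply_one, hχ.2.2])
    rw [Nat.card_eq_fintype_card, Fintype.card_subtype] at h
    push_cast
    simp only [hν']
    rw [Finset.sum_boole, ZMod.natCast_eq_zero_iff]
    convert (h3.dvd_iff dvd_rfl).1 h using 3
    exact ⟨fun e => Subtype.ext e.symm, fun e => (congrArg Subtype.val e).symm⟩
  · simp only [Finset.mem_filter, Finset.mem_univ, true_and] at hχ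
    obtain ⟨n, hn⟩ := IsPGroup.iff_card.1 hG
    obtain ⟨k, -, hk⟩ := (Nat.dvd_prime_pow Nat.prime_two).1 (hn ▸ χ.2.degree_dvd_card (hdeg χ))
    rcases k with _ | _ | k
    · exact absurd (apply_of_mem_charKer (χ.2.commutator_le_charKer_iff.2 (by simp [hdeg, hk]) hz)) hχ.1
    · exact absurd (by simp [hdeg, hk]) hχ.2
    · exact ⟨ν χ * 2 ^ k, by rw [hk]; push_cast; ring⟩

theorem main (n : ℕ) : ∀ (G : Type u) [Group G] [Finite G], Nat.card G = n → IsPGroup 2 G →
    Nat.card {s : G // s * s = 1} % 4 = 2 → IsCyclic G ∨ (commutator G).index = 4 := by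
  induction n using Nat.strong_induction_on with
  | _ n ih =>
  intro G _ _ hn hG h
  classical
  by_cases hc : IsMulCommutative G
  · exact Or.inl (abel hG h)
  right
  have h0 := H3.inf_center_ne_bot hG.isNilpotent (commutator G) (fun e => hc
    ((commutator_eq_bot_iff G).1 e))
  obtain ⟨⟨z, hz⟩, ho⟩ := exists_prime_orderOf_dvd_card' (G := (commutator G ⊓ center G : Subgroup G)) 2
    ((hG.to_subgroup _).card_eq_or_dvd.resolve_left (mt card_eq_one.1 h0))
  rw [orderOf_mk] at ho
  obtain ⟨hz, hzc⟩ := mem_inf.1 hz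
  have h2 : z * z = 1 := by rw [← sq, ← ho, pow_orderOf_eq_one]
  by_contra h4
  have h5 := key hG hz hzc h2 (by_contra fun h => h4 (index_of_odd hG hc hz h))
  haveI : (zpowers z).Normal := ⟨fun x hx g => by
    rwa [mem_center_iff.1 (zpowers_le.2 hzc hx), mul_inv_cancel_right]⟩
  have h6 : Nat.card {s : G // s * s = 1} + Nat.card {s : G // s * s = z} =
      2 * Nat.card {s : G ⧸ zpowers z // s * s = 1} := by
    have := QuotientGroup.card_preimage_mk (zpowers z) {s | s * s = 1}
    rw [Nat.card_zpowers, ho] at this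
    refine Eq.trans ?_ this
    rw [← Set.coe_setOf, ← Set.coe_setOf, Nat.card_coe_set_eq, Nat.card_coe_set_eq, Nat.card_coe_set_eq,
      ← Set.ncard_union_eq (show Disjoint {x : G | x * x = 1} {x | x * x = z} from
        Set.disjoint_left.2 fun s (a : s * s = 1) (b : s * s = z) => by
          rw [← b, a, orderOf_one] at ho; omega)]
    congr 1
    ext s
    simp only [Set.mem_union, Set.mem_setOf_eq, Set.mem_preimage, ← QuotientGroup.mk_mul,
      QuotientGroup.eq_one_iff]
    rw [mem_zpowers_iff_mem_range_orderOf, ho]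
    simp [Finset.range_add_one, eq_comm, or_comm]
  have h7 := (zpowers z).card_mul_index
  rw [Nat.card_zpowers, ho] at h7
  have h8 : 0 < (zpowers z).index := Nat.pos_of_ne_zero index_ne_zero_of_finite
  rcases ih _ (by omega : (zpowers z).index < n) (G ⧸ zpowers z) rfl (hG.to_quotient _) (by omega) with h9 | h9
  · exact hc ⟨⟨commutative_of_cyclic_center_quotient (QuotientGroup.mk' (zpowers z))
      (by rw [QuotientGroup.ker_mk']; exact zpowers_le.2 hzc)⟩⟩
  · refine h4 ?_
    rw [← h9, _root_.commutator_def (G ⧸ _), ← map_top_of_surjective _ (QuotientGroup.mk'_surjective (zpowers z)),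
      ← map_commutator, ← _root_.commutator_def, index_map_eq _ (QuotientGroup.mk'_surjective _)
      (by rw [QuotientGroup.ker_mk']; exact zpowers_le.2 hz)]


/-- Let G be a finite 2-group whose number of involutions is congruent to 1 modulo 4. Then G is cyclic or its commutator subgroup has index 4. -/
theorem result {G : Type*} [Group G] [Finite G] (hG : IsPGroup 2 G) (ht : Nat.card {x : G // orderOf x = 2} % 4 = 1) : IsCyclic G ∨ (commutator G).index = 4 := by
  exact main _ G rfl hG (by rw [H8.card_sq_eq_one_eq]; omega)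

end Cfsg.Agent.S4477
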