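import Cfsg.Statements.S4478
import Mathlib
import Cfsg.Agent.H8.FS1
import Cfsg.Agent.H6.Kernel
import Cfsg.Agent.H8.Princ

set_option autoImplicit false
open Cfsg

namespace Cfsg.Agent.S4478

open scoped ComplexConjugate commutatorElement Pointwise
-- OPENS
open Cfsg.Agent.H8
open Cfsg.Agent.H6 hiding blockCoeff_eq_zero blockDefect_eq blockHeight_eq blockPart_add
  blockPart_eq_zero_of_regular blockPart_eq_zero_of_singular blockPart_irr_of_mem
  blockPart_irr_of_not_mem blockPart_isClassFunction blockPart_smul blockPart_sub blockPart_sum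
  blockPart_zero block_eq_blockOf block_eq_of_mem block_nonempty centralChar_mem char_mem
  conj_char_mem deg_factorization_le exists_height_zero irrOne_mem_principal isPBlock_blockOf
  isPBlock_principal mem_blockOf_self orderOf_conj' sameBlock_refl sameBlock_symm
  sameBlock_trans weak_orth weak_orth'
open Cfsg.Agent.H4 hiding exists_int_of_isIntegral_rat
open Cfsg.Agent.H5
open Cfsg.Agent.H3


/-- Let G be a finite group of even order and χ an irreducible character of G whose degree x is divisible by the full power of 2 dividing the order of G and, for every odd prime p such that G has an element of order 2p, by the full power of p dividing the order of G. Then all involutions of G are conjugate, the centralizer of every involution has order exactly x with x coprime to its index, and the Frobenius–Schur indicator of χ equals 1. -/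
theorem result {G : Type*} [Group G] [Fintype G] (heven : Even (Nat.card G)) (χ : Cfsg.IrrCharacter G) (h2 : 2 ^ (Nat.card G).factorization 2 ∣ Cfsg.charDegree (χ : G → ℂ)) (hp : ∀ p : ℕ, p.Prime → p ≠ 2 → (∃ g : G, orderOf g = 2 * p) → p ^ (Nat.card G).factorization p ∣ Cfsg.charDegree (χ : G → ℂ)) : (∀ s t : G, orderOf s = 2 → orderOf t = 2 → IsConj s t) ∧ (∀ s : G, orderOf s = 2 → Nat.card (Subgroup.centralizer ({s} : Set G)) = Cfsg.charDegree (χ : G → ℂ) ∧ (Nat.card (Subgroup.centralizer ({s} : Set G))).Coprime (Subgroup.centralizer ({s} : Set G)).index) ∧ (Nat.card G : ℂ)⁻¹ * ∑ g : G, (χ : G → ℂ) (g * g) = 1 := by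
  classical
  set d := charDegree (χ : G → ℂ) with hd
  have d0 : 0 < d := irr_charDegree_pos χ
  have van : ∀ p : ℕ, p.Prime → p ^ (Nat.card G).factorization p ∣ d → ∀ g : G, p ∣ orderOf g → (χ : G → ℂ) g = 0 :=
    fun p hp h g hg => apply_eq_zero_of_defect_zero hp χ.2 ((hp.pow_dvd_iff_le_factorization d0.ne').mp h) hg
  have t0 := card_invol_pos heven
  set t := Nat.card {x : G // orderOf x = 2} with ht
  have hχ1 : (χ : G → ℂ) ≠ fun _ => 1 := by
    intro h
    obtain ⟨x, hx⟩ := exists_prime_orderOf_dvd_card' (G := G) 2 heven.two_dvd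
    have := van 2 Nat.prime_two h2 x hx.symm.dvd
    rw [h] at this
    exact one_ne_zero this
  have hsum : ∑ g : G, (χ : G → ℂ) (g * g) = t * d := by
    have e1 : ∀ g : G, (χ : G → ℂ) (g * g) = (if Odd (orderOf g) then (χ : G → ℂ) (g ^ 2) else 0) +
        (if orderOf g = 2 then (d : ℂ) else 0) := by
      intro g
      by_cases h1 : Odd (orderOf g)
      · rw [if_pos h1, if_neg (fun h => by rw [h] at h1; exact absurd h1 (by decide)), add_zero, pow_two]
      rw [if_neg h1, zero_add]
      by_cases h3 : orderOf g = 2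
      · rw [if_pos h3, mul_self_eq_one_iff_orderOf.mpr (Or.inr h3), hd, irr_coe_charDegree]
      rw [if_neg h3]
      obtain ⟨m, hm⟩ := (Nat.not_odd_iff_even.mp h1).two_dvd
      have hm2 : orderOf (g * g) = m := by
        rw [← pow_two, orderOf_pow' _ two_ne_zero, hm, Nat.gcd_mul_right_left, Nat.mul_div_cancel_left _ two_pos]
      have hm1 : m ≠ 1 := by rintro rfl; exact h3 hm
      obtain ⟨p, hp1, hp2⟩ := Nat.exists_prime_and_dvd hm1
      refine van p hp1 ?_ _ (hm2 ▸ hp2)
      by_cases hp3 : p = 2
      · subst hp3; exact h2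
      · obtain ⟨k, hk⟩ := exists_orderOf_eq_of_dvd (g := g) (n := 2 * p) (hm ▸ Nat.mul_dvd_mul_left 2 hp2)
        exact hp p hp1 hp3 ⟨_, hk⟩
    rw [Finset.sum_congr rfl fun g _ => e1 g, Finset.sum_add_distrib, ← Finset.sum_filter, ← Finset.sum_filter,
      Finset.sum_const, nsmul_eq_mul, ht, Nat.card_eq_fintype_card, Fintype.card_subtype, add_eq_right]
    have e2 : ∑ g ∈ Finset.univ.filter (fun g : G => Odd (orderOf g)), (χ : G → ℂ) (g ^ 2) =
        ∑ g ∈ Finset.univ.filter (fun g : G => Odd (orderOf g)), (χ : G → ℂ) g := by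
      have hcl : ∀ g : G, Odd (orderOf g) → orderOf (g ^ 2) = orderOf g := fun g hg =>
        (Nat.coprime_two_right.mpr hg).orderOf_pow
      refine Finset.sum_bij (fun g _ => g ^ 2) (fun g hg => ?_) (fun a ha b hb h => ?_) (fun b hb => ?_) (fun _ _ => rfl)
      · simp only [Finset.mem_filter, Finset.mem_univ, true_and] at hg ⊢
        rwa [hcl g hg]
      · simp only [Finset.mem_filter, Finset.mem_univ, true_and] at ha hb
        have h' : orderOf a = orderOf b := by rw [← hcl a ha, ← hcl b hb]; exact congrArg _ h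
        obtain ⟨k, hk⟩ := ha
        have ea : a = (a ^ 2) ^ (k + 1) := by
          rw [← pow_mul, show 2 * (k + 1) = orderOf a + 1 by omega, pow_succ, pow_orderOf_eq_one, one_mul]
        have eb : b = (b ^ 2) ^ (k + 1) := by
          rw [← pow_mul, show 2 * (k + 1) = orderOf b + 1 by omega, pow_succ, pow_orderOf_eq_one, one_mul]
        rw [ea, eb]; exact congrArg (· ^ (k + 1)) h
      · simp only [Finset.mem_filter, Finset.mem_univ, true_and] at hb ⊢
        obtain ⟨k, hk⟩ := id hb
        refine ⟨b ^ (k + 1), hb.of_dvd_nat (orderOf_pow_dvd _), ?_⟩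
        rw [← pow_mul, show (k + 1) * 2 = orderOf b + 1 by omega, pow_succ, pow_orderOf_eq_one, one_mul]
    rw [e2, Finset.sum_filter]
    refine (Finset.sum_congr rfl fun g _ => ?_).trans (χ.2.sum_eq_zero hχ1)
    split_ifs with h
    · rfl
    · exact (van 2 Nat.prime_two h2 g (Nat.not_odd_iff_even.mp h).two_dvd).symm
  have hν : fsInd (χ : G → ℂ) = (((t * d : ℕ) : ℝ) / Nat.card G : ℝ) := by
    rw [fsInd, hsum]; push_cast; rw [div_eq_inv_mul]
  have hpos : (0 : ℝ) < ((t * d : ℕ) : ℝ) / Nat.card G :=
    div_pos (by exact_mod_cast Nat.mul_pos t0 d0) (by exact_mod_cast Nat.card_pos)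
  have hν1 : fsInd (χ : G → ℂ) = 1 := by
    rcases χ.2.fsInd_cases with h | h | h
    · rw [hν] at h; exact absurd (by exact_mod_cast h) hpos.ne'
    · exact h
    · rw [hν] at h
      have : ((t * d : ℕ) : ℝ) / Nat.card G = -1 := by exact_mod_cast h
      linarith
  have htd : t * d = Nat.card G := by
    rw [hν] at hν1
    have : ((t * d : ℕ) : ℝ) / Nat.card G = 1 := by exact_mod_cast hν1
    rw [div_eq_one_iff_eq (by exact_mod_cast Nat.card_pos.ne')] at this
    exact_mod_cast this
  have hfull : ∀ s : G, orderOf s = 2 → ∀ p : ℕ, p.Prime → p ∣ Nat.card (Subgroup.centralizer ({s} : Set G)) →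
      p ^ (Nat.card G).factorization p ∣ d := by
    intro s hs p hp1 hp2
    by_cases hp3 : p = 2
    · subst hp3; exact h2
    haveI := Fact.mk hp1
    obtain ⟨y, hy⟩ := exists_prime_orderOf_dvd_card' p hp2
    refine hp p hp1 hp3 ⟨s * y, ?_⟩
    have hc : Commute s y := mem_centralizer_singleton.mp y.2
    rw [hc.orderOf_mul_eq_mul_orderOf_of_coprime, hs, Subgroup.orderOf_coe, hy]
    rw [hs, Subgroup.orderOf_coe, hy]
    exact (Nat.coprime_primes Nat.prime_two hp1).mpr (Ne.symm hp3)
  have hdvd : ∀ s : G, orderOf s = 2 → Nat.card (Subgroup.centralizer ({s} : Set G)) ∣ d := by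
    intro s hs
    refine (Nat.dvd_iff_prime_pow_dvd_dvd _ _).mpr fun p k hp1 hk => ?_
    rcases k with _ | k
    · simp
    refine Dvd.dvd.trans (pow_dvd_pow _ ?_) (hfull s hs p hp1 ((dvd_pow_self p k.succ_ne_zero).trans hk))
    exact (hp1.pow_dvd_iff_le_factorization Nat.card_pos.ne').mp (hk.trans (Subgroup.card_subgroup_dvd_card _))
  have hcls : ∀ s : G, orderOf s = 2 → Nat.card {x : G // IsConj s x} = t ∧
      Nat.card (Subgroup.centralizer ({s} : Set G)) = d := by
    intro s hs
    have e1 := card_centralizer_mul_card_isConj s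
    have e2 : Nat.card {x : G // IsConj s x} ≤ t :=
      Nat.card_le_card_of_injective (fun x => (⟨x.1, by rw [← orderOf_eq_of_isConj x.2, hs]⟩ : {x : G // orderOf x = 2}))
        (fun a b h => Subtype.ext (Subtype.mk.inj h))
    have e3 := Nat.le_of_dvd d0 (hdvd s hs)
    rw [← htd] at e1
    constructor <;> nlinarith
  refine ⟨fun s u hs hu => ?_, fun s hs => ⟨(hcls s hs).2, ?_⟩, hν1⟩
  · have hinj : Function.Injective (fun x : {x : G // IsConj s x} =>
        (⟨x.1, by rw [← orderOf_eq_of_isConj x.2, hs]⟩ : {x : G // orderOf x = 2})) :=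
      fun a b h => Subtype.ext (Subtype.mk.inj h)
    obtain ⟨x, hx⟩ := (hinj.bijective_of_nat_card_le (hcls s hs).1.ge).2 ⟨u, hu⟩
    have : x.1 = u := Subtype.mk.inj hx
    exact this ▸ x.2
  · refine Nat.coprime_of_dvd fun p hp1 hp2 hp3 => ?_
    have e1 := hfull s hs p hp1 hp2
    rw [← (hcls s hs).2] at e1
    have := Nat.mul_dvd_mul hp3 e1
    rw [index_centralizer_mul_card, ← pow_succ'] at this
    have := (hp1.pow_dvd_iff_le_factorization Nat.card_pos.ne').mp this
    omega

end Cfsg.Agent.S4478
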