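import Cfsg.Statements.S4480
import Cfsg.Agent.H6.Klein2
-- import your own Cfsg.Agent.* helpers here

set_option autoImplicit false
open Cfsg

namespace Cfsg.Agent.S4480

open Cfsg.Agent.H4 Cfsg.Agent.H6


/-- Same setting as the Klein-four order formula: G of order 4·g₀ (g₀ odd) with no normal 2-complement, P a Sylow 2-subgroup, J an involution of P, M over 2, principal 2-block {1, χ₁, χ₂, χ₃} with χ_i(J) = ε_i = ±1. Suppose ε₁ε₂ε₃ = −1 and ε₃ = −1, and put q = x₃ = χ₃(1). Then there is a natural number m with 4·c(J) = m·c(P)·(q + 1), and the order of G equals (m³·c(P)/4)·(q³ − q)/2, that is 8·#G = m³·c(P)·(q³ − q). -/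
theorem result {G : Type*} [Group G] [Finite G] (M : Ideal Cfsg.AlgInt) (hM : Cfsg.IsPModular 2 M) (g₀ : ℕ) (hg₀ : Odd g₀) (hG : Nat.card G = 4 * g₀) (hnc : ¬ ∃ N : Subgroup G, N.Normal ∧ Nat.card N = g₀) (P : Sylow 2 G) (J : G) (hJ : J ∈ (P : Subgroup G)) (hJ2 : orderOf J = 2) (χ₁ χ₂ χ₃ : Cfsg.IrrCharacter G) (ε₁ ε₂ ε₃ : ℤ) (hB : Cfsg.principalBlock M G = {χ : Cfsg.IrrCharacter G | (χ : G → ℂ) = (fun _ => 1) ∨ χ = χ₁ ∨ χ = χ₂ ∨ χ = χ₃}) (hdist : (χ₁ : G → ℂ) ≠ (fun _ => 1) ∧ (χ₂ : G → ℂ) ≠ (fun _ => 1) ∧ (χ₃ : G → ℂ) ≠ (fun _ => 1) ∧ χ₁ ≠ χ₂ ∧ χ₁ ≠ χ₃ ∧ χ₂ ≠ χ₃) (hε : (ε₁ = 1 ∨ ε₁ = -1) ∧ (ε₂ = 1 ∨ ε₂ = -1) ∧ (ε₃ = 1 ∨ ε₃ = -1)) (hval : (χ₁ : G → ℂ) J = ε₁ ∧ (χ₂ : G → ℂ) J = ε₂ ∧ (χ₃ : G → ℂ) J = ε₃) (hprod : ε₁ * ε₂ * ε₃ = -1) (hε₃ : ε₃ = -1) : ∃ m : ℕ, 4 * Nat.card (Subgroup.centralizer ({J} : Set G)) = m * Nat.card (Subgroup.centralizer ((P : Subgroup G) : Set G)) * (Cfsg.charDegree (χ₃ : G → ℂ) + 1) ∧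 8 * Nat.card G = m ^ 3 * Nat.card (Subgroup.centralizer ((P : Subgroup G) : Set G)) * (Cfsg.charDegree (χ₃ : G → ℂ) ^ 3 - Cfsg.charDegree (χ₃ : G → ℂ)) := by
  classical
  haveI := hM.2.1
  haveI := Fintype.ofFinite G
  obtain ⟨h1, h2, h3, h4⟩ := klein_eqs hM hg₀ hG hnc P hJ hJ2 hB hdist hval
  obtain ⟨hP, -⟩ := klein_setup hg₀ hG hnc P
  have a1 := χ₁.2.charDegree_pos
  have a2 := χ₂.2.charDegree_pos
  have a3 := χ₃.2.charDegree_pos
  subst hε₃
  obtain ⟨rfl, rfl⟩ : ε₁ = 1 ∧ ε₂ = 1 := by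
    obtain ⟨rfl | rfl, rfl | rfl, -⟩ := hε <;> omega
  obtain ⟨d1, d2, d3, d12, d13, d23⟩ := hdist
  have hodd : ∀ χ : IrrCharacter G, (χ : G → ℂ) J = (1 : ℤ) → fsInd (χ : G → ℂ) ≠ -1 := by
    intro χ hχ e
    have h5 := χ.2.even_of_fsInd_eq_neg_one e (irr_deg_cast χ).symm
    obtain ⟨k, hk⟩ := (χ.2.isGen.sub isGen_one).exists_int_of_vanishing (Subgroup.zpowers J)
      fun g hg hg1 => by
        have hg2 : orderOf g ∣ 2 := hJ2 ▸ orderOf_dvd_of_mem_zpowers hg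
        rw [eq_of_mem_zpowers_of_orderOf_two hg (Subgroup.mem_zpowers J)
          (((Nat.dvd_prime Nat.prime_two).1 hg2).resolve_left (by simpa using hg1)) hJ2,
          Pi.sub_apply, hχ]
        simp
    rw [Nat.card_zpowers, hJ2, Pi.sub_apply, ← irr_deg_cast] at hk
    have h6 : (charDegree (χ : G → ℂ) - 1 : ℤ) = (2 : ℕ) * k := by exact_mod_cast hk
    obtain ⟨m, hm⟩ := h5
    omega
  have hν : fsInd (χ₁ : G → ℂ) = 0 := by
    rcases χ₁.2.fsInd_cases with a | a | a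
    · exact a
    · exfalso
      rcases χ₂.2.fsInd_cases with b | b | b
      rotate_left 2
      · exact hodd _ hval.2.1 b
      all_goals rcases χ₃.2.fsInd_cases with c | c | c <;> rw [a, b, c] at h3 <;> norm_num at h3
    · exact absurd a (hodd _ hval.1)
  have hx : charDegree (χ₂ : G → ℂ) = charDegree (χ₁ : G → ℂ) := by
    let χ : IrrCharacter G := ⟨_, χ₁.2.conj⟩
    have e1 : χ ≠ χ₁ := fun e => by
      rcases χ₁.2.fsInd_of_real (congrArg Subtype.val e).symm with a | a <;> simp [hν] at a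
    have e2 : χ ≠ irrOne G := fun e => d1 (funext fun g => by
      simpa [χ] using congrArg (starRingEnd ℂ) (congrFun (congrArg Subtype.val e) g))
    have e3 : χ ≠ χ₃ := fun e => by
      have := congrFun (congrArg Subtype.val e) J
      simp only [χ, hval] at this
      norm_num at this
    let θ : G → ℂ := (irrOne G : G → ℂ) + χ₁ + χ₂ - χ₃
    have h5 : (fun g => starRingEnd ℂ (θ g)) = θ := funext fun g => by
      simpa [θ, sub_eq_add_neg] using h4 g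
    have h6 := classInner_conj_conj (φ := θ) (ψ := χ₁)
    rw [h5] at h6
    change classInner θ χ = _ at h6
    have a1 : irrOne G ≠ χ₁ := fun e => d1 (e ▸ rfl)
    simp only [θ, classInner_sub_left, classInner_add_left, classInner_sub_right,
      classInner_add_right, irr_classInner, if_neg a1.symm, if_neg d12, if_neg d13, if_neg e1.symm,
      if_neg e2.symm, if_neg e3.symm, if_neg a1, if_neg d12.symm, if_neg d13.symm, if_true] at h6
    have h7 : χ₂ = χ := by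
      by_contra h7
      simp [h7] at h6
    rw [h7]
    simp [χ, charDegree]
  have hle : Subgroup.centralizer ((P : Subgroup G) : Set G) ≤ Subgroup.centralizer {J} :=
    Subgroup.centralizer_le (Set.singleton_subset_iff.2 hJ)
  obtain ⟨u, hu⟩ := Subgroup.card_dvd_of_le hle
  have hi := (Subgroup.centralizer ({J} : Set G)).card_mul_index
  have c2 : 0 < Nat.card (Subgroup.centralizer ((P : Subgroup G) : Set G)) := Nat.card_pos
  have hu0 : 0 < u := Nat.pos_of_mul_pos_left (hu ▸ Nat.card_pos)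
  rw [← hi, hu]
  rw [← hi, hu, hx] at h2
  have hq : charDegree (χ₃ : G → ℂ) = 2 * charDegree (χ₁ : G → ℂ) + 1 := by omega
  rw [hq] at h2 ⊢
  generalize charDegree (χ₁ : G → ℂ) = x at *
  generalize Nat.card (Subgroup.centralizer ((P : Subgroup G) : Set G)) = c at *
  generalize (Subgroup.centralizer ({J} : Set G)).index = i at *
  have h5 : i * (x + 1) ^ 2 = (2 * u) ^ 2 * (x * (2 * x + 1)) := by
    have : (i * (x + 1) ^ 2 : ℚ) = (2 * u) ^ 2 * (x * (2 * x + 1)) := by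
      push_cast at h2
      field_simp at h2
      linear_combination h2 / 2
    exact_mod_cast this
  have h6 : ((x + 1) ^ 2).Coprime (x * (2 * x + 1)) := by
    refine Nat.Coprime.pow_left _ (Nat.Coprime.mul_right (by simp) ?_)
    rw [show 2 * x + 1 = x + (x + 1) by ring]
    simp
  obtain ⟨m, hm⟩ := (Nat.pow_dvd_pow_iff two_ne_zero).1
    (h6.dvd_of_dvd_mul_right (h5 ▸ Dvd.intro_left _ rfl))
  rw [hm, mul_pow, mul_comm i, mul_assoc, mul_right_inj' (by positivity)] at h5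
  refine ⟨m, by linear_combination 2 * c * hm, ?_⟩
  rw [show (2 * x + 1) ^ 3 - (2 * x + 1) = 4 * x * (x + 1) * (2 * x + 1) from
    Nat.sub_eq_of_eq_add (by ring), h5]
  linear_combination 4 * c * m ^ 2 * x * (2 * x + 1) * hm

end Cfsg.Agent.S4480
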