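import Cfsg.Statements.S4481
import Cfsg.Agent.H6.Dih2
-- import your own Cfsg.Agent.* helpers here

set_option autoImplicit false
open Cfsg

namespace Cfsg.Agent.S4481

open Cfsg.Agent.H4 Cfsg.Agent.H6


/-- The principal 2-block of a group with dihedral Sylow 2-subgroups. Let G be a finite group whose Sylow 2-subgroup P is dihedral of order 2^n ≥ 8, let σ be an element of P of order 2^(n−1), ζ a primitive 2^(n−1)-th root of unity, and M a maximal ideal of the algebraic integers containing 2. Then the principal 2-block consists of exactly 3 + 2^(n−2) irreducible characters, which can be labelled 1, χ₁, χ₂, χ₃ and χ^(j) for 1 ≤ j ≤ 2^(n−2) − 1 (all distinct), with signs δ₁, δ₂, δ₃ such that for 0 < λ < 2^(n−1): χ₁(σ^λ) = δ₁, χ₂(σ^λ) = δ₂(−1)^(λ+1), χ₃(σ^λ) = δ₃(−1)^(λ+1) and χ^(j)(σ^λ) = δ₁(ζ^(jλ) + ζ^(−jλ)); and for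 every element ρ of odd order and every j: 1 + δ₁χ₁(ρ) = −δ₂χ₂(ρ) − δ₃χ₃(ρ) = δ₁χ^(j)(ρ). -/
theorem result {G : Type*} [Group G] [Finite G] (M : Ideal Cfsg.AlgInt) (hM : Cfsg.IsPModular 2 M) (n : ℕ) (hn : 3 ≤ n) (P : Sylow 2 G) (hP : Nonempty ((P : Subgroup G) ≃* DihedralGroup (2 ^ (n - 1)))) (σ : G) (hσ : σ ∈ (P : Subgroup G)) (hσo : orderOf σ = 2 ^ (n - 1)) (ζ : ℂ) (hζ : IsPrimitiveRoot ζ (2 ^ (n - 1))) : Nat.card (Cfsg.principalBlock M G) = 3 + 2 ^ (n - 2) ∧ ∃ (χ₁ χ₂ χ₃ : Cfsg.IrrCharacter G) (χ' : Fin (2 ^ (n - 2) - 1) → Cfsg.IrrCharacter G) (δ₁ δ₂ δ₃ : ℤ), (δ₁ = 1 ∨ δ₁ = -1) ∧ (δ₂ = 1 ∨ δ₂ = -1) ∧ (δ₃ = 1 ∨ δ₃ = -1) ∧ Function.Injective χ' ∧ (χ₁ : G → ℂ) ≠ (fun _ => 1) ∧ (χ₂ : G → ℂ) ≠ (fun _ => 1) ∧ (χ₃ : G → ℂ) ≠ (fun _ => 1) ∧ χ₁ ≠ χ₂ ∧ χ₁ ≠ χ₃ ∧ χ₂ ≠ χ₃ ∧ (∀ j, χ' j ≠ χ₁ ∧ χ' j ≠ χ₂ ∧ χ' j ≠ χ₃ ∧ (χ' j : G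 → ℂ) ≠ (fun _ => 1)) ∧ Cfsg.principalBlock M G = {χ : Cfsg.IrrCharacter G | (χ : G → ℂ) = (fun _ => 1) ∨ χ = χ₁ ∨ χ = χ₂ ∨ χ = χ₃ ∨ ∃ j, χ = χ' j} ∧ (∀ l : ℕ, 0 < l → l < 2 ^ (n - 1) → (χ₁ : G → ℂ) (σ ^ l) = δ₁ ∧ (χ₂ : G → ℂ) (σ ^ l) = δ₂ * (-1) ^ (l + 1) ∧ (χ₃ : G → ℂ) (σ ^ l) = δ₃ * (-1) ^ (l + 1) ∧ ∀ j : Fin (2 ^ (n - 2) - 1), (χ' j : G → ℂ) (σ ^ l) = δ₁ * (ζ ^ (((j : ℕ) + 1) * l) + (ζ ^ (((j : ℕ) + 1) * l))⁻¹)) ∧ ∀ ρ : G, Odd (orderOf ρ) → ∀ j : Fin (2 ^ (n - 2) - 1), 1 + δ₁ * (χ₁ : G → ℂ) ρ = -δ₂ * (χ₂ : G → ℂ) ρ - δ₃ * (χ₃ : G → ℂ) ρ ∧ 1 + δ₁ * (χ₁ : G → ℂ) ρ = δ₁ * (χ' j : G → ℂ) ρ := by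
  classical
  haveI := hM.2.1
  haveI := Fintype.ofFinite G
  haveI := Fintype.ofFinite (Subgroup.zpowers σ)
  obtain ⟨k, rfl⟩ : ∃ k, n = k + 1 := ⟨n - 1, by omega⟩
  obtain ⟨φ⟩ := hP
  have hk : 2 ≤ k := by omega
  rw [Nat.add_sub_cancel] at *
  obtain ⟨X', Y', h'⟩ := H11.exists_MC_of_dihedral hk φ
  have h4 : 2 ^ 2 ≤ 2 ^ k := Nat.pow_le_pow_right two_pos hk
  obtain ⟨X, Y, h, rfl, -, -⟩ := exists_MC_gens hk hσ (h'.Y_mem 0) hσo (h'.dih_oY 0) (by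
    obtain ⟨a, e | e⟩ := (h'.mem σ).1 hσ
    · rw [e, h'.YXY, h'.X_inv]; simp
    · rw [e, h'.dih_oY] at hσo; omega) (Or.inl h'.card)
  obtain ⟨l, hl1, hl⟩ := exists_faithful_linear (σ := X 1) (hσo ▸ hζ)
  obtain ⟨χ₁, χ₂, χ₃, χ', δ₁, δ₂, δ₃, s1, s2, s3, hi, d1, d2, d3, d12, d13, d23, d', hB, hv, hW,
    hU⟩ := dih_main h hM (hl.trans hσo)
  have hS : IsPGroup 2 (Subgroup.zpowers (X 1)) := P.isPGroup'.to_le (h.zpowers_le 1)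
  have hne : ∀ χ : IrrCharacter G, χ ≠ irrOne G → (χ : G → ℂ) ≠ fun _ => 1 :=
    fun χ h e => h (Subtype.ext e)
  rw [show k + 1 - 2 = k - 1 by omega]
  refine ⟨?_, χ₁, χ₂, χ₃, χ', δ₁, δ₂, δ₃, s1, s2, s3, hi, hne _ d1, hne _ d2, hne _ d3, d12, d13,
    d23, fun j => ⟨(d' j).2.1, (d' j).2.2.1, (d' j).2.2.2, hne _ (d' j).1⟩, ?_,
    fun j h0 hj => ?_, fun ρ hρ j => ?_⟩
  · rw [show principalBlock M G = ↑(insert (irrOne G) (insert χ₁ (insert χ₂ (insert χ₃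
      (Finset.univ.image χ'))))) by ext χ; simp [hB, eq_comm], Nat.card_coe_set_eq,
      Set.ncard_coe_finset, Finset.card_insert_of_notMem (by
        simp [d1.symm, d2.symm, d3.symm, (d' _).1]), Finset.card_insert_of_notMem (by
        simp [d12, d13, (d' _).2.1]), Finset.card_insert_of_notMem (by simp [d23, (d' _).2.2.1]),
      Finset.card_insert_of_notMem (by simp [(d' _).2.2.2]), Finset.card_image_of_injective _ hi,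
      Finset.card_univ, Fintype.card_fin]
    have : 0 < 2 ^ (k - 1) := by positivity
    omega
  · ext χ
    rw [hB]
    exact or_congr_left (Subtype.ext_iff (a1 := χ) (a2 := irrOne G))
  · have h1 := hv (⟨X 1, Subgroup.mem_zpowers _⟩ ^ j) fun e =>
      pow_ne_one_of_lt_orderOf h0.ne' (hj.trans_eq hσo.symm) (congrArg Subtype.val e)
    have h2 : ζ ^ 2 ^ (k - 1) = -1 := (hζ.pow (by positivity) (by
      rw [← pow_succ]; congr 1; omega)).eq_neg_one_of_two_right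
    simp only [map_pow, Units.val_pow_eq_pow_val, hl1, SubmonoidClass.coe_pow, ← pow_mul] at h1
    rw [mul_comm j, pow_mul, h2] at h1
    refine ⟨h1.1, by rw [h1.2.1]; ring, by rw [h1.2.2.1]; ring, fun i => ?_⟩
    rw [h1.2.2.2 i, mul_comm j]
  · have h1 := hW ρ
    have h2 := hU j fun χ => (χ : G → ℂ) ρ
    rw [← (isGen_hcol _).isClassFunction.apply_eq_sum] at h2
    rw [hcol_of_regular hM hS _ hρ.not_two_dvd_nat] at h1 h2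
    rw [irrOne_apply] at h2
    exact ⟨by linear_combination h1, by linear_combination h2⟩

end Cfsg.Agent.S4481
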