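import Cfsg.Statements.S4483
import Mathlib
import Cfsg.Agent.H8.Princ

set_option autoImplicit false
open Cfsg

namespace Cfsg.Agent.S4483

-- OPENS
open Cfsg.Agent.H8
open Cfsg.Agent.H6 hiding blockCoeff_eq_zero blockPart_add blockPart_eq_zero_of_regular
  blockPart_eq_zero_of_singular blockPart_irr_of_mem blockPart_irr_of_not_mem
  blockPart_isClassFunction blockPart_smul blockPart_sub blockPart_sum blockPart_zero
  block_eq_blockOf block_eq_of_mem block_nonempty centralChar_mem char_mem conj_char_mem
  irrOne_mem_principal isPBlock_blockOf isPBlock_principal mem_blockOf_self orderOf_conj'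
  sameBlock_refl sameBlock_symm sameBlock_trans weak_orth weak_orth'
open Cfsg.Agent.H4
open Cfsg.Agent.H5
open Cfsg.Agent.H3


/-- Let G be a finite group of order 2^n·g₀ with g₀ odd, and M a maximal ideal of the algebraic integers containing 2. Every real-valued irreducible character of G of odd degree lies in the principal 2-block; consequently G has at most 2^(2n) real-valued irreducible characters of odd degree. -/
theorem result {G : Type*} [Group G] [Finite G] (M : Ideal Cfsg.AlgInt) (hM : Cfsg.IsPModular 2 M) : (∀ χ : Cfsg.IrrCharacter G, (∀ g : G, ((χ : G → ℂ) g).im = 0) → Odd (Cfsg.charDegree (χ : G → ℂ)) → χ ∈ Cfsg.principalBlock M G) ∧ Nat.card {χ : Cfsg.IrrCharacter G // (∀ g : G, ((χ : G → ℂ) g).im = 0) ∧ Odd (Cfsg.charDegree (χ : G → ℂ))} ≤ 2 ^ (2 * (Nat.card G).factorization 2) := by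
  have := Fintype.ofFinite G
  have := hM.2.1
  have key : ∀ χ : Cfsg.IrrCharacter G, (∀ g : G, ((χ : G → ℂ) g).im = 0) →
      Odd (Cfsg.charDegree (χ : G → ℂ)) → χ ∈ Cfsg.principalBlock M G := by
    intro χ h1 h2
    refine mem_principal_of_real hM χ (fun g _ => ?_) (by
      rw [← even_iff_two_dvd]; exact Nat.not_even_iff_odd.mpr h2)
    rw [irr_inv, Complex.conj_eq_iff_im.mpr (h1 g)]
  refine ⟨key, ?_⟩
  have h1 := brauer_feit hM (isPBlock_principal (G := G))
  rw [defect_principal hM] at h1
  have h2 : Nat.card {χ : Cfsg.IrrCharacter G // (∀ g : G, ((χ : G → ℂ) g).im = 0) ∧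
      Odd (Cfsg.charDegree (χ : G → ℂ))} ≤ Nat.card (principalBlock M G) :=
    Nat.card_le_card_of_injective (fun χ => ⟨χ.1, key χ.1 χ.2.1 χ.2.2⟩)
      (fun a b h => Subtype.ext (congrArg (fun x : principalBlock M G => x.1) h))
  have h3 : 1 ≤ 2 ^ (2 * (Nat.card G).factorization 2) := Nat.one_le_two_pow
  omega

end Cfsg.Agent.S4483
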