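import Cfsg.Statements.S4485
import Cfsg.Agent.H19.BL

set_option autoImplicit false
open Cfsg

namespace Cfsg.Agent.S4485

open Cfsg.Agent.H19 Cfsg.Agent.H4

/-- Let G be a finite group and p a prime dividing its order such that every non-identity element of a Sylow p-subgroup P has the same centralizer as P itself (so P is abelian); let p^n be the order of P. If G has a faithful character of degree x with x² < p^n − 1, then P is normal in G. -/
theorem result {G : Type*} [Group G] [Finite G] (p : ℕ) (hp : p.Prime) (hpG : p ∣ Nat.card G) (P : Sylow p G) (hstar : ∀ x ∈ (P : Subgroup G), x ≠ 1 → Subgroup.centralizer ({x} : Set G) = Subgroup.centralizer ((P : Subgroup G) : Set G)) (n : ℕ) (hn : Nat.card P = p ^ n) (χ : G → ℂ) (hχ : Cfsg.IsCharacter G χ) (hfaith : ∀ g : G, χ g = χ 1 → g = 1) (hdeg : Cfsg.charDegree χ ^ 2 + 1 < p ^ n) : (P : Subgroup G).Normal := by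
  classical
  haveI := Fintype.ofFinite G
  haveI := Fact.mk hp
  set H := Subgroup.normalClosure ((P : Subgroup G) : Set G)
  have hPH : (P : Subgroup G) ≤ H := Subgroup.le_normalClosure
  have hQ : Nat.card (P.subtype hPH) = Nat.card P :=
    Nat.card_congr (Subgroup.subgroupOfEquivOfLe hPH).toEquiv
  have hP : 1 < Nat.card P := Subgroup.one_lt_card_iff_ne_bot _ |>.mpr (P.ne_bot_of_dvd_card hpG)
  have h1 : ∀ η : IrrCharacter H, classInner (fun y : H => χ y) η ≠ 0 → (η : H → ℂ) 1 = 1 := by
    intro η hη
    by_cases h2 : η = irrOne H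
    · simp [h2]
    have h3 := (hχ.restrict H).degree_le_of_constituent η.2 hη hχ.charDegree_cast.symm
      η.2.isCharacter.charDegree_cast.symm
    have := (brauer_leonard (P := P.subtype hPH) (hQ ▸ hP) (fun x hx h4 => ?_) (fun K hK h4 => ?_) η h2
      (by have := Nat.pow_le_pow_left h3 2; omega)).2
    · rw [← η.2.isCharacter.charDegree_cast, this, Nat.cast_one]
    · have h5 := hstar x hx (by simpa using h4)
      refine le_antisymm (fun g hg y hy => Subtype.ext ?_)
        (Subgroup.centralizer_le (Set.singleton_subset_iff.mpr hx))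
      refine (h5 ▸ ?_ : (g : G) ∈ Subgroup.centralizer ((P : Subgroup G) : Set G)) y hy
      rintro _ rfl
      exact congrArg Subtype.val (hg x rfl)
    · refine top_le_iff.mp fun g _ => ?_
      refine (Subgroup.closure_le (K.map H.subtype)).mpr (fun a ha => ?_) g.2 |>.elim
        fun k hk => (Subtype.ext hk.2 : k = g) ▸ hk.1
      obtain ⟨b, hb, hc⟩ := Group.mem_conjugatesOfSet_iff.mp ha
      obtain ⟨c, rfl⟩ := isConj_iff.mp hc
      have h5 : ((c • P : Sylow p G) : Subgroup G) ≤ H := by
        rintro _ ⟨y, hy, rfl⟩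
        exact (inferInstance : H.Normal).conj_mem y (hPH hy) c
      obtain ⟨k, hk⟩ := MulAction.exists_smul_eq H (P.subtype hPH) ((c • P).subtype h5)
      have h6 : (⟨c * b * c⁻¹, h5 ⟨b, hb, rfl⟩⟩ : H) ∈ (((c • P).subtype h5 : Sylow p H) : Subgroup H) :=
        ⟨b, hb, rfl⟩
      rw [← hk] at h6
      obtain ⟨y, hy, e⟩ := h6
      exact ⟨_, hK.conj_mem y (h4 hy) k, congrArg Subtype.val e⟩
  have h2 : commutator H = ⊥ := eq_bot_iff.mpr fun g hg => Subtype.ext (hfaith g (by
    refine (congrFun (hχ.restrict H).eq_sum g).trans (Eq.trans ?_ (congrFun (hχ.restrict H).eq_sum 1).symm)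
    simp only [Finset.sum_apply, Pi.smul_apply]
    refine Finset.sum_congr rfl fun η _ => ?_
    by_cases h3 : classInner (fun y : H => χ y) η = 0
    · simp [h3]
    · rw [η.2.isCharacter.mem_charKer.mp (η.2.commutator_le_charKer_iff.mpr (h1 η h3) hg)]))
  haveI : ((P.subtype hPH : Sylow p H) : Subgroup H).Normal :=
    Subgroup.Normal.of_commutator_le _ (h2 ▸ bot_le)
  haveI := Sylow.characteristic_of_normal (P.subtype hPH) this
  have h3 := ConjAct.normal_of_characteristic_of_normal
    (K := ((P.subtype hPH : Sylow p H) : Subgroup H)) (H := H)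
  rwa [Sylow.coe_subtype, Subgroup.map_subgroupOf_eq_of_le hPH] at h3

end Cfsg.Agent.S4485
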