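import Cfsg.Statements.S4489
import Mathlib
import Cfsg.Agent.H8.Schur1
import Cfsg.Agent.H8.Blich

set_option autoImplicit false
open Cfsg

namespace Cfsg.Agent.S4489

open scoped ComplexConjugate commutatorElement Pointwise
-- OPENS H8
open Cfsg.Agent.H8
open Cfsg.Agent.H6 hiding blockCoeff_eq_zero blockDefect_eq blockHeight_eq blockPart_add
  blockPart_eq_zero_of_regular blockPart_eq_zero_of_singular blockPart_irr_of_mem
  blockPart_irr_of_not_mem blockPart_isClassFunction blockPart_smul blockPart_sub blockPart_sum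
  blockPart_zero block_eq_blockOf block_eq_of_mem block_nonempty centralChar_mem char_mem
  conj_char_mem deg_factorization_le exists_height_zero irrOne_mem_principal isPBlock_blockOf
  isPBlock_principal mem_blockOf_self orderOf_conj' sameBlock_refl sameBlock_symm
  sameBlock_trans weak_orth weak_orth'
open Cfsg.Agent.H4 hiding exists_int_of_isIntegral_rat
open Cfsg.Agent.H5
open Cfsg.Agent.H3 hiding mem_of_pow_mem_of_coprime


/-- Let P be a finite p-group of order p^a with a > 0, and χ a faithful irreducible character of P of degree f whose field of values ℚ(χ) has degree (p − 1)·p^t over ℚ. Then a ≤ (f − 1)/(p − 1) + (t + 1)·f; in integer form, (p − 1)·a ≤ (f − 1) + (p − 1)(t + 1)·f. -/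
theorem result {P : Type*} [Group P] [Finite P] (p a : ℕ) (hp : p.Prime) (ha : 0 < a) (hP : Nat.card P = p ^ a) (χ : Cfsg.IrrCharacter P) (hfaith : ∀ g : P, (χ : P → ℂ) g = (χ : P → ℂ) 1 → g = 1) (f t : ℕ) (hf : Cfsg.charDegree (χ : P → ℂ) = f) (hfield : Module.finrank ℚ (IntermediateField.adjoin ℚ (Set.range (χ : P → ℂ))) = (p - 1) * p ^ t) : (p - 1) * a ≤ (f - 1) + (p - 1) * (t + 1) * f := by
  haveI := Fact.mk hp
  haveI : FiniteDimensional ℚ (IntermediateField.adjoin ℚ (Set.range (χ : P → ℂ))) :=
    Module.finite_of_finrank_pos (hfield ▸ mul_pos (Nat.sub_pos_of_lt hp.one_lt) (pow_pos hp.pos t))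
  have h1 := log_index_charKer_le P (IsPGroup.of_card hP) χ χ.2 a t (by
    rw [(charKer_eq_bot_iff χ.2.isCharacter).2 hfaith, Subgroup.index_bot, hP])
    (hfield ▸ ncard_galOrbit_le)
  have h2 := χ.2.charDegree_pos
  rw [hf] at h1 h2
  omega

end Cfsg.Agent.S4489
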