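import Cfsg.Statements.S4490
import Mathlib
import Cfsg.Agent.H8.Princ
import Cfsg.Agent.S0908

set_option autoImplicit false
open Cfsg

namespace Cfsg.Agent.S4490

-- OPENS
open Cfsg.Agent.H8
open Cfsg.Agent.H6 hiding blockCoeff_eq_zero blockDefect_eq blockHeight_eq blockPart_add
  blockPart_eq_zero_of_regular blockPart_eq_zero_of_singular blockPart_irr_of_mem
  blockPart_irr_of_not_mem blockPart_isClassFunction blockPart_smul blockPart_sub blockPart_sum
  blockPart_zero block_eq_blockOf block_eq_of_mem block_nonempty centralChar_mem char_mem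
  conj_char_mem deg_factorization_le exists_height_zero irrOne_mem_principal isPBlock_blockOf
  isPBlock_principal mem_blockOf_self orderOf_conj' sameBlock_refl sameBlock_symm
  sameBlock_trans weak_orth weak_orth'
open Cfsg.Agent.H4 hiding exists_int_of_isIntegral_rat
open Cfsg.Agent.H5
open Cfsg.Agent.H3


/-- Let G be a finite group and M a maximal ideal of the algebraic integers containing 2. Every 2-block B of G whose defect groups are the Sylow 2-subgroups of G (a block of full defect) and which is not the principal block is different from its complex-conjugate block, the block formed by the complex conjugates of the members of B. -/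
theorem result {G : Type*} [Group G] [Finite G] (M : Ideal Cfsg.AlgInt) (hM : Cfsg.IsPModular 2 M) (B : Set (Cfsg.IrrCharacter G)) (hB : Cfsg.IsPBlock M B) (P : Sylow 2 G) (hfull : Cfsg.IsDefectGroup 2 M B (P : Subgroup G)) (hnp : B ≠ Cfsg.principalBlock M G) : {ψ : Cfsg.IrrCharacter G | ∃ χ ∈ B, (ψ : G → ℂ) = fun g => (starRingEnd ℂ) ((χ : G → ℂ) g)} ≠ B := by
  have := Fintype.ofFinite G
  have := hM.2.1
  intro hconj
  apply hnp
  have hd := Cfsg.Agent.S0908.result 2 M hM B hB P hfull
  rw [card_sylow_eq] at hd
  have hdef := Nat.pow_right_injective le_rfl hd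
  obtain ⟨χ, hχ, h0⟩ := exists_eq_bmin (p := 2) (block_nonempty hB)
  have h1 := defect_add_bmin (p := 2) (block_nonempty hB)
  have hodd : ¬ 2 ∣ charDegree (χ : G → ℂ) := by
    rw [Nat.prime_two.dvd_iff_one_le_factorization (irr_charDegree_ne_zero χ)]
    omega
  have hψ : (⟨_, χ.2.conj⟩ : IrrCharacter G) ∈ B := by
    rw [← hconj]; exact ⟨χ, hχ, rfl⟩
  exact block_eq_of_mem hB isPBlock_principal hχ
    (mem_principal_of_conj hM χ _ (block_sameBlock hB hχ hψ) (fun g _ => rfl) hodd)

end Cfsg.Agent.S4490
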