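import Cfsg.Statements.S4491
import Mathlib
import Cfsg.Agent.H8.Height2

set_option autoImplicit false
open Cfsg

namespace Cfsg.Agent.S4491

-- OPENS
open Cfsg.Agent.H8
open Cfsg.Agent.H6 hiding blockCoeff_eq_zero block_eq_blockOf block_eq_of_mem block_nonempty
  centralChar_mem char_mem conj_char_mem irrOne_mem_principal isPBlock_blockOf
  isPBlock_principal mem_blockOf_self orderOf_conj' sameBlock_refl sameBlock_symm
  sameBlock_trans weak_orth weak_orth'
open Cfsg.Agent.H4
open Cfsg.Agent.H5
open Cfsg.Agent.H3


/-- Let B be a p-block of defect d of the finite group G (relative to a maximal ideal M of the algebraic integers containing p), and let p^a be the p-part of the order of G. Then the exact power of p dividing the sum of the squares of the degrees of the irreducible characters in B is p^(2a − d). -/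
theorem result {G : Type*} [Group G] [Finite G] (p : ℕ) [Fact p.Prime] (M : Ideal Cfsg.AlgInt) (hM : Cfsg.IsPModular p M) (B : Set (Cfsg.IrrCharacter G)) (hB : Cfsg.IsPBlock M B) : (∑ᶠ χ ∈ B, Cfsg.charDegree (χ : G → ℂ) ^ 2).factorization p = 2 * (Nat.card G).factorization p - Cfsg.blockDefect p B := by
  have := Fintype.ofFinite G
  have := hM.2.1
  have hp : p.Prime := Fact.out
  have h1 := sum_rdeg_sq_factorization hM hB
  have h2 : ∑ ψ ∈ bfin B, rdeg p B ψ ^ 2 ≠ 0 := fun h =>
    not_pow_dvd_sum_rdeg_sq hM hB (h ▸ dvd_zero _)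
  have h3 := defect_add_bmin (p := p) (block_nonempty hB)
  rw [finsum_mem_bfin, sum_deg_sq_eq (p := p), Nat.factorization_mul (pow_ne_zero _ hp.ne_zero) h2,
    hp.factorization_pow]
  simp only [Finsupp.coe_add, Pi.add_apply, Finsupp.single_eq_same, h1]
  omega

end Cfsg.Agent.S4491
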