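import Cfsg.Statements.S4493
import Mathlib
import Cfsg.Agent.H8.Deg1

set_option autoImplicit false
open Cfsg

namespace Cfsg.Agent.S4493

open scoped ComplexConjugate commutatorElement Pointwise
-- OPENS
open Cfsg.Agent.H8
open Cfsg.Agent.H6
open Cfsg.Agent.H4 hiding exists_int_of_isIntegral_rat
open Cfsg.Agent.H5
open Cfsg.Agent.H3


/-- Let G be a finite solvable group and p a prime. Then G has a normal abelian Sylow p-subgroup if and only if no irreducible character degree of G is divisible by p. -/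
theorem result {G : Type*} [Group G] [Finite G] (hsolv : Group.IsSolvable G) (p : ℕ) (hp : p.Prime) : (∃ P : Subgroup G, P.Normal ∧ (∀ x ∈ P, ∀ y ∈ P, x * y = y * x) ∧ IsPGroup p P ∧ ¬ p ∣ P.index) ↔ ∀ χ : Cfsg.IrrCharacter G, ¬ p ∣ Cfsg.charDegree (χ : G → ℂ) := by
  haveI := Fact.mk hp
  refine ⟨fun ⟨P, _, h1, _, h2⟩ χ h => h2 (h.trans (cd_dvd_index_of_comm h1 ⟨χ, rfl⟩)), fun h => ?_⟩
  obtain ⟨h1, h2⟩ := ito (H9.isPSolvable_of_isSolvable hsolv) fun d ⟨χ, hχ⟩ => hχ ▸ h χ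
  exact ⟨_, inferInstance, h2, H1.isPGroup_pCore p G, h1⟩

end Cfsg.Agent.S4493
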