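import Cfsg.Statements.S4497
import Cfsg.Agent.H19.SC

set_option autoImplicit false
open Cfsg

namespace Cfsg.Agent.S4497

open Cfsg.Agent.H19

/-- Let the finite group G contain an element x of prime order p with C_G(x) = ⟨x⟩, let t be the number of conjugacy classes of elements of order p, and let S* = O_{p′}(G) be the largest normal subgroup of order prime to p. Then S* ≤ G′; if t ≠ p − 1 the quotient G′/S* is simple (in particular non-trivial); if t = p − 1 then G′ = S*. -/
theorem result {G : Type*} [Group G] [Finite G] (p : ℕ) (hp : p.Prime) (x : G) (hx : orderOf x = p) (hC : Subgroup.centralizer ({x} : Set G) = Subgroup.zpowers x) (t : ℕ) (ht : Nat.card {C : ConjClasses G // ∃ g ∈ C.carrier, orderOf g = p} = t) : Cfsg.pPrimeCore p G ≤ commutator G ∧ (t ≠ p - 1 → ∀ h : ((Cfsg.pPrimeCore p G).subgroupOf (commutator G)).Normal, IsSimpleGroup (↥(commutator G) ⧸ (Cfsg.pPrimeCore p G).subgroupOf (commutator G))) ∧ (t = p - 1 → commutator G = Cfsg.pPrimeCore p G) := by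
  haveI := Fact.mk hp
  have h := po_bot hx hC
  rw [h.card_classes] at ht
  subst ht
  have h1 : x ∉ pPrimeCore p G := fun hx =>
    H1.not_dvd_card_pPrimeCore p G ((h.dvd_iff_mem _).mpr hx)
  have h2 := h.le_commutator _ h1
  rw [Ne, tN_eq_iff]
  refine ⟨h2, fun he hn => ?_, fun he => le_antisymm (H1.le_pPrimeCore ?_) h2⟩
  · have h3 := h.mem_commutator he
    haveI : Nontrivial (commutator G ⧸ (pPrimeCore p G).subgroupOf (commutator G)) :=
      ⟨⟨(⟨x, h3⟩ : commutator G), 1, fun e =>
        h1 ((QuotientGroup.eq_one_iff (⟨x, h3⟩ : commutator G)).mp e)⟩⟩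
    refine ⟨fun M hM => ?_⟩
    let M' := M.comap (QuotientGroup.mk' ((pPrimeCore p G).subgroupOf (commutator G)))
    haveI : M'.Normal := hM.comap _
    have h' : PO p (⟨x, h3⟩ : commutator G) ⊥ := po_bot (by rw [← Subgroup.orderOf_coe]; exact hx) (by
      ext y
      rw [H6.mem_centralizer_singleton]
      refine ⟨fun hy => ?_, fun ⟨k, hk⟩ => hk ▸ Commute.zpow_right rfl k⟩
      obtain ⟨i, hi⟩ := h.exists_xp (y := y) (congrArg Subtype.val hy)
      exact ⟨(i.val : ℕ), Subtype.ext (by
        rw [← hi]; simp only [zpow_natCast, SubmonoidClass.mk_pow, xp])⟩)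
    by_cases hx' : (⟨x, h3⟩ : commutator G) ∈ M'
    · right
      haveI : (M'.map (commutator G).subtype ⊓ Subgroup.normalClosure {x}).Normal := by
        rw [inf_eq_right.mpr]
        · infer_instance
        refine (Subgroup.closure_le _).mpr fun y hy => ?_
        obtain ⟨w, hw, hy⟩ := Group.mem_conjugatesOfSet_iff.mp hy
        rw [Set.mem_singleton_iff.mp hw] at hy
        obtain ⟨g, rfl⟩ := isConj_iff.mp hy
        obtain ⟨s, hs, n, hn, rfl⟩ := h.exists_mul _ h3 g
        obtain ⟨c, hc⟩ := exists_unit_of_mem_normalizer hx hn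
        refine ⟨_, M'.pow_mem (Subgroup.Normal.conj_mem inferInstance _ hx' ⟨s, hs⟩)
          (c : ZMod p).val, ?_⟩
        simp only [Subgroup.coe_subtype, Subgroup.coe_pow, Subgroup.coe_mul, Subgroup.coe_inv]
        rw [conj_pow, ← xp, ← hc]; group
      have h4 := h.commutator_le (M'.map (commutator G).subtype ⊓ Subgroup.normalClosure {x})
        ⟨⟨_, hx', rfl⟩, Subgroup.subset_normalClosure rfl⟩
      rw [eq_top_iff]
      intro y _
      obtain ⟨y, rfl⟩ := QuotientGroup.mk_surjective y
      obtain ⟨z, hz, e⟩ := (h4 y.2).1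
      exact (Subtype.ext e : z = y) ▸ hz
    · left
      have h4 : M' ≤ pPrimeCore p (commutator G) := H1.le_pPrimeCore
        (hp.coprime_iff_not_dvd.mpr fun hd => hx' ((h'.dvd_iff_mem _).mp hd)).symm
      rw [eq_bot_iff]
      intro y hy
      obtain ⟨y, rfl⟩ := QuotientGroup.mk_surjective y
      exact (QuotientGroup.eq_one_iff _).mpr
        (H1.map_subtype_pPrimeCore_le (commutator G) ⟨y, h4 hy, rfl⟩)
  · refine (hp.coprime_iff_not_dvd.mpr fun hd => h.nsq ?_).symm
    rw [← (commutator G).card_mul_index, h.index_commutator_eq he, sq]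
    exact Nat.mul_dvd_mul_right hd _

end Cfsg.Agent.S4497
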