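import Cfsg.Statements.S4498
import Mathlib
import Cfsg.Agent.H8.Princ

set_option autoImplicit false
open Cfsg

namespace Cfsg.Agent.S4498

-- OPENS
open Cfsg.Agent.H8
open Cfsg.Agent.H6 hiding blockCoeff_eq_zero blockPart_add blockPart_eq_zero_of_regular
  blockPart_eq_zero_of_singular blockPart_irr_of_mem blockPart_irr_of_not_mem
  blockPart_isClassFunction blockPart_smul blockPart_sub blockPart_sum blockPart_zero
  block_eq_blockOf block_eq_of_mem block_nonempty centralChar_mem char_mem conj_char_mem
  irrOne_mem_principal isPBlock_blockOf isPBlock_principal mem_blockOf_self orderOf_conj'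
  sameBlock_refl sameBlock_symm sameBlock_trans weak_orth weak_orth'
open Cfsg.Agent.H4
open Cfsg.Agent.H5
open Cfsg.Agent.H3


/-- Let p and q be distinct primes dividing the order of the finite group G, and suppose G has no element of order p·q. Fix maximal ideals M_p over p and M_q over q of the algebraic integers. Then the principal p-block and the principal q-block of G have a non-principal irreducible character in common. -/
theorem result {G : Type*} [Group G] [Finite G] (p q : ℕ) [Fact p.Prime] [Fact q.Prime] (hpq : p ≠ q) (hp : p ∣ Nat.card G) (hq : q ∣ Nat.card G) (hno : ∀ g : G, orderOf g ≠ p * q) (Mp Mq : Ideal Cfsg.AlgInt) (hMp : Cfsg.IsPModular p Mp) (hMq : Cfsg.IsPModular q Mq) : ∃ χ : Cfsg.IrrCharacter G, (χ : G → ℂ) ≠ (fun _ => 1) ∧ χ ∈ Cfsg.principalBlock Mp G ∧ χ ∈ Cfsg.principalBlock Mq G := by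
  have := Fintype.ofFinite G
  have := hMp.2.1
  have := hMq.2.1
  obtain ⟨y, hy⟩ := exists_prime_orderOf_dvd_card' p hp
  obtain ⟨g, hg⟩ := exists_prime_orderOf_dvd_card' q hq
  have h := inter_sum_vanish hpq hMp hMq hno isPBlock_principal isPBlock_principal
    (hy ▸ dvd_rfl : p ∣ orderOf y) (hg ▸ dvd_rfl : q ∣ orderOf g)
  by_contra hcon
  push Not at hcon
  rw [Finset.sum_eq_single (irrOne G)] at h
  · simp at h
  · intro χ hχ hne
    have hχ := mem_bfin.mp hχ
    exact absurd hχ.2 (hcon χ (fun h => hne (Subtype.ext h)) hχ.1)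
  · intro h'
    exact h' (mem_bfin.mpr (Set.mem_inter irrOne_mem_principal irrOne_mem_principal)) |>.elim

end Cfsg.Agent.S4498
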