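import Cfsg.Statements.S4500
import Mathlib
import Cfsg.Agent.H8.Princ

set_option autoImplicit false
open Cfsg

namespace Cfsg.Agent.S4500

-- OPENS
open Cfsg.Agent.H8
open Cfsg.Agent.H6 hiding blockCoeff_eq_zero blockPart_add blockPart_eq_zero_of_regular
  blockPart_eq_zero_of_singular blockPart_irr_of_mem blockPart_irr_of_not_mem
  blockPart_isClassFunction blockPart_smul blockPart_sub blockPart_sum blockPart_zero
  block_eq_blockOf block_eq_of_mem block_nonempty centralChar_mem char_mem conj_char_mem
  irrOne_mem_principal isPBlock_blockOf isPBlock_principal mem_blockOf_self orderOf_conj'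
  sameBlock_refl sameBlock_symm sameBlock_trans weak_orth weak_orth'
open Cfsg.Agent.H4
open Cfsg.Agent.H5
open Cfsg.Agent.H3


/-- Let G be a non-trivial finite group of order p^a · q^b · r^c with p, q, r distinct primes and a ≤ 2. Then G has a non-principal irreducible character whose degree is a power of q, and a non-principal irreducible character whose degree is a power of r; the power may be the zeroth, so a non-principal linear character serves for both. -/
theorem result {G : Type*} [Group G] [Finite G] [Nontrivial G] (p q r a b c : ℕ) (hp : p.Prime) (hq : q.Prime) (hr : r.Prime) (hpq : p ≠ q) (hpr : p ≠ r) (hqr : q ≠ r) (ha : a ≤ 2) (hG : Nat.card G = p ^ a * q ^ b * r ^ c) : (∃ χ : Cfsg.IrrCharacter G, (χ : G → ℂ) ≠ (fun _ => 1) ∧ ∃ k : ℕ, Cfsg.charDegree (χ : G → ℂ) = q ^ k) ∧ ∃ χ : Cfsg.IrrCharacter G, (χ : G → ℂ) ≠ (fun _ => 1) ∧ ∃ k : ℕ, Cfsg.charDegree (χ : G → ℂ) = r ^ k := by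
  have := Fintype.ofFinite G
  have key : ∀ {q r b c : ℕ}, q.Prime → r.Prime → p ≠ r → q ≠ r → Nat.card G = p ^ a * q ^ b * r ^ c →
      p ≠ q → ∃ χ : Cfsg.IrrCharacter G, (χ : G → ℂ) ≠ (fun _ => 1) ∧
        ∃ k : ℕ, Cfsg.charDegree (χ : G → ℂ) = q ^ k := by
    classical
    intro q r b c hq hr hpr hqr hG hpq
    suffices h : ∃ χ : Cfsg.IrrCharacter G, χ ≠ irrOne G ∧ ¬ p ∣ charDegree (χ : G → ℂ) ∧
        ¬ r ∣ charDegree (χ : G → ℂ) by
      obtain ⟨χ, h1, h2, h3⟩ := h
      refine ⟨χ, fun h => h1 (Subtype.ext h), ?_⟩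
      have h4 := charDegree_dvd_card χ
      rw [hG] at h4
      have h5 := (Nat.Coprime.pow_right c ((Nat.coprime_comm.mp (hr.coprime_iff_not_dvd.mpr h3)))).dvd_of_dvd_mul_right h4
      have h6 := (Nat.Coprime.pow_right a ((Nat.coprime_comm.mp (hp.coprime_iff_not_dvd.mpr h2)))).dvd_of_dvd_mul_left h5
      obtain ⟨k, -, hk⟩ := (Nat.dvd_prime_pow hq).mp h6
      exact ⟨k, hk⟩
    obtain ⟨Mr, hMr⟩ := exists_isPModular hr
    have := hMr.2.1
    by_contra hcon
    push Not at hcon
    -- a vanishing sum with all non-principal terms in the ideal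
    have fin : ∀ (s : Finset (IrrCharacter G)) (x : G), irrOne G ∈ s →
        (∀ χ ∈ s, ¬ p ∣ charDegree (χ : G → ℂ)) →
        redC Mr (∑ χ ∈ s, (χ : G → ℂ) 1 * (χ : G → ℂ) x) = 1 := by
      intro s x h1 hs
      rw [redC_sum _ fun χ _ => mul_mem (char_mem χ.2.isGen _) (char_mem χ.2.isGen _),
        Finset.sum_eq_single (irrOne G)]
      · simp
      · intro χ hχ hne
        rw [redC_mul (char_mem χ.2.isGen _) (char_mem χ.2.isGen _), ← irr_coe_charDegree,
          redC_natCast, (natCast_res_eq_zero_iff hMr _).mpr (hcon χ hne (hs χ hχ)), zero_mul]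
      · intro h; exact absurd h1 h
    have ha' : (Nat.card G).factorization p = a := by
      rw [hG, Nat.factorization_mul (by positivity [hp.pos, hq.pos]) (by positivity [hr.pos]),
        Nat.factorization_mul (by positivity [hp.pos]) (by positivity [hq.pos]),
        hp.factorization_pow, hq.factorization_pow, hr.factorization_pow]
      simp [hpq, hpr]
    by_cases ha0 : a = 0
    · obtain ⟨x, hx⟩ := exists_ne (1 : G)
      have h1 := fin Finset.univ x (Finset.mem_univ _) (fun χ _ h => by
        have := (hp.dvd_iff_one_le_factorization Nat.card_pos.ne').mp (h.trans (charDegree_dvd_card χ))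
        omega)
      rw [sum_irr_degree_mul hx, redC_zero] at h1
      exact zero_ne_one h1
    · have : Fact p.Prime := ⟨hp⟩
      obtain ⟨M, hM⟩ := exists_isPModular hp
      have := hM.2.1
      obtain ⟨x, hx⟩ := exists_prime_orderOf_dvd_card' (G := G) p
        ((hp.dvd_iff_one_le_factorization Nat.card_pos.ne').mpr (by omega))
      have h1 := fin (bfin (principalBlock M G)) x (mem_bfin.mpr irrOne_mem_principal) (fun χ hχ h => by
        have h2 := (hp.dvd_iff_one_le_factorization (irr_charDegree_ne_zero χ)).mp h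
        have h3 := height_add_two_le hM isPBlock_principal (mem_bfin.mp hχ)
          (by rw [height_principal hM]; omega)
        rw [height_principal hM, defect_principal hM] at h3
        omega)
      rw [sum_degree_mul_eq_zero hM isPBlock_principal (hx ▸ dvd_rfl), redC_zero] at h1
      exact zero_ne_one h1
  exact ⟨key hq hr hpr hqr hG hpq, key (b := c) (c := b) hr hq hpq hqr.symm (by rw [hG]; ring) hpr⟩

end Cfsg.Agent.S4500
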