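import Cfsg.Statements.S4508
import Cfsg.Agent.H19.SC

set_option autoImplicit false
open Cfsg

namespace Cfsg.Agent.S4508

open Cfsg.Agent.H19 Cfsg.Agent.H4

/-- Let the finite group G contain an element x of prime order p with C_G(x) = ⟨x⟩, and let t be the number of conjugacy classes of elements of order p. If G has an irreducible character of degree p − 1, then t is even or the commutator subgroup has even index. -/
theorem result {G : Type*} [Group G] [Finite G] (p : ℕ) (hp : p.Prime) (x : G) (hx : orderOf x = p) (hC : Subgroup.centralizer ({x} : Set G) = Subgroup.zpowers x) (t : ℕ) (ht : Nat.card {C : ConjClasses G // ∃ g ∈ C.carrier, orderOf g = p} = t) (χ : Cfsg.IrrCharacter G) (hχ : Cfsg.charDegree (χ : G → ℂ) + 1 = p) : Even t ∨ Even (commutator G).index := by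
  haveI := Fact.mk hp
  haveI := Fintype.ofFinite G
  have h := po_bot hx hC
  rw [h.card_classes] at ht
  subst ht
  have h0 := eN_mul' hx
  by_cases he : eN hx = 1
  · rw [h.index_commutator_eq he]
    rw [he, one_mul] at h0
    rw [even_iff_two_dvd, even_iff_two_dvd]
    omega
  have he' : 2 ≤ eN hx := by have := eN_pos hx; omega
  have hp3 : 3 ≤ p := by have := tN_pos hx; nlinarith
  obtain ⟨B⟩ := h.nonempty_BD
  have hd : (charDegree (χ : G → ℂ) : ℤ) = p - 1 := by omega
  have h1 : sg p x (χ : G → ℂ) = -(p - 1) := by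
    rcases B.cases χ with e | ⟨q, rfl⟩ | e
    · have h2 := B.fd_X e
      rw [B.sg_X e]
      rcases B.ha χ e with e' | e'
      · exfalso
        rw [e', hd] at h2
        have h3 : (p : ℤ) ∣ 2 := ⟨2 - fd p x (χ : G → ℂ), by linear_combination h2⟩
        have := Int.le_of_dvd two_pos h3
        omega
      · rw [e']; simp
    · have h2 := B.fd_μ q
      rw [← B.deg_μ q, hd] at h2
      have h4 : eN hx ≤ p - 1 := Nat.le_of_dvd (by omega) (Dvd.intro _ (eN_mul hx))
      rw [B.sg_μ]
      rcases B.hε with e | e <;> rw [e] at h2 ⊢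
      · have h3 : (p : ℤ) ∣ eN hx + 1 := ⟨1 - fd p x (B.μ q : G → ℂ), by linear_combination h2⟩
        have := Int.le_of_dvd (by omega) h3
        have h5 : p = eN hx + 1 := by omega
        have h6 : (p : ℂ) = eN hx + 1 := by exact_mod_cast h5
        rw [h6]; simp
      · exfalso
        have h3 : (p : ℤ) ∣ eN hx - 1 := ⟨fd p x (B.μ q : G → ℂ) - 1, by linear_combination -h2⟩
        have := Int.le_of_dvd (by omega) h3
        omega
    · have := Nat.le_of_dvd χ.2.charDegree_pos (Dvd.intro _ (B.fd_other e.1 e.2))
      omega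
  obtain ⟨g, c, hg⟩ := h.exists_Gen
  have h3 := hg.two_dvd χ.2.isCharacter (by
    rw [← χ.2.isCharacter.charDegree_cast]; exact_mod_cast hd) h1 (m := (commutator G).index) (by
      have := H5.linear_pow_index (H5.detHom (χ : G → ℂ)) (commutator G)
        fun n hn => Abelianization.commutator_subset_ker _ hn
      exact DFunLike.congr_fun this g)
  by_contra hc
  push Not at hc
  rw [even_iff_two_dvd, even_iff_two_dvd] at hc
  rw [Nat.prime_two.dvd_mul, Nat.prime_two.dvd_mul, or_iff_right (by tauto)] at h3
  have h5 : 2 ∣ eN hx * tN hx := by have := hp.eq_two_or_odd; omega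
  rw [Nat.prime_two.dvd_mul, or_iff_left hc.1] at h5
  unfold eN at *
  omega

end Cfsg.Agent.S4508
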