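import Cfsg.Statements.S4509
import Cfsg.Agent.H19.SC

set_option autoImplicit false
open Cfsg

namespace Cfsg.Agent.S4509

open Cfsg.Agent.H19

/-- Let the finite group G contain an element x of prime order p with C_G(x) = ⟨x⟩; let t be the number of conjugacy classes of elements of order p and 1 + n·p the number of subgroups of order p. Then G has a normal subgroup of order 1 + n·p if and only if either t = p − 1, or t < p − 1 and G″ ≠ G′. Moreover, if t = p − 1 then G′ has order 1 + n·p and G/G′ is cyclic of order p; and if t < p − 1 and G″ ≠ G′ then G″ has order 1 + n·p and G′ has order p·(1 + n·p). -/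
theorem result {G : Type*} [Group G] [Finite G] (p : ℕ) (hp : p.Prime) (x : G) (hx : orderOf x = p) (hC : Subgroup.centralizer ({x} : Set G) = Subgroup.zpowers x) (t : ℕ) (ht : Nat.card {C : ConjClasses G // ∃ g ∈ C.carrier, orderOf g = p} = t) (n : ℕ) (hn : Nat.card {H : Subgroup G // Nat.card H = p} = 1 + n * p) : ((∃ S : Subgroup G, S.Normal ∧ Nat.card S = 1 + n * p) ↔ (t = p - 1 ∨ (t < p - 1 ∧ derivedSeries G 2 ≠ derivedSeries G 1))) ∧ (t = p - 1 → Nat.card (commutator G) = 1 + n * p ∧ IsCyclic (G ⧸ commutator G) ∧ (commutator G).index = p) ∧ (t < p - 1 → derivedSeries G 2 ≠ derivedSeries G 1 → Nat.card (derivedSeries G 2) = 1 + n * p ∧ Nat.card (commutator G) = p * (1 + n * p)) := by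
  haveI := Fact.mk hp
  have h := po_bot hx hC
  rw [h.card_classes] at ht
  subst ht
  rw [h.card_subgroups] at hn
  rw [← hn]
  have hle : tN hx ≤ p - 1 := Nat.le_of_dvd (by have := hp.two_le; omega)
    (Dvd.intro_left _ (eN_mul hx))
  have e1 : derivedSeries G 1 = commutator G := derivedSeries_one G
  have e2 : derivedSeries G 2 = ⁅commutator G, commutator G⁆ := by rw [← e1]; rfl
  have h1 : tN hx = p - 1 → Nat.card (commutator G) = sN x ∧ IsCyclic (G ⧸ commutator G) ∧
      (commutator G).index = p := fun ht => by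
    rw [tN_eq_iff] at ht
    have h2 := h.index_commutator_eq ht
    refine ⟨Nat.eq_of_mul_eq_mul_right hp.pos ?_, isCyclic_of_prime_card h2, h2⟩
    rw [← h2, Subgroup.card_mul_index, h.card_G, Subgroup.card_bot,
      show Nat.card (EE h.ord) = 1 from ht, h2]; ring
  have h2 : tN hx < p - 1 → derivedSeries G 2 ≠ derivedSeries G 1 →
      Nat.card (derivedSeries G 2) = sN x ∧ Nat.card (commutator G) = p * sN x := fun ht hne => by
    have h3 := h.mem_commutator fun e => ht.ne ((tN_eq_iff hx).mpr e)
    have h4 : x ∉ derivedSeries G 2 := fun hx' =>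
      hne (le_antisymm (derivedSeries_antitone G (by omega)) (e1 ▸ h.commutator_le _ hx'))
    haveI := h.normal_sup _ h4 fun g => by
      obtain ⟨s, hs, n, hn, e⟩ := h.exists_mul _ h3 g
      exact ⟨s, n, hn, e2 ▸ Subgroup.commutator_mem_commutator hs h3, e⟩
    have h5 : commutator G = derivedSeries G 2 ⊔ Subgroup.zpowers x :=
      le_antisymm (h.commutator_le _ (Subgroup.mem_sup_right (Subgroup.mem_zpowers x)))
        (sup_le (e1 ▸ derivedSeries_antitone G (by omega)) (Subgroup.zpowers_le.mpr h3))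
    have h6 := h.frattini _ h3
    rw [h5, sup_comm (derivedSeries G 2), ← sup_assoc,
      sup_of_le_left (Subgroup.le_normalizer : Subgroup.zpowers x ≤ NN x), sup_comm] at h6
    have h7 := h.sN_eq_mul _ h4
    rw [h6, Subgroup.index_top, one_mul] at h7
    exact ⟨h7.symm, by rw [h5, h.card_sup _ h4, h7]⟩
  refine ⟨⟨fun ⟨S, hS, hS'⟩ => ?_, ?_⟩, h1, h2⟩
  · refine hle.eq_or_lt.imp_right fun ht => ⟨ht, fun e => ?_⟩
    have h3 := h.mem_commutator fun e => ht.ne ((tN_eq_iff hx).mpr e)
    have h4 : x ∉ S := fun hx' => by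
      have := (h.dvd_iff_mem S).mpr hx'
      rw [hS', hn] at this
      exact hp.ne_one (Nat.dvd_one.mp ((Nat.dvd_add_left (Dvd.intro_left _ rfl)).mp this))
    have h5 := h.sN_eq_mul S h4
    rw [hS', eq_comm, Nat.mul_eq_right Subgroup.index_ne_zero_of_finite, Subgroup.index_eq_one] at h5
    haveI := h.normal_sup S h4 fun g => by
      have : g ∈ S ⊔ NN x := h5 ▸ Subgroup.mem_top g
      rw [← SetLike.mem_coe, Subgroup.normal_mul] at this
      obtain ⟨s, hs, n, hn, e⟩ := this
      refine ⟨s, n, hn, ?_, e.symm⟩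
      simpa [mul_assoc] using S.mul_mem hs (hS.conj_mem _ (S.inv_mem hs) x)
    have h6 := h.commutator_le _ (Subgroup.mem_sup_right (S := S) (Subgroup.mem_zpowers x))
    rw [e2, e1] at e
    exact h4 (h.commutator_sup_le S h4 (Subgroup.commutator_mono h6 h6 (e.symm ▸ h3)))
  · rintro (ht | ⟨ht, hne⟩)
    · exact ⟨_, inferInstance, (h1 ht).1⟩
    · exact ⟨_, inferInstance, (h2 ht hne).1⟩

end Cfsg.Agent.S4509
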