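import Cfsg.Statements.S4510
import Cfsg.Agent.H7.Count
-- import your own Cfsg.Agent.* helpers here

set_option autoImplicit false
open Cfsg

namespace Cfsg.Agent.S4510

open MonoidAlgebra Cfsg.Agent.H3 Cfsg.Agent.H4 Cfsg.Agent.H7
open Cfsg.Agent.H6 (Res locRing redC redA eB fB intAlg classSum omega chiL)
open scoped Pointwise
set_option linter.style.haveILetI false


/-- Let G be a finite group, p a prime, M a maximal ideal of the algebraic integers containing p, and call the defect of a conjugacy class the exponent of p in the order of the centralizer of its elements. Two irreducible characters lying in p-blocks of defect exactly d lie in the same block if and only if their central characters (class size times χ(x)/χ(1)) agree modulo the local ideal at M at every p-regular element x whose class has defect exactly d. -/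
theorem result {G : Type*} [Group G] [Finite G] (p : ℕ) [Fact p.Prime] (M : Ideal Cfsg.AlgInt) (hM : Cfsg.IsPModular p M) (d : ℕ) (χ ψ : Cfsg.IrrCharacter G) (hχ : Cfsg.blockDefect p (Cfsg.blockOf M (χ : G → ℂ)) = d) (hψ : Cfsg.blockDefect p (Cfsg.blockOf M (ψ : G → ℂ)) = d) : Cfsg.SameBlock M (χ : G → ℂ) (ψ : G → ℂ) ↔ ∀ x : G, ¬ p ∣ orderOf x → (Nat.card (Subgroup.centralizer ({x} : Set G))).factorization p = d → Cfsg.MemLocalIdeal M (Cfsg.centralChar (χ : G → ℂ) x - Cfsg.centralChar (ψ : G → ℂ) x) := by
  classical
  haveI := hM.2.1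
  haveI := Fintype.ofFinite (ConjClasses G)
  constructor
  · intro h x _ _
    rw [H6.memLocalIdeal_sub_iff (H6.centralChar_mem χ.2 x) (H6.centralChar_mem ψ.2 x)]
    exact H8.redC_centralChar_eq χ.2 ψ.2 h x
  · intro h
    have hB := H6.isPBlock_blockOf (M := M) χ
    have hB' := H6.isPBlock_blockOf (M := M) ψ
    have h1 := sum_coeff_lK hB hB
    have h2 := sum_coeff_lK hB' hB
    rw [if_pos rfl] at h1
    have h3 : ∑ K : ConjClasses G, (eB M (blockOf M (χ : G → ℂ))).coeff (H6.rep K) *
        lK M (blockOf M (ψ : G → ℂ)) (H6.rep K) = 1 := by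
      rw [← h1]
      refine Finset.sum_congr rfl fun K _ => ?_
      by_cases h0 : (eB M (blockOf M (χ : G → ℂ))).coeff (H6.rep K) = 0
      · rw [h0, zero_mul, zero_mul]
      congr 1
      have h4 := le_defect_of_coeff_ne hM hB h0
      rcases h4.lt_or_eq with h5 | h5
      · have e1 : lK M (blockOf M (ψ : G → ℂ)) (H6.rep K) = 0 := by
          by_contra h6
          have := defect_le_of_lK_ne hM hB' h6
          omega
        have e2 : lK M (blockOf M (χ : G → ℂ)) (H6.rep K) = 0 := by
          by_contra h6
          have := defect_le_of_lK_ne hM hB h6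
          omega
        rw [e1, e2]
      · have := h _ (not_dvd_of_coeff_ne hM hB h0) (h5.trans hχ)
        rw [H6.memLocalIdeal_sub_iff (H6.centralChar_mem χ.2 _) (H6.centralChar_mem ψ.2 _)] at this
        rw [lK_eq hB (H6.mem_blockOf_self χ), lK_eq hB' (H6.mem_blockOf_self ψ), this]
    rw [h3] at h2
    have h4 : blockOf M (ψ : G → ℂ) = blockOf M (χ : G → ℂ) := by
      by_contra h5
      rw [if_neg h5] at h2
      exact one_ne_zero h2
    exact H6.mem_blockOf.1 (h4 ▸ H6.mem_blockOf_self ψ)

end Cfsg.Agent.S4510
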