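import Cfsg.Statements.S4512
import Cfsg.Agent.H6.Klein2
import Cfsg.Agent.H8.Height2
-- import your own Cfsg.Agent.* helpers here

set_option autoImplicit false
open Cfsg

namespace Cfsg.Agent.S4512

open Cfsg.Agent.H4 Cfsg.Agent.H6


/-- If G is a finite group with a Sylow 2-subgroup that is a Klein four-group and a single conjugacy class of involutions, then its principal 2-block (relative to a maximal ideal M of the algebraic integers containing 2) has 2-regular rank 3: the restrictions of its irreducible characters to the elements of odd order span a space of dimension 3 (it has three irreducible Brauer characters). -/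
theorem result {G : Type*} [Group G] [Finite G] (M : Ideal Cfsg.AlgInt) (hM : Cfsg.IsPModular 2 M) (P : Sylow 2 G)
    (hP : Nat.card P = 4) (hexp : ∀ x : P, x * x = 1)
    (hone : ∀ s t : G, orderOf s = 2 → orderOf t = 2 → IsConj s t) :
    Cfsg.blockRank 2 (Cfsg.principalBlock M G) = 3 := by
  classical
  haveI := hM.2.1
  haveI := Fintype.ofFinite G
  have hK : IsKleinFour (P : Subgroup G) :=
    H11.isKleinFour_iff.2 ⟨hP, fun x hx => congrArg Subtype.val (hexp ⟨x, hx⟩)⟩
  obtain ⟨χ₁, χ₂, χ₃, ε, hε, d1, d2, d3, d12, d13, d23, hB, hv, -⟩ := klein_four hM P hK hone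
  obtain ⟨⟨J, hJP⟩, hJ⟩ := exists_prime_orderOf_dvd_card' (G := P) 2 (by rw [hP]; decide)
  rw [Subgroup.orderOf_mk] at hJ
  have h1 := inner_bker (principalBlock M G) J (irrOne G)
  rw [if_pos irrOne_mem_principal, classInner_def] at h1
  simp only [bker_klein hM hK hone hJ, irrOne_apply, map_one, mul_one] at h1
  have h2 : ∀ χ ∈ H8.bfin (principalBlock M G),
      classInner (pRegularPart 2 (χ : G → ℂ)) χ = 3 / 4 := fun χ hχ => by
    have h3 : ∀ g, 2 ∣ orderOf g → (χ : G → ℂ) g * starRingEnd ℂ ((χ : G → ℂ) g) = 1 := by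
      intro g hg
      obtain ⟨a, b, c⟩ := hv g hg
      rcases (hB χ).1 (H8.mem_bfin.1 hχ) with rfl | rfl | rfl | rfl
      · simp
      · simp [a]
      · rcases hε with rfl | rfl <;> simp [b]
      · simp [c]
    have h4 := χ.2.classInner_self
    rw [classInner_def] at h4 ⊢
    have h5 : ∑ g, pRegularPart 2 (χ : G → ℂ) g * starRingEnd ℂ ((χ : G → ℂ) g) =
        ∑ g, (χ : G → ℂ) g * starRingEnd ℂ ((χ : G → ℂ) g) -
          4⁻¹ * ∑ g : G, if 2 ∣ orderOf g then (4 : ℂ) else 0 := by
      rw [Finset.mul_sum, ← Finset.sum_sub_distrib]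
      refine Finset.sum_congr rfl fun g _ => ?_
      split_ifs with hg
      · rw [H8.pReg_of_dvd _ hg, h3 g hg]; norm_num
      · rw [H8.pReg_of_not_dvd _ hg]; simp
    rw [h5]
    linear_combination h4 - 4⁻¹ * h1
  have h3 := H8.blockRank_eq_sum hM (isPBlock_principal (M := M) (G := G))
  rw [Finset.sum_congr rfl h2, Finset.sum_const, show H8.bfin (principalBlock M G) =
    {irrOne G, χ₁, χ₂, χ₃} by ext χ; simp [H8.mem_bfin, hB], Finset.card_insert_of_notMem (by
      simp [d1.symm, d2.symm, d3.symm]), Finset.card_insert_of_notMem (by simp [d12, d13]),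
    Finset.card_pair d23] at h3
  norm_num at h3
  exact_mod_cast h3

end Cfsg.Agent.S4512
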