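import Cfsg.Statements.S4513
import Cfsg.Agent.H7.Central
-- import your own Cfsg.Agent.* helpers here

set_option autoImplicit false
open Cfsg

namespace Cfsg.Agent.S4513

open MonoidAlgebra Cfsg.Agent.H3 Cfsg.Agent.H4 Cfsg.Agent.H7
open Cfsg.Agent.H6 (Res locRing redC redA eB fB intAlg classSum omega chiL)
open scoped Pointwise
set_option linter.style.haveILetI false


/-- Blocks of defect one for p = 2. Let M be a maximal ideal of the algebraic integers containing 2, B a 2-block of the finite group G whose defect group is the subgroup generated by an involution x, C = C_G(x), b a block of C inducing B and θ a member of b taking the same value at x as at 1 (there is exactly one). Then B consists of exactly two irreducible characters, which agree on every element of odd order, and they can be labelled χ₁, χ₂ with signs ε₁, ε₂ = ±1, ε₁ε₂ = −1, such that χᵢ(x y) = εᵢ θ(y) for every element y of C of odd order. -/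
theorem result {G : Type*} [Group G] [Finite G] (M : Ideal Cfsg.AlgInt) (hM : Cfsg.IsPModular 2 M) (x : G) (hx : orderOf x = 2)
    (B : Set (Cfsg.IrrCharacter G)) (hB : Cfsg.IsPBlock M B) (hBD : Cfsg.IsDefectGroup 2 M B (Subgroup.zpowers x))
    (b : Set (Cfsg.IrrCharacter ↥(Subgroup.centralizer ({x} : Set G)))) (hb : Cfsg.IsInducedBlock M (Subgroup.centralizer ({x} : Set G)) b B)
    (θ : Cfsg.IrrCharacter ↥(Subgroup.centralizer ({x} : Set G))) (hθ : θ ∈ b)
    (hθx : ∀ z : ↥(Subgroup.centralizer ({x} : Set G)), (z : G) = x → (θ : ↥(Subgroup.centralizer ({x} : Set G)) → ℂ) z = (θ : ↥(Subgroup.centralizer ({x} : Set G)) → ℂ) 1) :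
    Nat.card B = 2 ∧ (∀ χ ∈ B, ∀ ψ ∈ B, ∀ g : G, ¬ 2 ∣ orderOf g → (χ : G → ℂ) g = (ψ : G → ℂ) g) ∧
      ∃ χ₁ ∈ B, ∃ χ₂ ∈ B, χ₁ ≠ χ₂ ∧ ∃ ε₁ ε₂ : ℤ, (ε₁ = 1 ∨ ε₁ = -1) ∧ (ε₂ = 1 ∨ ε₂ = -1) ∧ ε₁ * ε₂ = -1 ∧
        ∀ y : ↥(Subgroup.centralizer ({x} : Set G)), ¬ 2 ∣ orderOf y →
          (χ₁ : G → ℂ) (x * y) = (ε₁ : ℂ) * (θ : ↥(Subgroup.centralizer ({x} : Set G)) → ℂ) y ∧ (χ₂ : G → ℂ) (x * y) = (ε₂ : ℂ) * (θ : ↥(Subgroup.centralizer ({x} : Set G)) → ℂ) y := by
  classical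
  haveI := hM.2.1; haveI := H6.charP_res hM
  haveI := Fintype.ofFinite G
  haveI := Fintype.ofFinite (Subgroup.centralizer ({x} : Set G))
  have hx' : ∃ k, orderOf x = 2 ^ k := ⟨1, by rw [hx, pow_one]⟩
  have h := H8.secData_centralizer hx'
  have hD := (isDefectGroup_iff hM hB).1 hBD
  have hDC : Subgroup.zpowers x ≤ Subgroup.centralizer ({x} : Set G) := Subgroup.zpowers_le.2 h.mem
  have hCN : Subgroup.centralizer ({x} : Set G) ≤
      Subgroup.normalizer (Subgroup.zpowers x : Set G) := by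
    rw [← H6.centralizer_zpowers]; exact Subgroup.centralizer_le_normalizer _
  have hNC : Subgroup.normalizer (Subgroup.zpowers x : Set G) ⊓ ⊤ ≤
      Subgroup.centralizer ({x} : Set G) := fun g hg => by
    have h1 := (Subgroup.mem_normalizer_iff.1 hg.1 x).1 (Subgroup.mem_zpowers x)
    rw [mem_zpowers_iff_mem_range_orderOf, hx, Finset.mem_image] at h1
    obtain ⟨i, hi, h2⟩ := h1
    rw [Finset.mem_range] at hi
    interval_cases i
    · exact absurd (by simpa using h2.symm : x = 1) fun h3 => by simp [h3] at hx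
    · rw [pow_one] at h2
      exact H6.mem_centralizer_singleton.2 (eq_mul_inv_iff_mul_eq.1 h2)
  have hbr : ∀ c, IsPBlock M c → br (Subgroup.zpowers x) (eb M (Subgroup.centralizer {x}) c) =
      eb M _ c := fun c hc => br_eq_self_of_idem hD.isPGroup hDC hCN (blk_eb hc).mem (blk_eb hc).idem
  have hdef : ∀ c, IsInducedBlock M (Subgroup.centralizer ({x} : Set G)) c B →
      IsDef 2 (Subgroup.centralizer {x}) (eb M _ c) (Subgroup.zpowers x) := fun c hc =>
    (IsInducedBlock.ind hc).isDef_of_br_ne hD hDC (by rw [hbr c hc.1]; exact (blk_eb hc.1).ne_zero)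
  have hind : H8.indBlocks M (Subgroup.centralizer ({x} : Set G)) B = {b} := by
    refine Finset.eq_singleton_iff_unique_mem.2 ⟨H8.mem_indBlocks.2 hb, fun c hc => ?_⟩
    have hc := H8.mem_indBlocks.1 hc
    refine eb_injective hc.1 hb.1 ?_
    rw [← hbr c hc.1, ← hbr b hb.1, ← (ind_iff_br_eq le_top hNC (blk_eb hc.1) (hdef c hc)
      (blk_eB hB)).1 (IsInducedBlock.ind hc), ← (ind_iff_br_eq le_top hNC (blk_eb hb.1)
      (hdef b hb) (blk_eB hB)).1 (IsInducedBlock.ind hb)]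
  have hbD := (isDefectGroup_subgroupOf_iff' hM hb.1 hDC).2 (hdef b hb)
  have hZ : (Subgroup.zpowers x).subgroupOf (Subgroup.centralizer ({x} : Set G)) ≤
      Subgroup.center _ := fun z hz => Subgroup.mem_center_iff.2 fun g => Subtype.ext (by
    obtain ⟨n, hn⟩ := hz
    have hn' : x ^ n = z := hn
    rw [Subgroup.coe_mul, Subgroup.coe_mul, ← hn']
    exact ((h.commute g).symm.zpow_right n).eq)
  have hG : (Subgroup.zpowers x).subgroupOf (Subgroup.centralizer ({x} : Set G)) ⊔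
      Subgroup.centralizer ((Subgroup.zpowers x).subgroupOf
        (Subgroup.centralizer ({x} : Set G)) : Set (Subgroup.centralizer ({x} : Set G))) = ⊤ :=
    top_le_iff.1 fun g _ => Subgroup.mem_sup_right fun d hd =>
      (Subgroup.mem_center_iff.1 (hZ hd) g).symm
  have hab : ∀ a c : (Subgroup.zpowers x).subgroupOf (Subgroup.centralizer ({x} : Set G)),
      a * c = c * a := fun a c => Subtype.ext (Subgroup.mem_center_iff.1 (hZ c.2) a)
  have hker : (Subgroup.zpowers x).subgroupOf (Subgroup.centralizer ({x} : Set G)) ≤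
      charKer θ.1 := fun z hz => by
    obtain ⟨n, hn⟩ := hz
    rw [show z = h.elt ^ n from Subtype.ext hn.symm]
    exact zpow_mem (θ.2.isCharacter.mem_charKer.2 (hθx _ rfl)) n
  have hreg : ∀ ξ ∈ b, ∀ y, ¬ 2 ∣ orderOf y → ξ.1 y = θ.1 y := fun ξ hξ y hy => by
    obtain ⟨ζ, h1⟩ := exists_param hM hb.1 hG hbD hθ hker hξ
    have h2 := h1 1 y hy
    rwa [H5.degree_eq_one_of_comm hab ζ.2, OneMemClass.coe_one, one_mul, one_mul] at h2
  have hcard : (H8.bfin b).card = 2 := by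
    rw [H8.card_bfin, card_eq_card_irr hM hb.1 hG hbD, card_irr_of_comm hab,
      Nat.card_congr (Subgroup.subgroupOfEquivOfLe hDC).toEquiv, Nat.card_zpowers, hx]
  have hd : ∀ χ ∈ B, ∃ d : ℤ, ∀ y : Subgroup.centralizer ({x} : Set G), ¬ 2 ∣ orderOf y →
      χ.1 (x * y) = d * θ.1 y := fun χ hχ => by
    have h1 : ∀ ξ : IrrCharacter (Subgroup.centralizer ({x} : Set G)),
        ∃ n : ℤ, classInner (H8.sec x _ χ.1) ξ.1 = n := fun ξ => by
      obtain ⟨n, hn⟩ := (χ.2.isGen.restrict _).classInner_int ξ.2.isGen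
      have h2 := H8.irr_central_pow_orderOf ξ.2 h.elt_mem_center (n := 2)
        (Subtype.ext (show x ^ 2 = 1 from hx ▸ pow_orderOf_eq_one x))
      rw [h.sec_eq, H8.classInner_shift (χ.2.isClassFunction.restrict _) h.elt_mem_center, hn]
      rcases sq_eq_one_iff.1 h2 with h3 | h3 <;> rw [h3]
      exacts [⟨n, by simp⟩, ⟨-n, by simp⟩]
    choose n hn using h1
    refine ⟨∑ ξ ∈ H8.bfin b, n ξ, fun y hy => ?_⟩
    have h2 := congrFun (h.pReg_sec_eq_sum_ind hM hB hχ) y
    rw [hind, Finset.sum_singleton, H8.sub_eq_sum, H8.pReg_of_not_dvd _ hy, H8.sec_apply] at h2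
    rw [h2, Finset.sum_apply, Int.cast_sum, Finset.sum_mul]
    exact Finset.sum_congr rfl fun ξ hξ => by
      rw [Pi.smul_apply, H8.pReg_of_not_dvd _ hy, hn, hreg ξ (H8.mem_bfin.1 hξ) y hy, smul_eq_mul]
  choose! d hd using hd
  have o1 : ¬ 2 ∣ orderOf (1 : Subgroup.centralizer ({x} : Set G)) := by simp
  have hd1 : ∀ χ ∈ B, χ.1 x = d χ * θ.1 1 := fun χ hχ => by simpa using hd χ hχ 1 o1
  have hsum : ∑ χ ∈ H8.bfin B, d χ ^ 2 = 2 := by
    have h1 := h.sum_mul_conj hM hB o1 o1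
    rw [hind, Finset.sum_singleton, Finset.sum_congr (s₁ := H8.bfin b) rfl fun ξ hξ => by
      rw [hreg ξ (H8.mem_bfin.1 hξ) 1 o1], Finset.sum_const, hcard,
      Finset.sum_congr rfl fun χ hχ => by rw [hd χ (H8.mem_bfin.1 hχ) 1 o1]] at h1
    simp only [map_mul, map_intCast, H8.irr_conj_one] at h1
    have h2 : ((∑ χ ∈ H8.bfin B, d χ ^ 2 : ℤ) : ℂ) * (θ.1 1 * θ.1 1) = 2 * (θ.1 1 * θ.1 1) := by
      rw [Int.cast_sum, Finset.sum_mul, two_mul, ← two_nsmul, ← h1]
      exact Finset.sum_congr rfl fun χ _ => by push_cast; ring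
    exact_mod_cast mul_right_cancel₀ (mul_self_ne_zero.2 θ.2.apply_one_ne_zero) h2
  have hne : ∀ χ ∈ B, d χ ≠ 0 := fun χ hχ h0 => by
    have h1 := card_eq_pow_blockDefect hM hB hD
    rw [Nat.card_zpowers, hx] at h1
    have h2 : blockDefect 2 B = 1 := Nat.pow_right_injective le_rfl (h1.symm.trans (pow_one 2).symm)
    obtain ⟨y, hy, h3⟩ := h.exists_apply_ne_zero hM hb hχ (by
      by_contra h3
      have := H8.height_add_two_le hM hB hχ h3
      omega)
    exact h3 (by rw [hd χ hχ y hy, h0]; simp)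
  have hc2 : (H8.bfin B).card = 2 := by
    have h1 : ((H8.bfin B).card : ℤ) ≤ 2 := by
      rw [← hsum, Finset.card_eq_sum_ones, Nat.cast_sum]
      exact Finset.sum_le_sum fun χ hχ => by
        have := hne χ (H8.mem_bfin.1 hχ)
        push_cast
        nlinarith [sq_pos_of_ne_zero this]
    have h2 : (H8.bfin B).card ≠ 0 := fun h0 => by
      rw [Finset.card_eq_zero.1 h0] at hsum
      simp at hsum
    have h3 : (H8.bfin B).card ≠ 1 := fun h0 => by
      obtain ⟨χ, hχ⟩ := Finset.card_eq_one.1 h0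
      rw [hχ, Finset.sum_singleton] at hsum
      have : d χ ≤ 1 := by nlinarith
      have : -1 ≤ d χ := by nlinarith
      nlinarith
    omega
  obtain ⟨χ₁, χ₂, h12, hs⟩ := Finset.card_eq_two.1 hc2
  have m1 : χ₁ ∈ B := H8.mem_bfin.1 (by simp [hs])
  have m2 : χ₂ ∈ B := H8.mem_bfin.1 (by simp [hs])
  rw [hs, Finset.sum_pair h12] at hsum
  have e1 : d χ₁ = 1 ∨ d χ₁ = -1 := sq_eq_one_iff.1 (by
    nlinarith [sq_pos_of_ne_zero (hne _ m1), sq_pos_of_ne_zero (hne _ m2)])
  have e2 : d χ₂ = 1 ∨ d χ₂ = -1 := sq_eq_one_iff.1 (by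
    nlinarith [sq_pos_of_ne_zero (hne _ m1), sq_pos_of_ne_zero (hne _ m2)])
  have wo : ∀ g, ¬ 2 ∣ orderOf g → d χ₁ * χ₁.1 g + d χ₂ * χ₂.1 g = 0 := fun g hg => by
    have h1 := H8.weak_orth hM hB hg (y := x) (by rw [hx])
    rw [hs, Finset.sum_pair h12, hd1 _ m1, hd1 _ m2] at h1
    simp only [map_mul, map_intCast, H8.irr_conj_one] at h1
    refine mul_right_cancel₀ θ.2.apply_one_ne_zero ?_
    linear_combination h1
  have e3 : d χ₁ * d χ₂ = -1 := by
    have h1 := wo 1 (by simp)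
    obtain ⟨n, hn, h2⟩ := χ₁.2.exists_degree
    obtain ⟨m, hm, h3⟩ := χ₂.2.exists_degree
    rw [h2, h3] at h1
    have h4 : d χ₁ * n + d χ₂ * m = 0 := by exact_mod_cast h1
    rcases e1 with h | h <;> rcases e2 with h' | h' <;> rw [h, h'] at h4 ⊢ <;> omega
  have e4 : ∀ g, ¬ 2 ∣ orderOf g → χ₁.1 g = χ₂.1 g := fun g hg => by
    have h1 := wo g hg
    rcases e1 with h | h <;> rcases e2 with h' | h' <;> rw [h, h'] at h1 e3 <;>
      first | omega | (push_cast at h1; first | linear_combination h1 | linear_combination -h1)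
  have hm : ∀ χ ∈ B, χ = χ₁ ∨ χ = χ₂ := fun χ hχ => by simpa [hs] using H8.mem_bfin.2 hχ
  refine ⟨by rw [← H8.card_bfin, hc2], fun χ hχ ψ hψ g hg => ?_, χ₁, m1, χ₂, m2, h12, d χ₁, d χ₂,
    e1, e2, e3, fun y hy => ⟨hd _ m1 y hy, hd _ m2 y hy⟩⟩
  rcases hm χ hχ with rfl | rfl <;> rcases hm ψ hψ with rfl | rfl
  exacts [rfl, e4 g hg, (e4 g hg).symm, rfl]

end Cfsg.Agent.S4513
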