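import Cfsg.Statements.S4633
import Cfsg.Agent.H7.Local5
-- import your own Cfsg.Agent.* helpers here

set_option autoImplicit false
open Cfsg

namespace Cfsg.Agent.S4633

open MonoidAlgebra Cfsg.Agent.H3 Cfsg.Agent.H4 Cfsg.Agent.H7
open Cfsg.Agent.H6 (Res locRing redC redA eB fB intAlg classSum omega chiL)
open scoped Pointwise
set_option linter.style.haveILetI false


/-- Let B be a block of the finite group G relative to a maximal ideal M of the algebraic integers containing the prime p, with a nontrivial cyclic defect group P. Let c be a block of C_G(P) inducing B and T the stabilizer of c in N_G(P) (the elements of N_G(P) conjugating c to itself); T contains C_G(P). Then T/C_G(P) is cyclic of order dividing p − 1, and it acts freely on the non-identity elements of P: an element of T fixing some non-identity element of P under conjugation lies in C_G(P). -/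
theorem result {G : Type*} [Group G] [Finite G] (p : ℕ) [Fact p.Prime] (M : Ideal Cfsg.AlgInt) (hM : Cfsg.IsPModular p M) (B : Set (Cfsg.IrrCharacter G)) (hB : Cfsg.IsPBlock M B) (P : Subgroup G) (hPD : Cfsg.IsDefectGroup p M B P) (hP1 : P ≠ ⊥) (hcyc : IsCyclic P) (c : Set (Cfsg.IrrCharacter (Subgroup.centralizer (P : Set G)))) (hc : Cfsg.IsInducedBlock M (Subgroup.centralizer (P : Set G)) c B) (T : Subgroup G) (hT : ∀ g : G, g ∈ T ↔ (g ∈ Subgroup.normalizer (P : Set G) ∧ Cfsg.StabilizesBlock (Subgroup.centralizer (P : Set G)) c g)) [hn : ((Subgroup.centralizer (P : Set G)).subgroupOf T).Normal] : IsCyclic (T ⧸ (Subgroup.centralizer (P : Set G)).subgroupOf T) ∧ (Subgroup.centralizer (P : Set G)).relIndex T ∣ p - 1 ∧ ∀ g ∈ T, ∀ x ∈ P, x ≠ 1 → g * x * g⁻¹ = x → g ∈ Subgroup.centralizer (P : Set G) := by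
  haveI := hM.2.1; haveI := H6.charP_res hM
  have S := maxP_of_induced hM hPD hc
  obtain rfl := NS_eq_of_forall hc.1 hT
  have h1 := S.not_dvd_relIndex S.pair S.isDef_NS
  rw [CK_top, sup_eq_left.2 (le_centralizer_of_isCyclic hcyc)] at h1
  have hN : NS ⊤ P (eb M _ c) ≤ Subgroup.normalizer (P : Set G) := fun x hx => (mem_NS.1 hx).1
  obtain ⟨h2, h3⟩ := isCyclic_quotient_of_isCyclic S.isDef.isPGroup hcyc hP1 hN h1
  exact ⟨h2, h3, fun g hg x hx hx1 hgx =>
    mem_centralizer_of_isCyclic S.isDef.isPGroup hcyc hN h1 hg hx hx1 hgx⟩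

end Cfsg.Agent.S4633
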