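import Cfsg.Statements.S4634
import Cfsg.Agent.H6.Cyc7
import Cfsg.Agent.H25.Cyc
-- import your own Cfsg.Agent.* helpers here

set_option autoImplicit false
open Cfsg

namespace Cfsg.Agent.S4634

open Cfsg.Agent.H4 Cfsg.Agent.H6

open MonoidAlgebra Cfsg.Agent.H3 Cfsg.Agent.H7
set_option warn.classDefReducibility false
set_option linter.style.haveILetI false
attribute [local instance] H8.subFintype

theorem aug_ne {M : Ideal AlgInt} [M.IsMaximal] {p : ℕ} [Fact p.Prime] (hM : IsPModular p M)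
    {F : Type*} [Group F] [Finite F] {Q : Subgroup F} (hQ : IsPGroup p Q) {y : (Res M)[F]}
    (hy : y ∈ Fix (Res M) Q Q) (hi : IsIdempotentElem y) (h0 : y ≠ 0) : aug (Res M) F y ≠ 0 := by
  obtain ⟨i, h1, h2, -⟩ := exists_isPrimIn_le' _ hy hi h0
  obtain ⟨b, hb, rfl⟩ := exists_eb_eq h1
  obtain ⟨χ, hχ⟩ := H6.block_nonempty hb
  obtain rfl := H6.block_eq_of_mem hb H6.isPBlock_principal hχ
    (by rw [principalBlock_eq_univ_of_isPGroup hM hQ]; trivial)
  have := congrArg (aug (Res M) F) h2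
  rw [map_mul, aug_eb_principal, one_mul] at this
  rw [this]
  exact one_ne_zero

theorem deg_eq {F : Type*} [Group F] [Finite F] {Q : Subgroup F} [Q.Normal] {η : IrrCharacter F}
    (h : ∃ x ∈ Q, (η : F → ℂ) x ≠ (η : F → ℂ) 1) {d : ℤ} (hd : d = 1 ∨ d = -1)
    (hv : ∀ v : Q, v ≠ 1 → (η : F → ℂ) v = d) : (η : F → ℂ) 1 = (Nat.card Q - 1 : ℕ) := by
  classical
  obtain ⟨x, hx, h⟩ := h
  haveI := Fintype.ofFinite Q
  have h1 := η.2.sum_normal_eq_zero Q fun hh => h (by simpa using hh hx 1)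
  obtain ⟨n, hn, h2⟩ := η.2.exists_degree
  rw [← Finset.add_sum_erase _ _ (Finset.mem_univ 1), Finset.sum_congr rfl fun v hv' =>
    hv v (Finset.ne_of_mem_erase hv'), Finset.sum_const, Finset.card_erase_of_mem (Finset.mem_univ _),
    Finset.card_univ, ← Nat.card_eq_fintype_card, OneMemClass.coe_one, h2, nsmul_eq_mul] at h1
  have h3 : (n : ℤ) + (Nat.card Q - 1 : ℕ) * d = 0 := by exact_mod_cast h1
  rw [h2]
  congr 1
  rcases hd with rfl | rfl <;> omega


/-- Let B be a block of the finite group G relative to a maximal ideal M of the algebraic integers containing the prime p, with a nontrivial cyclic defect group P, let c be a block of C_G(P) inducing B, T the stabilizer of c in N_G(P) and e the index of C_G(P) in T. Let F be any finite group of order #P · e having a cyclic subgroup Q of order #P that is its own centralizer (F is then the semidirect product of Q by a cyclic group of order e acting faithfully). Then there is a perfect isometry from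 the set of all irreducible characters of F onto B whose signs agree on all the characters of F that do not contain Q in their kernel. -/
theorem result {G : Type*} [Group G] [Finite G] (p : ℕ) [Fact p.Prime] (M : Ideal Cfsg.AlgInt) (hM : Cfsg.IsPModular p M) (B : Set (Cfsg.IrrCharacter G)) (hB : Cfsg.IsPBlock M B) (P : Subgroup G) (hPD : Cfsg.IsDefectGroup p M B P) (hP1 : P ≠ ⊥) (hcyc : IsCyclic P) (c : Set (Cfsg.IrrCharacter (Subgroup.centralizer (P : Set G)))) (hc : Cfsg.IsInducedBlock M (Subgroup.centralizer (P : Set G)) c B) (T : Subgroup G) (hT : ∀ g : G, g ∈ T ↔ (g ∈ Subgroup.normalizer (P : Set G) ∧ Cfsg.StabilizesBlock (Subgroup.centralizer (P : Set G)) c g)) (e : ℕ) (he : (Subgroup.centralizer (P : Set G)).relIndex T = e) (F : Type*) [Group F] [Finite F] (hF : Nat.card F = Nat.card P * e) (Q : Subgroup F) (hQ : IsCyclic Q) (hQcard : Nat.card Q = Nat.card P) (hQC : Subgroup.centralizer (Q : Set F) = Q) : ∃ (I : Cfsg.IrrCharacter F → Cfsg.IrrCharacter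 G) (ε : Cfsg.IrrCharacter F → ℤ), Cfsg.IsPerfectIsometry p M (Set.univ : Set (Cfsg.IrrCharacter F)) B I ε ∧ ∀ η η' : Cfsg.IrrCharacter F, (∃ x ∈ Q, (η : F → ℂ) x ≠ (η : F → ℂ) 1) → (∃ x ∈ Q, (η' : F → ℂ) x ≠ (η' : F → ℂ) 1) → ε η = ε η' := by
  classical
  haveI := hM.2.1; haveI := H6.charP_res hM; haveI := Fintype.ofFinite G
  haveI := Fintype.ofFinite F
  have hp : p.Prime := Fact.out
  have S := maxP_of_induced hM hPD hc
  obtain rfl := NS_eq_of_forall hc.1 hT
  have hab := le_centralizer_of_isCyclic hcyc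
  haveI : ((Subgroup.centralizer (P : Set G)).subgroupOf (NS ⊤ P (eb M _ c))).Normal :=
    Subgroup.normal_subgroupOf_of_le_normalizer
      (inf_le_left.trans (normalizer_le_normalizer_centralizer P))
  have h1 := he ▸ (isCyclic_quotient_of_isCyclic S.isDef.isPGroup hcyc hP1 inf_le_left
    (S.not_dvd_of_abelian hab)).2
  have h2 : e < p := (Nat.le_of_dvd (Nat.sub_pos_of_lt hp.one_lt) h1).trans_lt
    (Nat.sub_lt hp.pos one_pos)
  have h3 : Q.index = e := Nat.eq_of_mul_eq_mul_left Nat.card_pos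
    (by rw [Q.card_mul_index, hF, hQcard])
  have he0 : 0 < e := h3 ▸ Nat.pos_of_ne_zero Q.index_ne_zero_of_finite
  obtain ⟨n, hn⟩ := S.isDef.isPGroup.exists_card_eq
  have hQp : IsPGroup p Q := IsPGroup.of_card (hQcard.trans hn)
  have hQi : ¬ p ∣ Q.index := h3 ▸ Nat.not_dvd_of_pos_of_lt he0 h2
  haveI : Q.Normal := by
    have h4 := card_sylow_modEq_one p F
    have h5 := Nat.le_of_dvd (h3 ▸ he0) (hQp.toSylow hQi).card_dvd_index
    haveI := (Nat.card_eq_one_iff_unique.1 (h4.eq_of_lt_of_lt (h5.trans_lt (h3.trans_lt h2))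
      hp.one_lt)).1
    exact (hQp.toSylow hQi).normal_of_subsingleton
  have hN : ⊤ ≤ Subgroup.normalizer (Q : Set F) := Subgroup.le_normalizer_of_normal
  have hb := H6.isPBlock_principal (M := M) (G := F)
  have hu : principalBlock M F = Set.univ := Set.eq_univ_of_forall fun χ => by
    have h4 := H6.isPBlock_blockOf (M := M) χ
    have h5 := blk_eB h4
    rw [← (eq_principal_iff_aug h4).2 (aug_ne hM hQp ⟨hQC.symm ▸ hQC ▸ supp_centralizer_of_idem hQp
      le_top hN h5.mem h5.idem, h5.mem.2.mono le_top⟩ h5.idem h5.ne_zero)]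
    exact H6.mem_blockOf_self χ
  obtain ⟨e', S'⟩ := exists_maxP le_rfl Subgroup.le_normalizer (blk_eB hb)
    ((isDef_iff_sylowIn_of_aug (eB_mem_Fix _).2 (by rw [aug_eB_principal]; exact one_ne_zero)).2
      ⟨le_top, hQp, by rwa [Subgroup.relIndex_top_right]⟩)
  have h4 : Blk Q e' := by have := S'.blk; rwa [CK_top, hQC] at this
  have h5 : NS ⊤ Q e' = ⊤ := eq_top_iff.2 fun g _ => ⟨hN trivial, trivial,
    (h4.cj_of_mem_normalizer (hN trivial)).eq_of_aug h4
      (by rw [aug_cj]; exact aug_ne hM hQp h4.mem h4.idem h4.ne_zero)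
      (aug_ne hM hQp h4.mem h4.idem h4.ne_zero)⟩
  have hab' := le_centralizer_of_isCyclic hQ
  have hf' := free_of_isCyclic hM S' hQ
  have hQ1 : Q ≠ ⊥ := fun h => hP1 (Subgroup.card_eq_one.1 (hQcard ▸ h ▸ Subgroup.card_bot))
  haveI := (Subgroup.nontrivial_iff_ne_bot Q).2 hQ1
  have h6 : ∀ (χ : IrrCharacter F) (v : Q), v ≠ 1 →
      ((1 : ℤ) : ℂ) * dd (v : F) (bsec M p Q e' v) χ = (χ : F → ℂ) v := fun χ v hv => by
    have hv' : (v : F) ≠ 1 := by simpa using hv
    have h7 : IsPGroup p (Subgroup.centralizer ({(v : F)} : Set F)) := hQp.to_le fun g hg =>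
      hQC.le (hf' g (h5.ge trivial) v v.2 hv' (mul_inv_eq_iff_eq_mul.2
        (Subgroup.mem_centralizer_singleton_iff.1 hg)))
    have h8 := (bsec_spec hM S'.pair v.2).1
    obtain ⟨ψ, hψ⟩ := H6.block_nonempty h8
    have h9 := (H6.block_eq_of_mem h8 H6.isPBlock_principal hψ
      (by rw [principalBlock_eq_univ_of_isPGroup hM h7]; trivial)).trans
      (principalBlock_eq_univ_of_isPGroup hM h7)
    have := congrFun ((uni_bsec' hM S' hab' hf' v.2 hv').sub_eq (u := (v : F)) (ψ := irrOne _)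
      (by rw [h9]; trivial) χ) 1
    rw [sub_apply (S'.secData hM v.2) χ.2.isClassFunction _ (by simp [hp.ne_one]), Pi.smul_apply,
      pRegularPart_of_not_dvd _ (by simp [hp.ne_one])] at this
    conv_lhs at this => rw [h9, fb, fB_univ, map_one, one_mul, chiL_single]
    simpa using this.symm
  have h' := fb_of_sign hM hb S' hab' hf' (ε := fun _ => 1) (fun _ => Or.inl rfl)
    (fun _ _ _ _ => rfl) fun χ _ => (extQ_of_isGen (χ.2.isGen.comp Q.subtype)).congr
      fun v hv => (h6 χ v hv).symm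
  have hA' : Nat.card (autOf (NS ⊤ Q e') Q) = e := by
    rw [h5, card_autOf hN, hQC, Subgroup.relIndex_top_right, h3]
  obtain ⟨ψ', δ', δ₀', s'⟩ := h'.exists_fs (by
    rw [(card_eq_iff_rank hM hab' hf' hb S').2 (rank_eq_of_isCyclic hM S' hQ hb hQ1),
      card_orb_eq h'.comm h'.free])
  let σ := mulEquivOfCyclicCardEq hQcard
  have hA : autOf (NS ⊤ Q e') Q = (autOf (NS ⊤ P (eb M _ c)) P).comap
      (MulAut.congr σ).toMonoidHom := by
    have h7 : Nat.card (autOf (NS ⊤ Q e') Q) = Nat.card ((autOf (NS ⊤ P (eb M _ c)) P).comap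
        (MulAut.congr σ).toMonoidHom) := by
      rw [hA', card_aut_congr (A := autOf (NS ⊤ P (eb M _ c)) P) σ fun _ => Iff.rfl, ← he]
      exact (card_autOf inf_le_left).symm
    by_cases h8 : p = 2
    · subst h8
      have h9 := Subgroup.card_eq_one.1 (hA'.trans (Nat.dvd_one.1 h1))
      rwa [h9, Subgroup.card_bot, eq_comm, Subgroup.card_eq_one, eq_comm, ← h9] at h7
    · haveI : IsCyclic (MulAut Q) := (IsCyclic.mulAutMulEquiv Q).isCyclic.2
        (by rw [hQcard, hn]; exact ZMod.isCyclic_units_of_prime_pow p hp h8 n)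
      exact H25.eq_of_card_eq_of_isCyclic (C := ⊤) le_top le_top h7
  obtain ⟨x, ψ, δ, δ₀, h, s⟩ := exists_fs_of_rank (A := autOf (NS ⊤ Q e') Q) hM hab (free_of_isCyclic hM S hcyc) hB S hP1
    (rank_eq_of_isCyclic hM S hcyc hB hP1) σ fun α => by rw [hA]; rfl
  obtain ⟨I, ε, h7, h8⟩ := s.exists_perfect h hM h' s'
  refine ⟨I, ε, hu ▸ h7, fun η η' hη hη' => ?_⟩
  have h9 : ∀ η, (∃ i, ψ' i = η) → ε η = δ₀' * δ₀ := by
    rintro _ ⟨i, rfl⟩
    obtain ⟨j, hj⟩ := (h8 _ (s'.mem i)).2.1 ⟨i, rfl⟩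
    rw [(h8 _ (s'.mem i)).1, ← hj, s.eq0, s'.eq0]
  have h10 : ∀ η : IrrCharacter F, (∃ x ∈ Q, (η : F → ℂ) x ≠ (η : F → ℂ) 1) → (¬ ∃ i, ψ' i = η) →
      (η : F → ℂ) 1 = (Nat.card Q - 1 : ℕ) := fun η hη h => deg_eq hη (d := -δ' η)
    (by have := s'.sign η (by rw [hu]; trivial); omega) fun v hv => by
      rw [← h6 η v hv, s'.non η ⟨by rw [hu]; trivial, h⟩ v hv, Int.cast_neg]
  by_cases h11 : (∃ i, ψ' i = η) ∧ ∃ i, ψ' i = η'
  · rw [h9 η h11.1, h9 η' h11.2]
  have h12 : Nat.card Q - 1 ≤ e := h3 ▸ (not_and_or.1 h11).elim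
    (fun h => η.2.degree_le_index_of_comm Q (fun a ha b hb => hab' hb a ha) (h10 η hη h))
    fun h => η'.2.degree_le_index_of_comm Q (fun a ha b hb => hab' hb a ha) (h10 η' hη' h)
  have h13 := card_orb_mul h'.comm h'.free
  obtain ⟨i₀⟩ := h'.toFD.nonempty_orb
  have h14 : Fintype.card (Orb (autOf (NS ⊤ Q e') Q)) = 1 := by
    have := Fintype.card_pos_iff.2 ⟨i₀⟩
    rw [hA'] at h13
    nlinarith [Nat.sub_add_cancel (Nat.card_pos (α := Q))]
  have h15 : ∀ η : IrrCharacter F, (∃ x ∈ Q, (η : F → ℂ) x ≠ (η : F → ℂ) 1) →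
      (η : F → ℂ) 1 = e := fun η hη => by
    rw [show e = Nat.card Q - 1 by rw [← h13, h14, hA']; simp]
    by_cases h : ∃ i, ψ' i = η
    · obtain ⟨i, rfl⟩ := h
      refine deg_eq hη (d := -δ₀') (by have := s'.sign0; omega) fun v hv => ?_
      haveI := Fintype.card_le_one_iff_subsingleton.1 h14.le
      have := sum_osum h'.comm h'.free hv
      rw [Fintype.sum_subsingleton _ i] at this
      rw [← h6 _ v hv, s'.exc i v hv, this, Int.cast_neg, mul_neg_one]
    · exact h10 η hη h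
  by_contra h16
  have h17 : η ≠ η' := fun h => h16 (h ▸ rfl)
  have h18 : ∀ η : IrrCharacter F, (∃ x ∈ Q, (η : F → ℂ) x ≠ (η : F → ℂ) 1) → irrOne F ≠ η := by
    rintro _ ⟨x, -, hx⟩ rfl
    exact hx rfl
  have h19 : ∑ χ : IrrCharacter F, charDegree (χ : F → ℂ) ^ 2 = Nat.card F := by
    have := sum_irr_degree_sq (G := F)
    simp only [← H8.irr_coe_charDegree] at this
    exact_mod_cast this
  have h20 := Finset.sum_le_sum_of_subset (f := fun χ : IrrCharacter F => charDegree (χ : F → ℂ) ^ 2)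
    (Finset.subset_univ {irrOne F, η, η'})
  have h21 : ∀ (η : IrrCharacter F) (n : ℕ), (η : F → ℂ) 1 = n → charDegree (η : F → ℂ) = n :=
    fun η n h => by exact_mod_cast (H8.irr_coe_charDegree η).trans h
  rw [h19, Finset.sum_insert (by simp [h18 η hη, h18 η' hη']), Finset.sum_pair h17,
    h21 η e (h15 η hη), h21 η' e (h15 η' hη'), h21 _ 1 (by simp), hF, ← hQcard, ← h13, h14,
    hA'] at h20
  nlinarith

end Cfsg.Agent.S4634
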