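import Cfsg.Statements.S4636
import Cfsg.Agent.H7.Local5
-- import your own Cfsg.Agent.* helpers here

set_option autoImplicit false
open scoped Pointwise
open Cfsg

namespace Cfsg.Agent.S4636

open MonoidAlgebra Cfsg.Agent.H3 Cfsg.Agent.H4 Cfsg.Agent.H7
open Cfsg.Agent.H6 (Res locRing redC redA eB fB intAlg classSum omega chiL)
open scoped Pointwise
set_option linter.style.haveILetI false


/-- Let P be a nontrivial cyclic p-subgroup of the finite group G and Z its subgroup of order p. For every x outside N_G(Z), P meets its conjugate xPx⁻¹ trivially; consequently N_G(Q) ≤ N_G(Z) for every nontrivial subgroup Q of P. -/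
theorem result {G : Type*} [Group G] [Finite G] (p : ℕ) [Fact p.Prime] (P : Subgroup G) (hP : IsPGroup p P) (hP1 : P ≠ ⊥) (hcyc : IsCyclic P) (Z : Subgroup G) (hZ : Z ≤ P) (hZcard : Nat.card Z = p) : (∀ x : G, x ∉ Subgroup.normalizer (Z : Set G) → P ⊓ MulAut.conj x • P = ⊥) ∧ ∀ Q : Subgroup G, Q ≤ P → Q ≠ ⊥ → Subgroup.normalizer (Q : Set G) ≤ Subgroup.normalizer (Z : Set G) := by
  have hp : p.Prime := Fact.out
  have hZ1 : Z ≠ ⊥ := fun h => hp.ne_one (by rw [← hZcard, h, Subgroup.card_bot])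
  have k1 : ∀ y ∈ Z, orderOf y = p → Subgroup.zpowers y = Z := fun y hy h =>
    Subgroup.eq_of_le_of_card_ge (Subgroup.zpowers_le.2 hy) (by rw [Nat.card_zpowers, h, hZcard])
  obtain ⟨z, hz, hzp⟩ := exists_orderOf_eq_prime (hP.to_le hZ) hZ1
  have key : ∀ y ∈ P, orderOf y = p → Subgroup.zpowers y = Z := fun y hy h =>
    k1 y (k1 z hz hzp ▸ mem_zpowers_of_isCyclic hcyc (hZ hz) hzp hy h) h
  refine ⟨fun x hx => ?_, fun Q hQ hQ1 => ?_⟩
  · by_contra h
    obtain ⟨y, hy, hyp⟩ := exists_orderOf_eq_prime (hP.to_le inf_le_left) h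
    have h1 := key y hy.1 hyp
    have h2 := key (x⁻¹ * y * x) (mem_conj_smul.1 hy.2)
      (by rw [← hyp]; simpa using H6.orderOf_conj' x⁻¹ y)
    refine hx (mem_normalizer_of_conj_mem fun w hw => ?_)
    rw [← h2] at hw
    obtain ⟨n, rfl⟩ := hw
    dsimp only
    rw [← conj_zpow, ← h1]
    exact ⟨n, by simp [mul_assoc]⟩
  · obtain ⟨y, hy, hyp⟩ := exists_orderOf_eq_prime (hP.to_le hQ) hQ1
    refine normalizer_le_of_isCyclic (Subgroup.isCyclic_of_le hQ) ?_
    rw [← key y (hQ hy) hyp]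
    exact Subgroup.zpowers_le.2 hy

end Cfsg.Agent.S4636
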