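import Cfsg.Statements.S4637
import Cfsg.Agent.H6.Fr8
-- import your own Cfsg.Agent.* helpers here

set_option autoImplicit false
open Cfsg

namespace Cfsg.Agent.S4637

open Cfsg.Agent.H4 Cfsg.Agent.H6

open Cfsg.Agent.H7
attribute [local instance] H8.subFintype


/-- Let B be a block of the finite group G relative to a maximal ideal M of the algebraic integers containing 2, with a Klein four defect group P. Let c be a block of C_G(P) inducing B, T the stabilizer of c in N_G(P) and e the index of C_G(P) in T (the inertial index). Then e is 1 or 3, B contains exactly four irreducible characters, and the 2-regular rank of B (its number of irreducible Brauer characters) equals e. -/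
theorem result {G : Type*} [Group G] [Finite G] (M : Ideal Cfsg.AlgInt) (hM : Cfsg.IsPModular 2 M) (B : Set (Cfsg.IrrCharacter G)) (hB : Cfsg.IsPBlock M B) (P : Subgroup G) (hPD : Cfsg.IsDefectGroup 2 M B P) (hV : IsKleinFour P) (c : Set (Cfsg.IrrCharacter (Subgroup.centralizer (P : Set G)))) (hc : Cfsg.IsInducedBlock M (Subgroup.centralizer (P : Set G)) c B) (T : Subgroup G) (hT : ∀ g : G, g ∈ T ↔ (g ∈ Subgroup.normalizer (P : Set G) ∧ Cfsg.StabilizesBlock (Subgroup.centralizer (P : Set G)) c g)) (e : ℕ) (he : (Subgroup.centralizer (P : Set G)).relIndex T = e) : (e = 1 ∨ e = 3) ∧ Nat.card B = 4 ∧ Cfsg.blockRank 2 B = e := by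
  classical
  haveI := hM.2.1; haveI := H6.charP_res hM; haveI := Fintype.ofFinite G
  have S := maxP_of_induced hM hPD hc
  obtain rfl := NS_eq_of_forall hc.1 hT
  have hab : P ≤ Subgroup.centralizer (P : Set G) := fun x hx y hy =>
    congrArg Subtype.val (IsKleinFour.isMulCommutative.is_comm.comm (⟨y, hy⟩ : P) ⟨x, hx⟩)
  have h4 := hV.card_four
  obtain ⟨hf, h3, hr⟩ := two_four hab hB hM S (by rintro rfl; simp at h4) fun s _ =>
    s.card_le_univ.trans (by rw [← Nat.card_eq_fintype_card, h4])
  have hk := (card_eq_iff_rank hM hab hf hB S).2 hr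
  rw [card_autOf inf_le_left, he] at h3 hr hk
  exact ⟨h3, by rcases h3 with rfl | rfl <;> rw [hk, h4], hr⟩

end Cfsg.Agent.S4637
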