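import Cfsg.Statements.S4638
import Cfsg.Agent.H6.Fr8
-- import your own Cfsg.Agent.* helpers here

set_option autoImplicit false
open Cfsg

namespace Cfsg.Agent.S4638

open Cfsg.Agent.H4 Cfsg.Agent.H6

open Cfsg.Agent.H7
attribute [local instance] H8.subFintype


/-- Let B be a block of the finite group G relative to a maximal ideal M of the algebraic integers containing 2, with a Klein four defect group P, and let c be its Brauer correspondent: the block of N_G(P) with defect group P that induces B. Then there is a perfect isometry from c onto B. -/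
theorem result {G : Type*} [Group G] [Finite G] (M : Ideal Cfsg.AlgInt) (hM : Cfsg.IsPModular 2 M) (B : Set (Cfsg.IrrCharacter G)) (hB : Cfsg.IsPBlock M B) (P : Subgroup G) (hPD : Cfsg.IsDefectGroup 2 M B P) (hV : IsKleinFour P) (c : Set (Cfsg.IrrCharacter (Subgroup.normalizer (P : Set G)))) (hcD : Cfsg.IsDefectGroup 2 M c (P.subgroupOf (Subgroup.normalizer (P : Set G)))) (hc : Cfsg.IsInducedBlock M (Subgroup.normalizer (P : Set G)) c B) : ∃ (I : Cfsg.IrrCharacter (Subgroup.normalizer (P : Set G)) → Cfsg.IrrCharacter G) (ε : Cfsg.IrrCharacter (Subgroup.normalizer (P : Set G)) → ℤ), Cfsg.IsPerfectIsometry 2 M c B I ε := by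
  classical
  haveI := hM.2.1; haveI := H6.charP_res hM; haveI := Fintype.ofFinite G
  obtain ⟨e, S, S₁⟩ := maxP_top_of_ind hM hc hPD hcD Subgroup.le_normalizer
    (Subgroup.centralizer_le_normalizer _)
  have hab : P ≤ Subgroup.centralizer (P : Set G) := fun x hx y hy =>
    congrArg Subtype.val (IsKleinFour.isMulCommutative.is_comm.comm (⟨y, hy⟩ : P) ⟨x, hx⟩)
  have h4 := hV.card_four
  have h1 : P ≠ ⊥ := by rintro rfl; simp at h4
  obtain ⟨hf, -, hr⟩ := two_four hab hB hM S h1 fun s _ =>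
    s.card_le_univ.trans (by rw [← Nat.card_eq_fintype_card, h4])
  obtain ⟨P', e', σ, S', hab', hf', hσ⟩ := exists_sub hM hab hf S₁ inf_le_left
  have h4' := (Nat.card_congr σ.toEquiv).symm.trans h4
  have h1' : P' ≠ ⊥ := by rintro rfl; simp at h4'
  obtain ⟨-, -, hr'⟩ := two_four hab' hc.1 hM S' h1' fun s _ =>
    s.card_le_univ.trans (by rw [← Nat.card_eq_fintype_card, h4'])
  obtain ⟨x, ψ, δ, δ₀, h, s⟩ := exists_fs_of_rank hM hab hf hB S h1 hr (MulEquiv.refl _)
    fun _ => Iff.rfl
  obtain ⟨x', ψ', δ', δ₀', h', s'⟩ := exists_fs_of_rank hM hab' hf' hc.1 S' h1' hr' σ hσ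
  obtain ⟨I, ε, h2, -⟩ := s.exists_perfect h hM h' s'
  exact ⟨I, ε, h2⟩

end Cfsg.Agent.S4638
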