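import Cfsg.Statements.S4639
import Cfsg.Agent.H6.Cyc7
-- import your own Cfsg.Agent.* helpers here

set_option autoImplicit false
open Cfsg

namespace Cfsg.Agent.S4639

open Cfsg.Agent.H4 Cfsg.Agent.H6

open Cfsg.Agent.H7
attribute [local instance] H8.subFintype
set_option warn.classDefReducibility false


/-- Let B be a block of the finite group G relative to a maximal ideal M of the algebraic integers containing the prime p, with a nontrivial commutative defect group P. Let c be a block of C_G(P) inducing B, T the stabilizer of c in N_G(P) and e the index of C_G(P) in T. Suppose that T/C_G(P) is commutative (all commutators of elements of T lie in C_G(P)) and acts freely on the non-identity elements of P (an element of T fixing a non-identity element of P under conjugation lies in C_G(P)). Then B has at most e + (#P − 1)/e irreducible characters and p-regular rank at most e; equality holds in the first bound exactly when it holds in the second; and both equalities hold when e ≤ 3. -/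
theorem result {G : Type*} [Group G] [Finite G] (p : ℕ) [Fact p.Prime] (M : Ideal Cfsg.AlgInt) (hM : Cfsg.IsPModular p M) (B : Set (Cfsg.IrrCharacter G)) (hB : Cfsg.IsPBlock M B) (P : Subgroup G) (hPD : Cfsg.IsDefectGroup p M B P) (hP1 : P ≠ ⊥) (hPab : ∀ x ∈ P, ∀ y ∈ P, x * y = y * x) (c : Set (Cfsg.IrrCharacter (Subgroup.centralizer (P : Set G)))) (hc : Cfsg.IsInducedBlock M (Subgroup.centralizer (P : Set G)) c B) (T : Subgroup G) (hT : ∀ g : G, g ∈ T ↔ (g ∈ Subgroup.normalizer (P : Set G) ∧ Cfsg.StabilizesBlock (Subgroup.centralizer (P : Set G)) c g)) (e : ℕ) (he : (Subgroup.centralizer (P : Set G)).relIndex T = e) (hEab : ∀ g ∈ T, ∀ h ∈ T, g * h * g⁻¹ * h⁻¹ ∈ Subgroup.centralizer (P : Set G)) (hfree : ∀ g ∈ T, ∀ x ∈ P, x ≠ 1 → g * x * g⁻¹ = x → g ∈ Subgroup.centralizer (P : Set G)) : Nat.card B ≤ e + (Nat.card P - 1) / e ∧ Cfsg.blockRank p B ≤ e ∧ (Nat.card B = e + (Nat.card P - 1) / e ↔ Cfsg.blockRank p B = e) ∧ (e ≤ 3 → Nat.card B = e + (Nat.card P - 1) / e ∧ Cfsg.blockRank p B = e) := by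
  classical
  haveI := hM.2.1; haveI := H6.charP_res hM; haveI := Fintype.ofFinite G
  have S := maxP_of_induced hM hPD hc
  obtain rfl := NS_eq_of_forall hc.1 hT
  have hab : P ≤ Subgroup.centralizer (P : Set G) := fun x hx y hy => hPab y hy x hx
  have h1 := rank_le hM hab hfree hB S hP1
  have h2 := card_eq_iff_rank hM hab hfree hB S
  have h3 := card_eq_rank_add hM hB S hab hfree
  have h4 : Nat.card (autOf (NS ⊤ P (eb M _ c)) P) ≤ 3 →
      blockRank p B = Nat.card (autOf (NS ⊤ P (eb M _ c)) P) := fun h => by
    by_cases h5 : (Nat.card P).Prime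
    · haveI := Fact.mk h5
      exact rank_eq_of_isCyclic hM S (isCyclic_of_prime_card rfl) hB hP1
    · exact rank_eq_of_small hM hab hfree hB S hP1 h (fun e => h5 (by rw [e]; norm_num))
        fun e => h5 (by rw [e]; norm_num)
  rw [card_orb_eq (comm_of_le_centralizer hab) (free_autOf hfree)] at h3
  rw [card_autOf inf_le_left, he] at h1 h2 h3 h4
  rw [add_comm] at h2
  exact ⟨by omega, h1, h2, fun h => ⟨h2.2 (h4 h), h4 h⟩⟩

end Cfsg.Agent.S4639
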