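import Cfsg.Statements.S4640
import Cfsg.Agent.H7.PExt
-- import your own Cfsg.Agent.* helpers here

set_option autoImplicit false
open Cfsg

namespace Cfsg.Agent.S4640

open MonoidAlgebra Cfsg.Agent.H3 Cfsg.Agent.H4 Cfsg.Agent.H7
open Cfsg.Agent.H6 (Res locRing redC redA eB fB intAlg classSum omega chiL)
open scoped Pointwise
set_option linter.style.haveILetI false


/-- Let N be a normal subgroup of the finite group G of index a power of the prime p, M a maximal ideal of the algebraic integers containing p, b a block of N stabilized by every element of G, and B a block of G covering b (some member of B has a member of b as a constituent of its restriction to N). Suppose that B has a commutative defect group P. Then G = NP and P ∩ N is a defect group of b; every member of B restricts to a member of b; every member of b is the restriction of exactly [G : N] members of B; B contains exactly [G : N] times as many irreducible characters as b; and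 B and b have the same p-regular rank. -/
theorem result {G : Type*} [Group G] [Fintype G] (p : ℕ) [Fact p.Prime] (M : Ideal Cfsg.AlgInt) (hM : Cfsg.IsPModular p M) (N : Subgroup G) [N.Normal] [Fintype N] (hNi : ∃ k : ℕ, N.index = p ^ k) (b : Set (Cfsg.IrrCharacter N)) (hb : Cfsg.IsPBlock M b) (hstab : ∀ g : G, Cfsg.StabilizesBlock N b g) (B : Set (Cfsg.IrrCharacter G)) (hB : Cfsg.IsPBlock M B) (hcov : ∃ χ ∈ B, ∃ θ ∈ b, Cfsg.classInner (fun n : N => (χ : G → ℂ) n) (θ : N → ℂ) ≠ 0) (P : Subgroup G) (hPD : Cfsg.IsDefectGroup p M B P) (hPab : ∀ x ∈ P, ∀ y ∈ P, x * y = y * x) : N ⊔ P = ⊤ ∧ Cfsg.IsDefectGroup p M b ((P ⊓ N).subgroupOf N) ∧ (∀ χ ∈ B, ∃ θ ∈ b, ∀ n : N, (χ : G → ℂ) n = (θ : N → ℂ) n) ∧ (∀ θ ∈ b, Nat.card {χ : Cfsg.IrrCharacter G // χ ∈ B ∧ ∀ n : N, (χ : G → ℂ) n = (θ : N → ℂ) n} = N.index) ∧ Nat.card B = N.index * Nat.card b ∧ Cfsg.blockRank p B = Cfsg.blockRank p b := by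
  classical
  haveI := hM.2.1
  haveI := H6.charP_res hM
  obtain ⟨k, hk⟩ := hNi
  have hi : Invt ⊤ (eb M N b) := fun g _ => ((stabilizesBlock_iff hb).1 (hstab g)).2
  have hc := (covers_iff_eb hB hb).1 hcov
  have hk' : N.relIndex ⊤ = p ^ k := by rwa [Subgroup.relIndex_top_right]
  have hT : ⊤ ≤ Subgroup.normalizer (N : Set G) := Subgroup.le_normalizer_of_normal
  have he : eB M B = eb M N b := (blk_eB hB).eq_of_mul_ne_zero
    ((blk_iff_of_relIndex hM le_top hT hk').2 ((blk_eb hb).isPrimIn_of_invt le_top hi)) hc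
  have hD := (isDefectGroup_iff hM hB).1 hPD
  have h1 : N ⊔ P = ⊤ := sup_eq_of_isDef_of_relIndex le_top hT hk' (blk_eb hb) hi (he ▸ hD)
  have hdec : ∀ g : G, ∃ u ∈ P, ∃ n ∈ N, u * n = g := fun g =>
    exists_mul_of_mem_sup' Subgroup.le_normalizer_of_normal (h1 ▸ Subgroup.mem_top g)
  have hab : ∀ a b : G, a * b * a⁻¹ * b⁻¹ ∈ N := by
    intro a b
    obtain ⟨u, hu, n, hn, rfl⟩ := hdec a
    obtain ⟨v, hv, m, hm, rfl⟩ := hdec b
    rw [← QuotientGroup.eq_one_iff]
    simp only [QuotientGroup.mk_mul, QuotientGroup.mk_inv, (QuotientGroup.eq_one_iff n).2 hn,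
      (QuotientGroup.eq_one_iff m).2 hm, mul_one]
    rw [← QuotientGroup.mk_mul, hPab u hu v hv]
    simp
  have hreg : ∀ g : G, ¬ p ∣ orderOf g → g ∈ N := fun g hg =>
    H6.mem_of_not_dvd_orderOf Fact.out ⟨k, hk⟩ hg
  have h2 : ∀ χ ∈ B, ∃ θ ∈ b, ∀ n : N, χ.1 n = θ.1 n := by
    intro χ hχ
    have h3 := isIrr_res_of_forall_coset N hab χ.2 fun g => by
      obtain ⟨u, hu, n, hn, rfl⟩ := hdec g
      obtain ⟨y, hy, -, h⟩ := exists_apply_mul_ne_zero hM hB hPD hu
        (fun x hx => hPab x hx u hu) hχ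
      exact ⟨n⁻¹ * y, N.mul_mem (N.inv_mem hn) (hreg y hy), by simpa [mul_assoc] using h⟩
    refine ⟨⟨_, h3⟩, mem_of_over_of_invt hB hb hi hc hχ ?_, fun _ => rfl⟩
    rw [h3.classInner_self]
    exact one_ne_zero
  have h3 : ∀ θ ∈ b, ∃ χ ∈ B, ∀ n : N, χ.1 n = θ.1 n := by
    intro θ hθ
    obtain ⟨χ, hχ, h⟩ := exists_mem_over_of_cover hB hb hc hθ
    obtain ⟨θ', -, h'⟩ := h2 χ hχ
    rw [funext h'] at h
    exact ⟨χ, hχ, θ'.2.eq_of_classInner_ne_zero θ.2 h ▸ h'⟩
  have h4 : ∀ θ ∈ b, Nat.card {χ : IrrCharacter G // χ ∈ B ∧ ∀ n : N, χ.1 n = θ.1 n} =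
      N.index := by
    intro θ hθ
    obtain ⟨χ, hχ, h⟩ := h3 θ hθ
    rw [← card_linear_ker N hab, ← card_ext_eq N h]
    refine Nat.card_congr (Equiv.subtypeEquivRight fun ψ => ⟨fun h => h.2, fun h' => ⟨?_, h'⟩⟩)
    refine H6.mem_of_sameBlock hB hχ (H6.sameBlock_of_common hM ⟨k, hk⟩ χ.2 ψ.2 θ.2 ?_ ?_)
    · rw [funext h, θ.2.classInner_self]
      exact one_ne_zero
    · rw [funext h', θ.2.classInner_self]
      exact one_ne_zero
  refine ⟨h1, (isDefectGroup_subgroupOf_iff' hM hb inf_le_right).2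
    (isDef_inf_of_invt le_top hT (blk_eB hB) (blk_eb hb) hc hi hD), h2, h4, ?_,
    blockRank_eq_of_res hreg h2 h3⟩
  choose! r hr1 hr2 using h2
  rw [← H8.card_bfin, ← H8.card_bfin, Finset.card_eq_sum_card_fiberwise (f := r) (t := H8.bfin b)
    (fun χ hχ => by simpa using hr1 χ (by simpa using hχ)), mul_comm, ← smul_eq_mul,
    ← Finset.sum_const]
  refine Finset.sum_congr rfl fun θ hθ => ?_
  rw [← h4 θ (H8.mem_bfin.1 hθ), Nat.card_eq_fintype_card, Fintype.card_subtype]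
  congr 1
  ext χ
  simp only [Finset.mem_filter, H8.mem_bfin, Finset.mem_univ, true_and]
  refine and_congr_right fun hχ => ⟨fun h => h ▸ hr2 χ hχ, fun h => ?_⟩
  exact Subtype.ext (funext fun n => (hr2 χ hχ n).symm.trans (h n))

end Cfsg.Agent.S4640
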