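import Cfsg.Statements.S4641
import Cfsg.Agent.H7.Pim2
-- import your own Cfsg.Agent.* helpers here

set_option autoImplicit false
open Cfsg

namespace Cfsg.Agent.S4641

open MonoidAlgebra Cfsg.Agent.H3 Cfsg.Agent.H4 Cfsg.Agent.H7
open Cfsg.Agent.H6 (Res locRing redC redA eB fB intAlg classSum omega chiL)
open scoped Pointwise
set_option linter.style.haveILetI false


/-- Let B be a block of the finite group G relative to a maximal ideal M of the algebraic integers containing the prime p, let p^a be the p-part of the order of G and p^d the order of a defect group D of B, and let g be the greatest common divisor of the degrees of the members of B. Then the p-part of g is exactly p^(a−d), and writing g = p^(a−d)·u there is a positive integer v, prime to p and at least the p-regular rank of B (its number of irreducible Brauer characters), with Σ_{χ ∈ B} χ(1)² = p^(2a−d)·u²·v. -/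
theorem result {G : Type*} [Group G] [Finite G] (p : ℕ) [Fact p.Prime] (M : Ideal Cfsg.AlgInt) (hM : Cfsg.IsPModular p M) (B : Set (Cfsg.IrrCharacter G)) (hB : Cfsg.IsPBlock M B) (D : Subgroup G) (hD : Cfsg.IsDefectGroup p M B D) (a d : ℕ) (ha : (Nat.card G).factorization p = a) (hd : Nat.card D = p ^ d) (g : ℕ) (hg1 : ∀ χ ∈ B, g ∣ Cfsg.charDegree (χ : G → ℂ)) (hg2 : ∀ g' : ℕ, (∀ χ ∈ B, g' ∣ Cfsg.charDegree (χ : G → ℂ)) → g' ∣ g) : g.factorization p = a - d ∧ ∃ v : ℕ, 0 < v ∧ ¬ p ∣ v ∧ Cfsg.blockRank p B ≤ v ∧ ∑ᶠ χ ∈ B, Cfsg.charDegree (χ : G → ℂ) ^ 2 = p ^ (2 * a - d) * (g / p ^ (a - d)) ^ 2 * v := by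
  classical
  haveI := hM.2.1; haveI := H6.charP_res hM
  haveI := Fintype.ofFinite G
  have hp := hM.1
  have hne := H6.block_nonempty hB
  have hd' : blockDefect p B = d :=
    Nat.pow_right_injective hp.two_le ((H6.card_defectGroup hM hB hD).symm.trans hd)
  have hb : H8.bmin p B + d = a := by
    have := H8.defect_add_bmin (p := p) hne
    omega
  have hb' : a - d = H8.bmin p B := by omega
  obtain ⟨χ₀, h₀, h₀'⟩ := H8.exists_eq_bmin (p := p) hne
  have hg0 : g ≠ 0 := fun h => H8.irr_charDegree_ne_zero χ₀ (Nat.zero_dvd.1 (h ▸ hg1 χ₀ h₀))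
  have hpg : p ^ H8.bmin p B ∣ g := hg2 _ fun χ hχ => ⟨_, (H8.pow_mul_rdeg hχ).symm⟩
  have hgf : g.factorization p = H8.bmin p B := le_antisymm
    (h₀' ▸ (Nat.factorization_le_iff_dvd hg0 (H8.irr_charDegree_ne_zero χ₀)).2 (hg1 χ₀ h₀) p)
    ((hp.pow_dvd_iff_le_factorization hg0).1 hpg)
  refine ⟨hb' ▸ hgf, ?_⟩
  obtain ⟨u, rfl⟩ := hpg
  have hu : ¬ p ∣ u := fun h => by
    have : p ^ (H8.bmin p B + 1) ∣ p ^ H8.bmin p B * u := by
      rw [pow_succ]; exact Nat.mul_dvd_mul_left _ h
    have := (hp.pow_dvd_iff_le_factorization hg0).1 this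
    omega
  rw [hb', Nat.mul_div_cancel_left _ (pow_pos hp.pos _), H8.finsum_mem_bfin]
  choose m hm using dvd_ideg hM hB hg1
  have hn : ∀ j : IBr M B, ∃ n, ∑ χ ∈ H8.bfin B, dnat M χ (pim j) * H8.rdeg p B χ =
      p ^ d * u * n := by
    intro j
    refine Nat.Coprime.mul_dvd_of_dvd_of_dvd
      (((Nat.Prime.coprime_iff_not_dvd hp).2 hu).pow_left d) ?_ ?_
    · have := H8.pow_dvd_sum_mul_rdeg (p := p) hne (fun χ => (dnat M χ (pim j) : ℤ)) fun y hy => by
        have h1 := H8.pReg_eq_self_iff.1 (pReg_prj hM (pim j)) y hy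
        rw [prj_eq_sum hB (pim_idem j) (eB_mul_pim j), Finset.sum_apply] at h1
        simpa using h1
      rw [hd'] at this
      exact_mod_cast this
    · refine Finset.dvd_sum fun χ hχ => Dvd.dvd.mul_left ?_ _
      have := hg1 χ (H8.mem_bfin.1 hχ)
      rw [← H8.pow_mul_rdeg (p := p) (H8.mem_bfin.1 hχ)] at this
      exact Nat.dvd_of_mul_dvd_mul_left (pow_pos hp.pos _) this
  choose n hn using hn
  have key : ∑ χ ∈ H8.bfin B, H8.rdeg p B χ ^ 2 = p ^ d * u ^ 2 * ∑ j, m j * n j := by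
    refine Nat.eq_of_mul_eq_mul_left (pow_pos hp.pos (H8.bmin p B)) ?_
    calc p ^ H8.bmin p B * ∑ χ ∈ H8.bfin B, H8.rdeg p B χ ^ 2
        = ∑ χ ∈ H8.bfin B, ∑ j : IBr M B, ideg hM hB j * (dnat M χ (pim j) * H8.rdeg p B χ) := by
          rw [Finset.mul_sum]
          refine Finset.sum_congr rfl fun χ hχ => ?_
          rw [sq, ← mul_assoc, H8.pow_mul_rdeg (H8.mem_bfin.1 hχ),
            charDegree_eq_sum hM hB (H8.mem_bfin.1 hχ), Finset.sum_mul]
          exact Finset.sum_congr rfl fun j _ => by ring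
      _ = _ := by
          rw [Finset.sum_comm, Finset.mul_sum, Finset.mul_sum]
          refine Finset.sum_congr rfl fun j _ => ?_
          rw [← Finset.mul_sum, hn, hm]
          ring
  have hpos : ∀ j, 1 ≤ m j * n j := by
    intro j
    refine Nat.pos_of_ne_zero (mul_ne_zero (fun h => ?_) fun h => ?_)
    · have := ideg_pos hM hB j
      rw [hm, h, mul_zero] at this
      exact this.ne rfl
    · have h1 := hn j
      rw [h, mul_zero, Finset.sum_eq_zero_iff] at h1
      have h2 := inner_ibr_prj hM hB j j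
      rw [prj_eq_sum hB (pim_idem j) (eB_mul_pim j), Finset.sum_eq_zero fun χ hχ => by
        rw [(mul_eq_zero.1 (h1 χ hχ)).resolve_right (H8.rdeg_ne_zero (H8.mem_bfin.1 hχ)),
          Nat.cast_zero, zero_smul], classInner_zero_right, if_pos rfl] at h2
      exact zero_ne_one h2
  have hl : blockRank p B ≤ ∑ j, m j * n j := by
    rw [← card_IBr hM hB, ← Finset.card_univ, Finset.card_eq_sum_ones]
    exact Finset.sum_le_sum fun j _ => hpos j
  refine ⟨_, (H8.blockRank_pos hp hne).trans_le hl, fun h => ?_, hl, ?_⟩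
  · apply H8.not_pow_dvd_sum_rdeg_sq hM hB
    rw [key, hd', pow_succ, mul_assoc]
    exact Nat.mul_dvd_mul_left _ (h.mul_left _)
  · rw [H8.sum_deg_sq_eq (p := p), key, show 2 * a - d = 2 * H8.bmin p B + d by omega]
    ring

end Cfsg.Agent.S4641
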