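import Cfsg.Statements.S4644
import Cfsg.Agent.H7.Wat
import Cfsg.Agent.H7.Local5
-- import your own Cfsg.Agent.* helpers here

set_option autoImplicit false
open Cfsg

namespace Cfsg.Agent.S4644

open MonoidAlgebra Cfsg.Agent.H3 Cfsg.Agent.H4 Cfsg.Agent.H7
open Cfsg.Agent.H6 (Res locRing redC redA eB fB intAlg classSum omega chiL)
open scoped Pointwise
set_option linter.style.haveILetI false


/-- Let B be a block of the finite group G relative to a maximal ideal M of the algebraic integers containing the prime p, with a commutative defect group P; let c be a block of C_G(P) inducing B and T the stabilizer of c in N_G(P). Let u be an element of P fixed under conjugation by every element of T, H = C_G(u) (so C_G(P) ≤ H), and f the block of H induced by c inside H. Then B and f have the same p-regular rank and the same number of irreducible characters. -/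
theorem result {G : Type*} [Group G] [Finite G] (p : ℕ) [Fact p.Prime] (M : Ideal Cfsg.AlgInt) (hM : Cfsg.IsPModular p M) (B : Set (Cfsg.IrrCharacter G)) (hB : Cfsg.IsPBlock M B) (P : Subgroup G) (hPD : Cfsg.IsDefectGroup p M B P) (hPab : ∀ x ∈ P, ∀ y ∈ P, x * y = y * x) (c : Set (Cfsg.IrrCharacter (Subgroup.centralizer (P : Set G)))) (hc : Cfsg.IsInducedBlock M (Subgroup.centralizer (P : Set G)) c B) (T : Subgroup G) (hT : ∀ g : G, g ∈ T ↔ (g ∈ Subgroup.normalizer (P : Set G) ∧ Cfsg.StabilizesBlock (Subgroup.centralizer (P : Set G)) c g)) (u : G) (hu : u ∈ P) (huT : ∀ g ∈ T, g * u * g⁻¹ = u) (H : Subgroup G) (hH : H = Subgroup.centralizer ({u} : Set G)) (f : Set (Cfsg.IrrCharacter H)) (hf : Cfsg.IsInducedBlockIn M H (Subgroup.centralizer (P : Set G)) c f) : Cfsg.blockRank p B = Cfsg.blockRank p f ∧ Nat.card B = Nat.card f := by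
  haveI := hM.2.1; haveI := H6.charP_res hM
  haveI := Fintype.ofFinite G
  subst hH
  have S := maxP_of_induced hM hPD hc
  have hab : P ≤ Subgroup.centralizer (P : Set G) := fun x hx y hy => hPab y hy x hx
  have hC : Subgroup.centralizer (P : Set G) ≤ Subgroup.centralizer ({u} : Set G) :=
    Subgroup.centralizer_le (Set.singleton_subset_iff.2 hu)
  obtain rfl := NS_eq_of_forall hc.1 hT
  obtain ⟨h1, h2, h3⟩ := (isInducedBlockIn_iff_ind hC).1 hf
  have h4 : CK (Subgroup.centralizer ({u} : Set G)) P = Subgroup.centralizer (P : Set G) :=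
    inf_eq_left.2 hC
  have h5 := (ind_CK_iff S.pair.isPGroup (hab.trans hC) (by rw [h4]; exact blk_eb h1) 
    (blk_eb h2)).1 (by rw [h4]; exact h3)
  have h6 : Blk (CK ⊤ (Subgroup.zpowers u)) (eb M _ f) := by
    rw [CK_top_zpowers]; exact blk_eb h2
  have h7 := S.watanabe_rank hM hab hu huT h6 h5
  have h8 := S.watanabe_card hM hab hu huT h6 h5
  rw [CK_top_zpowers, kl_eb h2, kl_eB hB] at h7 h8
  exact ⟨h7.symm, h8.symm⟩

end Cfsg.Agent.S4644
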