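import Cfsg.Statements.S4645
import Cfsg.Agent.H7.Star4
import Cfsg.Agent.H7.Local5
import Cfsg.Agent.H1.Basic
-- import your own Cfsg.Agent.* helpers here

set_option autoImplicit false
open Cfsg

namespace Cfsg.Agent.S4645

open MonoidAlgebra Cfsg.Agent.H3 Cfsg.Agent.H4 Cfsg.Agent.H7
open Cfsg.Agent.H6 (Res locRing redC redA eB fB intAlg classSum omega chiL)
open scoped Pointwise
set_option linter.style.haveILetI false


/-- Let B be a block of the finite group G relative to a maximal ideal M of the algebraic integers containing the prime p, with a nontrivial cyclic defect group P; let c be a block of C_G(P) inducing B and T the stabilizer of c in N_G(P). Let Q be a nontrivial subgroup of P (so C_G(P) ≤ C_G(Q)), f the block of C_G(Q) induced by c inside C_G(Q), and T' the stabilizer of f in N_G(Q). Then T' = T·C_G(Q), the index of C_G(Q) in T' equals the index of C_G(P) in T, f has p-regular rank 1, and f is a nilpotent block of C_G(Q). -/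
theorem result {G : Type*} [Group G] [Finite G] (p : ℕ) [Fact p.Prime] (M : Ideal Cfsg.AlgInt) (hM : Cfsg.IsPModular p M) (B : Set (Cfsg.IrrCharacter G)) (hB : Cfsg.IsPBlock M B) (P : Subgroup G) (hPD : Cfsg.IsDefectGroup p M B P) (hP1 : P ≠ ⊥) (hcyc : IsCyclic P) (c : Set (Cfsg.IrrCharacter (Subgroup.centralizer (P : Set G)))) (hc : Cfsg.IsInducedBlock M (Subgroup.centralizer (P : Set G)) c B) (T : Subgroup G) (hT : ∀ g : G, g ∈ T ↔ (g ∈ Subgroup.normalizer (P : Set G) ∧ Cfsg.StabilizesBlock (Subgroup.centralizer (P : Set G)) c g)) (Q : Subgroup G) (hQP : Q ≤ P) (hQ1 : Q ≠ ⊥) (f : Set (Cfsg.IrrCharacter (Subgroup.centralizer (Q : Set G)))) (hf : Cfsg.IsInducedBlockIn M (Subgroup.centralizer (Q : Set G)) (Subgroup.centralizer (P : Set G)) c f) (T' : Subgroup G) (hT' : ∀ g : G, g ∈ T' ↔ (g ∈ Subgroup.normalizer (Q : Set G) ∧ Cfsg.StabilizesBlock (Subgroup.centralizer (Q : Set G)) f g)) : T' = T ⊔ Subgroup.centralizer (Q : Set G) ∧ (Subgroup.centralizer (Q : Set G)).relIndex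 T' = (Subgroup.centralizer (P : Set G)).relIndex T ∧ Cfsg.blockRank p f = 1 ∧ Cfsg.IsNilpotentBlock p M f := by
  haveI := hM.2.1; haveI := H6.charP_res hM
  haveI := Fintype.ofFinite (Subgroup.centralizer (Q : Set G))
  have S := maxP_of_induced hM hPD hc
  have hPp := S.pair.isPGroup
  have hab := le_centralizer_of_isCyclic hcyc
  have hCC : Subgroup.centralizer (P : Set G) ≤ Subgroup.centralizer (Q : Set G) :=
    Subgroup.centralizer_le hQP
  obtain ⟨hfb, hle⟩ := (nle_iff_inducedIn hM hPp hQP (hab.trans hCC) hc.1).1 hf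
  obtain rfl := NS_eq_of_forall hc.1 hT
  obtain rfl := NS_eq_of_forall hfb hT'
  have hfp := hle.ple.isPair S.pair
  have hN := normalizer_le_of_isCyclic hcyc hQP
  have h1 : NS ⊤ Q (eb M _ f) = NS ⊤ P (eb M _ c) ⊔ Subgroup.centralizer (Q : Set G) := by
    refine le_antisymm (fun x hx => ?_) (sup_le (fun x hx => ?_) hfp.centralizer_le_NS)
    · obtain ⟨y, hy, z, hz, rfl⟩ := S.frattini_central hle.ple (hab.trans hCC) hx
      exact Subgroup.mul_mem_sup hy hz
    · obtain ⟨h2, -, h3⟩ := mem_NS.1 hx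
      exact mem_NS.2 ⟨hN h2, trivial, hle.ple.cj_eq S.pair
        (Subgroup.le_normalizer_of_normal (Subgroup.mem_top _)) (hN h2) h2 h3⟩
  have h2 : ¬ p ∣ (Subgroup.centralizer (P : Set G)).relIndex (NS ⊤ P (eb M _ c)) := by
    have := S.not_dvd_relIndex S.pair S.isDef_NS
    rwa [CK_top, sup_eq_left.2 hab] at this
  obtain ⟨q, hq, hq1⟩ := (Subgroup.bot_or_exists_ne_one Q).resolve_left hQ1
  have h3 : ∀ g ∈ NS ⊤ P (eb M _ c), g ∈ Subgroup.centralizer (Q : Set G) →
      g ∈ Subgroup.centralizer (P : Set G) := fun g hg hgQ =>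
    mem_centralizer_of_isCyclic hPp hcyc inf_le_left h2 hg (hQP hq) hq1
      (mem_centralizer_iff_conj.1 hgQ q hq)
  have hnil : IsNilpotentBlock p M f := by
    have S' := S.local hle.ple (CK_top Q).le hfp.centralizer_le_NS (hab.trans hCC)
    rw [CK_top] at S'
    refine (isNilpotentBlock_iff_eb hM).2 ⟨hfb, S'.nilB_of_central hab fun g hg => ?_⟩
    obtain ⟨h4, h5, h6⟩ := mem_NS.1 hg
    exact h3 g (mem_NS.2 ⟨h4, trivial, h6⟩) h5
  refine ⟨h1, ?_, blockRank_of_nilB hM hfb ((isNilpotentBlock_iff hM).1 hnil).2, hnil⟩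
  rw [h1, sup_comm, H1.relIndex_sup_of_le_normalizer, ← Subgroup.inf_relIndex_right,
    ← Subgroup.inf_relIndex_right (Subgroup.centralizer (P : Set G))]
  · congr 1
    exact le_antisymm (fun g hg => ⟨h3 g hg.2 hg.1, hg.2⟩) (inf_le_inf_right _ hCC)
  · exact (inf_le_left.trans hN).trans (normalizer_le_normalizer_centralizer Q)

end Cfsg.Agent.S4645
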