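import Cfsg.Statements.S4647
import Cfsg.Agent.H7.PPerm
-- import your own Cfsg.Agent.* helpers here

set_option autoImplicit false
open Cfsg

namespace Cfsg.Agent.S4647

open MonoidAlgebra Cfsg.Agent.H3 Cfsg.Agent.H4 Cfsg.Agent.H7
open Cfsg.Agent.H6 (Res locRing redC redA eB fB intAlg classSum omega chiL)
open scoped Pointwise
set_option linter.style.haveILetI false


/-- Let B be a block of the finite group G relative to a maximal ideal M of the algebraic integers containing the prime p, p^a the p-part of the order of G and p^d the order of a defect group D of B. If Σ_{χ ∈ B} χ(1)² = p^(2a−d) (the least possible value), then B is nilpotent. -/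
theorem result {G : Type*} [Group G] [Finite G] (p : ℕ) [Fact p.Prime] (M : Ideal Cfsg.AlgInt) (hM : Cfsg.IsPModular p M) (B : Set (Cfsg.IrrCharacter G)) (hB : Cfsg.IsPBlock M B) (D : Subgroup G) (hD : Cfsg.IsDefectGroup p M B D) (a d : ℕ) (ha : (Nat.card G).factorization p = a) (hd : Nat.card D = p ^ d) (hmin : ∑ᶠ χ ∈ B, Cfsg.charDegree (χ : G → ℂ) ^ 2 = p ^ (2 * a - d)) : Cfsg.IsNilpotentBlock p M B := by
  haveI := hM.2.1; haveI := H6.charP_res hM
  haveI := Fintype.ofFinite G
  have hP := (isDefectGroup_iff hM hB).1 hD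
  obtain ⟨S, hS⟩ := hP.isPGroup.exists_le_sylow
  refine (isNilpotentBlock_iff hM).2 ⟨hB, nilB_of_finrank (blk_eB hB) hP S.isPGroup' hS ?_⟩
  have h1 : d ≤ a := by
    have := Subgroup.card_dvd_of_le hS
    rwa [hd, S.card_eq_multiplicity, ha, Nat.pow_dvd_pow_iff_le_right hM.1.one_lt] at this
  rw [finrank_block hB, ← H8.finsum_mem_bfin, hmin, hd, S.card_eq_multiplicity, ha, ← pow_add,
    ← pow_mul]
  congr 1
  omega

end Cfsg.Agent.S4647
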