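import Cfsg.Statements.S4649
import Cfsg.Agent.H6.Cyc7
-- import your own Cfsg.Agent.* helpers here

set_option autoImplicit false
open Cfsg

namespace Cfsg.Agent.S4649

open Cfsg.Agent.H4 Cfsg.Agent.H6

open Cfsg.Agent.H7
attribute [local instance] H8.subFintype
set_option warn.classDefReducibility false


/-- A block with cyclic defect group, of a finite group relative to a maximal ideal M of the algebraic integers containing the prime p, is nilpotent if and only if its p-regular rank is 1 (it has a unique irreducible Brauer character). -/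
theorem result {G : Type*} [Group G] [Finite G] (p : ℕ) [Fact p.Prime] (M : Ideal Cfsg.AlgInt) (hM : Cfsg.IsPModular p M) (B : Set (Cfsg.IrrCharacter G)) (hB : Cfsg.IsPBlock M B) (P : Subgroup G) (hPD : Cfsg.IsDefectGroup p M B P) (hcyc : IsCyclic P) : Cfsg.IsNilpotentBlock p M B ↔ Cfsg.blockRank p B = 1 := by
  classical
  haveI := hM.2.1; haveI := H6.charP_res hM; haveI := Fintype.ofFinite G
  refine ⟨fun h => blockRank_of_nilB hM hB ((isNilpotentBlock_iff hM).1 h).2, fun h => ?_⟩
  obtain ⟨e, S⟩ := exists_maxP le_rfl Subgroup.le_normalizer (blk_eB hB)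
    ((isDefectGroup_iff hM hB).1 hPD)
  refine (isNilpotentBlock_iff hM).2 ⟨hB, S.nilB_of_central (le_centralizer_of_isCyclic hcyc) ?_⟩
  by_cases h1 : P = ⊥
  · subst h1
    rintro g - x rfl
    simp
  · rwa [rank_eq_of_isCyclic hM S hcyc hB h1, card_autOf inf_le_left, Subgroup.relIndex_eq_one] at h

end Cfsg.Agent.S4649
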