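import Cfsg.Statements.S4650
import Cfsg.Agent.H7.Local5
-- import your own Cfsg.Agent.* helpers here

set_option autoImplicit false
open Cfsg

namespace Cfsg.Agent.S4650

open MonoidAlgebra Cfsg.Agent.H3 Cfsg.Agent.H4 Cfsg.Agent.H7
open Cfsg.Agent.H6 (Res locRing redC redA eB fB intAlg classSum omega chiL)
open scoped Pointwise
set_option linter.style.haveILetI false


/-- Let B be a block of the finite group G relative to a maximal ideal M of the algebraic integers containing the prime p, with a nontrivial commutative defect group P; let c be a block of C_G(P) inducing B and T the stabilizer of c in N_G(P). Then T/C_G(P) acts freely on the non-identity elements of P (an element of T fixing a non-identity element of P under conjugation lies in C_G(P)) if and only if, for every nontrivial subgroup Q of P, the block of C_G(Q) induced by c inside C_G(Q) is a nilpotent block of C_G(Q). -/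
theorem result {G : Type*} [Group G] [Finite G] (p : ℕ) [Fact p.Prime] (M : Ideal Cfsg.AlgInt) (hM : Cfsg.IsPModular p M) (B : Set (Cfsg.IrrCharacter G)) (hB : Cfsg.IsPBlock M B) (P : Subgroup G) (hPD : Cfsg.IsDefectGroup p M B P) (hPab : ∀ x ∈ P, ∀ y ∈ P, x * y = y * x) (hP1 : P ≠ ⊥) (c : Set (Cfsg.IrrCharacter (Subgroup.centralizer (P : Set G)))) (hc : Cfsg.IsInducedBlock M (Subgroup.centralizer (P : Set G)) c B) (T : Subgroup G) (hT : ∀ g : G, g ∈ T ↔ (g ∈ Subgroup.normalizer (P : Set G) ∧ Cfsg.StabilizesBlock (Subgroup.centralizer (P : Set G)) c g)) : (∀ g ∈ T, ∀ x ∈ P, x ≠ 1 → g * x * g⁻¹ = x → g ∈ Subgroup.centralizer (P : Set G)) ↔ ∀ Q : Subgroup G, Q ≤ P → Q ≠ ⊥ → ∀ f : Set (Cfsg.IrrCharacter (Subgroup.centralizer (Q : Set G))), Cfsg.IsInducedBlockIn M (Subgroup.centralizer (Q : Set G)) (Subgroup.centralizer (P : Set G)) c f → Cfsg.IsNilpotentBlock p M f := by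
  haveI := hM.2.1; haveI := H6.charP_res hM
  have S := maxP_of_induced hM hPD hc
  obtain rfl := NS_eq_of_forall hc.1 hT
  have hP := S.isDef.isPGroup
  have hab : P ≤ Subgroup.centralizer (P : Set G) := fun x hx y hy => hPab y hy x hx
  have hPQ : ∀ Q ≤ P, P ≤ Subgroup.centralizer (Q : Set G) := fun Q hQ =>
    hab.trans (Subgroup.centralizer_le hQ)
  have loc : ∀ Q f, Q ≤ P → NLe p ⊤ Q f P (eb M _ c) →
      MaxP p (Subgroup.centralizer (Q : Set G)) (Subgroup.centralizer (Q : Set G)) f P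
        (eb M _ c) := fun Q f hQ h => by
    have := S.local h.ple (CK_top Q).le h.left.centralizer_le_NS (hPQ Q hQ)
    rwa [CK_top] at this
  refine ⟨fun h Q hQ hQ1 f hf => ?_, fun h g hg x hx hx1 hgx => ?_⟩
  · obtain ⟨hf1, hf2⟩ := (nle_iff_inducedIn hM hP hQ (hPQ Q hQ) hc.1).1 hf
    refine (isNilpotentBlock_iff_eb hM).2 ⟨hf1, (loc Q _ hQ hf2).nilB_of_central hab fun y hy => ?_⟩
    obtain ⟨x, hx, hx1⟩ := (Subgroup.bot_or_exists_ne_one Q).resolve_left hQ1
    obtain ⟨h1, h2, h3⟩ := mem_NS.1 hy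
    exact h y (mem_NS.2 ⟨h1, trivial, h3⟩) x (hQ hx) hx1 (mem_centralizer_iff_conj.1 h2 x hx)
  · have hQ : Subgroup.zpowers x ≤ P := Subgroup.zpowers_le.2 hx
    obtain ⟨f, hf⟩ := exists_nle S.pair hQ
      ((hPQ _ hQ).trans (Subgroup.centralizer_le_normalizer _))
    obtain ⟨f, hf1, rfl⟩ := hf.left.exists_eb
    have h1 := ((isNilpotentBlock_iff_eb hM).1 (h _ hQ (by simpa using hx1) f
      ((nle_iff_inducedIn hM hP hQ (hPQ _ hQ) hc.1).2 ⟨hf1.2, hf⟩))).2
    obtain ⟨h2, -, h3⟩ := mem_NS.1 hg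
    have h4 := (loc _ _ hQ hf).le_of_nilB h1 (mem_NS.2 ⟨h2, (by
      rw [H6.centralizer_zpowers, H6.mem_centralizer_singleton]
      exact (mul_inv_eq_iff_eq_mul.1 hgx).symm), h3⟩)
    rwa [sup_eq_left.2 hab] at h4

end Cfsg.Agent.S4650
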