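import Cfsg.Statements.S4651
import Cfsg.Agent.H7.Chain
-- import your own Cfsg.Agent.* helpers here

set_option autoImplicit false
open Cfsg

namespace Cfsg.Agent.S4651

open MonoidAlgebra Cfsg.Agent.H3 Cfsg.Agent.H4 Cfsg.Agent.H7
open Cfsg.Agent.H6 (Res locRing redC redA eB fB intAlg classSum omega chiL)
open scoped Pointwise
set_option linter.style.haveILetI false


/-- An alternating-sum identity over chains of p-subgroups (the character-count form behind the chain reformulation of Alperin's weight conjecture, which holds unconditionally for the difference k − l). Let b be a block of the finite group G relative to a maximal ideal M of the algebraic integers containing the prime p. Consider the nonempty chains s = {Q_0 < Q_1 < ⋯ < Q_m} of nontrivial p-subgroups of G in which every member is normal in the largest member; let N_G(s) be the intersection of the normalizers of the members (the stabilizer of the chain), and let b_s be the set of irreducible characters of N_G(s)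 lying in blocks of N_G(s) that induce b. Then #G · (k(b) − l(b)) equals the sum over all such chains s of (−1)^m · #N_G(s) · (k(b_s) − l(b_s)), where k counts irreducible characters and l is the p-regular rank; equivalently, k(b) − l(b) is the alternating sum of k(b_s) − l(b_s) over representatives of the conjugacy classes of such chains. -/
theorem result {G : Type*} [Group G] [Finite G] (p : ℕ) [Fact p.Prime] (M : Ideal Cfsg.AlgInt) (hM : Cfsg.IsPModular p M) (b : Set (Cfsg.IrrCharacter G)) (hb : Cfsg.IsPBlock M b) : (Nat.card G : ℤ) * ((Nat.card b : ℤ) - (Cfsg.blockRank p b : ℤ)) = ∑ᶠ s ∈ {s : Finset (Subgroup G) | s.Nonempty ∧ (∀ Q ∈ s, ∀ R ∈ s, Q ≤ R ∨ R ≤ Q) ∧ (∀ Q ∈ s, Q ≠ ⊥ ∧ IsPGroup p Q) ∧ ∃ T ∈ s, ∀ Q ∈ s, Q ≤ T ∧ T ≤ Subgroup.normalizer ((Q : Subgroup G) : Set G)}, (-1 : ℤ) ^ (s.card - 1) * (Nat.card (((⨅ Q ∈ s, Subgroup.normalizer ((Q : Subgroup G) : Set G) : Subgroup G))) : ℤ) * ((Nat.card {ψ : Cfsg.IrrCharacter (((⨅ Q ∈ s, Subgroup.normalizer ((Q : Subgroup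 G) : Set G) : Subgroup G))) | ∃ β : Set (Cfsg.IrrCharacter (((⨅ Q ∈ s, Subgroup.normalizer ((Q : Subgroup G) : Set G) : Subgroup G)))), ψ ∈ β ∧ Cfsg.IsInducedBlock M (((⨅ Q ∈ s, Subgroup.normalizer ((Q : Subgroup G) : Set G) : Subgroup G))) β b} : ℤ) - (Cfsg.blockRank p {ψ : Cfsg.IrrCharacter (((⨅ Q ∈ s, Subgroup.normalizer ((Q : Subgroup G) : Set G) : Subgroup G))) | ∃ β : Set (Cfsg.IrrCharacter (((⨅ Q ∈ s, Subgroup.normalizer ((Q : Subgroup G) : Set G) : Subgroup G)))), ψ ∈ β ∧ Cfsg.IsInducedBlock M (((⨅ Q ∈ s, Subgroup.normalizer ((Q : Subgroup G) : Set G) : Subgroup G))) β b} : ℤ)) := by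
  classical
  haveI := hM.2.1; haveI := H6.charP_res hM
  haveI := Fintype.ofFinite G
  haveI := Fintype.ofFinite (Finset (Subgroup G))
  have key1 : ∀ s : Finset (Subgroup G), IsNChain p s →
      (Nat.card {ψ | ∃ β, ψ ∈ β ∧ IsInducedBlock M (cN s) β b},
        blockRank p {ψ | ∃ β, ψ ∈ β ∧ IsInducedBlock M (cN s) β b}) =
      klS M p (cN s) (br (s.sup id) (eB M b)) := fun s hs => by
    haveI := Fintype.ofFinite (cN s)
    rw [card_blockRank_union hM (fun β => IsInducedBlock M (cN s) β b) fun _ h => h.1,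
      klS_eq_sum_blocks]
    refine Finset.sum_congr (Finset.filter_congr fun β hβ => ?_) fun _ _ => rfl
    have hβ' := H6.mem_blocks.1 hβ
    rw [isInducedBlock_iff_ind, ← ind_iff_br_mul hs.isPGroup le_top
      (hs.sup_le.trans Subgroup.le_normalizer) (inf_le_left.trans (centralizer_le_cN s))
      (cN_le_normalizer s) le_top (blk_eb hβ') (blk_eB hb)]
    exact ⟨fun h => h.2.2, fun h => ⟨hβ', hb, h⟩⟩
  have key2 : ∑ s with IsNChain p s, (-1 : ℤ) ^ s.card * ((Nat.card (cN s) : ℤ) *
      (((klS M p (cN s) (br (s.sup id) (eB M b))).1 : ℤ) -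
        (klS M p (cN s) (br (s.sup id) (eB M b))).2)) = 0 := by
    rw [Finset.sum_congr rfl fun s hs => by
      have hs' := (Finset.mem_filter.1 hs).2
      rw [card_mul_klS_sub hM (br_mem_Z_local (inf_le_left.trans (centralizer_le_cN s))
        (cN_le_normalizer s) le_top (eB_mem_Fix b))
        (br_idem p hs'.isPGroup ((eB_mem_Fix b).2.mono le_top) (blk_eB hb).idem), Finset.mul_sum],
      Finset.sum_comm]
    refine Finset.sum_eq_zero fun u hu => ?_
    obtain ⟨h1, h2⟩ := (Finset.mem_filter.1 hu).2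
    refine Eq.trans ?_ (sum_chain_eq_zero h1 (H6.isPGroup_zpowers hM.1 h2)
      fun K T => ((Nat.card K * (klS M p K (br T (eB M b))).2 : ℕ) : ℤ))
    rw [← Finset.filter_filter, Finset.sum_filter (p := fun s => u ∈ cN s)]
    refine Finset.sum_congr rfl fun s _ => ?_
    rw [br_br, sup_comm, mul_ite, mul_zero]
    rfl
  have h0 : IsNChain p (∅ : Finset (Subgroup G)) := ⟨by simp, by simp, by simp⟩
  rw [← Finset.add_sum_erase _ _ (Finset.mem_filter.2 ⟨Finset.mem_univ _, h0⟩)] at key2
  have h1 : cN (∅ : Finset (Subgroup G)) = ⊤ := by simp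
  rw [h1, Finset.sup_empty, br_bot, klS_blk (blk_eB hb), kl_eB hb, Finset.card_empty, pow_zero,
    one_mul, Subgroup.card_top, add_eq_zero_iff_eq_neg, ← Finset.sum_neg_distrib] at key2
  rw [key2, ← finsum_mem_coe_finset]
  refine finsum_mem_congr ?_ fun s hs => ?_
  · ext s
    simp only [Finset.coe_erase, Finset.coe_filter, Finset.mem_univ, true_and, Set.mem_sdiff,
      Set.mem_ofPred_eq, Set.mem_singleton_iff, ← Finset.nonempty_iff_ne_empty, ← ne_eq]
    constructor
    · rintro ⟨h, hne⟩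
      refine ⟨hne, h.chain, h.pgrp, s.sup id, ?_, fun Q hQ =>
        ⟨Finset.le_sup (f := id) hQ, fun x hx => mem_cN.1 (h.sup_le hx) Q hQ⟩⟩
      obtain ⟨Q, hQ⟩ := hne
      exact (finsup_mem_of_chain h.chain).resolve_left fun h2 =>
        (h.pgrp Q hQ).1 (le_bot_iff.1 ((Finset.le_sup (f := id) hQ).trans h2.le))
    · rintro ⟨hne, h1, h2, T, -, h3⟩
      exact ⟨⟨h1, h2, fun Q hQ R hR => (h3 R hR).1.trans (h3 Q hQ).2⟩, hne⟩
  · obtain ⟨hne, h1, h2, T, -, h3⟩ := hs
    rw [← key1 s ⟨h1, h2, fun Q hQ R hR => (h3 R hR).1.trans (h3 Q hQ).2⟩]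
    obtain ⟨n, hn⟩ := Nat.exists_eq_succ_of_ne_zero hne.card_pos.ne'
    rw [hn, Nat.succ_sub_one, pow_succ]
    ring

end Cfsg.Agent.S4651
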