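import Cfsg.Statements.S4653
import Cfsg.Agent.H7.Bridge2
-- import your own Cfsg.Agent.* helpers here

set_option autoImplicit false
open Cfsg

namespace Cfsg.Agent.S4653

open MonoidAlgebra Cfsg.Agent.H3 Cfsg.Agent.H4 Cfsg.Agent.H7
open Cfsg.Agent.H6 (Res locRing redC redA eB fB intAlg classSum omega chiL)
open scoped Pointwise


/-- Fix a prime p and a maximal ideal M of the algebraic integers containing p. Let P be a normal p-subgroup of the finite group G and B a p-block of G. Then the idempotent of B is supported on C_G(P): its coefficient at every element of G outside C_G(P) is zero. -/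
theorem result {G : Type*} [Group G] [Fintype G] (p : ℕ) [Fact p.Prime] (M : Ideal Cfsg.AlgInt) (hM : Cfsg.IsPModular p M) (P : Subgroup G) [P.Normal] (hP : IsPGroup p P) (B : Set (Cfsg.IrrCharacter G)) (hB : Cfsg.IsPBlock M B) (g : G) (hg : g ∉ Subgroup.centralizer (P : Set G)) : Cfsg.blockCoeff B g = 0 := by
  haveI := hM.2.1
  haveI := H6.charP_res hM
  have h1 := supp_centralizer_of_idem (L := ⊤) hP le_top (by rw [Subgroup.normalizer_eq_top])
    (eB_mem_Fix (M := M) B) (blk_eB hB).idem
  rw [← redA_fB] at h1
  exact supp_of_supp_redA le_top (fB_mem_Fix B) (H6.fB_mul_self B) (H6.fB_mem_intAlg hB) h1 g hg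

end Cfsg.Agent.S4653
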