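import Cfsg.Statements.S4654
import Cfsg.Agent.H7.Cover2
-- import your own Cfsg.Agent.* helpers here

set_option autoImplicit false
open Cfsg

namespace Cfsg.Agent.S4654

open MonoidAlgebra Cfsg.Agent.H3 Cfsg.Agent.H4 Cfsg.Agent.H7
open Cfsg.Agent.H6 (Res locRing redC redA eB fB intAlg classSum omega chiL)
open scoped Pointwise
set_option linter.style.haveILetI false


/-- Fix a prime p and a maximal ideal M of the algebraic integers containing p. Let P be a normal p-subgroup of the finite group G, B a p-block of G and e a p-block of C_G(P) such that (P, e) is a Brauer pair of B (as P is normal, this says that e occurs in the idempotent of B, which is supported on C_G(P)). Let T be the stabilizer of e in G under conjugation. Then the idempotent of e is a block idempotent of T: some block E of T has, at every element of T, the same idempotent coefficient as e (zero off C_G(P)); and the idempotent of B is the sum of the distinct G-conjugates of the idempotent of e: its coefficient at g is the sum over all x in G of the coefficient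 of e at x⁻¹ g x, divided by the order of T. -/
theorem result {G : Type*} [Group G] [Fintype G] (p : ℕ) [Fact p.Prime] (M : Ideal Cfsg.AlgInt) (hM : Cfsg.IsPModular p M) (P : Subgroup G) [P.Normal] (hP : IsPGroup p P) (B : Set (Cfsg.IrrCharacter G)) (e : Set (Cfsg.IrrCharacter (Subgroup.centralizer (P : Set G)))) (hBe : Cfsg.IsBrauerPairOf p M B P e) (T : Subgroup G) (hT : ∀ x : G, x ∈ T ↔ Cfsg.StabilizesBlock (Subgroup.centralizer (P : Set G)) e x) : (∃ E : Set (Cfsg.IrrCharacter T), Cfsg.IsPBlock M E ∧ ∀ t : T, Cfsg.blockCoeff E t = Cfsg.subgroupBlockCoeff (Subgroup.centralizer (P : Set G)) e (t : G)) ∧ ∀ g : G, Cfsg.blockCoeff B g = (Nat.card T : ℂ)⁻¹ * ∑ x : G, Cfsg.subgroupBlockCoeff (Subgroup.centralizer (P : Set G)) e (x⁻¹ * g * x) := by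
  haveI := hM.2.1
  haveI := H6.charP_res hM
  classical
  obtain ⟨⟨-, he⟩, hB, h1⟩ := (isBrauerPairOf_iff hM).1 hBe
  have hC : (⊤ : Subgroup G) ≤ Subgroup.normalizer (Subgroup.centralizer (P : Set G) : Set G) :=
    Subgroup.le_normalizer_of_normal
  have hT' : T = stab (eb M _ e) := by
    ext x
    rw [hT, stabilizesBlock_iff he, mem_stab]
    exact ⟨fun h => h.2, fun h => ⟨hC trivial, h⟩⟩
  have hCT : Subgroup.centralizer (P : Set G) ≤ T := hT' ▸ (blk_eb he).le_stab
  constructor
  · have h2 : Blk T (eb M _ e) := (blk_iff_of_normal hP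
      (hT' ▸ (eb_mem_Fix e).1.invt_of_centralizer) Subgroup.le_normalizer_of_normal hCT
      inf_le_left).2 ((blk_eb he).isPrimIn_of_invt hCT (hT' ▸ invt_stab _))
    obtain ⟨E, hE, h3⟩ := exists_eb_eq h2
    exact ⟨E, hE, fun t => by rw [← coeff_fb_coe, ← coeff_fb, fb_eq_of_eb_eq hCT he hE h3.symm]⟩
  · intro g
    rw [br_eq_self_of_idem hP le_top Subgroup.le_normalizer_of_normal (eB_mem_Fix B)
      (blk_eB hB).idem] at h1
    have h2 := (blk_iff_of_normal hP le_top Subgroup.le_normalizer_of_normal le_top
      inf_le_left).1 (blk_eB hB)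
    have h3 := fB_eq_orbSum_fb he hB (h2.eq_orbSum hC (h2.mem.2.mono le_top) (blk_eb he) h1)
    have h4 := sum_cj_eq_card_smul_orbSum (⊤ : Subgroup G) (fb _ e)
    have h5 : ⊤ ⊓ stab (fb _ e) = T := by
      ext x
      rw [hT', top_inf_eq, mem_stab, mem_stab, cj_fb_eq_iff (hC trivial) he he]
    simp only [Subgroup.mem_top, Finset.filter_true] at h4
    rw [h5, ← h3] at h4
    have h6 := congrArg (fun a => a.coeff g) h4
    simp only [coeff_finset_sum, coeff_cj, coeff_fb] at h6
    rw [h6, ← Nat.cast_smul_eq_nsmul ℂ, coeff_smul, Finsupp.smul_apply, H6.coeff_fB, smul_eq_mul,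
      ← mul_assoc, inv_mul_cancel₀ (H5.card_ne_zero_C T), one_mul]

end Cfsg.Agent.S4654
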