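import Cfsg.Statements.S4657
import Cfsg.Agent.H7.Bridge2
-- import your own Cfsg.Agent.* helpers here

set_option autoImplicit false
open Cfsg

namespace Cfsg.Agent.S4657

open MonoidAlgebra Cfsg.Agent.H3 Cfsg.Agent.H4 Cfsg.Agent.H7
open Cfsg.Agent.H6 (Res locRing redC redA eB fB intAlg classSum omega chiL)
open scoped Pointwise


/-- Fix a prime p and a maximal ideal M of the algebraic integers containing p. Every Brauer pair (P, e) of the finite group G is a Brauer pair of exactly one p-block B of G. -/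
theorem result {G : Type*} [Group G] [Fintype G] (p : ℕ) [Fact p.Prime] (M : Ideal Cfsg.AlgInt) (hM : Cfsg.IsPModular p M) (P : Subgroup G) (e : Set (Cfsg.IrrCharacter (Subgroup.centralizer (P : Set G)))) (hPe : Cfsg.IsBrauerPair p M P e) : ∃! B : Set (Cfsg.IrrCharacter G), Cfsg.IsBrauerPairOf p M B P e := by
  haveI := hM.2.1
  haveI := H6.charP_res hM
  have he := blk_eb hPe.2
  obtain ⟨b, hb, h⟩ := exists_prim_br_mul_eq (K := ⊤) (H := ⊤) le_rfl hPe.1 le_top
    (S := Fix (Res M) (Subgroup.centralizer (P : Set G)) (Subgroup.centralizer (P : Set G)))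
    (fun a ha => by simpa only [CK_top] using br_mem_Z (P := P) le_rfl ha) he
    (fun a _ => (he.commute (supp_br P a)).symm)
  obtain ⟨B, hB, rfl⟩ := exists_eB_eq hb
  refine ⟨B, (isBrauerPairOf_iff hM).2 ⟨hPe, hB, h⟩, fun B' hB' => ?_⟩
  obtain ⟨-, h1, h2⟩ := (isBrauerPairOf_iff hM).1 hB'
  exact H6.eB_injective h1 hB (prim_eq_of_br_mul le_rfl hPe.1 le_top (blk_eB h1) hb he.ne_zero h2 h)

end Cfsg.Agent.S4657
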