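import Cfsg.Statements.S4660
import Cfsg.Agent.H7.Bridge2
-- import your own Cfsg.Agent.* helpers here

set_option autoImplicit false
open Cfsg

namespace Cfsg.Agent.S4660

open MonoidAlgebra Cfsg.Agent.H3 Cfsg.Agent.H4 Cfsg.Agent.H7
open Cfsg.Agent.H6 (Res locRing redC redA eB fB intAlg classSum omega chiL)
open scoped Pointwise


/-- Fix a prime p and a maximal ideal M of the algebraic integers containing p. Let (P, e) be a maximal Brauer pair of the p-block B of the finite group G and (Q, f) any Brauer pair of B. Then some conjugate of (Q, f) lies below (P, e): there is x in G such that (x Q x⁻¹, conjugate of f by x) ≤ (P, e). -/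
theorem result {G : Type*} [Group G] [Fintype G] (p : ℕ) [Fact p.Prime] (M : Ideal Cfsg.AlgInt) (hM : Cfsg.IsPModular p M) (B : Set (Cfsg.IrrCharacter G)) (P Q : Subgroup G) (e : Set (Cfsg.IrrCharacter (Subgroup.centralizer (P : Set G)))) (f : Set (Cfsg.IrrCharacter (Subgroup.centralizer (Q : Set G)))) (hmax : Cfsg.IsMaximalBrauerPair p M B P e) (hQf : Cfsg.IsBrauerPairOf p M B Q f) : ∃ x : G, Cfsg.SubpairLE p M (Q.map (MulAut.conj x).toMonoidHom) (Cfsg.conjBlock Q x f) P e := by
  haveI := hM.2.1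
  haveI := H6.charP_res hM
  obtain ⟨h1, hD⟩ := (isMaximalBrauerPair_iff hM).1 hmax
  obtain ⟨he, hB, hbe⟩ := (isBrauerPairOf_iff hM).1 h1
  obtain ⟨hf, -, hbf⟩ := (isBrauerPairOf_iff hM).1 hQf
  obtain ⟨x, -, hx⟩ := exists_conj_ple le_rfl Subgroup.le_normalizer (blk_eB hB)
    (IsBrauerPair.isPair hf) le_top hbf hD (IsBrauerPair.isPair he).blk hbe
  exact ⟨x, subpairLE_of_ple hM (isPBlock_conjBlock Q x hf.2) he.2 (by rw [eb_conjBlock]; exact hx)⟩

end Cfsg.Agent.S4660
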