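import Cfsg.Statements.S4661
import Cfsg.Agent.H7.Local3
-- import your own Cfsg.Agent.* helpers here

set_option autoImplicit false
open Cfsg

namespace Cfsg.Agent.S4661

open MonoidAlgebra Cfsg.Agent.H3 Cfsg.Agent.H4 Cfsg.Agent.H7
open Cfsg.Agent.H6 (Res locRing redC redA eB fB intAlg classSum omega chiL)
open scoped Pointwise
set_option linter.style.haveILetI false


/-- Fix a prime p and a maximal ideal M of the algebraic integers containing p. Let (P, e) be a maximal Brauer pair of the p-block B of the finite group G, Q ≤ P, and f the p-block of C_G(Q) with (Q, f) ≤ (P, e). Then C_P(Q) is contained in a defect group of f (as a block of the group C_G(Q)); and for some x in G the conjugate pair (x Q x⁻¹, conjugate of f) again lies below (P, e) and C_P(x Q x⁻¹) is a defect group of the conjugate of f in C_G(x Q x⁻¹). -/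
theorem result {G : Type*} [Group G] [Fintype G] (p : ℕ) [Fact p.Prime] (M : Ideal Cfsg.AlgInt) (hM : Cfsg.IsPModular p M) (B : Set (Cfsg.IrrCharacter G)) (P Q : Subgroup G) (e : Set (Cfsg.IrrCharacter (Subgroup.centralizer (P : Set G)))) (f : Set (Cfsg.IrrCharacter (Subgroup.centralizer (Q : Set G)))) (hmax : Cfsg.IsMaximalBrauerPair p M B P e) (hQP : Q ≤ P) (hf : Cfsg.IsPBlock M f) (hle : Cfsg.SubpairLE p M Q f P e) : (∃ D : Subgroup (Subgroup.centralizer (Q : Set G)), Cfsg.IsDefectGroup p M f D ∧ (P ⊓ Subgroup.centralizer (Q : Set G)).subgroupOf (Subgroup.centralizer (Q : Set G)) ≤ D) ∧ ∃ x : G, Cfsg.SubpairLE p M (Q.map (MulAut.conj x).toMonoidHom) (Cfsg.conjBlock Q x f) P e ∧ Cfsg.IsDefectGroup p M (Cfsg.conjBlock Q x f) ((P ⊓ Subgroup.centralizer ((Q.map (MulAut.conj x).toMonoidHom) : Set G)).subgroupOf (Subgroup.centralizer ((Q.map (MulAut.conj x).toMonoidHom) : Set G))) := by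
  haveI := hM.2.1; haveI := H6.charP_res hM
  have S := maxP_of_isMaximal hM hmax
  have h := SubpairLE.ple hM hle
  constructor
  · obtain ⟨D, hD, h1⟩ := (blk_eb hf).exists_isDef_ge (p := p)
      (R := P ⊓ Subgroup.centralizer (Q : Set G)) inf_le_right
      (S.isDef.isPGroup.to_le inf_le_left) (h.br_ne S.pair inf_le_left
        (inf_le_right.trans (Subgroup.centralizer_le_normalizer _)))
    exact ⟨D.subgroupOf _, (isDefectGroup_subgroupOf_iff' hM hf hD.le).2 hD,
      Subgroup.comap_mono h1⟩
  · obtain ⟨x, -, h1, h2⟩ := S.exists_conj_isDef_inf h le_rfl ((h.isPair S.pair).CK_le_NS S.le)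
    rw [CK_top, ← centralizer_conj_smul, ← eb_conjBlock] at h2
    rw [← eb_conjBlock] at h1
    exact ⟨x, subpairLE_of_ple hM (isPBlock_conjBlock Q x hf) hmax.1.1.2 h1,
      (isDefectGroup_subgroupOf_iff' hM (isPBlock_conjBlock Q x hf) inf_le_right).2 h2⟩

end Cfsg.Agent.S4661
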