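import Cfsg.Statements.S4662
import Cfsg.Agent.H7.Local3
-- import your own Cfsg.Agent.* helpers here

set_option autoImplicit false
open Cfsg

namespace Cfsg.Agent.S4662

open MonoidAlgebra Cfsg.Agent.H3 Cfsg.Agent.H4 Cfsg.Agent.H7
open Cfsg.Agent.H6 (Res locRing redC redA eB fB intAlg classSum omega chiL)
open scoped Pointwise
set_option linter.style.haveILetI false


/-- Fix a prime p and a maximal ideal M of the algebraic integers containing p. Let (P, e) be a maximal Brauer pair of the p-block B of the finite group G, Q ≤ P, and f the p-block of C_G(Q) with (Q, f) ≤ (P, e). Let T be the stabilizer of f in N_G(Q). Then the idempotent of f is a block idempotent of T, and N_P(Q) is contained in a defect group of that block of T; moreover for some x in G the conjugate pair (x Q x⁻¹, conjugate of f) again lies below (P, e) and, with T' the stabilizer of the conjugate of f in N_G(x Q x⁻¹), N_P(x Q x⁻¹) is a defect group of the block of T' whose idempotent is that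 of the conjugate of f. -/
theorem result {G : Type*} [Group G] [Fintype G] (p : ℕ) [Fact p.Prime] (M : Ideal Cfsg.AlgInt) (hM : Cfsg.IsPModular p M) (B : Set (Cfsg.IrrCharacter G)) (P Q : Subgroup G) (e : Set (Cfsg.IrrCharacter (Subgroup.centralizer (P : Set G)))) (f : Set (Cfsg.IrrCharacter (Subgroup.centralizer (Q : Set G)))) (hmax : Cfsg.IsMaximalBrauerPair p M B P e) (hQP : Q ≤ P) (hf : Cfsg.IsPBlock M f) (hle : Cfsg.SubpairLE p M Q f P e) (T : Subgroup G) (hT : ∀ y : G, y ∈ T ↔ y ∈ Subgroup.normalizer (Q : Set G) ∧ Cfsg.StabilizesBlock (Subgroup.centralizer (Q : Set G)) f y) : (∃ F : Set (Cfsg.IrrCharacter T), Cfsg.IsPBlock M F ∧ (∀ t : T, Cfsg.blockCoeff F t = Cfsg.subgroupBlockCoeff (Subgroup.centralizer (Q : Set G)) f (t : G)) ∧ ∃ D : Subgroup T, Cfsg.IsDefectGroup p M F D ∧ (P ⊓ Subgroup.normalizer (Q : Set G)).subgroupOf T ≤ D) ∧ ∃ x : G, Cfsg.SubpairLE p M (Q.map (MulAut.conj x).toMonoidHom) (Cfsg.conjBlock Q x f) P e ∧ ∀ (T' : Subgroup G), (∀ y : G,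 y ∈ T' ↔ y ∈ Subgroup.normalizer ((Q.map (MulAut.conj x).toMonoidHom) : Set G) ∧ Cfsg.StabilizesBlock (Subgroup.centralizer ((Q.map (MulAut.conj x).toMonoidHom) : Set G)) (Cfsg.conjBlock Q x f) y) → ∃ F' : Set (Cfsg.IrrCharacter T'), Cfsg.IsPBlock M F' ∧ (∀ t : T', Cfsg.blockCoeff F' t = Cfsg.subgroupBlockCoeff (Subgroup.centralizer ((Q.map (MulAut.conj x).toMonoidHom) : Set G)) (Cfsg.conjBlock Q x f) (t : G)) ∧ Cfsg.IsDefectGroup p M F' ((P ⊓ Subgroup.normalizer ((Q.map (MulAut.conj x).toMonoidHom) : Set G)).subgroupOf T') := by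
  haveI := hM.2.1; haveI := H6.charP_res hM
  have S := maxP_of_isMaximal hM hmax
  have h := SubpairLE.ple hM hle
  have hf' := h.isPair S.pair
  obtain rfl := NS_eq_of_forall hf hT
  constructor
  · obtain ⟨F, hF, h1, h2⟩ := exists_block_coeff hf'.centralizer_le_NS hf hf'.blk_NS
    obtain ⟨D, hD, h3⟩ := hf'.blk_NS.exists_isDef_ge (p := p) (h.inf_le_NS S.pair le_top)
      (S.isDef.isPGroup.to_le inf_le_left) (h.br_ne S.pair inf_le_left inf_le_right)
    exact ⟨F, hF, h1, D.subgroupOf _, (isDefectGroup_subgroupOf_iff' hM hF hD.le).2 (by rwa [h2]),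
      Subgroup.comap_mono h3⟩
  · obtain ⟨x, -, h1, h2⟩ := S.exists_conj_isDef_NS h
    rw [← eb_conjBlock] at h1 h2
    have hf2 := isPBlock_conjBlock Q x hf
    refine ⟨x, subpairLE_of_ple hM hf2 hmax.1.1.2 h1, fun T' hT' => ?_⟩
    obtain rfl := NS_eq_of_forall hf2 hT'
    have hf3 := h1.isPair S.pair
    obtain ⟨F, hF, h3, h4⟩ := exists_block_coeff hf3.centralizer_le_NS hf2 hf3.blk_NS
    exact ⟨F, hF, h3, (isDefectGroup_subgroupOf_iff' hM hF h2.le).2 (by rwa [h4])⟩

end Cfsg.Agent.S4662
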