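import Cfsg.Statements.S4664
import Cfsg.Agent.H7.PCov
import Cfsg.Agent.H8.Height2
-- import your own Cfsg.Agent.* helpers here

set_option autoImplicit false
open Cfsg

namespace Cfsg.Agent.S4664

open MonoidAlgebra Cfsg.Agent.H3 Cfsg.Agent.H4 Cfsg.Agent.H7
open Cfsg.Agent.H6 (Res locRing redC redA eB fB intAlg classSum omega chiL)
open scoped Pointwise
set_option linter.style.haveILetI false


/-- Fix a prime p and a maximal ideal M of the algebraic integers containing p, and let B be a p-block of the finite group G. Let m be the p'-part of the order of G and η = exp(2πi/m). Then every coefficient of the idempotent of B lies in the cyclotomic field ℚ(η). -/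
theorem result {G : Type*} [Group G] [Fintype G] (p : ℕ) [Fact p.Prime] (M : Ideal Cfsg.AlgInt) (hM : Cfsg.IsPModular p M) (B : Set (Cfsg.IrrCharacter G)) (hB : Cfsg.IsPBlock M B) (g : G) : Cfsg.blockCoeff B g ∈ IntermediateField.adjoin ℚ ({Complex.exp (2 * Real.pi * Complex.I / ((Nat.card G / p ^ (Nat.card G).factorization p : ℕ) : ℂ))} : Set ℂ) := by
  classical
  by_cases hg : p ∣ orderOf g
  · rw [H8.blockCoeff_eq_zero hM hB hg]
    exact zero_mem _
  set m := Nat.card G / p ^ (Nat.card G).factorization p with hm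
  have hm0 : m ≠ 0 := (Nat.ordCompl_pos p (Nat.card_pos (α := G)).ne').ne'
  haveI : NeZero m := ⟨hm0⟩
  have h1 : orderOf g ∣ m := by
    refine Nat.Coprime.dvd_of_dvd_mul_left (m := p ^ (Nat.card G).factorization p) ?_ ?_
    · exact (Nat.Coprime.pow_left _ (((Fact.out : p.Prime).coprime_iff_not_dvd).2 hg)).symm
    · rw [hm, Nat.ordProj_mul_ordCompl_eq_self]
      exact orderOf_dvd_natCard g
  have hζ := Complex.isPrimitiveRoot_exp m hm0
  rw [H6.blockCoeff_eq]
  refine mul_mem (inv_mem (natCast_mem _ _)) (sum_mem fun χ _ => ?_)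
  split_ifs
  · obtain ⟨n, hn⟩ := χ.2.isCharacter.exists_degree
    obtain ⟨ε, h2, h3⟩ := χ.2.isCharacter.exists_roots hn g⁻¹
    have h4 := h3 1
    rw [pow_one] at h4
    rw [← H8.irr_inv, h4, hn]
    refine mul_mem (natCast_mem _ _) (sum_mem fun i _ => ?_)
    have h5 : ε i ^ m = 1 := by
      obtain ⟨c, hc⟩ := h1
      rw [hc, pow_mul, ← orderOf_inv, h2, one_pow]
    obtain ⟨j, -, hj⟩ := hζ.eq_pow_of_pow_eq_one h5
    rw [pow_one, ← hj]
    exact pow_mem (IntermediateField.mem_adjoin_simple_self ℚ _) _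
  · exact zero_mem _

end Cfsg.Agent.S4664
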