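import Cfsg.Statements.S4666
import Mathlib
import Cfsg.Agent.H8.Height

set_option autoImplicit false
open Cfsg

namespace Cfsg.Agent.S4666

-- OPENS
open Cfsg.Agent.H8
open Cfsg.Agent.H6 hiding block_eq_blockOf block_eq_of_mem block_nonempty centralChar_mem
  char_mem conj_char_mem irrOne_mem_principal isPBlock_blockOf isPBlock_principal
  mem_blockOf_self orderOf_conj' sameBlock_refl sameBlock_symm sameBlock_trans weak_orth
open Cfsg.Agent.H4
open Cfsg.Agent.H5
open Cfsg.Agent.H3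


/-- Fix a prime p and a maximal ideal M of the algebraic integers containing p, and a p-block B of the finite group G of defect d. For every integer combination χ of the irreducible characters in B, p^d times the function that agrees with χ on p-regular elements and vanishes elsewhere is again an integer combination of the irreducible characters in B. -/
theorem result {G : Type*} [Group G] [Fintype G] (p : ℕ) [Fact p.Prime] (M : Ideal Cfsg.AlgInt) (hM : Cfsg.IsPModular p M) (B : Set (Cfsg.IrrCharacter G)) (hB : Cfsg.IsPBlock M B) (χ : G → ℂ) (hχ : (∃ n : Cfsg.IrrCharacter G → ℤ, ∀ g : G, χ g = ∑ᶠ ψ ∈ B, (n ψ : ℂ) * (ψ : G → ℂ) g)) : (∃ n : Cfsg.IrrCharacter G → ℤ, ∀ g : G, (p ^ Cfsg.blockDefect p B : ℂ) * Cfsg.pRegularPart p χ g = ∑ᶠ ψ ∈ B, (n ψ : ℂ) * (ψ : G → ℂ) g) := by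
  obtain ⟨n, hn⟩ := hχ
  have h1 : χ = ∑ ψ ∈ bfin B, (n ψ : ℂ) • (ψ : G → ℂ) := by
    ext g
    rw [hn, finsum_mem_bfin, Finset.sum_apply]; rfl
  refine ⟨fun ξ => ∑ ψ ∈ bfin B, n ψ * cm p B ψ ξ, fun g => ?_⟩
  have h2 : ((p ^ blockDefect p B : ℕ) : ℂ) • pRegularPart p χ =
      ∑ ξ ∈ bfin B, ((∑ ψ ∈ bfin B, n ψ * cm p B ψ ξ : ℤ) : ℂ) • (ξ : G → ℂ) := by
    rw [h1, pReg_sum, Finset.smul_sum]
    have : ∀ ψ ∈ bfin B, ((p ^ blockDefect p B : ℕ) : ℂ) • pRegularPart p ((n ψ : ℂ) • (ψ : G → ℂ)) =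
        ∑ ξ ∈ bfin B, ((n ψ * cm p B ψ ξ : ℤ) : ℂ) • (ξ : G → ℂ) := by
      intro ψ hψ
      rw [pReg_smul, smul_comm, smul_pReg_eq_sum hM hB (mem_bfin.mp hψ), Finset.smul_sum]
      refine Finset.sum_congr rfl fun ξ _ => ?_
      rw [smul_smul]; push_cast; rfl
    rw [Finset.sum_congr rfl this, Finset.sum_comm]
    refine Finset.sum_congr rfl fun ξ _ => ?_
    rw [← Finset.sum_smul]; push_cast; rfl
  have h3 := congrFun h2 g
  rw [Finset.sum_apply] at h3
  rw [finsum_mem_bfin]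
  simpa using h3

end Cfsg.Agent.S4666
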