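import Cfsg.Statements.S4668
import Cfsg.Agent.H7.Local5
import Cfsg.Agent.H1.Coprime
-- import your own Cfsg.Agent.* helpers here

set_option autoImplicit false
open Cfsg

namespace Cfsg.Agent.S4668

open MonoidAlgebra Cfsg.Agent.H3 Cfsg.Agent.H4 Cfsg.Agent.H7
open Cfsg.Agent.H6 (Res locRing redC redA eB fB intAlg classSum omega chiL)
open scoped Pointwise
set_option linter.style.haveILetI false

theorem aux {G : Type*} [Group G] [Finite G] {p : ℕ} [hp : Fact p.Prime] {m : ℕ}
    {Q : Fin (m + 1) → Subgroup G} (hQ : Monotone Q) (hQp : ∀ i, IsPGroup p (Q i)) {x : G}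
    (hx : ∀ i, x ∈ Subgroup.normalizer (Q i : Set G)) (hxp : ¬ p ∣ orderOf x)
    (h : x ∈ Subgroup.centralizer
      ((Q (Fin.last m) ⊓ ⨅ i, Subgroup.normalizer (Q i : Set G) : Subgroup G) : Set G)) :
    x ∈ Subgroup.centralizer (Q (Fin.last m) : Set G) := by
  let V : ℕ → Subgroup G := fun j =>
    Q (Fin.last m) ⊓ ⨅ i : Fin (m + 1), ⨅ _ : j ≤ i.1, Subgroup.normalizer (Q i : Set G)
  have mV : ∀ j g, g ∈ V j ↔ g ∈ Q (Fin.last m) ∧
      ∀ i : Fin (m + 1), j ≤ i.1 → g ∈ Subgroup.normalizer (Q i : Set G) := fun j g => by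
    simp [V, Subgroup.mem_iInf]
  have key : ∀ j, x ∈ Subgroup.centralizer (V j : Set G) := fun j => by
    induction j with
    | zero => simpa [V] using h
    | succ j ih =>
      by_cases hj : j < m + 1
      · have hle : V j ≤ V (j + 1) := fun g hg =>
          (mV _ _).2 ⟨((mV _ _).1 hg).1, fun i hi => ((mV _ _).1 hg).2 i (by omega)⟩
        have hQj : Q ⟨j, hj⟩ ≤ V j := fun g hg => (mV _ _).2 ⟨hQ (Fin.le_last _) hg,
          fun i hi => Subgroup.le_normalizer (hQ (show (⟨j, hj⟩ : Fin (m + 1)) ≤ i from hi) hg)⟩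
        refine H1.le_centralizer_of_centralizes_self_centralizing (p := p) (B := V j)
          (Q := Subgroup.zpowers x) ?_ ((hQp _).to_le inf_le_left) hle
          (Subgroup.zpowers_le.2 (mem_normalizer_of_conj_mem fun g hg => ?_))
          (Subgroup.zpowers_le.2 ih) (fun g hg => ?_) (Subgroup.mem_zpowers x)
        · rw [Nat.card_zpowers]
          exact ((Nat.Prime.coprime_iff_not_dvd hp.out).2 hxp).symm
        · obtain ⟨h1, h2⟩ := (mV _ _).1 hg
          exact (mV _ _).2 ⟨(Subgroup.mem_normalizer_iff.1 (hx _) g).1 h1, fun i hi =>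
            mul_mem (mul_mem (hx i) (h2 i hi)) (inv_mem (hx i))⟩
        · obtain ⟨h1, h2⟩ := (mV _ _).1 hg.1
          refine (mV _ _).2 ⟨h1, fun i hi => ?_⟩
          rcases hi.eq_or_lt with h3 | h3
          · obtain rfl : i = ⟨j, hj⟩ := Fin.ext h3.symm
            exact Subgroup.centralizer_le_normalizer _ (Subgroup.centralizer_le hQj hg.2)
          · exact h2 i h3
      · refine Subgroup.centralizer_le (fun g hg => ?_) ih
        exact (mV _ _).2 ⟨((mV _ _).1 hg).1, fun i hi => absurd i.2 (by omega)⟩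
  refine Subgroup.centralizer_le (fun g hg => ?_) (key (m + 1))
  exact (mV _ _).2 ⟨hg, fun i hi => absurd i.2 (by omega)⟩

/-- Fix a prime p and a maximal ideal M of the algebraic integers containing p. Let Q₀ < Q₁ < ⋯ < Q_m be a strictly increasing chain of p-subgroups of the finite group G and N the intersection of their normalizers. Then every block idempotent of N is supported on C_G(Q_m): for every p-block E of N, the idempotent coefficient of E vanishes at every element of N outside C_G(Q_m). -/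
theorem result {G : Type*} [Group G] [Fintype G] (p : ℕ) [Fact p.Prime] (M : Ideal Cfsg.AlgInt) (hM : Cfsg.IsPModular p M) (m : ℕ) (Q : Fin (m + 1) → Subgroup G) (hQ : StrictMono Q) (hQp : ∀ i, IsPGroup p (Q i)) (N : Subgroup G) (hN : ∀ g : G, g ∈ N ↔ ∀ i, g ∈ Subgroup.normalizer (Q i : Set G)) (E : Set (Cfsg.IrrCharacter N)) (hE : Cfsg.IsPBlock M E) (n : N) (hn : (n : G) ∉ Subgroup.centralizer (Q (Fin.last m) : Set G)) : Cfsg.blockCoeff E n = 0 := by
  haveI := hM.2.1; haveI := H6.charP_res hM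
  obtain rfl : N = ⨅ i, Subgroup.normalizer (Q i : Set G) := by
    ext g; rw [hN, Subgroup.mem_iInf]
  by_contra h0
  have hxp : ¬ p ∣ orderOf (n : G) := fun h =>
    h0 (H6.blockCoeff_eq_zero hM hE (by rwa [Subgroup.orderOf_coe] at h))
  refine hn (aux hQ.monotone hQp (Subgroup.mem_iInf.1 n.2) hxp ?_)
  have hNN : (⨅ i, Subgroup.normalizer (Q i : Set G)) ≤ Subgroup.normalizer
      ((Q (Fin.last m) ⊓ ⨅ i, Subgroup.normalizer (Q i : Set G) : Subgroup G) : Set G) :=
    le_normalizer_inf (iInf_le _ _) Subgroup.le_normalizer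
  have h1 := supp_centralizer_of_idem ((hQp (Fin.last m)).to_le inf_le_left) inf_le_right hNN
    (blk_eb hE).mem (blk_eb hE).idem
  have h2 : Supp ((CK (⨅ i, Subgroup.normalizer (Q i : Set G))
      (Q (Fin.last m) ⊓ ⨅ i, Subgroup.normalizer (Q i : Set G)) : Subgroup G) : Set G)
      (redA M (fb _ E)) := by
    rw [redA_fb]
    exact fun x hx => by
      by_contra h
      exact hx ⟨h1.mem h, (blk_eb hE).mem.1.mem h⟩
  have h3 := supp_of_supp_redA inf_le_right (fb_mem_Fix E) (fb_idem E) (fb_mem_intAlg hE) h2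
  exact (h3.mem (by rwa [coeff_fb_coe])).1

end Cfsg.Agent.S4668
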