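import Cfsg.Statements.S4670
import Cfsg.Agent.H7.Induce
-- import your own Cfsg.Agent.* helpers here

set_option autoImplicit false
open Cfsg

namespace Cfsg.Agent.S4670

open MonoidAlgebra Cfsg.Agent.H3 Cfsg.Agent.H4 Cfsg.Agent.H7
open Cfsg.Agent.H6 (Res locRing redC redA eB fB intAlg classSum omega chiL)
open scoped Pointwise
set_option linter.style.haveILetI false


/-- Fix a prime p and a maximal ideal M of the algebraic integers containing p. Let P be a p-subgroup of the finite group G and H a subgroup containing N_G(P). For every p-block B of G with defect group P there is exactly one p-block c of H with defect group P whose idempotent agrees with that of B, modulo the local ideal at M, at every element of C_G(P) (their Brauer-map images at P coincide); and every p-block c of H with defect group P arises in this way from exactly one such B. This is the Brauer correspondence over H. -/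
theorem result {G : Type*} [Group G] [Fintype G] (p : ℕ) [Fact p.Prime] (M : Ideal Cfsg.AlgInt) (hM : Cfsg.IsPModular p M) (P H : Subgroup G) (hP : IsPGroup p P) (hH : Subgroup.normalizer (P : Set G) ≤ H) : (∀ B : Set (Cfsg.IrrCharacter G), Cfsg.IsPBlock M B → Cfsg.IsDefectGroup p M B P → ∃! c : Set (Cfsg.IrrCharacter H), Cfsg.IsPBlock M c ∧ Cfsg.IsDefectGroup p M c (P.subgroupOf H) ∧ ∀ x : G, x ∈ Subgroup.centralizer (P : Set G) → Cfsg.MemLocalIdeal M (Cfsg.blockCoeff B x - Cfsg.subgroupBlockCoeff H c x)) ∧ (∀ c : Set (Cfsg.IrrCharacter H), Cfsg.IsPBlock M c → Cfsg.IsDefectGroup p M c (P.subgroupOf H) → ∃! B : Set (Cfsg.IrrCharacter G), Cfsg.IsPBlock M B ∧ Cfsg.IsDefectGroup p M B P ∧ ∀ x : G, x ∈ Subgroup.centralizer (P : Set G) → Cfsg.MemLocalIdeal M (Cfsg.blockCoeff B x - Cfsg.subgroupBlockCoeff H c x)) := by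
  haveI := hM.2.1
  haveI := H6.charP_res hM
  have hN : Subgroup.normalizer (P : Set G) ⊓ ⊤ ≤ H := inf_le_left.trans hH
  have hPH : P ≤ H := Subgroup.le_normalizer.trans hH
  have key : ∀ (B : Set (IrrCharacter G)) (c : Set (IrrCharacter H)), IsPBlock M B → IsPBlock M c →
      ((∀ x : G, x ∈ Subgroup.centralizer (P : Set G) →
        MemLocalIdeal M (blockCoeff B x - subgroupBlockCoeff H c x)) ↔
        br P (eB M B) = br P (eb M H c)) := fun B c hB hc => by
    constructor
    · intro h
      ext x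
      by_cases hx : x ∈ Subgroup.centralizer (P : Set G)
      · rw [coeff_br_of_mem _ hx, coeff_br_of_mem _ hx, H6.coeff_eB, coeff_eb,
          ← H6.memLocalIdeal_sub_iff (H6.blockCoeff_mem hB x) (subgroupBlockCoeff_mem hc x)]
        exact h x hx
      · rw [coeff_br_of_not_mem _ hx, coeff_br_of_not_mem _ hx]
    · intro h x hx
      rw [H6.memLocalIdeal_sub_iff (H6.blockCoeff_mem hB x) (subgroupBlockCoeff_mem hc x),
        ← H6.coeff_eB, ← coeff_eb, ← coeff_br_of_mem _ hx, h, coeff_br_of_mem _ hx]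
  constructor
  · intro B hB hBD
    have h1 := (isDefectGroup_iff hM hB).1 hBD
    obtain ⟨c, hc, hcD, hbr⟩ := first_main_down le_top hN (blk_eB hB) h1
    obtain ⟨c, hc', rfl⟩ := exists_eb_eq hc
    refine ⟨c, ⟨hc', (isDefectGroup_subgroupOf_iff' hM hc' hPH).2 hcD,
      (key B c hB hc').2 hbr.symm⟩, ?_⟩
    rintro b ⟨hb, hbD, hi⟩
    have h2 := (isDefectGroup_subgroupOf_iff' hM hb hPH).1 hbD
    exact eb_injective hb hc' (Blk.eq_of_br_eq hP hPH (blk_eb hb) hc h2.br_ne
      (((key B b hB hb).1 hi).symm.trans hbr.symm))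
  · intro c hc hcD
    have h1 := (isDefectGroup_subgroupOf_iff' hM hc hPH).1 hcD
    obtain ⟨B, hB, hBD, hbr⟩ := first_main_up le_top hN (blk_eb hc) h1
    obtain ⟨B, hB', rfl⟩ := exists_eB_eq hB
    refine ⟨B, ⟨hB', (isDefectGroup_iff hM hB').2 hBD, (key B c hB' hc).2 hbr⟩, ?_⟩
    rintro A ⟨hA, hAD, hi⟩
    have h2 := (isDefectGroup_iff hM hA).1 hAD
    exact H6.eB_injective hA hB' (Blk.eq_of_br_eq hP le_top (blk_eB hA) hB h2.br_ne
      (((key A c hA hc).1 hi).trans hbr.symm))

end Cfsg.Agent.S4670
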