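import Cfsg.Statements.S4672
import Cfsg.Agent.H7.Cover2
-- import your own Cfsg.Agent.* helpers here

set_option autoImplicit false
open Cfsg

namespace Cfsg.Agent.S4672

open MonoidAlgebra Cfsg.Agent.H3 Cfsg.Agent.H4 Cfsg.Agent.H7
open Cfsg.Agent.H6 (Res locRing redC redA eB fB intAlg classSum omega chiL)
open scoped Pointwise
set_option linter.style.haveILetI false


/-- Fix a prime p and a maximal ideal M of the algebraic integers containing p. Let N be a normal subgroup of the finite group G of p-power index and c a p-block of N stable under conjugation by G. Then the idempotent of c is a block idempotent of G: there is a p-block B of G whose idempotent coefficients agree with those of c on N and vanish off N; and for every defect group P of such a block B, G = NP and P ∩ N is a defect group of c. -/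
theorem result {G : Type*} [Group G] [Fintype G] (p : ℕ) [Fact p.Prime] (M : Ideal Cfsg.AlgInt) (hM : Cfsg.IsPModular p M) (N : Subgroup G) [N.Normal] (hN : ∃ k : ℕ, N.index = p ^ k) (c : Set (Cfsg.IrrCharacter N)) (hc : Cfsg.IsPBlock M c) (hst : ∀ x : G, Cfsg.StabilizesBlock N c x) : (∃ B : Set (Cfsg.IrrCharacter G), Cfsg.IsPBlock M B ∧ ∀ g : G, Cfsg.blockCoeff B g = Cfsg.subgroupBlockCoeff N c g) ∧ ∀ B : Set (Cfsg.IrrCharacter G), Cfsg.IsPBlock M B → (∀ g : G, Cfsg.blockCoeff B g = Cfsg.subgroupBlockCoeff N c g) → ∀ P : Subgroup G, Cfsg.IsDefectGroup p M B P → N ⊔ P = ⊤ ∧ Cfsg.IsDefectGroup p M c ((P ⊓ N).subgroupOf N) := by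
  haveI := hM.2.1
  haveI := H6.charP_res hM
  obtain ⟨n, hn⟩ := hN
  rw [← Subgroup.relIndex_top_right] at hn
  have hN' : (⊤ : Subgroup G) ≤ Subgroup.normalizer (N : Set G) := Subgroup.le_normalizer_of_normal
  have hi : Invt ⊤ (eb M N c) := fun g _ => ((stabilizesBlock_iff hc).1 (hst g)).2
  constructor
  · obtain ⟨B, hB, h⟩ := exists_eB_eq ((blk_iff_of_relIndex hM le_top hN' hn).2
      ((blk_eb hc).isPrimIn_of_invt le_top hi))
    exact ⟨B, hB, fun g => by rw [← H6.coeff_fB, ← coeff_fb, fb_eq_fB_of_eb_eq hc hB h.symm]⟩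
  · intro B hB h P hP
    have h1 : eB M B = eb M N c := by
      ext g; rw [H6.coeff_eB, coeff_eb, h]
    have h2 := (isDefectGroup_iff hM hB).1 hP
    rw [h1] at h2
    exact ⟨sup_eq_of_isDef_of_relIndex le_top hN' hn (blk_eb hc) hi h2,
      (isDefectGroup_subgroupOf_iff' hM hc inf_le_right).2 (fong le_top hN' (blk_eb hc) hi h2).2⟩

end Cfsg.Agent.S4672
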