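import Cfsg.Statements.S4673
import Cfsg.Agent.H7.Cover2
-- import your own Cfsg.Agent.* helpers here

set_option autoImplicit false
open Cfsg

namespace Cfsg.Agent.S4673

open MonoidAlgebra Cfsg.Agent.H3 Cfsg.Agent.H4 Cfsg.Agent.H7
open Cfsg.Agent.H6 (Res locRing redC redA eB fB intAlg classSum omega chiL)
open scoped Pointwise
set_option linter.style.haveILetI false


/-- Fix a prime p and a maximal ideal M of the algebraic integers containing p. Let N ≤ L be normal subgroups of the finite group G with L/N a p-group, let B be a p-block of G covering the p-block c of N (some member of B has a constituent in c on restriction to N), and suppose that N contains a defect group of B. Then the stabilizer T of c in G satisfies T ∩ L = N. -/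
theorem result {G : Type*} [Group G] [Fintype G] (p : ℕ) [Fact p.Prime] (M : Ideal Cfsg.AlgInt) (hM : Cfsg.IsPModular p M) (N L : Subgroup G) [N.Normal] [L.Normal] [Fintype N] (hNL : N ≤ L) (hLN : ∃ k : ℕ, (N.subgroupOf L).index = p ^ k) (B : Set (Cfsg.IrrCharacter G)) (hB : Cfsg.IsPBlock M B) (c : Set (Cfsg.IrrCharacter N)) (hc : Cfsg.IsPBlock M c) (hcov : (∃ χ ∈ B, ∃ θ ∈ c, Cfsg.classInner (fun n : N => (χ : G → ℂ) n) (θ : N → ℂ) ≠ 0)) (hD : ∃ D : Subgroup G, Cfsg.IsDefectGroup p M B D ∧ D ≤ N) (T : Subgroup G) (hT : ∀ x : G, x ∈ T ↔ Cfsg.StabilizesBlock N c x) : T ⊓ L = N := by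
  haveI := hM.2.1
  haveI := H6.charP_res hM
  obtain ⟨n, hn⟩ := hLN
  obtain ⟨D, hD, hDN⟩ := hD
  have hL : L ≤ Subgroup.normalizer (N : Set G) := Subgroup.le_normalizer_of_normal
  have hU : T ⊓ L = L ⊓ stab (eb M N c) := by
    ext x
    rw [Subgroup.mem_inf, Subgroup.mem_inf, hT, stabilizesBlock_iff hc, mem_stab]
    exact ⟨fun h => ⟨h.2, h.1.2⟩, fun h => ⟨⟨hL h.1, h.2⟩, h.1⟩⟩
  have hNU := fr_le hNL (blk_eb hc) hU
  have hi := (fr_mem hNL (blk_eb hc) hU).2
  obtain ⟨m, -, hm⟩ := (Nat.dvd_prime_pow (Fact.out : p.Prime)).1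
    (show N.relIndex (T ⊓ L) ∣ p ^ n from
      ⟨_, hn.symm.trans (Subgroup.relIndex_mul_relIndex _ _ _ hNU inf_le_right).symm⟩)
  have h1 := (blk_eb hc).isPrimIn_of_invt hNU hi
  obtain ⟨E, hE⟩ := exists_isDef p h1
  have h2 := (blk_iff_of_relIndex hM hNU (inf_le_right.trans hL) hm).2 h1
  have h3 : eb M N c * eb M N c ≠ 0 := by rw [(blk_eb hc).idem.eq]; exact (blk_eb hc).ne_zero
  obtain ⟨P, hP, -, hPE⟩ := knorr le_top Subgroup.le_normalizer_of_normal (blk_eB hB)
    (fr_blk hNL hL (blk_eb hc) hU h2 h3) (fun h0 => (covers_iff_eb hB hc).1 hcov (by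
      rw [← (blk_eb hc).orbSum_mul hL, ← mul_assoc, h0, zero_mul]))
    (fr_isDef hNL hL (blk_eb hc) hU h2 h3 hE)
  obtain ⟨x, -, rfl⟩ := ((isDefectGroup_iff hM hB).1 hD).exists_conj hP
  have h4 : E ≤ N := by
    rw [← hPE, ← conj_smul_eq_of_normal N x]
    exact inf_le_left.trans (conj_smul_mono x hDN)
  rw [← sup_eq_of_isDef_of_relIndex hNU (inf_le_right.trans hL) hm (blk_eb hc) hi hE,
    sup_eq_left.2 h4]

end Cfsg.Agent.S4673
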