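import Cfsg.Statements.S4674
import Cfsg.Agent.H7.Cover2
-- import your own Cfsg.Agent.* helpers here

set_option autoImplicit false
open Cfsg

namespace Cfsg.Agent.S4674

open MonoidAlgebra Cfsg.Agent.H3 Cfsg.Agent.H4 Cfsg.Agent.H7
open Cfsg.Agent.H6 (Res locRing redC redA eB fB intAlg classSum omega chiL)
open scoped Pointwise
set_option linter.style.haveILetI false


/-- Fix a prime p and a maximal ideal M of the algebraic integers containing p. Let N be a normal subgroup of the finite group G, Q a p-subgroup of N, H = N_G(Q) and L = H ∩ N = N_N(Q). Let d be a p-block of N with defect group Q and e the p-block of L with defect group Q that induces d inside N (its Brauer correspondent). Then block induction from H to G is a bijection from the p-blocks of H covering e onto the p-blocks of G covering d: every block of H covering e induces exactly one block of G, and that block covers d; and every block of G covering d is induced by exactly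 one block of H covering e. -/
theorem result {G : Type*} [Group G] [Fintype G] (p : ℕ) [Fact p.Prime] (M : Ideal Cfsg.AlgInt) (hM : Cfsg.IsPModular p M) (N : Subgroup G) [N.Normal] [Fintype N] (Q : Subgroup G) (hQ : IsPGroup p Q) (hQN : Q ≤ N) [Fintype ↥(Subgroup.normalizer (Q : Set G) ⊓ N)] (d : Set (Cfsg.IrrCharacter N)) (hd : Cfsg.IsPBlock M d) (hdQ : Cfsg.IsDefectGroup p M d (Q.subgroupOf N)) (e : Set (Cfsg.IrrCharacter ↥(Subgroup.normalizer (Q : Set G) ⊓ N))) (he : Cfsg.IsPBlock M e) (heQ : Cfsg.IsDefectGroup p M e (Q.subgroupOf (Subgroup.normalizer (Q : Set G) ⊓ N))) (hed : Cfsg.IsInducedBlockIn M N (Subgroup.normalizer (Q : Set G) ⊓ N) e d) : (∀ c : Set (Cfsg.IrrCharacter ↥(Subgroup.normalizer (Q : Set G))), Cfsg.IsPBlock M c → (∃ ψ ∈ c, ∃ ξ ∈ e, Cfsg.classInner (fun l : ↥(Subgroup.normalizer (Q : Set G) ⊓ N) => (ψ : ↥(Subgroup.normalizer (Q : Set G)) → ℂ) (Subgroup.inclusion inf_le_left l)) (ξ : ↥(Subgroup.normalizer (Q : Set G) ⊓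 N) → ℂ) ≠ 0) → ∃! B : Set (Cfsg.IrrCharacter G), Cfsg.IsInducedBlock M (Subgroup.normalizer (Q : Set G)) c B ∧ (∃ χ ∈ B, ∃ θ ∈ d, Cfsg.classInner (fun n : N => (χ : G → ℂ) n) (θ : N → ℂ) ≠ 0)) ∧ (∀ B : Set (Cfsg.IrrCharacter G), Cfsg.IsPBlock M B → (∃ χ ∈ B, ∃ θ ∈ d, Cfsg.classInner (fun n : N => (χ : G → ℂ) n) (θ : N → ℂ) ≠ 0) → ∃! c : Set (Cfsg.IrrCharacter ↥(Subgroup.normalizer (Q : Set G))), (Cfsg.IsPBlock M c ∧ ∃ ψ ∈ c, ∃ ξ ∈ e, Cfsg.classInner (fun l : ↥(Subgroup.normalizer (Q : Set G) ⊓ N) => (ψ : ↥(Subgroup.normalizer (Q : Set G)) → ℂ) (Subgroup.inclusion inf_le_left l)) (ξ : ↥(Subgroup.normalizer (Q : Set G) ⊓ N) → ℂ) ≠ 0) ∧ Cfsg.IsInducedBlock M (Subgroup.normalizer (Q : Set G)) c B) := by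
  haveI := hM.2.1
  haveI := H6.charP_res hM
  have hN : (⊤ : Subgroup G) ≤ Subgroup.normalizer (N : Set G) := Subgroup.le_normalizer_of_normal
  have hdQ' := (isDefectGroup_subgroupOf_iff' hM hd hQN).1 hdQ
  have hQT : Q ≤ Subgroup.normalizer (Q : Set G) ⊓ N := le_inf Subgroup.le_normalizer hQN
  have heQ' := (isDefectGroup_subgroupOf_iff' hM he hQT).1 heQ
  have hde : br Q (eb M N d) = eb M _ e := by
    rw [(ind_iff_br_eq inf_le_right le_rfl (blk_eb he) heQ' (blk_eb hd)).1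
      ((isInducedBlockIn_iff_ind inf_le_right).1 hed).2.2]
    exact br_eq_self_of_idem hQ hQT inf_le_left (eb_mem_Fix e) (blk_eb he).idem
  have hind : ∀ (c : Set (IrrCharacter ↥(Subgroup.normalizer (Q : Set G))))
      (B : Set (IrrCharacter G)), IsPBlock M c → IsPBlock M B →
      (IsInducedBlock M _ c B ↔ br Q (eB M B) * eb M _ c = eb M _ c) := fun c B hc hB => by
    rw [isInducedBlock_iff_ind, ind_iff_br_mul hQ le_top
      (Subgroup.le_normalizer.trans Subgroup.le_normalizer)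
      (inf_le_left.trans (Subgroup.centralizer_le_normalizer _)) le_rfl le_top (blk_eb hc)
      (blk_eB hB)]
    exact ⟨fun h => h.2.2, fun h => ⟨hc, hB, h⟩⟩
  have hb : ∀ c : (Res M)[G], Blk (Subgroup.normalizer (Q : Set G) ⊓ ⊤) c ↔
      Blk (Subgroup.normalizer (Q : Set G)) c := fun c => by rw [inf_top_eq]
  constructor
  · intro c hc hce
    have hce' := (covers_iff_eb_eb inf_le_left hc he).1 hce
    obtain ⟨B, hB⟩ := inducedBlockDefined_of_local hM hQ
      (Subgroup.le_normalizer.trans Subgroup.le_normalizer)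
      (Subgroup.centralizer_le_normalizer _) le_rfl hc
    refine ⟨B, ⟨hB, (covers_iff_eb hB.2.1 hd).2 (hk_cover_of_br_mul le_top hN (blk_eb hd) hdQ' hde
      (blk_eB hB.2.1) ((hb _).2 (blk_eb hc)) ((hind c B hc hB.2.1).1 hB) hce')⟩, ?_⟩
    rintro B' ⟨hB', -⟩
    exact H6.eB_injective hB'.2.1 hB.2.1 ((IsInducedBlock.ind hB').unique (IsInducedBlock.ind hB))
  · intro B hB hBd
    obtain ⟨c, hc, h1, h2⟩ := hk_exists le_top hN (blk_eb hd) hdQ' (blk_eb he) hde (blk_eB hB)
      ((covers_iff_eb hB hd).1 hBd)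
    obtain ⟨c, hc', rfl⟩ := exists_eb_eq ((hb _).1 hc)
    refine ⟨c, ⟨⟨hc', (covers_iff_eb_eb inf_le_left hc' he).2 h2⟩, (hind c B hc' hB).2 h1⟩, ?_⟩
    rintro c' ⟨⟨h3, -⟩, h4⟩
    exact eb_injective h3 hc' (hk_unique le_top hN (blk_eb hd) hdQ' (blk_eb he) hde (blk_eB hB) hc
      ((hb _).2 (blk_eb h3)) h1 ((hind c' B h3 hB).1 h4) h2).symm

end Cfsg.Agent.S4674
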