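import Cfsg.Statements.S4675
import Mathlib
import Cfsg.Agent.H8.Height2
import Cfsg.Agent.S0908

set_option autoImplicit false
open Cfsg

namespace Cfsg.Agent.S4675

-- OPENS
open Cfsg.Agent.H8
open Cfsg.Agent.H6 hiding blockCoeff_eq_zero blockDefect_eq blockHeight_eq block_eq_blockOf
  block_eq_of_mem block_nonempty centralChar_mem char_mem conj_char_mem deg_factorization_le
  exists_height_zero irrOne_mem_principal isPBlock_blockOf isPBlock_principal mem_blockOf_self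
  orderOf_conj' sameBlock_refl sameBlock_symm sameBlock_trans weak_orth weak_orth'
open Cfsg.Agent.H4 hiding exists_int_of_isIntegral_rat
open Cfsg.Agent.H5
open Cfsg.Agent.H3


/-- Fix a prime p and a maximal ideal M of the algebraic integers containing p. Let B be a p-block of the finite group G with defect group P and p-regular rank one (a single irreducible Brauer character). Then there are a function φ on G that is, on the p-regular elements, an integer combination of the members of B, and natural numbers d_χ (χ ∈ B), such that every χ ∈ B agrees with d_χ·φ on the p-regular elements and Σ_{χ ∈ B} d_χ² equals the order of P (the single Cartan invariant of B is the order of P). -/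
theorem result {G : Type*} [Group G] [Fintype G] (p : ℕ) [Fact p.Prime] (M : Ideal Cfsg.AlgInt) (hM : Cfsg.IsPModular p M) (B : Set (Cfsg.IrrCharacter G)) (hB : Cfsg.IsPBlock M B) (P : Subgroup G) (hP : Cfsg.IsDefectGroup p M B P) (hl : Cfsg.blockRank p B = 1) : ∃ φ : G → ℂ, ∃ d : Cfsg.IrrCharacter G → ℕ, (∃ n : Cfsg.IrrCharacter G → ℤ, ∀ x : G, Cfsg.IsPRegular p x → φ x = ∑ᶠ ψ ∈ B, (n ψ : ℂ) * (ψ : G → ℂ) x) ∧ (∀ χ ∈ B, ∀ x : G, Cfsg.IsPRegular p x → (χ : G → ℂ) x = (d χ : ℂ) * φ x) ∧ ∑ᶠ χ ∈ B, d χ ^ 2 = Nat.card P := by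
  classical
  have := hM.2.1
  have hp : p.Prime := Fact.out
  obtain ⟨χ₀, hχ₀, h0⟩ := exists_height_zero (p := p) (block_nonempty hB)
  -- all regular parts are proportional
  have hprop : ∀ χ ∈ B, ∀ ψ ∈ B, (ψ : G → ℂ) 1 • pRegularPart p (χ : G → ℂ) =
      (χ : G → ℂ) 1 • pRegularPart p (ψ : G → ℂ) := by
    intro χ hχ ψ hψ
    rw [blockRank_eq] at hl
    have hne : (⟨pRegL p G ψ, ψ, mem_bspan_of_mem hψ, rfl⟩ : (bspan B).map (pRegL p G)) ≠ 0 := by
      intro h
      have := congrFun (congrArg Subtype.val h) 1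
      simp only [pRegL_apply, pReg_one_apply hp] at this
      exact irr_one_ne_zero ψ this
    obtain ⟨c, hc⟩ := (finrank_eq_one_iff_of_nonzero' _ hne).mp hl
      ⟨pRegL p G χ, χ, mem_bspan_of_mem hχ, rfl⟩
    have hc' : c • pRegularPart p (ψ : G → ℂ) = pRegularPart p (χ : G → ℂ) :=
      congrArg Subtype.val hc
    have h1 := congrFun hc' 1
    rw [Pi.smul_apply, pReg_one_apply hp, pReg_one_apply hp, smul_eq_mul] at h1
    rw [← hc', smul_smul, ← h1, mul_comm]
  set g : ℤ := (bfin B).gcd (fun χ => (charDegree (χ : G → ℂ) : ℤ)) with hg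
  obtain ⟨n, hn⟩ : ∃ n : IrrCharacter G → ℤ,
      g = ∑ χ ∈ bfin B, (charDegree (χ : G → ℂ) : ℤ) * n χ := Finset.gcd_eq_sum_mul _ _
  have hgd : ∀ χ ∈ B, g ∣ (charDegree (χ : G → ℂ) : ℤ) := fun χ hχ =>
    Finset.gcd_dvd (mem_bfin.mpr hχ)
  have hg0 : 0 ≤ g := by
    rw [hg, ← Finset.normalize_gcd]; exact Int.nonneg_of_normalize_eq_self (normalize_idem _)
  have hgne : g ≠ 0 := by
    intro h
    have := hgd χ₀ hχ₀
    rw [h, zero_dvd_iff] at this
    exact irr_charDegree_ne_zero χ₀ (by exact_mod_cast this)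
  set d : IrrCharacter G → ℕ := fun χ => charDegree (χ : G → ℂ) / g.toNat with hd
  have hgn : (g.toNat : ℤ) = g := Int.toNat_of_nonneg hg0
  have hdg : ∀ χ ∈ B, (d χ : ℤ) * g = charDegree (χ : G → ℂ) := by
    intro χ hχ
    have : g.toNat ∣ charDegree (χ : G → ℂ) := by
      rw [← Int.natCast_dvd_natCast, hgn]; exact hgd χ hχ
    rw [← hgn]
    exact_mod_cast Nat.div_mul_cancel this
  have hdg' : ∀ χ ∈ B, (d χ : ℂ) * g = (χ : G → ℂ) 1 := by
    intro χ hχ
    rw [← irr_coe_charDegree]; exact_mod_cast hdg χ hχ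
  have hgC : (g : ℂ) ≠ 0 := by exact_mod_cast hgne
  set φ : G → ℂ := ∑ ψ ∈ bfin B, (n ψ : ℂ) • pRegularPart p (ψ : G → ℂ) with hφ
  have hφ1 : ∀ χ ∈ B, pRegularPart p (χ : G → ℂ) = (d χ : ℂ) • φ := by
    intro χ hχ
    apply smul_right_injective _ hgC
    simp only
    rw [smul_smul, mul_comm, hdg' χ hχ, hφ, Finset.smul_sum]
    have h1 : (g : ℂ) = ∑ ψ ∈ bfin B, (n ψ : ℂ) * (ψ : G → ℂ) 1 := by
      rw [hn]; push_cast
      exact Finset.sum_congr rfl fun ψ _ => by rw [irr_coe_charDegree, mul_comm]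
    rw [h1, Finset.sum_smul]
    refine Finset.sum_congr rfl fun ψ hψ => ?_
    rw [mul_smul, hprop χ hχ ψ (mem_bfin.mp hψ), smul_comm]
  have hsum1 : ∑ ψ ∈ bfin B, n ψ * d ψ = 1 := by
    apply mul_right_cancel₀ hgne
    rw [one_mul, Finset.sum_mul]
    conv_rhs => rw [hn]
    exact Finset.sum_congr rfl fun ψ hψ => by rw [mul_assoc, hdg ψ (mem_bfin.mp hψ), mul_comm]
  refine ⟨φ, d, ⟨n, fun x hx => ?_⟩, fun χ hχ x hx => ?_, ?_⟩
  · rw [finsum_mem_bfin, hφ, Finset.sum_apply]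
    exact Finset.sum_congr rfl fun ψ _ => by rw [Pi.smul_apply, pReg_of_not_dvd _ hx]; rfl
  · rw [← pReg_of_not_dvd (p := p) (χ : G → ℂ) hx, hφ1 χ hχ]; rfl
  · rw [finsum_mem_bfin, Cfsg.Agent.S0908.result p M hM B hB P hP]
    set T : ℤ := ∑ χ ∈ bfin B, ∑ ψ ∈ bfin B, n χ * n ψ * cm p B χ ψ with hT
    have hc : ∀ χ ∈ B, ∀ ψ ∈ B, (cm p B χ ψ : ℂ) =
        d χ * d ψ * (((p ^ blockDefect p B : ℕ) : ℂ) * classInner φ φ) := by
      intro χ hχ ψ hψ
      rw [cm_cast hχ, ← classInner_pReg_pReg, hφ1 χ hχ, hφ1 ψ hψ, classInner_smul_left,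
        classInner_smul_right, map_natCast]
      ring
    have hT1 : (T : ℂ) = ((p ^ blockDefect p B : ℕ) : ℂ) * classInner φ φ := by
      have h1 : ((∑ ψ ∈ bfin B, n ψ * d ψ : ℤ) : ℂ) = 1 := by rw [hsum1]; simp
      push_cast at h1
      calc (T : ℂ) = ∑ χ ∈ bfin B, ∑ ψ ∈ bfin B, (n χ * d χ : ℂ) * ((n ψ * d ψ) *
            (((p ^ blockDefect p B : ℕ) : ℂ) * classInner φ φ)) := by
            rw [hT]; push_cast
            refine Finset.sum_congr rfl fun χ hχ => Finset.sum_congr rfl fun ψ hψ => ?_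
            rw [hc χ (mem_bfin.mp hχ) ψ (mem_bfin.mp hψ)]; push_cast; ring
        _ = _ := by
            simp only [← Finset.mul_sum, ← Finset.sum_mul, h1, one_mul]
    have hc' : ∀ χ ∈ B, ∀ ψ ∈ B, cm p B χ ψ = d χ * d ψ * T := by
      intro χ hχ ψ hψ
      have := hc χ hχ ψ hψ
      rw [← hT1] at this
      exact_mod_cast this
    have h1 := sum_cm_self hM hB
    rw [hl, Finset.sum_congr rfl (fun χ hχ => hc' χ (mem_bfin.mp hχ) χ (mem_bfin.mp hχ)),
      ← Finset.sum_mul, Nat.cast_one, mul_one] at h1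
    have h2 : ¬ (p : ℤ) ∣ T := fun h =>
      not_dvd_cm_self hM hB hχ₀ h0 hχ₀ h0 (by rw [hc' χ₀ hχ₀ χ₀ hχ₀]; exact Dvd.dvd.mul_left h _)
    have h3 : T.natAbs ∣ p ^ blockDefect p B := by
      rw [← Int.natCast_dvd_natCast, Int.natAbs_dvd]; push_cast
      exact Dvd.intro_left _ h1
    obtain ⟨k, -, hk⟩ := (Nat.dvd_prime_pow hp).mp h3
    have hk0 : k = 0 := by
      by_contra hk0
      apply h2
      rw [← Int.dvd_natAbs, hk]
      exact_mod_cast dvd_pow_self p hk0
    rw [hk0, pow_zero] at hk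
    have h4 : (0 : ℤ) ≤ ∑ χ ∈ bfin B, (d χ : ℤ) * d χ := Finset.sum_nonneg fun _ _ => by positivity
    have h5 : (0 : ℤ) < (p : ℤ) ^ blockDefect p B := pow_pos (by exact_mod_cast hp.pos) _
    have h6 : T = 1 := by
      rcases Int.natAbs_eq_iff.mp hk with h | h
      · simpa using h
      · rw [h] at h1; simp at h1; omega
    rw [h6, mul_one] at h1
    zify
    rw [← h1]
    exact Finset.sum_congr rfl fun _ _ => sq _

end Cfsg.Agent.S4675
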