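import Cfsg.Statements.S4679
import Cfsg.Agent.H7.Local3
-- import your own Cfsg.Agent.* helpers here

set_option autoImplicit false
open Cfsg

namespace Cfsg.Agent.S4679

open MonoidAlgebra Cfsg.Agent.H3 Cfsg.Agent.H4 Cfsg.Agent.H7
open Cfsg.Agent.H6 (Res locRing redC redA eB fB intAlg classSum omega chiL)
open scoped Pointwise
set_option linter.style.haveILetI false


/-- Fix a prime p and a maximal ideal M of the algebraic integers containing p, a p-block B of the finite group G with maximal Brauer pair (P, e), its fusion system F on P, a Brauer pair (Q, f) ≤ (P, e), and let T be the stabilizer of f in N_G(Q). Then Q is fully normalized in F if and only if N_P(Q) is a defect group of the block of T whose idempotent is that of f. -/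
theorem result {G : Type*} [Group G] [Fintype G] (p : ℕ) [Fact p.Prime] (M : Ideal Cfsg.AlgInt) (hM : Cfsg.IsPModular p M) (B : Set (Cfsg.IrrCharacter G)) (P : Subgroup G) (e : Set (Cfsg.IrrCharacter (Subgroup.centralizer (P : Set G)))) (hmax : Cfsg.IsMaximalBrauerPair p M B P e) (F : Cfsg.FusionSystem P) (hF : Cfsg.IsBlockFusionSystemOn p M B P e F) (Q : Subgroup G) (f : Set (Cfsg.IrrCharacter (Subgroup.centralizer (Q : Set G)))) (hQP : Q ≤ P) (hf : Cfsg.IsPBlock M f) (hle : Cfsg.SubpairLE p M Q f P e) (T : Subgroup G) (hT : ∀ y : G, y ∈ T ↔ y ∈ Subgroup.normalizer (Q : Set G) ∧ Cfsg.StabilizesBlock (Subgroup.centralizer (Q : Set G)) f y) : F.IsFullyNormalized Q ↔ ∃ F' : Set (Cfsg.IrrCharacter T), Cfsg.IsPBlock M F' ∧ (∀ t : T, Cfsg.blockCoeff F' t = Cfsg.subgroupBlockCoeff (Subgroup.centralizer (Q : Set G)) f (t : G)) ∧ Cfsg.IsDefectGroup p M F' ((P ⊓ Subgroup.normalizer (Q : Set G)).subgroupOf T) := by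
  haveI := hM.2.1; haveI := H6.charP_res hM
  have S := maxP_of_isMaximal hM hmax
  have h := SubpairLE.ple hM hle
  have hf' := h.isPair S.pair
  obtain rfl := NS_eq_of_forall hf hT
  rw [S.fn_iff ((isBlockFusionSystemOn_iff hM hmax).1 hF) h]
  have h0 := h.inf_le_NS S.pair (le_top : P ≤ ⊤)
  constructor
  · intro h1
    obtain ⟨F', hF', h2, h3⟩ := exists_block_coeff hf'.centralizer_le_NS hf hf'.blk_NS
    exact ⟨F', hF', h2, (isDefectGroup_subgroupOf_iff' hM hF' h0).2 (by rwa [h3])⟩
  · rintro ⟨F', hF', h2, h3⟩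
    rw [isDefectGroup_subgroupOf_iff' hM hF' h0,
      (eb_eq_of_coeff (M := M) hf'.centralizer_le_NS h2).2] at h3
    exact h3

end Cfsg.Agent.S4679
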