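import Cfsg.Statements.S4681
import Cfsg.Agent.H7.Local3
-- import your own Cfsg.Agent.* helpers here

set_option autoImplicit false
open Cfsg

namespace Cfsg.Agent.S4681

open MonoidAlgebra Cfsg.Agent.H3 Cfsg.Agent.H4 Cfsg.Agent.H7
open Cfsg.Agent.H6 (Res locRing redC redA eB fB intAlg classSum omega chiL)
open scoped Pointwise
set_option linter.style.haveILetI false


/-- Fix a prime p and a maximal ideal M of the algebraic integers containing p. Let B₀ be the principal p-block of the finite group G, P a Sylow p-subgroup and e₀ the principal p-block of C_G(P). Then (P, e₀) is a maximal Brauer pair of B₀, and the fusion system of B₀ on (P, e₀) is the fusion system of G on P: its maps from each subgroup of P are exactly the conjugation maps into P by elements of G. -/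
theorem result {G : Type*} [Group G] [Fintype G] (p : ℕ) [Fact p.Prime] (M : Ideal Cfsg.AlgInt) (hM : Cfsg.IsPModular p M) (S : Sylow p G) : Cfsg.IsMaximalBrauerPair p M (Cfsg.principalBlock M G) (S : Subgroup G) (Cfsg.principalBlock M (Subgroup.centralizer ((S : Subgroup G) : Set G))) ∧ ∀ F : Cfsg.FusionSystem (S : Subgroup G), Cfsg.IsBlockFusionSystemOn p M (Cfsg.principalBlock M G) (S : Subgroup G) (Cfsg.principalBlock M (Subgroup.centralizer ((S : Subgroup G) : Set G))) F → ∀ Q : Subgroup G, F.Hom Q = (Cfsg.groupFusionSystem (S : Subgroup G)).Hom Q := by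
  haveI := hM.2.1; haveI := H6.charP_res hM
  have hmax : IsMaximalBrauerPair p M (principalBlock M G) (S : Subgroup G)
      (principalBlock M (Subgroup.centralizer ((S : Subgroup G) : Set G))) :=
    (isMaximalBrauerPair_iff hM).2 ⟨(isBrauerPairOf_principal_iff hM S.isPGroup'
      H6.isPBlock_principal).2 rfl, (isDef_iff_sylowIn_of_aug (eB_mem_Fix _).2
        (by rw [aug_eB_principal]; exact one_ne_zero)).2 (sylowIn_top S)⟩
  refine ⟨hmax, fun F hF Q => ?_⟩
  have S' := maxP_of_isMaximal hM hmax
  have hF' := (isBlockFusionSystemOn_iff hM hmax).1 hF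
  ext φ
  constructor
  · intro hφ
    obtain ⟨g, -, h1, -⟩ := (hF' Q φ).1 hφ
    exact ⟨(F.le_of_mem hφ).1, (F.le_of_mem hφ).2, g, h1⟩
  · rintro ⟨h1, h2, g, h3⟩
    obtain ⟨f, hf⟩ := exists_ple S'.pair h1
    obtain ⟨f', hf'⟩ := exists_ple S'.pair (Q := MulAut.conj g • Q) (by
      rw [← range_eq_conj_smul h3]; rintro _ ⟨x, rfl⟩; exact h2 x)
    have h4 : ∀ R c, PLe p ⊤ R c S (eb M _ (principalBlock M _)) → aug (Res M) G c ≠ 0 :=
      fun R c h => third_main le_rfl S'.norm S'.prim (by rw [aug_eB_principal]; exact one_ne_zero)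
        (h.isPair S'.pair) le_top (S'.br_mul_of_ple h)
    refine (hF' Q φ).2 ⟨g, trivial, h3, f, hf, ?_⟩
    rwa [((hf.isPair S'.pair).conj_mem (Subgroup.le_normalizer (Subgroup.mem_top g))).blk.eq_of_aug
      (hf'.isPair S'.pair).blk (by rw [aug_cj]; exact h4 _ _ hf) (h4 _ _ hf')]

end Cfsg.Agent.S4681
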