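import Cfsg.Statements.S4682
import Cfsg.Agent.H7.Local3
-- import your own Cfsg.Agent.* helpers here

set_option autoImplicit false
open Cfsg

namespace Cfsg.Agent.S4682

open MonoidAlgebra Cfsg.Agent.H3 Cfsg.Agent.H4 Cfsg.Agent.H7
open Cfsg.Agent.H6 (Res locRing redC redA eB fB intAlg classSum omega chiL)
open scoped Pointwise
set_option linter.style.haveILetI false


/-- Fix a prime p and a maximal ideal M of the algebraic integers containing p, a p-block B of the finite group G with maximal Brauer pair (P, e), P abelian, and a Brauer pair (Q, f) ≤ (P, e). Let T_Q be the stabilizer of f in N_G(Q) and T_P the stabilizer of e in N_G(P). Then every element of T_Q is a product of an element of T_P and an element of C_G(Q); and the index of C_G(Q) in T_Q equals the index of T_P ∩ C_G(Q) in T_P ∩ N_G(Q). -/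
theorem result {G : Type*} [Group G] [Fintype G] (p : ℕ) [Fact p.Prime] (M : Ideal Cfsg.AlgInt) (hM : Cfsg.IsPModular p M) (B : Set (Cfsg.IrrCharacter G)) (P : Subgroup G) (e : Set (Cfsg.IrrCharacter (Subgroup.centralizer (P : Set G)))) (hmax : Cfsg.IsMaximalBrauerPair p M B P e) (hab : ∀ x ∈ P, ∀ y ∈ P, x * y = y * x) (Q : Subgroup G) (f : Set (Cfsg.IrrCharacter (Subgroup.centralizer (Q : Set G)))) (hQP : Q ≤ P) (hf : Cfsg.IsPBlock M f) (hle : Cfsg.SubpairLE p M Q f P e) (TQ : Subgroup G) (hTQ : ∀ y : G, y ∈ TQ ↔ y ∈ Subgroup.normalizer (Q : Set G) ∧ Cfsg.StabilizesBlock (Subgroup.centralizer (Q : Set G)) f y) (TP : Subgroup G) (hTP : ∀ y : G, y ∈ TP ↔ y ∈ Subgroup.normalizer (P : Set G) ∧ Cfsg.StabilizesBlock (Subgroup.centralizer (P : Set G)) e y) : (∀ x ∈ TQ, ∃ y ∈ TP, ∃ c ∈ Subgroup.centralizer (Q : Set G), x = y * c) ∧ ((Subgroup.centralizer (Q : Set G)).subgroupOf TQ).index = ((TP ⊓ Subgroup.centralizer (Q : Set G)).subgroupOf (TP ⊓ Subgroup.normalizer (Q :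 Set G))).index := by
  haveI := hM.2.1; haveI := H6.charP_res hM
  have S := maxP_of_isMaximal hM hmax
  have h := SubpairLE.ple hM hle
  obtain rfl := NS_eq_of_forall hf hTQ
  obtain rfl := NS_eq_of_forall hmax.1.1.2 hTP
  have h1 : ∀ x ∈ NS ⊤ Q (eb M _ f), ∃ y ∈ NS ⊤ P (eb M _ e),
      ∃ c ∈ Subgroup.centralizer (Q : Set G), x = y * c := fun x hx =>
    S.frattini_central h (fun y hy z hz => hab z (hQP hz) y hy) hx
  refine ⟨h1, ?_⟩
  have h2 : NS ⊤ Q (eb M _ f) = (NS ⊤ P (eb M _ e) ⊓ Subgroup.normalizer (Q : Set G)) ⊔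
      Subgroup.centralizer (Q : Set G) := by
    refine le_antisymm (fun x hx => ?_) (sup_le (fun x hx => ⟨hx.2, trivial, h.cj_eq S.pair
      (S.norm (Subgroup.mem_top x)) hx.2 hx.1.1 hx.1.2.2⟩) (h.isPair S.pair).centralizer_le_NS)
    obtain ⟨y, hy, c, hc, rfl⟩ := h1 x hx
    exact Subgroup.mul_mem_sup ⟨hy, (Subgroup.mul_mem_cancel_right _
      (Subgroup.centralizer_le_normalizer _ hc)).1 hx.1⟩ hc
  have h3 : ∀ H N : Subgroup G, H ≤ Subgroup.normalizer (N : Set G) →
      N.relIndex (H ⊔ N) = N.relIndex H := fun H N h => by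
    have hn := Subgroup.normal_subgroupOf_sup_of_le_normalizer h
    have := Subgroup.relIndex_sup_right (H.subgroupOf (H ⊔ N)) (N.subgroupOf (H ⊔ N))
    rwa [← Subgroup.subgroupOf_sup le_sup_left le_sup_right, Subgroup.subgroupOf_self,
      Subgroup.relIndex_top_right, Subgroup.relIndex_subgroupOf le_sup_left] at this
  rw [h2, ← Subgroup.relIndex, ← Subgroup.relIndex, h3 _ _
    (inf_le_right.trans (normalizer_le_normalizer_centralizer Q)),
    ← Subgroup.inf_relIndex_right, ← Subgroup.inf_relIndex_right (NS ⊤ P _ ⊓ _)]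
  congr 1
  exact le_antisymm (le_inf (le_inf (inf_le_right.trans inf_le_left) inf_le_left) inf_le_right)
    (inf_le_inf_right _ inf_le_right)

end Cfsg.Agent.S4682
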