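import Cfsg.Statements.S4684
import Cfsg.Agent.H7.Star4
-- import your own Cfsg.Agent.* helpers here

set_option autoImplicit false
open Cfsg

namespace Cfsg.Agent.S4684

open MonoidAlgebra Cfsg.Agent.H3 Cfsg.Agent.H4 Cfsg.Agent.H7
open Cfsg.Agent.H6 (Res locRing redC redA eB fB intAlg classSum omega chiL)
open scoped Pointwise
set_option linter.style.haveILetI false


/-- Fix a prime p and a maximal ideal M of the algebraic integers containing p, a p-block B of the finite group G with maximal Brauer pair (P, e) and fusion system F on P. Then the number of irreducible characters of height zero in B is divisible by the index in P of the focal subgroup of F. -/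
theorem result {G : Type*} [Group G] [Fintype G] (p : ℕ) [Fact p.Prime] (M : Ideal Cfsg.AlgInt) (hM : Cfsg.IsPModular p M) (B : Set (Cfsg.IrrCharacter G)) (P : Subgroup G) (e : Set (Cfsg.IrrCharacter (Subgroup.centralizer (P : Set G)))) (hmax : Cfsg.IsMaximalBrauerPair p M B P e) (F : Cfsg.FusionSystem P) (hF : Cfsg.IsBlockFusionSystemOn p M B P e F) : (F.focalSubgroup.subgroupOf P).index ∣ Nat.card {χ : Cfsg.IrrCharacter G // χ ∈ B ∧ Cfsg.blockHeight p B (χ : G → ℂ) = 0} := by
  haveI := hM.2.1; haveI := H6.charP_res hM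
  haveI := H8.subFintype P
  have S := maxP_of_isMaximal hM hmax
  have hB : IsPBlock M B := hmax.1.2.1
  have hF' := (isBlockFusionSystemOn_iff hM hmax).1 hF
  have h := S.relIndex_dvd_card hM hB (linKer (F.focalSubgroup.subgroupOf P)) ⊥
    (fun _ h => hF'.stable hM S.pair h) (fun χ => χ ∈ B ∧ blockHeight p B (χ : G → ℂ) = 0)
    (fun _ h => h.1) (fun χ h ψ hψ hd => ⟨hψ, by
      rw [← h.2, blockHeight, blockHeight, charDegree, charDegree, hd]⟩)
    fun lam hl χ h hs => Subgroup.mem_bot.2 (MonoidHom.ext fun u => Units.ext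
      (S.eq_one_of_starP_eq hM hB (hF'.stable hM S.pair hl) hs (S.sub_ne_zero hM hB h.1 h.2 u.2)))
  rwa [Subgroup.relIndex_bot_left, card_linKer (hF'.commutator_mem S.pair)] at h

end Cfsg.Agent.S4684
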