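import Cfsg.Statements.S4685
import Cfsg.Agent.H7.Star4
-- import your own Cfsg.Agent.* helpers here

set_option autoImplicit false
open Cfsg

namespace Cfsg.Agent.S4685

open MonoidAlgebra Cfsg.Agent.H3 Cfsg.Agent.H4 Cfsg.Agent.H7
open Cfsg.Agent.H6 (Res locRing redC redA eB fB intAlg classSum omega chiL)
open scoped Pointwise
set_option linter.style.haveILetI false


/-- Fix a prime p and a maximal ideal M of the algebraic integers containing p, a p-block B of the finite group G with maximal Brauer pair (P, e) and fusion system F on P. Then for every h the number of irreducible characters of height h in B is divisible by the index of Z(P) ∩ foc(F) in Z(P), where foc(F) is the focal subgroup of F. -/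
theorem result {G : Type*} [Group G] [Fintype G] (p : ℕ) [Fact p.Prime] (M : Ideal Cfsg.AlgInt) (hM : Cfsg.IsPModular p M) (B : Set (Cfsg.IrrCharacter G)) (P : Subgroup G) (e : Set (Cfsg.IrrCharacter (Subgroup.centralizer (P : Set G)))) (hmax : Cfsg.IsMaximalBrauerPair p M B P e) (F : Cfsg.FusionSystem P) (hF : Cfsg.IsBlockFusionSystemOn p M B P e F) (h : ℕ) : ((P ⊓ Subgroup.centralizer (P : Set G) ⊓ F.focalSubgroup).subgroupOf (P ⊓ Subgroup.centralizer (P : Set G))).index ∣ Nat.card {χ : Cfsg.IrrCharacter G // χ ∈ B ∧ Cfsg.blockHeight p B (χ : G → ℂ) = h} := by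
  haveI := hM.2.1; haveI := H6.charP_res hM
  haveI := H8.subFintype P
  have S := maxP_of_isMaximal hM hmax
  have hB : IsPBlock M B := hmax.1.2.1
  have hF' := (isBlockFusionSystemOn_iff hM hmax).1 hF
  have hab := hF'.commutator_mem S.pair
  haveI := normal_of_commutator_mem hab le_rfl
  have h1 := S.relIndex_dvd_card hM hB (linKer (F.focalSubgroup.subgroupOf P))
    (linKer ((Subgroup.centralizer (P : Set G)).subgroupOf P ⊔ F.focalSubgroup.subgroupOf P))
    (fun _ h => hF'.stable hM S.pair h) (fun χ => χ ∈ B ∧ blockHeight p B (χ : G → ℂ) = h)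
    (fun _ h => h.1) (fun χ h ψ hψ hd => ⟨hψ, by
      rw [← h.2, blockHeight, blockHeight, charDegree, charDegree, hd]⟩)
    fun lam hl χ h hs => (sup_le (a := (Subgroup.centralizer (P : Set G)).subgroupOf P)
      (b := F.focalSubgroup.subgroupOf P) (c := lam.ker) (fun u hu => Units.ext (S.eq_one_of_starP_eq hM hB (hF'.stable hM S.pair hl) hs
        (S.sub_ne_zero_of_central hM hB h.1 u.2 hu))) hl :)
  rw [relIndex_linKer hab le_sup_right, Subgroup.relIndex_sup_right,
    ← Subgroup.inf_subgroupOf_left (Subgroup.centralizer (P : Set G)),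
    Subgroup.relIndex_subgroupOf inf_le_left] at h1
  rwa [Subgroup.inf_subgroupOf_left]

end Cfsg.Agent.S4685
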