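import Cfsg.Statements.S4687
import Cfsg.Agent.H7.Local3
-- import your own Cfsg.Agent.* helpers here

set_option autoImplicit false
open Cfsg

namespace Cfsg.Agent.S4687

open MonoidAlgebra Cfsg.Agent.H3 Cfsg.Agent.H4 Cfsg.Agent.H7
open Cfsg.Agent.H6 (Res locRing redC redA eB fB intAlg classSum omega chiL)
open scoped Pointwise
set_option linter.style.haveILetI false


/-- Fix a prime p and a maximal ideal M of the algebraic integers containing p, and a p-block B of the finite group G with maximal Brauer pair (P, e), P abelian. Then B is nilpotent if and only if its inertial quotient is trivial: every element of N_G(P) stabilizing e centralizes P. -/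
theorem result {G : Type*} [Group G] [Fintype G] (p : ℕ) [Fact p.Prime] (M : Ideal Cfsg.AlgInt) (hM : Cfsg.IsPModular p M) (B : Set (Cfsg.IrrCharacter G)) (P : Subgroup G) (e : Set (Cfsg.IrrCharacter (Subgroup.centralizer (P : Set G)))) (hmax : Cfsg.IsMaximalBrauerPair p M B P e) (hab : ∀ x ∈ P, ∀ y ∈ P, x * y = y * x) : Cfsg.IsNilpotentBlock p M B ↔ ∀ x : G, x ∈ Subgroup.normalizer (P : Set G) → Cfsg.StabilizesBlock (Subgroup.centralizer (P : Set G)) e x → x ∈ Subgroup.centralizer (P : Set G) := by
  haveI := hM.2.1; haveI := H6.charP_res hM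
  have S := maxP_of_isMaximal hM hmax
  have h1 : P ≤ Subgroup.centralizer (P : Set G) := fun x hx y hy => hab y hy x hx
  rw [isNilpotentBlock_iff hM, and_iff_right hmax.1.2.1]
  constructor
  · intro h x hx hs
    exact (S.le_of_nilB h).trans (sup_le le_rfl h1)
      ⟨hx, trivial, ((stabilizesBlock_iff hmax.1.1.2).1 hs).2⟩
  · exact fun h => S.nilB_of_central h1 fun x hx => h x hx.1 ((stabilizesBlock_iff hmax.1.1.2).2
      ⟨normalizer_le_normalizer_centralizer P hx.1, hx.2.2⟩)

end Cfsg.Agent.S4687
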