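import Cfsg.Statements.S4692
import Cfsg.Agent.H7.Local3
-- import your own Cfsg.Agent.* helpers here

set_option autoImplicit false
open Cfsg

namespace Cfsg.Agent.S4692

open MonoidAlgebra Cfsg.Agent.H3 Cfsg.Agent.H4 Cfsg.Agent.H7
open Cfsg.Agent.H6 (Res locRing redC redA eB fB intAlg classSum omega chiL)
open scoped Pointwise
set_option linter.style.haveILetI false


/-- Fix a prime p and a maximal ideal M of the algebraic integers containing p. Let N be a normal subgroup of p-power index in the finite group G and c a p-block of N stable under conjugation by G, and let B be the p-block of G whose idempotent is that of c (it exists and is unique). Then c is nilpotent as a block of N if and only if B is nilpotent as a block of G. -/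
theorem result {G : Type*} [Group G] [Fintype G] (p : ℕ) [Fact p.Prime] (M : Ideal Cfsg.AlgInt) (hM : Cfsg.IsPModular p M) (N : Subgroup G) [N.Normal] (hN : ∃ k : ℕ, N.index = p ^ k) (c : Set (Cfsg.IrrCharacter N)) (hc : Cfsg.IsPBlock M c) (hst : ∀ x : G, Cfsg.StabilizesBlock N c x) (B : Set (Cfsg.IrrCharacter G)) (hB : Cfsg.IsPBlock M B) (hBc : ∀ g : G, Cfsg.blockCoeff B g = Cfsg.subgroupBlockCoeff N c g) : Cfsg.IsNilpotentBlock p M c ↔ Cfsg.IsNilpotentBlock p M B := by
  haveI := hM.2.1; haveI := H6.charP_res hM
  obtain ⟨n, hn⟩ := hN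
  have h1 : eB M B = eb M N c := by
    rw [← redA_fB, ← redA_fb]
    congr 1
    ext g
    rw [coeff_fb, ← hBc, H6.coeff_fB]
  rw [isNilpotentBlock_iff_eb hM, isNilpotentBlock_iff hM, and_iff_right hc, and_iff_right hB, h1]
  exact nilB_iff_of_relIndex hM le_top Subgroup.le_normalizer_of_normal
    (by rwa [Subgroup.relIndex_top_right])
    ⟨(eb_mem_Fix c).1, fun g _ => ((stabilizesBlock_iff hc).1 (hst g)).2⟩ (blk_eb hc).idem

end Cfsg.Agent.S4692
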