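import Cfsg.Statements.S4693
import Cfsg.Agent.H7.Local3
-- import your own Cfsg.Agent.* helpers here

set_option autoImplicit false
open Cfsg

namespace Cfsg.Agent.S4693

open MonoidAlgebra Cfsg.Agent.H3 Cfsg.Agent.H4 Cfsg.Agent.H7
open Cfsg.Agent.H6 (Res locRing redC redA eB fB intAlg classSum omega chiL)
open scoped Pointwise
set_option linter.style.haveILetI false


/-- Fix a prime p and a maximal ideal M of the algebraic integers containing p, a p-block B of the finite group G with maximal Brauer pair (P, e) and fusion system F on P, and a Brauer pair (Q, f) ≤ (P, e) with Q centric in F. Suppose every element of G normalizes Q and stabilizes f. Then the idempotent of B agrees with that of f modulo M at every element of G, and f is the idempotent of a nilpotent block of Q·C_G(Q): some p-block of Q·C_G(Q) has the idempotent coefficients of f and is nilpotent. -/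
theorem result {G : Type*} [Group G] [Fintype G] (p : ℕ) [Fact p.Prime] (M : Ideal Cfsg.AlgInt) (hM : Cfsg.IsPModular p M) (B : Set (Cfsg.IrrCharacter G)) (P : Subgroup G) (e : Set (Cfsg.IrrCharacter (Subgroup.centralizer (P : Set G)))) (hmax : Cfsg.IsMaximalBrauerPair p M B P e) (F : Cfsg.FusionSystem P) (hF : Cfsg.IsBlockFusionSystemOn p M B P e F) (Q : Subgroup G) (f : Set (Cfsg.IrrCharacter (Subgroup.centralizer (Q : Set G)))) (hQP : Q ≤ P) (hf : Cfsg.IsPBlock M f) (hle : Cfsg.SubpairLE p M Q f P e) (hcen : F.IsCentric Q) (hG : ∀ x : G, x ∈ Subgroup.normalizer (Q : Set G) ∧ Cfsg.StabilizesBlock (Subgroup.centralizer (Q : Set G)) f x) : (∀ g : G, Cfsg.MemLocalIdeal M (Cfsg.blockCoeff B g - Cfsg.subgroupBlockCoeff (Subgroup.centralizer (Q : Set G)) f g)) ∧ ∃ F' : Set (Cfsg.IrrCharacter ↥(Q ⊔ Subgroup.centralizer (Q : Set G))), Cfsg.IsPBlock M F' ∧ (∀ t : ↥(Q ⊔ Subgroup.centralizer (Q : Set G)), Cfsg.blockCoeff F' t = Cfsg.subgroupBlockCoeff (Subgroup.centralizer (Q : Set G)) f (t :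 G)) ∧ Cfsg.IsNilpotentBlock p M F' := by
  haveI := hM.2.1; haveI := H6.charP_res hM
  have S := maxP_of_isMaximal hM hmax
  have h := SubpairLE.ple hM hle
  have hf' := h.isPair S.pair
  have hT : (⊤ : Subgroup G) = NS ⊤ Q (eb M _ f) :=
    NS_eq_of_forall hf fun y => iff_of_true trivial (hG y)
  constructor
  · intro g
    have h1 : Blk ⊤ (eb M _ f) := hT ▸ hf'.blk_NS
    have h2 := S.br_mul_of_ple h
    rw [br_eq_self_of_idem hf'.isPGroup le_top (fun x _ => (hG x).1) S.prim.mem S.prim.idem] at h2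
    have h3 := fb_eq_fB_of_eb_eq hf hmax.1.2.1 (Blk.eq_of_mul_ne_zero S.prim h1
      (by rw [h2]; exact h1.ne_zero)).symm
    rw [← coeff_fb, h3, H6.coeff_fB, sub_self]
    exact H6.memLocalIdeal_zero
  · have h1 := (blk_sup_centralizer_iff hf'.isPGroup).2 (blk_eb hf)
    obtain ⟨F', hF', h2, h3⟩ := exists_block_coeff le_sup_right hf h1
    refine ⟨F', hF', h2, (isNilpotentBlock_iff_eb hM).2 ⟨hF', h3 ▸ ?_⟩⟩
    have h4 := (hf'.isDef_sup_iff le_top).2
      ((S.centric_iff ((isBlockFusionSystemOn_iff hM hmax).1 hF) le_top h).1 hcen)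
    rw [CK_top] at h4
    exact nilB_of_isDef_of_le le_rfl Subgroup.le_normalizer h1 h4 le_rfl

end Cfsg.Agent.S4693
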