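import Cfsg.Statements.S4694
import Cfsg.Agent.H7.Local3
-- import your own Cfsg.Agent.* helpers here

set_option autoImplicit false
open Cfsg

namespace Cfsg.Agent.S4694

open MonoidAlgebra Cfsg.Agent.H3 Cfsg.Agent.H4 Cfsg.Agent.H7
open Cfsg.Agent.H6 (Res locRing redC redA eB fB intAlg classSum omega chiL)
open scoped Pointwise
set_option linter.style.haveILetI false


/-- Fix a prime p and a maximal ideal M of the algebraic integers containing p, a p-block B of the finite group G and a Brauer pair (Q, e) of B. Let T be the stabilizer of e in N_G(Q) and suppose that (Q, e) carries a weight: the block of T whose idempotent is that of e contains an irreducible character χ that is constant on the cosets of Q and whose degree has p-part equal to the p-part of the index of Q in T. Then Z(Q) is a defect group of e as a block of C_G(Q), and Q is the largest normal p-subgroup of T: every p-subgroup of T normalized by T lies in Q. -/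
theorem result {G : Type*} [Group G] [Fintype G] (p : ℕ) [Fact p.Prime] (M : Ideal Cfsg.AlgInt) (hM : Cfsg.IsPModular p M) (B : Set (Cfsg.IrrCharacter G)) (Q : Subgroup G) (e : Set (Cfsg.IrrCharacter (Subgroup.centralizer (Q : Set G)))) (hQe : Cfsg.IsBrauerPairOf p M B Q e) (T : Subgroup G) (hT : ∀ y : G, y ∈ T ↔ y ∈ Subgroup.normalizer (Q : Set G) ∧ Cfsg.StabilizesBlock (Subgroup.centralizer (Q : Set G)) e y) (F' : Set (Cfsg.IrrCharacter T)) (hF' : Cfsg.IsPBlock M F') (hF'e : ∀ t : T, Cfsg.blockCoeff F' t = Cfsg.subgroupBlockCoeff (Subgroup.centralizer (Q : Set G)) e (t : G)) (χ : Cfsg.IrrCharacter T) (hχ : χ ∈ F') (hχQ : ∀ q : G, q ∈ Q → ∀ t : T, ∀ t' : T, (t' : G) = q * (t : G) → (χ : T → ℂ) t' = (χ : T → ℂ) t) (hdeg : (Cfsg.charDegree (χ : T → ℂ)).factorization p + (Nat.card Q).factorization p = (Nat.card T).factorization p) : Cfsg.IsDefectGroup p M e ((Q ⊓ Subgroup.centralizer (Q : Set G)).subgroupOf (Subgroup.centralizer (Q : Set G))) ∧ ∀ R : Subgroup G, R ≤ T → IsPGroup p R → (∀ t ∈ T, t ∈ Subgroup.normalizer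 (R : Set G)) → R ≤ Q := by
  haveI := hM.2.1; haveI := H6.charP_res hM
  have hf := IsBrauerPair.isPair hQe.1
  have hT' := NS_eq_of_forall hQe.1.2 hT
  have hQT : Q ≤ T := hT' ▸ hf.le_NS le_top
  have hCT : Subgroup.centralizer (Q : Set G) ≤ T := hT' ▸ hf.centralizer_le_NS
  have hTQ : T ≤ Subgroup.normalizer (Q : Set G) := fun x hx => ((hT x).1 hx).1
  haveI : (Q.subgroupOf T).Normal := Subgroup.normal_subgroupOf_of_le_normalizer hTQ
  have hker : Q.subgroupOf T ≤ charKer (χ : T → ℂ) := fun q hq t => hχQ q hq t _ rfl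
  let π := QuotientGroup.mk' (Q.subgroupOf T)
  have hπ := QuotientGroup.mk'_surjective (Q.subgroupOf T)
  let ψ : IrrCharacter (T ⧸ Q.subgroupOf T) := ⟨_, χ.2.deflate hker⟩
  have hψ : ∀ t, (χ : T → ℂ) t = ψ.1 (π t) := fun t => (deflate_mk hker t).symm
  have h1 := isDef_bot_of_defect_zero hM (χ := ψ) (by
    have h2 := H6.factorization_card_eq (p := p) (Q.subgroupOf T)
    rw [Nat.card_congr (Subgroup.subgroupOfEquivOfLe hQT).toEquiv] at h2
    have h3 : charDegree ψ.1 = charDegree (χ : T → ℂ) := by
      rw [charDegree, charDegree, hψ, map_one]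
    rw [h3, ← Subgroup.index]
    omega)
  have hb := H6.isPBlock_blockOf (M := M) ψ
  have h2 := (comp_mem_iff hπ hF' hb (H6.mem_blockOf_self ψ) hψ).1 hχ
  have h3 : push (Res M) T.subtype (eB M F') = eb M _ e := (eb_eq_of_coeff hCT hF'e).2
  constructor
  · have hN : Q ⊔ Subgroup.centralizer (Q : Set G) ≤ T := sup_le hQT hCT
    have h4 := (blk_sup_centralizer_iff hf.isPGroup).2 (blk_eb hQe.1.2)
    obtain ⟨D, hD⟩ := exists_isDef p h4
    have hQD : Q ≤ D := IsDef.le_of_normal le_rfl hf.isPGroup le_sup_left (hN.trans hTQ) h4.mem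
      h4.idem hD
    have e1 : ∀ {X : Subgroup G}, X ≤ T → (X.subgroupOf T).map T.subtype = X := fun h => by
      rw [Subgroup.subgroupOf_map_subtype, inf_eq_left.2 h]
    have h5 := h4
    have hD' := hD
    rw [← e1 hN, ← h3, blk_push_iff T.subtype_injective] at h5
    rw [← e1 hN, ← h3, ← e1 (hD.le.trans hN), isDef_push_iff T.subtype_injective] at hD'
    obtain ⟨h6, h7⟩ := blk_push_and_isDef hM (π := π) (by
      rw [QuotientGroup.ker_mk']; exact hf.isPGroup.comap_subtype.to_le inf_le_left)
      (fun g hg hp x hx => by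
        rw [QuotientGroup.ker_mk'] at hx
        obtain ⟨n, hn⟩ := exists_relIndex_sup_eq_pow hf.isPGroup
          (Subgroup.le_normalizer.trans (normalizer_le_normalizer_centralizer Q))
        have := mem_of_not_dvd_orderOf (sup_le Subgroup.le_normalizer
          (Subgroup.le_normalizer.trans (normalizer_le_normalizer_centralizer Q))) hn
          (x := g) (sup_comm Q _ ▸ hg) (by rwa [Subgroup.orderOf_coe])
        exact Subtype.ext (this x hx.1)) h5
    haveI : ((Q ⊔ Subgroup.centralizer (Q : Set G)).subgroupOf T).Normal :=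
      Subgroup.normal_subgroupOf_of_le_normalizer fun x hx => mem_normalizer_sup (hTQ hx)
        (normalizer_le_normalizer_centralizer Q (hTQ hx))
    haveI := Subgroup.Normal.map this π hπ
    have h8 := isDef_inf_of_invt le_top Subgroup.le_normalizer_of_normal (blk_eB hb) h6
      (by rw [((blk_eB hb).commute (supp_top _)).eq, h2]; exact (blk_eB hb).ne_zero)
      (push_mem_Z_top hπ (eB_mem_Fix F')).2 h1
    have h9 := (h7 _ hD').card_eq h8
    rw [bot_inf_eq, Subgroup.card_bot, Subgroup.card_eq_one, Subgroup.map_eq_bot_iff,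
      QuotientGroup.ker_mk'] at h9
    have h10 : D = Q := le_antisymm (fun x hx => h9 (show ⟨x, hN (hD.le hx)⟩ ∈ _ from hx)) hQD
    have h11 := (hf.isDef_sup_iff le_top).1 (by rw [CK_top]; exact h10 ▸ hD)
    rw [CK_top] at h11
    exact (isDefectGroup_subgroupOf_iff' hM hQe.1.2 inf_le_right).2 h11
  · intro R hR hp hn x hx
    haveI : (R.subgroupOf T).Normal := Subgroup.normal_subgroupOf_of_le_normalizer hn
    haveI := Subgroup.Normal.map this π hπ
    have := IsDef.le_of_normal (P := (R.subgroupOf T).map π) le_rfl (hp.comap_subtype.map π) le_top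
      Subgroup.le_normalizer_of_normal (blk_eB hb).mem (blk_eB hb).idem h1
    rw [le_bot_iff, Subgroup.map_eq_bot_iff, QuotientGroup.ker_mk'] at this
    exact this (show ⟨x, hR hx⟩ ∈ _ from hx)

end Cfsg.Agent.S4694
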