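import Cfsg.Statements.S4699
import Cfsg.Agent.H4.Char2
import Mathlib.FieldTheory.Finite.Basic
import Mathlib.LinearAlgebra.Eigenspace.Zero

set_option autoImplicit false
open Cfsg

namespace Cfsg.Agent.S4699

open Subgroup Finset Polynomial

theorem free_sum {G M : Type*} [Group G] [DecidableEq G] [AddCommMonoid M] (P : Subgroup G) [Fintype P] (b : G → M)
    (S : Finset G) : (∀ h ∈ P, ∀ c ∈ S, h * c * h⁻¹ ∈ S) → (∀ c ∈ S, ∀ h ∈ P, h * c = c * h → h = 1) →
      (∀ c ∈ S, ∑ h : P, b (h.1 * c * h.1⁻¹) = 0) → ∑ c ∈ S, b c = 0 := by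
  induction S using Finset.strongInduction with
  | H S ih =>
  intro h1 h2 h3
  rcases S.eq_empty_or_nonempty with rfl | ⟨c, hc⟩
  · simp
  let O : Finset G := univ.image fun h : P => h.1 * c * h.1⁻¹
  have hO : O ⊆ S := fun y hy => by
    obtain ⟨h, -, rfl⟩ := mem_image.1 hy
    exact h1 h h.2 c hc
  have cO : c ∈ O := mem_image.2 ⟨1, mem_univ _, by simp⟩
  rw [← sum_sdiff hO, sum_image, h3 c hc, add_zero]
  · refine ih _ (sdiff_ssubset hO ⟨c, cO⟩) (fun h hh y hy => ?_) (fun y hy => h2 y (mem_sdiff.1 hy).1)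
      fun y hy => h3 y (mem_sdiff.1 hy).1
    refine mem_sdiff.2 ⟨h1 h hh y (mem_sdiff.1 hy).1, fun hm => (mem_sdiff.1 hy).2 ?_⟩
    obtain ⟨k, -, e⟩ := mem_image.1 hm
    refine mem_image.2 ⟨⟨h⁻¹ * k, P.mul_mem (P.inv_mem hh) k.2⟩, mem_univ _, ?_⟩
    calc h⁻¹ * k * c * (h⁻¹ * k)⁻¹ = h⁻¹ * (k * c * k.1⁻¹) * h := by group
      _ = y := by rw [e]; group
  · intro h _ k _ e
    have := h2 c hc (k.1⁻¹ * h) (P.mul_mem (P.inv_mem k.2) h.2) (by
      have e' : h.1 * c * h.1⁻¹ = k.1 * c * k.1⁻¹ := e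
      calc k.1⁻¹ * h * c = k.1⁻¹ * (h * c * h.1⁻¹) * h := by group
        _ = c * (k.1⁻¹ * h) := by rw [e']; group)
    exact Subtype.ext (inv_mul_eq_one.1 this).symm

section
variable {F : Type*} [Field F] (p : ℕ) [Fact p.Prime] [CharP F p] {E : Type*} [Ring E] [Algebra F E]

include F in
theorem sub_pow_q (A : E) (k : ℕ) : (A - 1) ^ p ^ k = A ^ p ^ k - 1 := by
  have := congrArg (aeval A) (sub_pow_char_pow (p := p) (n := k) (X : F[X]) 1)
  simpa using this

include F in
theorem geom_q (A : E) (k : ℕ) : ∑ i ∈ range (p ^ k), A ^ i = (A - 1) ^ (p ^ k - 1) := by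
  have h : ∑ i ∈ range (p ^ k), (X : F[X]) ^ i = (X - 1) ^ (p ^ k - 1) := by
    refine mul_right_cancel₀ (b := X - 1) (X_sub_C_ne_zero 1) ?_
    rw [geom_sum_mul, ← pow_succ, Nat.sub_add_cancel (Nat.one_le_pow _ _ (Fact.out : p.Prime).pos),
      sub_pow_char_pow, one_pow]
  simpa using congrArg (aeval A) h

include F in
theorem trace0 {A B : E} (f : E) (hAB : A * B = 1) (hBA : B * A = 1) {l m k : ℕ} (hA : (A - 1) ^ l = 0)
    (h : ∀ i j, i + j = p ^ k - 1 → l ≤ m + i ∨ l ≤ j) :
    (A - 1) ^ m * ∑ i ∈ range (p ^ k), A ^ i * f * B ^ i = 0 := by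
  set L := LinearMap.mulLeft F A with hL
  set R := LinearMap.mulRight F B with hR
  have c : Commute L R := LinearMap.commute_mulLeft_right A B
  have hB : (B - 1) ^ l = 0 := by
    have cAB : Commute A B := hAB.trans hBA.symm
    have : B - 1 = (A - 1) * -B := by rw [mul_neg, sub_mul, hAB, one_mul, neg_sub]
    rw [this, ((cAB.sub_left (Commute.one_left B)).neg_right).mul_pow, hA, zero_mul]
  have e1 : L - 1 = LinearMap.mulLeft F (A - 1) := by ext y; simp [hL, sub_mul]
  have e2 : R - 1 = LinearMap.mulRight F (B - 1) := by ext y; simp [hR, mul_sub]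
  have z1 : (L - 1) ^ l = 0 := by rw [e1, LinearMap.pow_mulLeft, hA, LinearMap.mulLeft_zero_eq_zero]
  have z2 : (R - 1) ^ l = 0 := by rw [e2, LinearMap.pow_mulRight, hB, LinearMap.mulRight_zero_eq_zero]
  have e3 : (A - 1) ^ m * ∑ i ∈ range (p ^ k), A ^ i * f * B ^ i =
      ((L - 1) ^ m * ∑ i ∈ range (p ^ k), (L * R) ^ i) f := by
    rw [e1, LinearMap.pow_mulLeft, Module.End.mul_apply, LinearMap.mulLeft_apply, LinearMap.sum_apply]
    congr 1
    refine sum_congr rfl fun i _ => ?_
    rw [c.mul_pow, hL, hR, LinearMap.pow_mulLeft, LinearMap.pow_mulRight, Module.End.mul_apply,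
      LinearMap.mulLeft_apply, LinearMap.mulRight_apply, mul_assoc]
  have c1 : Commute (L - 1) R := c.sub_left (Commute.one_left R)
  have c2 : Commute ((L - 1) * R) (R - 1) :=
    (c1.sub_right (Commute.one_right _)).mul_left ((Commute.refl R).sub_right (Commute.one_right _))
  have e4 : L * R - 1 = (L - 1) * R + (R - 1) := by rw [sub_mul, one_mul, sub_add_sub_cancel]
  rw [e3, geom_q (F := F) p, e4, c2.add_pow', mul_sum, sum_eq_zero, LinearMap.zero_apply]
  intro ij hij
  rw [c1.mul_pow]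
  rcases h _ _ (mem_antidiagonal.1 hij) with h | h
  · rw [mul_smul_comm, ← mul_assoc, ← mul_assoc, ← pow_add, pow_eq_zero_of_le h z1, zero_mul, zero_mul, smul_zero]
  · rw [pow_eq_zero_of_le h z2, mul_zero, smul_zero, mul_zero]

include F in
theorem top_term (A : E) {m k : ℕ} (hA : (A - 1) ^ (m + p) = 0) (hk : ¬ p ∣ k) :
    (A - 1) ^ m * (A ^ k - 1) ^ (p - 1) = (A - 1) ^ (m + (p - 1)) := by
  have pp : p.Prime := Fact.out
  set N := (A - 1) ^ (m + (p - 1)) with hN
  have h1 : N * A = N := by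
    have : N * (A - 1) = 0 := by rw [hN, ← pow_succ, add_assoc, Nat.sub_add_cancel pp.one_le, hA]
    rwa [mul_sub, mul_one, sub_eq_zero] at this
  have h2 : ∀ i, N * A ^ i = N := fun i => by
    induction i with
    | zero => simp
    | succ i ih => rw [pow_succ, ← mul_assoc, ih, h1]
  have h3 : N * ∑ i ∈ range k, A ^ i = (k : F) • N := by
    rw [mul_sum, sum_congr rfl fun i _ => h2 i, sum_const, card_range, Nat.cast_smul_eq_nsmul]
  have h4 : ∀ j, N * (∑ i ∈ range k, A ^ i) ^ j = (k : F) ^ j • N := fun j => by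
    induction j with
    | zero => simp
    | succ j ih => rw [pow_succ, ← mul_assoc, ih, smul_mul_assoc, h3, smul_smul, pow_succ]
  have c : Commute (A - 1) (∑ i ∈ range k, A ^ i) :=
    Commute.sum_right _ _ _ fun i _ => ((Commute.refl A).sub_left (Commute.one_left A)).pow_right i
  have h5 : (k : F) ^ (p - 1) = 1 := by
    have := Nat.ModEq.pow_totient ((Nat.Prime.coprime_iff_not_dvd pp).2 hk).symm
    rw [Nat.totient_prime pp] at this
    exact_mod_cast (CharP.natCast_eq_natCast F p).2 this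
  rw [← mul_geom_sum, c.mul_pow, ← mul_assoc, ← pow_add, ← hN, h4, h5, one_smul]
end

/-- Let p be a prime and G a finite group whose Sylow p-subgroup P is cyclic of order p^n with n ≥ 2 and meets every other Sylow p-subgroup trivially. Then every faithful irreducible representation of G on a finite-dimensional space over a finite field of characteristic p has dimension at least p^n − (p − 1). -/
theorem result {G : Type*} [Group G] [Finite G] (p : ℕ) [Fact p.Prime] (P : Sylow p G) (hcyc : IsCyclic P) (n : ℕ) (hn : 2 ≤ n) (hPn : Nat.card P = p ^ n) (hTI : ∀ Q : Sylow p G, Q ≠ P → (P : Subgroup G) ⊓ (Q : Subgroup G) = ⊥) (F : Type*) [Field F] [Finite F] [CharP F p] (V : Type*) [AddCommGroup V] [Module F V] [FiniteDimensional F V] (ρ : Representation F G V) (hfaith : Function.Injective ρ) (hirr : ρ.IsIrreducible) : p ^ n - (p - 1) ≤ Module.finrank F V := by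
  classical
  have pp : p.Prime := Fact.out
  have := Fintype.ofFinite G
  have := Fintype.ofFinite P
  by_contra hlt
  push Not at hlt
  obtain ⟨x, hx⟩ := hcyc.exists_generator
  have ox : orderOf x = p ^ n := by rw [orderOf_eq_card_of_forall_mem_zpowers hx, hPn]
  have ox' : orderOf (x : G) = p ^ n := by rw [orderOf_coe, ox]
  have hP : ∀ y ∈ (P : Subgroup G), ∃ k : ℕ, (x : G) ^ k = y := fun y hy => by
    obtain ⟨k, hk⟩ := mem_powers_iff_mem_zpowers.2 (hx ⟨y, hy⟩)
    exact ⟨k, congrArg Subtype.val hk⟩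
  set A := ρ x with hA
  have nil : IsNilpotent (A - 1) := ⟨p ^ n, by
    rw [sub_pow_q (F := F), hA, ← map_pow, ← ox', pow_orderOf_eq_one, map_one, sub_self]⟩
  have hd : (A - 1) ^ Module.finrank F V = 0 := by
    have := LinearMap.aeval_self_charpoly (A - 1)
    rwa [nil.charpoly_eq_X_pow_finrank, aeval_X_pow] at this
  have lp : p < Nat.find nil := by
    refine (Nat.lt_find_iff nil p).2 fun j hj h0 => ?_
    have h1 := sub_pow_q (F := F) p A 1
    rw [pow_one, pow_eq_zero_of_le hj h0, hA, ← map_pow, eq_comm, sub_eq_zero, ← map_one ρ] at h1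
    have h2 := orderOf_dvd_of_pow_eq_one (hfaith h1)
    rw [ox'] at h2
    have := (Nat.pow_dvd_pow_iff_le_right pp.one_lt).1 (h2.trans (pow_one p).symm.dvd)
    omega
  obtain ⟨m, hm⟩ := Nat.exists_eq_add_of_le' lp.le
  have z : (A - 1) ^ (m + p) = 0 := hm ▸ Nat.find_spec nil
  have nz : (A - 1) ^ (m + (p - 1)) ≠ 0 := Nat.find_min nil (by have := pp.one_lt; omega)
  have ld : m + p ≤ Module.finrank F V := hm ▸ Nat.find_min' nil hd
  let K : Finset G := univ.filter (IsConj (x : G))
  let b : G → Module.End F V := fun y => (ρ y - 1) ^ (p - 1)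
  have bc : ∀ g y : G, ρ g * b y = b (g * y * g⁻¹) * ρ g := fun g y => by
    refine SemiconjBy.pow_right (a := ρ g) ?_ (p - 1)
    simp only [SemiconjBy, mul_sub, sub_mul, ← map_mul, mul_one, one_mul, inv_mul_cancel_right]
  have Kc : ∀ g y : G, y ∈ K → g * y * g⁻¹ ∈ K := fun g y hy =>
    mem_filter.2 ⟨mem_univ _, (mem_filter.1 hy).2.trans (isConj_iff.2 ⟨g, rfl⟩)⟩
  have ac : ∀ g : G, ρ g * ∑ y ∈ K, b y = (∑ y ∈ K, b y) * ρ g := fun g => by
    rw [mul_sum, sum_mul]
    refine sum_bij' (fun y _ => g * y * g⁻¹) (fun y _ => g⁻¹ * y * g⁻¹⁻¹) (fun y hy => Kc g y hy)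
      (fun y hy => Kc g⁻¹ y hy) (fun y _ => by group) (fun y _ => by group) fun y _ => bc g y
  let S := K.filter fun y => y ∉ (P : Subgroup G)
  have S1 : ∀ h ∈ (P : Subgroup G), ∀ c ∈ S, h * c * h⁻¹ ∈ S := fun h hh c hc =>
    mem_filter.2 ⟨Kc h c (mem_filter.1 hc).1, fun hm => (mem_filter.1 hc).2 (by
      have := (P : Subgroup G).mul_mem ((P : Subgroup G).mul_mem ((P : Subgroup G).inv_mem hh) hm) hh
      simpa [mul_assoc] using this)⟩
  have S2 : ∀ c ∈ S, ∀ h ∈ (P : Subgroup G), h * c = c * h → h = 1 := by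
    intro c hc h hh e
    obtain ⟨g, rfl⟩ := isConj_iff.1 (mem_filter.1 (mem_filter.1 hc).1).2
    have xQ : g * x * g⁻¹ ∈ ((g • P : Sylow p G) : Subgroup G) := by
      rw [Sylow.coe_subgroup_smul, mem_pointwise_smul_iff_inv_smul_mem]
      simp [mul_assoc]
    have hne : g • P ≠ P := fun e => (mem_filter.1 hc).2 (by rwa [e] at xQ)
    have hQ : h ∈ ((g • P : Sylow p G) : Subgroup G) := by
      have hz : IsPGroup p (zpowers h) := P.isPGroup'.to_le (zpowers_le.2 hh)
      have hn : zpowers h ≤ normalizer ((g • P : Sylow p G) : Subgroup G) := by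
        refine zpowers_le.2 (centralizer_le_normalizer _ (mem_centralizer_iff.2 fun y hy => ?_))
        rw [SetLike.mem_coe, Sylow.coe_subgroup_smul, mem_pointwise_smul_iff_inv_smul_mem] at hy
        obtain ⟨k, hk⟩ := hP _ hy
        have : y = (g * x * g⁻¹) ^ k := by
          rw [conj_pow, hk]; simp [mul_assoc]
        rw [this]
        exact ((show Commute h _ from e).pow_right k).symm
      have := (g • P).3 (hz.to_sup_of_normal_right' (g • P).2 hn) le_sup_right
      exact this ▸ mem_sup_left (mem_zpowers h)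
    exact mem_bot.1 (hTI _ hne ▸ mem_inf.2 ⟨hh, hQ⟩)
  have s1 : ∑ c ∈ S, (1 : F) = 0 := free_sum (P : Subgroup G) (fun _ => (1 : F)) S S1 S2 fun c _ => by
    rw [sum_const, card_univ, Fintype.card_eq_nat_card, hPn, nsmul_eq_mul, mul_one, Nat.cast_pow,
      CharP.cast_eq_zero F p, zero_pow (by omega)]
  have s2 : ∑ c ∈ S, (A - 1) ^ m * b c = 0 := free_sum (P : Subgroup G) (fun c => (A - 1) ^ m * b c) S S1 S2 fun c _ => by
    have t := trace0 (F := F) p (A := A) (B := ρ x.1⁻¹) (b c) (by rw [hA, ← map_mul, mul_inv_cancel, map_one])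
      (by rw [hA, ← map_mul, inv_mul_cancel, map_one]) (m := m) (k := n) z (fun i j hij => by omega)
    rw [← mul_sum, ← t, ← IsCyclic.image_range_orderOf hx, sum_image, ox]
    · congr 1
      refine sum_congr rfl fun i _ => ?_
      rw [hA, ← map_pow, ← map_pow, bc, mul_assoc (b _), ← map_mul, inv_pow, mul_inv_cancel, map_one, mul_one]
      rfl
    · intro i hi j hj e
      exact pow_injOn_Iio_orderOf (by simpa using hi) (by simpa using hj) e
  have s3 : ∀ c ∈ K.filter fun y => y ∈ (P : Subgroup G), (A - 1) ^ m * b c = (A - 1) ^ (m + (p - 1)) := by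
    intro c hc
    obtain ⟨k, rfl⟩ := hP c (mem_filter.1 hc).2
    have o : orderOf ((x : G) ^ k) = orderOf (x : G) := by
      obtain ⟨g, e⟩ := isConj_iff.1 (mem_filter.1 (mem_filter.1 hc).1).2
      rw [← e]; exact (MulAut.conj g).orderOf_eq (x : G)
    have hk : ¬ p ∣ k := fun hk => by
      rw [orderOf_pow, Nat.div_eq_self, ox'] at o
      rcases o with o | o
      · exact pow_ne_zero _ pp.ne_zero o
      · exact pp.one_lt.ne' (Nat.dvd_one.1 (o ▸ Nat.dvd_gcd (dvd_pow_self p (by omega)) hk))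
    have := top_term (F := F) p A z hk
    rwa [hA, ← map_pow] at this
  have cK : ((K.filter fun y => y ∈ (P : Subgroup G)).card : F) ≠ 0 := by
    have e : ((K.filter fun y => y ∈ (P : Subgroup G)).card : F) = K.card := by
      rw [← card_filter_add_card_filter_not (s := K) (fun y => y ∈ (P : Subgroup G)), Nat.cast_add]
      simpa [S] using s1
    rw [e, Ne, CharP.cast_eq_zero_iff F p, ← Fintype.card_subtype, Fintype.card_eq_nat_card,
      H4.card_isConj_eq_index]
    refine fun h => P.not_dvd_index (h.trans (index_dvd_of_le fun y hy => ?_))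
    obtain ⟨k, rfl⟩ := hP y hy
    exact mem_centralizer_singleton_iff.2 ((Commute.refl (x : G)).pow_left k)
  have key : (A - 1) ^ m * ∑ y ∈ K, b y =
      ((K.filter fun y => y ∈ (P : Subgroup G)).card : F) • (A - 1) ^ (m + (p - 1)) := by
    rw [mul_sum, ← sum_filter_add_sum_filter_not K (fun y => y ∈ (P : Subgroup G)), s2, add_zero,
      sum_congr rfl s3, sum_const, Nat.cast_smul_eq_nsmul]
  rcases Representation.IsIrreducible.injective_or_eq_zero (ρ := ρ) (σ := ρ)
    ⟨∑ y ∈ K, b y, fun g => (ac g).symm⟩ with h | h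
  · have c : Commute (A - 1) (∑ y ∈ K, b y) := (show Commute A _ from ac x).sub_left (Commute.one_left _)
    have e : (∑ y ∈ K, b y) * (A - 1) ^ (m + (p - 1)) = 0 := by
      rw [← (c.pow_left _).eq, add_comm, pow_add, mul_assoc, key, mul_smul_comm, ← pow_add,
        pow_eq_zero_of_le (by have := pp.two_le; omega) z, smul_zero]
    refine nz (LinearMap.ext fun v => h ?_)
    simpa using LinearMap.congr_fun e v
  · have e : ∑ y ∈ K, b y = 0 := congrArg Representation.IntertwiningMap.toLinearMap h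
    rw [e, mul_zero, eq_comm, smul_eq_zero] at key
    exact key.elim cK nz

end Cfsg.Agent.S4699
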