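import Cfsg.Statements.S4701
import Cfsg.Agent.H19.BR4
import Cfsg.Agent.H19.BTc

set_option autoImplicit false
open Cfsg

namespace Cfsg.Agent.S4701

open Cfsg.Agent.H19

/-- Let G be a finite perfect group and p a prime dividing the order of G with p^3 larger than the order of G. Suppose a Sylow p-subgroup of G is not normal and G has no normal subgroup of order 2. Then p > 3 and G is isomorphic to PSL(2, p), or to SL(2, 2^m) with p = 2^m + 1. -/
theorem result {G : Type*} [Group G] [Finite G] (hperf : commutator G = ⊤) (p : ℕ) [Fact p.Prime] (hdvd : p ∣ Nat.card G) (hbig : Nat.card G < p ^ 3) (P : Sylow p G) (hP : ¬ (P : Subgroup G).Normal) (h2 : ∀ N : Subgroup G, N.Normal → Nat.card N ≠ 2) : (∃ (F : Type) (_ : Field F) (_ : Fintype F), Fintype.card F = p ∧ 3 < p ∧ Nonempty (G ≃* Matrix.ProjectiveSpecialLinearGroup (Fin 2) F)) ∨ (∃ (m : ℕ) (F : Type) (_ : Field F) (_ : Fintype F), Fintype.card F = 2 ^ m ∧ p = 2 ^ m + 1 ∧ 3 < p ∧ Nonempty (G ≃* Matrix.SpecialLinearGroup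 (Fin 2) F)) := by
  haveI := Fintype.ofFinite G
  have hp : p.Prime := Fact.out
  have h1 : Nat.card (Sylow p G) ≠ 1 := fun h =>
    hP (by haveI := (Nat.card_eq_one_iff_unique.mp h).1; exact Sylow.normal_of_subsingleton P)
  have hnsq : ¬ p ^ 2 ∣ Nat.card G := by
    intro hd
    have h2 : p ^ 2 ∣ Nat.card (P : Subgroup G) := by
      rw [← (P : Subgroup G).card_mul_index] at hd
      exact (Nat.Coprime.pow_left 2 (hp.coprime_iff_not_dvd.mpr
        P.not_dvd_index)).dvd_of_dvd_mul_right hd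
    have h3 := Nat.le_of_dvd Nat.card_pos h2
    have h4 := Nat.le_of_dvd (Nat.pos_of_ne_zero Subgroup.index_ne_zero_of_finite)
      (P.card_dvd_index)
    have h5 := card_sylow_modEq_one p G
    rw [← (P : Subgroup G).card_mul_index] at hbig
    have h6 : Nat.card (Sylow p G) < p := by
      by_contra h6
      have := Nat.mul_le_mul h3 ((not_lt.mp h6).trans h4)
      rw [← pow_succ] at this
      exact absurd (this.trans_lt hbig) (lt_irrefl _)
    rw [Nat.ModEq, Nat.mod_eq_of_lt h6, Nat.mod_eq_of_lt hp.one_lt] at h5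
    omega
  obtain ⟨x, hx⟩ := exists_prime_orderOf_dvd_card' (G := G) p hdvd
  obtain ⟨K, h⟩ := exists_PO hx hnsq
  obtain ⟨n, hs⟩ := exists_sN_eq hx hnsq
  obtain ⟨B⟩ := h.nonempty_BD
  have he := B.one_lt_e' hperf
  have hK : 0 < Nat.card K := Nat.card_pos
  have h3 : Nat.card K * (2 * (n * p + 1)) < p * p := by
    rw [h.card_G, hs, mul_assoc, pow_succ', sq] at hbig
    exact lt_of_le_of_lt (Nat.mul_le_mul_left _ (Nat.mul_le_mul_right _ he))
      (Nat.lt_of_mul_lt_mul_left hbig)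
  have hn : 2 * n < p + 3 := by
    have : 2 * n * p < p * p := by nlinarith
    have := Nat.lt_of_mul_lt_mul_right this
    omega
  have h4 := brauer_reynolds hx hnsq hperf hs (NR.of_lt hn)
  have h5 : pPrimeCore p G = ⊥ := by
    have h6 := h2 (pPrimeCore p G) inferInstance
    have h7 : 0 < Nat.card (pPrimeCore p G) := Nat.card_pos
    rw [← Subgroup.card_eq_one]
    by_contra h8
    rw [Subgroup.card_eq_card_quotient_mul_card_subgroup (pPrimeCore p G)] at hbig
    have h9 := lt_of_le_of_lt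
      (Nat.mul_le_mul_left _ (by omega : 3 ≤ Nat.card (pPrimeCore p G))) hbig
    rcases h4 with ⟨h10, h11⟩ | h10
    · have h12 := card_of_PSL (ZMod.card p) h11
      obtain ⟨k, rfl⟩ : ∃ k, p = 2 * k + 5 := ⟨(p - 5) / 2, by have := hp.eq_two_or_odd; omega⟩
      rw [Nat.gcd_eq_left (by omega), show (2 * k + 5) ^ 2 - 1 = 4 * k * k + 20 * k + 24 from
        Nat.sub_eq_of_eq_add (by ring)] at h12
      nlinarith [Nat.zero_le (k * k * k), Nat.zero_le (k * k)]
    · have h12 := (card_of_PSL_even h10).1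
      obtain ⟨-, -, -, -, -, -, h11, -⟩ := h10
      obtain ⟨k, rfl⟩ : ∃ k, p = 2 * k + 5 := ⟨(p - 5) / 2, by have := hp.eq_two_or_odd; omega⟩
      rw [h12, show 2 * k + 5 - 1 = 2 * k + 4 by omega,
        show 2 * k + 5 - 2 = 2 * k + 3 by omega] at h9
      nlinarith [Nat.zero_le (k * k * k), Nat.zero_le (k * k)]
  have e : G ≃* G ⧸ pPrimeCore p G :=
    ((QuotientGroup.quotientMulEquivOfEq h5).trans QuotientGroup.quotientBot).symm
  rcases h4.sl with ⟨F, _, _, a, b, ⟨c⟩⟩ | ⟨m, F, _, _, a, b, c, ⟨d⟩⟩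
  · exact Or.inl ⟨F, inferInstance, inferInstance, a, b, ⟨e.trans c⟩⟩
  · exact Or.inr ⟨m, F, inferInstance, inferInstance, a, b, c, ⟨e.trans d⟩⟩

end Cfsg.Agent.S4701
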