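import Cfsg.Statements.S4705
import Cfsg.Agent.H19.FamD

set_option autoImplicit false
open Cfsg

namespace Cfsg.Agent.S4705

open Cfsg.Agent.H4 Cfsg.Agent.H19 MulAction

/-- Let G be a finite group with centre Z and p > 5 a prime such that a Sylow p-subgroup of G has order p and is not normal. If G has a faithful irreducible character of degree p − 2, then p = 2^a + 1 for some a and G is isomorphic to the direct product of SL(2, 2^a) with Z. -/
theorem result {G : Type*} [Group G] [Finite G] (p : ℕ) [Fact p.Prime] (hp : 5 < p) (P : Sylow p G) (hP : Nat.card P = p) (hnn : ¬ (P : Subgroup G).Normal) (ζ : G → ℂ) (hζ : Cfsg.IsIrrCharacter G ζ) (hfaith : ∀ g : G, ζ g = ζ 1 → g = 1) (hdeg : Cfsg.charDegree ζ = p - 2) : ∃ (a : ℕ) (F : Type) (_ : Field F) (_ : Fintype F), p = 2 ^ a + 1 ∧ Fintype.card F = 2 ^ a ∧ Nonempty (G ≃* Matrix.SpecialLinearGroup (Fin 2) F × Subgroup.center G) := by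
  haveI := Fintype.ofFinite G
  obtain ⟨x, hx, hP', hn⟩ := exists_gen_of_sylow P hP
  obtain ⟨K, h⟩ := exists_PO hx hn
  have hne : NN x ≠ ⊤ := fun e => hnn (hP' ▸ Subgroup.normalizer_eq_top_iff.mp e)
  obtain ⟨he, hK, -⟩ := h.two_of_degree (χ := ⟨ζ, hζ⟩) hfaith (show charDegree ζ + 2 = p by omega) hne
  have h1 := h.mem_commutator (by omega)
  have h2 : commutator G ⊔ Subgroup.center G = ⊤ :=
    (h.top_or_commute he (Subgroup.mem_sup_left h1) (hK.trans le_sup_right)).resolve_right
      fun e => hne (by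
        rw [← h.frattini _ (Subgroup.mem_sup_left h1 : x ∈ commutator G ⊔ Subgroup.center G), eq_comm,
          sup_eq_left]
        exact fun g hg => mem_normalizer_of_commute hx (central_of_e_one' hx hn
          (Subgroup.mem_sup_left h1) e hζ.isCharacter (by omega) hfaith hg))
  haveI := Fintype.ofFinite (commutator G)
  have hx' : orderOf (⟨x, h1⟩ : commutator G) = p := by rw [← hx, ← Subgroup.orderOf_coe]
  obtain ⟨K', h'⟩ := exists_PO hx' fun e => hn (e.trans (Subgroup.card_subgroup_dvd_card _))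
  obtain ⟨F⟩ := (h'.two_of_degree (χ := ⟨_, irr_restrict_of_sup h2 hζ⟩)
    (fun g hg => Subtype.ext (hfaith g hg)) (show charDegree ζ + 2 = p by omega)
    (NN_ne_top_of_normal h hne h1)).2.2 (perfect_of_sup h2) hp.le
  obtain ⟨a, E, _, _, e1, e2, ⟨e⟩⟩ := F.iso (perfect_of_sup h2) (by
    have := (Fact.out : p.Prime).eq_two_or_odd; omega)
  haveI := Fact.mk Nat.prime_two
  haveI : CharP E 2 := charP_of_card_eq_prime_pow e2
  obtain ⟨f⟩ := iso_prod_center h2 (eq_bot_iff.mpr fun z hz => e.injective (by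
    rw [map_one, ← Subgroup.mem_bot, ← center_SL2_two, Subgroup.mem_center_iff]
    intro g
    obtain ⟨g, rfl⟩ := e.surjective g
    rw [← map_mul, ← map_mul, Subgroup.mem_center_iff.mp hz]))
  exact ⟨a, E, inferInstance, inferInstance, e1, e2, ⟨f.symm.trans (e.prodCongr (MulEquiv.refl _))⟩⟩

end Cfsg.Agent.S4705
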