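import Cfsg.Statements.S4706
import Cfsg.Agent.H19.FamD

set_option autoImplicit false
open Cfsg

namespace Cfsg.Agent.S4706

open Cfsg.Agent.H4 Cfsg.Agent.H19 MulAction

/-- Let p > 2 be a prime and G a permutation group on p letters whose Sylow p-subgroup P has normalizer of order 2p. Then either P is normal in G, or p − 1 = 2^a for some a and G is isomorphic to SL(2, 2^a). -/
theorem result {α : Type*} [Fintype α] [DecidableEq α] {p : ℕ} [Fact p.Prime] (hp : 2 < p) (hα : Fintype.card α = p) (G : Subgroup (Equiv.Perm α)) (P : Sylow p G) (hN : Nat.card (Subgroup.normalizer ((P : Subgroup G) : Set G)) = 2 * p) : (P : Subgroup G).Normal ∨ ∃ (a : ℕ) (F : Type) (_ : Field F) (_ : Fintype F), p = 2 ^ a + 1 ∧ Fintype.card F = 2 ^ a ∧ Nonempty (G ≃* Matrix.SpecialLinearGroup (Fin 2) F) := by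
  haveI := Fintype.ofFinite G
  have hp' : p.Prime := Fact.out
  refine or_iff_not_imp_left.mpr fun hnn => ?_
  obtain ⟨x, hx, hP', hn⟩ := exists_gen_of_two P hp (fun e => hnn (e ▸ inferInstance)) hN
  have hne : NN x ≠ ⊤ := fun e => hnn (hP' ▸ Subgroup.normalizer_eq_top_iff.mp e)
  have hN' : Nat.card (NN x) = 2 * p := by rw [NN, hP', hN]
  have hx' : orderOf (x : Equiv.Perm α) = p := by rw [Subgroup.orderOf_coe, hx]
  have hc := Equiv.Perm.isCycle_of_prime_order'' (hα ▸ hp') (hx'.trans hα.symm)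
  have hs : ∀ a, (x : Equiv.Perm α) a ≠ a := fun a => Equiv.Perm.mem_support.mp (by
    rw [Finset.eq_univ_of_card _ (hc.orderOf.symm.trans (hx'.trans hα.symm))]; simp)
  haveI : IsPretransitive G α := ⟨fun a b => by
    obtain ⟨i, hi⟩ := hc.exists_pow_eq (hs a) (hs b)
    exact ⟨x ^ i, hi⟩⟩
  have hα' : Nat.card α = p := by rw [Nat.card_eq_fintype_card, hα]
  haveI : IsPreprimitive G α := IsPreprimitive.of_prime_card (hα' ▸ hp')
  haveI : Nontrivial α := Finite.one_lt_card_iff_nontrivial.mp (by omega)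
  have h5 : 5 ≤ p := hp'.five_le_of_ne_two_of_ne_three hp.ne' (by
    rintro rfl
    refine hne (Subgroup.eq_top_of_le_card _ (hN' ▸ Nat.le_of_dvd (by norm_num) ?_))
    have := G.card_subgroup_dvd_card
    rwa [Nat.card_perm, hα'] at this)
  rcases perm_two hα'.symm.dvd (by omega) h5 (fun _ => hα'.le) hx hn hN' hne with
    ⟨rfl, e, _⟩ | ⟨-, e, -⟩
  · exact isoF_five e
  · exact e

end Cfsg.Agent.S4706
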