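import Cfsg.Statements.S4707
import Cfsg.Agent.H19.FamD

set_option autoImplicit false
open Cfsg

namespace Cfsg.Agent.S4707

open Cfsg.Agent.H4 Cfsg.Agent.H19 MulAction

/-- Let p > 3 be a prime and G a primitive permutation group of degree 2p that is not doubly transitive. If a Sylow p-subgroup of G has normalizer of order 2p, then p = 5 and G is isomorphic to the alternating group of degree 5. -/
theorem result {α : Type*} [Fintype α] [DecidableEq α] {p : ℕ} [Fact p.Prime] (hp : 3 < p) (hα : Fintype.card α = 2 * p) (G : Subgroup (Equiv.Perm α)) (hprim : MulAction.IsPreprimitive G α) (hnot2 : ¬ MulAction.IsMultiplyPretransitive G α 2) (P : Sylow p G) (hN : Nat.card (Subgroup.normalizer ((P : Subgroup G) : Set G)) = 2 * p) : p = 5 ∧ Nonempty (G ≃* alternatingGroup (Fin 5)) := by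
  haveI := Fintype.ofFinite G
  have hp' : p.Prime := Fact.out
  have hα' : Nat.card α = 2 * p := by rw [Nat.card_eq_fintype_card, hα]
  haveI : Nontrivial α := Finite.one_lt_card_iff_nontrivial.mp (by omega)
  obtain ⟨a⟩ : Nonempty α := inferInstance
  have h1 := (stabilizer G a).card_mul_index
  rw [index_stabilizer_of_transitive, hα'] at h1
  obtain ⟨x, hx, hP', hn⟩ := exists_gen_of_two P (by omega) (P.ne_bot_of_dvd_card
    (h1 ▸ (dvd_mul_left _ _).mul_left _)) hN
  have hN' : Nat.card (NN x) = 2 * p := by rw [NN, hP', hN]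
  have hne : NN x ≠ ⊤ := fun e => by
    haveI := Subgroup.normalizer_eq_top_iff.mp e
    haveI := IsQuasiPreprimitive.isPretransitive_of_normal (G := G) (X := α)
      (N := Subgroup.zpowers x) fun e => hp'.one_lt.ne (by
        rw [← hx, eq_comm, orderOf_eq_one_iff]
        exact eq_of_smul_eq_smul (α := α) fun a => by
          simpa using (e ▸ Set.mem_univ a : a ∈ fixedPoints (Subgroup.zpowers x) α)
            ⟨x, Subgroup.mem_zpowers x⟩)
    have := Nat.le_of_dvd Nat.card_pos (stabilizer (Subgroup.zpowers x) a).index_dvd_card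
    rw [index_stabilizer_of_transitive, Nat.card_zpowers] at this
    omega
  rcases perm_two (hα' ▸ dvd_mul_left _ _) hα'.le (by have := hp'.eq_two_or_odd; omega)
    (fun e => (hnot2 e).elim) hx hn hN' hne with ⟨e1, e, _⟩ | ⟨h7, ⟨b, -, -, -, e, -⟩, h, ⟨F⟩⟩
  · exact ⟨e1, S0494.result e⟩
  exfalso
  obtain ⟨b, rfl⟩ : ∃ c, b = c + 1 := ⟨b - 1, by rcases b with _ | b <;> omega⟩
  have h2 := (F.card_eq h7).1
  refine no_half (H := stabilizer G a) (b := b) ?_ ?_ fun t c ht hc => Subtype.ext ?_
  · rcases b with _ | _ | b <;> omega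
  · rw [← h1, Subgroup.card_bot, mul_one, show p - 1 = 2 * 2 ^ b by omega,
      show p - 2 = 2 * 2 ^ b - 1 by omega] at h2
    exact Nat.eq_of_mul_eq_mul_right (by omega : 0 < 2 * p) (by rw [h2]; ring)
  · by_cases h3 : 2 ∣ orderOf (c : G)
    · obtain ⟨J, y, hJ, hy, e⟩ := F.exists_of_even h7 h3
      rw [Subgroup.coe_mul, e, Subgroup.mem_bot.mp hy, mul_one, ← sq, ← hJ, pow_orderOf_eq_one]; rfl
    · rw [Subgroup.coe_mul, Subgroup.mem_bot.mp (F.mem_of_comm h7 (J := t) (by simpa using ht)
        (Nat.odd_iff.mpr (by omega)) (congrArg Subtype.val hc))]; simp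

end Cfsg.Agent.S4707
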