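import Cfsg.Statements.S4708
import Cfsg.Agent.H7.PCov
import Cfsg.Agent.H8.Glaub2
-- import your own Cfsg.Agent.* helpers here

set_option autoImplicit false
open Cfsg

namespace Cfsg.Agent.S4708

open MonoidAlgebra Cfsg.Agent.H3 Cfsg.Agent.H4 Cfsg.Agent.H7
open Cfsg.Agent.H6 (Res locRing redC redA eB fB intAlg classSum omega chiL)
open scoped Pointwise
set_option linter.style.haveILetI false


/-- Let p be a prime, M a maximal ideal of the algebraic integers containing p, G a finite group and H a normal subgroup. Write λ(X) for the sum of the squares of the degrees of the irreducible characters in the principal p-block of a group X. Then λ(H) ≤ λ(G) ≤ [G : H]·λ(H). -/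
theorem result {G : Type*} [Group G] [Finite G] (p : ℕ) [Fact p.Prime] (M : Ideal Cfsg.AlgInt) (hM : Cfsg.IsPModular p M) (H : Subgroup G) [H.Normal] : (∑ᶠ θ ∈ Cfsg.principalBlock M H, Cfsg.charDegree (θ : H → ℂ) ^ 2) ≤ (∑ᶠ χ ∈ Cfsg.principalBlock M G, Cfsg.charDegree (χ : G → ℂ) ^ 2) ∧ (∑ᶠ χ ∈ Cfsg.principalBlock M G, Cfsg.charDegree (χ : G → ℂ) ^ 2) ≤ H.index * ∑ᶠ θ ∈ Cfsg.principalBlock M H, Cfsg.charDegree (θ : H → ℂ) ^ 2 := by
  haveI := hM.2.1
  haveI := Fintype.ofFinite G
  haveI := Fintype.ofFinite H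
  classical
  rw [H8.finsum_mem_bfin, H8.finsum_mem_bfin]
  let m : IrrCharacter G → IrrCharacter H → ℕ := fun χ θ => H8.nin (fun h : H => χ.1 h) θ.1
  have hm : ∀ χ θ, m χ θ ≠ 0 ↔ classInner (fun h : H => χ.1 h) θ.1 ≠ 0 := fun χ θ =>
    H8.nin_ne_zero_iff (χ.2.isCharacter.restrict H) θ.2.isCharacter
  have h1 : ∀ χ ∈ H8.bfin (principalBlock M G), charDegree χ.1 ^ 2 =
      ∑ θ ∈ H8.bfin (principalBlock M H), m χ θ * charDegree χ.1 * charDegree θ.1 := by
    intro χ hχ
    have := H8.charDegree_eq_sum_nin (χ.2.isCharacter.restrict H)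
    rw [H8.sum_eq_sum_bfin (principalBlock M H) _ fun θ hθ => mul_eq_zero_of_left (by
      by_contra h
      exact hθ (mem_principal_of_over (H8.mem_bfin.1 hχ) ((hm χ θ).1 h))) _] at this
    rw [sq]
    conv_lhs => enter [2]; change charDegree (fun h : H => χ.1 h); rw [this]
    rw [Finset.mul_sum]
    exact Finset.sum_congr rfl fun θ _ => by ring
  rw [Finset.sum_congr rfl h1, Finset.sum_comm, Finset.mul_sum]
  constructor
  · refine Finset.sum_le_sum fun θ hθ => ?_
    obtain ⟨χ, hχ, h2⟩ := exists_principal_over (H8.mem_bfin.1 hθ)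
    refine le_trans ?_ (Finset.single_le_sum (f := fun χ => m χ θ * charDegree χ.1 * charDegree θ.1)
      (fun _ _ => Nat.zero_le _) (H8.mem_bfin.2 hχ))
    rw [sq]
    exact Nat.mul_le_mul_right _ (le_trans ((χ.2.isCharacter.restrict H).degree_le_of_constituent
      θ.2 h2 (H8.irr_coe_charDegree χ).symm (H8.irr_coe_charDegree θ).symm)
      (Nat.le_mul_of_pos_left _ (Nat.pos_of_ne_zero ((hm χ θ).2 h2))))
  · refine Finset.sum_le_sum fun θ _ => ?_
    have h2 := H5.isCharacter_indFun H θ.2.isCharacter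
    have h3 := H8.charDegree_eq_sum_nin h2
    rw [H8.charDegree_eq_of_apply_one (n := H.index * charDegree θ.1) (by
      rw [H5.indFun_one, Nat.cast_mul, H8.irr_coe_charDegree])] at h3
    rw [← Finset.sum_mul, sq, ← mul_assoc, h3]
    refine Nat.mul_le_mul_right _ ((Finset.sum_le_sum_of_subset (Finset.subset_univ _)).trans_eq
      (Finset.sum_congr rfl fun χ _ => ?_))
    congr 1
    symm
    apply H8.nin_eq_of
    rw [H5.inner_indFun_left H _ χ.2.isClassFunction,
      H8.nin_cast (χ.2.isCharacter.restrict H) θ.2.isCharacter,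
      (χ.2.isCharacter.restrict H).classInner_comm θ.2.isCharacter]

end Cfsg.Agent.S4708
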