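import Cfsg.Statements.S4711
import Cfsg.Agent.H7.PCov
import Cfsg.Agent.H8.Glaub2
import Cfsg.Agent.H6.Princ2
import Cfsg.Agent.H21.Base4
import Cfsg.Agent.H3.PNil
-- import your own Cfsg.Agent.* helpers here

set_option autoImplicit false
open Cfsg

namespace Cfsg.Agent.S4711

open MonoidAlgebra Cfsg.Agent.H3 Cfsg.Agent.H4 Cfsg.Agent.H7
open Cfsg.Agent.H6 (Res locRing redC redA eB fB intAlg classSum omega chiL)
open scoped Pointwise
set_option linter.style.haveILetI false

open scoped ComplexConjugate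

theorem hnpc_of_unique {G : Type*} [Group G] [Fintype G] {p : ℕ} [hp : Fact p.Prime]
    {M : Ideal AlgInt} (hM : IsPModular p M) (Q : Sylow p G) [Fintype (Q : Subgroup G)]
    (h : ∀ θ ∈ principalBlock M G,
      classInner (fun x : (Q : Subgroup G) => θ.1 x) (fun _ => 1) ≠ 0 → θ = irrOne G) :
    HasNormalPComplement p G := by
  haveI := hM.2.1
  have h1 := H6.sum_inner_res_mul_deg hM H6.isPBlock_principal Q.isPGroup'
  have h2 : ∑ χ ∈ H8.bfin (principalBlock M G),
      classInner (fun x : (Q : Subgroup G) => χ.1 x) (fun _ => 1) * χ.1 1 = 1 := by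
    rw [Finset.sum_eq_single_of_mem _ (H8.mem_bfin.2 H6.irrOne_mem_principal) fun θ hθ hne =>
      mul_eq_zero_of_left (by_contra fun hc => hne (h θ (H8.mem_bfin.1 hθ) hc)) _]
    simp only [irrOne_apply, classInner_one_one, mul_one]
  refine H6.hasNormalPComplement_of_linear hM H6.isPBlock_principal (H8.bmin_principal hM)
    fun θ hθ hd => ?_
  have h3 := H8.charDegree_eq_sum_nin (θ.2.isCharacter.restrict Q)
  obtain ⟨η, -, hη⟩ : ∃ η ∈ (Finset.univ : Finset (IrrCharacter (Q : Subgroup G))),
      ¬ p ∣ H8.nin (fun x : (Q : Subgroup G) => θ.1 x) η.1 * charDegree η.1 := by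
    by_contra hc
    push Not at hc
    exact hd (h3 ▸ Finset.dvd_sum hc : p ∣ charDegree fun x : (Q : Subgroup G) => θ.1 x)
  obtain ⟨n, hn⟩ := IsPGroup.iff_card.1 Q.isPGroup'
  obtain ⟨k, -, hk⟩ := (Nat.dvd_prime_pow hp.out).1 (hn ▸ η.2.charDegree_dvd_card)
  have h4 : η.1 1 = 1 := by
    rw [← H8.irr_coe_charDegree, hk]
    rcases k with _ | k
    · simp
    · exact absurd (Dvd.dvd.mul_left (hk ▸ dvd_pow_self p k.succ_ne_zero) _) hη
  have h5 := h1 η.1
  rw [h4, ← h1 fun _ => 1, h2] at h5
  have h6 := mul_left_cancel₀ natCard_ne_zero' h5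
  have h7 : ∑ χ ∈ H8.bfin (principalBlock M G),
      H8.nin (fun x : (Q : Subgroup G) => χ.1 x) η.1 * charDegree χ.1 = 1 := by
    simp only [← H8.irr_coe_charDegree,
      ← fun χ : IrrCharacter G => H8.nin_cast (χ.2.isCharacter.restrict Q) η.2.isCharacter] at h6
    exact_mod_cast h6
  have h8 := h7 ▸ Finset.single_le_sum (f := fun χ : IrrCharacter G =>
    H8.nin (fun x : (Q : Subgroup G) => χ.1 x) η.1 * charDegree χ.1)
    (fun _ _ => Nat.zero_le _) (H8.mem_bfin.2 hθ)
  have h9 : H8.nin (fun x : (Q : Subgroup G) => θ.1 x) η.1 ≠ 0 := fun e => hη (by simp [e])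
  rw [← H8.irr_charDegree_eq_one_iff]
  exact le_antisymm ((Nat.le_mul_of_pos_left _ (Nat.pos_of_ne_zero h9)).trans h8)
    (H8.irr_charDegree_pos θ)

/-- Let p be a prime, M a maximal ideal of the algebraic integers containing p, G a finite group, P a Sylow p-subgroup and N = N_G(P). Then G has p-length 1 (G = O_{p',p,p'}(G)) if and only if every irreducible character in the principal p-block of G restricts to an irreducible character of N. -/
theorem result {G : Type*} [Group G] [Finite G] (p : ℕ) [Fact p.Prime] (M : Ideal Cfsg.AlgInt) (hM : Cfsg.IsPModular p M) (P : Sylow p G) : Cfsg.PLengthLE p 1 G ↔ ∀ χ ∈ Cfsg.principalBlock M G, Cfsg.IsIrrCharacter ↥(Subgroup.normalizer ((P : Subgroup G) : Set G)) (fun n : ↥(Subgroup.normalizer ((P : Subgroup G) : Set G)) => (χ : G → ℂ) n) := by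
  haveI := hM.2.1
  haveI := Fintype.ofFinite G
  rw [H21.pLengthLE_one_iff]
  set π := QuotientGroup.mk' (pPrimeCore p G)
  have hπ : Function.Surjective π := QuotientGroup.mk'_surjective _
  haveI : (pPrimePCore p G).Normal := Subgroup.Normal.comap inferInstance _
  constructor
  · intro h χ hχ
    have h1 : (P : Subgroup G) ≤ pPrimePCore p G := le_of_not_dvd_relIndex
      Subgroup.le_normalizer_of_normal (by rwa [Subgroup.relIndex_top_right]) P.isPGroup' le_top
    have h2 : pPrimePCore p G ≤ (P : Subgroup G) ⊔ pPrimeCore p G := by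
      have := Subgroup.comap_mono (f := π) (H1.pCore_le_sylow (P.mapSurjective hπ))
      rwa [Sylow.coe_mapSurjective, Subgroup.comap_map_eq, QuotientGroup.ker_mk'] at this
    have h3 : Subgroup.normalizer ((P : Subgroup G) : Set G) ⊔ pPrimeCore p G = ⊤ := by
      rw [eq_top_iff, ← Sylow.normalizer_sup_eq_top' P h1]
      exact sup_le le_sup_left (h2.trans (sup_le_sup_right Subgroup.le_normalizer _))
    have h4 := H6.pPrimeCore_le_charKer hM hχ
    have h5 := (χ.2.deflate h4).comp_of_surjective
      (π.comp (Subgroup.normalizer ((P : Subgroup G) : Set G)).subtype) (by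
        rw [← MonoidHom.range_eq_top, MonoidHom.range_comp, Subgroup.range_subtype,
          ← Subgroup.comap_injective hπ |>.eq_iff, Subgroup.comap_map_eq, QuotientGroup.ker_mk',
          h3, Subgroup.comap_top])
    exact (funext fun n => deflate_mk h4 _ : _ = _) ▸ h5
  · intro h
    set L := Subgroup.normalClosure ((P : Subgroup G) : Set G)
    have hPL : (P : Subgroup G) ≤ L := Subgroup.le_normalClosure
    haveI := Fintype.ofFinite L
    haveI := Fintype.ofFinite (P : Subgroup G)
    haveI := Fintype.ofFinite (Subgroup.normalizer ((P : Subgroup G) : Set G))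
    haveI := Fintype.ofFinite (P.subtype hPL : Subgroup L)
    have h1 := hnpc_of_unique hM (P.subtype hPL) fun θ hθ h1 => by
      obtain ⟨χ, hχ, h2⟩ := exists_principal_over hθ
      have h6 : classInner (fun x : (P : Subgroup G) => χ.1 x) (fun _ => 1) ≠ 0 := by
        have h3 := H8.nin_comp_eq_sum (Subgroup.inclusion hPL)
          (χ.2.isCharacter.restrict L) isCharacter_one
        rw [← H8.nin_ne_zero_iff (χ.2.isCharacter.restrict _) isCharacter_one]
        intro h4
        have h5 := Finset.sum_eq_zero_iff.1 (h3.symm.trans h4) θ (Finset.mem_univ θ)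
        refine mul_ne_zero ((H8.nin_ne_zero_iff (χ.2.isCharacter.restrict L)
          θ.2.isCharacter).2 h2) ((H8.nin_ne_zero_iff
          (θ.2.isCharacter.comp _) isCharacter_one).2 fun h6 => h1 ?_) h5
        rw [← h6]
        let e : (P.subtype hPL : Subgroup L) ≃* (P : Subgroup G) :=
          Subgroup.subgroupOfEquivOfLe hPL
        exact classInner_comp_equiv (fun x => θ.1 (Subgroup.inclusion hPL x)) (fun _ => 1)
          e.toEquiv
      let E := H5.NEmb.ofLe (Subgroup.le_normalizer (H := (P : Subgroup G))) fun t ht n hn =>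
        (Subgroup.mem_normalizer_iff.1 ht n).1 hn
      have h7 : ∀ n : (P : Subgroup G), χ.1 n = χ.1 1 :=
        (E.inner_res_one_ne_zero_iff (h χ hχ)).1 h6
      haveI := χ.2.isCharacter.charKer_normal
      have h8 : L ≤ charKer χ.1 := Subgroup.normalClosure_le_normal fun x hx =>
        χ.2.isCharacter.mem_charKer.2 (h7 ⟨x, hx⟩)
      refine Subtype.ext (θ.2.charKer_eq_top_iff.1 (eq_top_iff.2 (le_trans (fun x _ => ?_)
        ((χ.2.isCharacter.restrict L).charKer_le_of_constituent θ.2 h2))))
      exact (χ.2.isCharacter.restrict L).mem_charKer.2 (χ.2.isCharacter.mem_charKer.1 (h8 x.2))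
    have h2 : (pResidual p L).map L.subtype ≤ pPrimeCore p G := H1.le_pPrimeCore (by
      rw [Subgroup.card_map_of_injective L.subtype_injective]
      exact ((Nat.Prime.coprime_iff_not_dvd hM.1).2 (hasNormalPComplement_iff_not_dvd.1 h1)).symm)
    haveI : (L.map π).Normal := Subgroup.Normal.map inferInstance _ hπ
    have h3 : L.map π ≤ pCore p _ := H1.le_pCore (by
      rintro ⟨_, x, hx, rfl⟩
      obtain ⟨k, hk⟩ := exists_pow_coprime_orderOf p (⟨x, hx⟩ : L)
      refine ⟨k, Subtype.ext ?_⟩
      change π x ^ p ^ k = 1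
      rw [← map_pow]
      exact (QuotientGroup.eq_one_iff _).2 (h2 ⟨_, mem_pResidual_of_coprime hk, rfl⟩))
    exact fun hc => P.not_dvd_index (hc.trans (Subgroup.index_dvd_of_le
      (hPL.trans (Subgroup.map_le_iff_le_comap.1 h3))))

end Cfsg.Agent.S4711
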