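import Cfsg.Statements.S4712
import Cfsg.Agent.H7.PRat2
-- import your own Cfsg.Agent.* helpers here

set_option autoImplicit false
open Cfsg

namespace Cfsg.Agent.S4712

open MonoidAlgebra Cfsg.Agent.H3 Cfsg.Agent.H4 Cfsg.Agent.H7
open Cfsg.Agent.H6 (Res locRing redC redA eB fB intAlg classSum omega chiL)
open scoped Pointwise
set_option linter.style.haveILetI false


/-- Let p be an odd prime, M a maximal ideal of the algebraic integers containing p, G a finite group of order n with p-part p^a, and B a p-block of G. Call an irreducible character χ p-rational when χ(g^k) = χ(g) for every g and every k coprime to n with k ≡ 1 modulo n/p^a (χ is fixed by the Galois automorphisms fixing the roots of unity of order prime to p). Then the number of p-rational irreducible characters in B is at least the p-regular rank of B (the number of irreducible Brauer characters in B). -/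
theorem result {G : Type*} [Group G] [Finite G] (p : ℕ) [Fact p.Prime] (hodd : p ≠ 2) (M : Ideal Cfsg.AlgInt) (hM : Cfsg.IsPModular p M) (B : Set (Cfsg.IrrCharacter G)) (hB : Cfsg.IsPBlock M B) : Cfsg.blockRank p B ≤ Nat.card {χ : Cfsg.IrrCharacter G // χ ∈ B ∧ ∀ k : ℕ, Nat.Coprime k (Nat.card G) → k ≡ 1 [MOD Nat.card G / p ^ (Nat.card G).factorization p] → ∀ g : G, (χ : G → ℂ) (g ^ k) = (χ : G → ℂ) g} := by
  classical
  haveI := hM.2.1
  haveI := Fintype.ofFinite G
  have hp : p.Prime := Fact.out
  have h0 : Nat.card G ≠ 0 := Nat.card_pos.ne'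
  have hn := Nat.coprime_ordCompl hp h0
  have he := Nat.ordProj_mul_ordCompl_eq_self (Nat.card G) p
  obtain ⟨m, h1, h2, h3⟩ := H7.exists_gen_mod hp hodd ((Nat.card G).factorization p) hn.symm
  rw [he] at h1 h3
  have h4 : ∀ g : G, ¬ p ∣ orderOf g → g ^ m = g := fun g hg => by
    have h5 : orderOf g ∣ Nat.card G / p ^ (Nat.card G).factorization p :=
      Nat.Coprime.dvd_of_dvd_mul_left
        (Nat.Coprime.pow_right _ ((Nat.Prime.coprime_iff_not_dvd hp).mpr hg).symm)
        (by rw [he]; exact orderOf_dvd_natCard g)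
    conv_rhs => rw [← pow_one g]
    exact pow_eq_pow_iff_modEq.mpr (h2.of_dvd h5)
  refine (H7.blockRank_le_card_fixed hM hB h1 h4).trans (Nat.card_le_card_of_injective
    (fun χ => ⟨χ.1, χ.2.1, fun k hk hk1 g => ?_⟩) fun a b h => Subtype.ext (congrArg Subtype.val h :))
  obtain ⟨i, hi⟩ := h3 k hk hk1
  rw [pow_eq_pow_iff_modEq.mpr (hi.of_dvd (orderOf_dvd_natCard g))]
  clear hi
  induction i with
  | zero => simp
  | succ i ih => rw [pow_succ, pow_mul, χ.2.2, ih]

end Cfsg.Agent.S4712
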