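import Cfsg.Statements.S4713
import Mathlib
import Cfsg.Agent.H8.Deg1

set_option autoImplicit false
open Cfsg

namespace Cfsg.Agent.S4713

open scoped ComplexConjugate commutatorElement Pointwise
-- OPENS
open Cfsg.Agent.H8
open Cfsg.Agent.H6
open Cfsg.Agent.H4 hiding exists_int_of_isIntegral_rat
open Cfsg.Agent.H5
open Cfsg.Agent.H3


/-- Let p be a prime and G a finite p-solvable group. Then G has a normal abelian Sylow p-subgroup if and only if the degree of every irreducible character of G is prime to p. -/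
theorem result {G : Type*} [Group G] [Finite G] (p : ℕ) [Fact p.Prime] (hsolv : Cfsg.IsPSolvable p G) (P : Sylow p G) : ((P : Subgroup G).Normal ∧ IsMulCommutative P) ↔ ∀ χ : Cfsg.IrrCharacter G, ¬ p ∣ Cfsg.charDegree (χ : G → ℂ) := by
  refine ⟨fun ⟨_, h1⟩ χ h => P.not_dvd_index (h.trans (cd_dvd_index_of_comm
    (fun a ha b hb => congrArg Subtype.val (h1.is_comm.comm (⟨a, ha⟩ : P) ⟨b, hb⟩)) ⟨χ, rfl⟩)),
    fun h => ?_⟩
  obtain ⟨h1, h2⟩ := ito hsolv fun d ⟨χ, hχ⟩ => hχ ▸ h χ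
  rw [← sylow_eq_pCore P h1] at h2
  exact ⟨sylow_eq_pCore P h1 ▸ inferInstance,
    ⟨⟨fun a b => Subtype.ext (h2 a a.2 b b.2)⟩⟩⟩

end Cfsg.Agent.S4713
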