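import Cfsg.Statements.S4714
import Cfsg.Agent.H7.Central
-- import your own Cfsg.Agent.* helpers here

set_option autoImplicit false
open Cfsg

namespace Cfsg.Agent.S4714

open MonoidAlgebra Cfsg.Agent.H3 Cfsg.Agent.H4 Cfsg.Agent.H7
open Cfsg.Agent.H6 (Res locRing redC redA eB fB intAlg classSum omega chiL)
open scoped Pointwise
set_option linter.style.haveILetI false


/-- Let p be a prime, M a maximal ideal of the algebraic integers containing p, D a p-subgroup of the finite group G with G = D·C_G(D), and B a p-block with defect group D. Let χ be a member of B having D in its kernel (there is exactly one, the canonical character of B). Then the irreducible characters in B are exactly the functions θ on G for which there is an irreducible character ζ of D such that θ(yx) = ζ(y)χ(x) whenever y ∈ D, x has order prime to p and x commutes with y, and θ(z) = 0 whenever the p-part of z does not lie in D. -/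
theorem result {G : Type*} [Group G] [Finite G] (p : ℕ) [Fact p.Prime] (M : Ideal Cfsg.AlgInt) (hM : Cfsg.IsPModular p M) (D : Subgroup G) (hD : IsPGroup p D) (hG : D ⊔ Subgroup.centralizer (D : Set G) = ⊤) (B : Set (Cfsg.IrrCharacter G)) (hB : Cfsg.IsPBlock M B) (hBD : Cfsg.IsDefectGroup p M B D) (χ : Cfsg.IrrCharacter G) (hχ : χ ∈ B) (hχD : ∀ y ∈ D, (χ : G → ℂ) y = (χ : G → ℂ) 1) : (∀ θ : Cfsg.IrrCharacter G, θ ∈ B ↔ ∃ ζ : Cfsg.IrrCharacter D, (∀ (y : D) (x : G), ¬ p ∣ orderOf x → Commute (y : G) x → (θ : G → ℂ) ((y : G) * x) = (ζ : D → ℂ) y * (χ : G → ℂ) x) ∧ (∀ z : G, (∀ y : G, Cfsg.IsPPart p z y → y ∉ D) → (θ : G → ℂ) z = 0)) ∧ ∀ ζ : Cfsg.IrrCharacter D, ∃ θ ∈ B, (∀ (y : D) (x : G), ¬ p ∣ orderOf x → Commute (y : G) x → (θ : G → ℂ) ((y : G) * x) = (ζ : D → ℂ) y * (χ : G → ℂ) x) ∧ (∀ z : G, (∀ y : G, Cfsg.IsPPart p z y → y ∉ D) → (θ : G → ℂ) z = 0) := by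
  haveI := hM.2.1
  haveI := normal_of_sup_centralizer hG
  have hker : D ≤ charKer (χ : G → ℂ) := fun x hx => χ.2.isCharacter.mem_charKer.2 (hχD x hx)
  have van : ∀ θ ∈ B, ∀ z : G, (∀ y : G, IsPPart p z y → y ∉ D) → (θ : G → ℂ) z = 0 :=
    fun θ hθ z h => by
      obtain ⟨u, hu⟩ := H6.exists_isPPart (p := p) Fact.out z
      exact apply_eq_zero_of_normal_defect hM hB hBD hθ hu (h u hu)
  refine ⟨fun θ => ⟨fun hθ => ?_, fun ⟨ζ, h1, h2⟩ => ?_⟩, fun ζ => ?_⟩
  · obtain ⟨ζ, h⟩ := exists_param hM hB hG hBD hχ hker hθ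
    exact ⟨ζ, fun y x hx _ => h y x hx, van θ hθ⟩
  · obtain ⟨ψ, hψ, h⟩ := exists_mem_param hM hB hG hBD hχ hker ζ
    rwa [show θ = ψ from Subtype.ext (eq_of_param (p := p) (P := D)
      (fun d y hy hc => by rw [h1 d y hy hc, h d y hy])
      (fun g u hu h3 => h2 g fun y hy => H6.IsPPart.unique Fact.out hu hy ▸ h3)
      fun g u => apply_eq_zero_of_normal_defect hM hB hBD hψ)]
  · obtain ⟨ψ, hψ, h⟩ := exists_mem_param hM hB hG hBD hχ hker ζ
    exact ⟨ψ, hψ, fun y x hx _ => h y x hx, van ψ hψ⟩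

end Cfsg.Agent.S4714
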