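import Cfsg.Statements.S4715
import Cfsg.Agent.H7.Major
-- import your own Cfsg.Agent.* helpers here

set_option autoImplicit false
open Cfsg

namespace Cfsg.Agent.S4715

open MonoidAlgebra Cfsg.Agent.H3 Cfsg.Agent.H4 Cfsg.Agent.H7
open Cfsg.Agent.H6 (Res locRing redC redA eB fB intAlg classSum omega chiL)
open scoped Pointwise
set_option linter.style.haveILetI false


/-- Let p be a prime, M a maximal ideal of the algebraic integers containing p, B a p-block of the finite group G with defect group D of order p^d, H = D·C_G(D), b a block of H inducing B, T the stabilizer of b in N_G(D) and e = [T : H] the inertial index of B; let n be the integer with p^n ≤ e < p^(n+1) and p^c the order of the centre of D. Then every irreducible character in B has height h with h + c ≤ n + d. -/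
theorem result {G : Type*} [Group G] [Finite G] (p : ℕ) [Fact p.Prime] (M : Ideal Cfsg.AlgInt) (hM : Cfsg.IsPModular p M) (B : Set (Cfsg.IrrCharacter G)) (hB : Cfsg.IsPBlock M B) (D : Subgroup G) (hBD : Cfsg.IsDefectGroup p M B D) (d : ℕ) (hDd : Nat.card D = p ^ d) (H : Subgroup G) (hH : H = D ⊔ Subgroup.centralizer (D : Set G)) (b : Set (Cfsg.IrrCharacter H)) (hind : Cfsg.IsInducedBlock M H b B) (T : Subgroup G) (hT : ∀ g : G, g ∈ T ↔ (g ∈ Subgroup.normalizer (D : Set G) ∧ ∀ θ ∈ b, ∀ θ' : Cfsg.IrrCharacter H, (∀ h h' : H, (h' : G) = g * h * g⁻¹ → (θ' : H → ℂ) h' = (θ : H → ℂ) h) → θ' ∈ b)) (e : ℕ) (he : H.relIndex T = e) (n : ℕ) (hn : p ^ n ≤ e ∧ e < p ^ (n + 1)) (c : ℕ) (hc : Nat.card (Subgroup.center D) = p ^ c) : ∀ χ ∈ B, Cfsg.blockHeight p B (χ : G → ℂ) + c ≤ n + d := by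
  haveI := hM.2.1; haveI := H6.charP_res hM
  haveI := Fintype.ofFinite G
  intro χ hχ
  subst hH he
  have hD := (isDefectGroup_iff hM hB).1 hBD
  have hN : Subgroup.normalizer (D : Set G) ≤ Subgroup.normalizer
      ((D ⊔ Subgroup.centralizer (D : Set G) : Subgroup G) : Set G) := fun g hg =>
    mem_normalizer_sup hg (normalizer_le_normalizer_centralizer D hg)
  have S : MaxP p ⊤ ⊤ (eB M B) D (eb M _ b) := ⟨le_rfl, Subgroup.le_normalizer, blk_eB hB, hD,
    by rw [CK_top]; exact (blk_sup_centralizer_iff hD.isPGroup).1 (blk_eb hind.1),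
    Ind.br_mul hD.isPGroup le_top (Subgroup.le_normalizer.trans hN) (inf_le_left.trans le_sup_right)
      (sup_le Subgroup.le_normalizer (Subgroup.centralizer_le_normalizer _)) le_top
      (IsInducedBlock.ind hind)⟩
  have hT' : T = NS ⊤ D (eb M _ b) := by
    ext g
    rw [hT, mem_NS]
    exact and_congr_right fun hg => by
      rw [forall_conj_mem_iff (hN hg) hind.1, and_iff_right (Subgroup.mem_top g)]
  have h := S.card_center_mul_pow_height_le hM hB hχ
  rw [← hT', hc, hDd, ← pow_add] at h
  have h1 := h.trans_lt (Nat.mul_lt_mul_of_pos_left hn.2 (pow_pos hM.1.pos d))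
  rw [← pow_add, Nat.pow_lt_pow_iff_right hM.1.one_lt] at h1
  omega

end Cfsg.Agent.S4715
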