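import Cfsg.Statements.S4716
import Mathlib
import Cfsg.Agent.H8.Subsec2

set_option autoImplicit false
open Cfsg

namespace Cfsg.Agent.S4716

-- OPENS
open Cfsg.Agent.H8
open Cfsg.Agent.H6 hiding blockCoeff_eq_zero blockCoeff_mem blockPart_add
  blockPart_eq_zero_of_regular blockPart_eq_zero_of_singular blockPart_irr_of_mem
  blockPart_irr_of_not_mem blockPart_isClassFunction blockPart_smul blockPart_sub blockPart_sum
  blockPart_zero block_eq_blockOf block_eq_of_mem block_nonempty centralChar_mem char_mem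
  conj_char_mem irrOne_mem_principal isPBlock_blockOf isPBlock_principal mem_blockOf_self
  orderOf_conj' sameBlock_refl sameBlock_symm sameBlock_trans weak_orth weak_orth'
open Cfsg.Agent.H4 hiding exists_int_of_isIntegral_rat
open Cfsg.Agent.H5
open Cfsg.Agent.H3


/-- Let p be a prime, M a maximal ideal of the algebraic integers containing p, and B a p-block of defect d of the finite group G all of whose irreducible characters have height zero. Let y be a p-element, C = C_G(y), and b a block of C inducing B and having the same defect d (a major subsection). Then k(B)^2 ≤ p^(2d)·l(b), where k(B) is the number of irreducible characters in B and l(b) the p-regular rank of b (its number of irreducible Brauer characters); in particular (y = 1) k(B)^2 ≤ p^(2d)·l(B). -/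
theorem result {G : Type*} [Group G] [Finite G] (p : ℕ) [Fact p.Prime] (M : Ideal Cfsg.AlgInt) (hM : Cfsg.IsPModular p M) (B : Set (Cfsg.IrrCharacter G)) (hB : Cfsg.IsPBlock M B) (d : ℕ) (hd : Cfsg.blockDefect p B = d) (hh : ∀ χ ∈ B, Cfsg.blockHeight p B (χ : G → ℂ) = 0) (y : G) (hy : ∃ k : ℕ, orderOf y = p ^ k) (b : Set (Cfsg.IrrCharacter ↥(Subgroup.centralizer ({y} : Set G)))) (hind : Cfsg.IsInducedBlock M (Subgroup.centralizer ({y} : Set G)) b B) (hbd : Cfsg.blockDefect p b = d) : Nat.card B ^ 2 ≤ p ^ (2 * d) * Cfsg.blockRank p b := by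
  have := hM.2.1
  have := Fintype.ofFinite G
  have := Fintype.ofFinite (Subgroup.centralizer ({y} : Set G))
  have h := secData_centralizer hy
  obtain ⟨n, hn⟩ := h.pow_eq_one
  haveI : NeZero (p ^ n) := ⟨pow_ne_zero _ hM.1.ne_zero⟩
  have h1 := h.sum_tsum' hM hind hn
  have h2 : ∀ χ ∈ bfin B, (Nat.card B : ℝ) * Fintype.card (ZMod (p ^ n))ˣ ≤
      (p : ℝ) ^ blockDefect p b * tsum' p y b (p ^ n) χ := by
    intro χ hχ
    have := h.card_height_zero_le hM hind hn (mem_bfin.mp hχ) (hh χ (mem_bfin.mp hχ))
    rwa [Finset.filter_true_of_mem (fun ψ hψ => hh ψ (mem_bfin.mp hψ)), card_bfin] at this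
  have h3 := Finset.card_nsmul_le_sum _ _ _ h2
  rw [← Finset.mul_sum, h1, card_bfin, hbd, nsmul_eq_mul] at h3
  have h4 : (0 : ℝ) < Fintype.card (ZMod (p ^ n))ˣ := by exact_mod_cast Fintype.card_pos
  have h5 : (Nat.card B : ℝ) ^ 2 ≤ (p : ℝ) ^ (2 * d) * blockRank p b := by
    refine le_of_mul_le_mul_left (le_trans (le_of_eq ?_) (le_trans h3 (le_of_eq ?_))) h4 <;> ring
  exact_mod_cast h5

end Cfsg.Agent.S4716
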