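import Cfsg.Statements.S4717
import Cfsg.Agent.H7.Local5
import Cfsg.Agent.H1.SylowIn
-- import your own Cfsg.Agent.* helpers here

set_option autoImplicit false
open Cfsg

namespace Cfsg.Agent.S4717

open MonoidAlgebra Cfsg.Agent.H3 Cfsg.Agent.H4 Cfsg.Agent.H7
open Cfsg.Agent.H6 (Res locRing redC redA eB fB intAlg classSum omega chiL)
open scoped Pointwise
set_option linter.style.haveILetI false


/-- Let p be a prime, M a maximal ideal of the algebraic integers containing p, and r a natural number; say that a finite group X has deficiency class r when X has no non-principal p-block of defect ≥ r. If G has deficiency class r then so does the centralizer of every p-element of G; conversely, if r > 0 and the centralizer of every element of order p has deficiency class r, then G has deficiency class r. -/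
theorem result {G : Type*} [Group G] [Finite G] (p : ℕ) [Fact p.Prime] (M : Ideal Cfsg.AlgInt) (hM : Cfsg.IsPModular p M) (r : ℕ) : ((∀ B' : Set (Cfsg.IrrCharacter G), Cfsg.IsPBlock M B' → B' ≠ Cfsg.principalBlock M G → Cfsg.blockDefect p B' < r) → ∀ y : G, (∃ k : ℕ, orderOf y = p ^ k) → (∀ B' : Set (Cfsg.IrrCharacter ↥(Subgroup.centralizer ({y} : Set G))), Cfsg.IsPBlock M B' → B' ≠ Cfsg.principalBlock M ↥(Subgroup.centralizer ({y} : Set G)) → Cfsg.blockDefect p B' < r)) ∧ (0 < r → (∀ y : G, orderOf y = p → (∀ B' : Set (Cfsg.IrrCharacter ↥(Subgroup.centralizer ({y} : Set G))), Cfsg.IsPBlock M B' → B' ≠ Cfsg.principalBlock M ↥(Subgroup.centralizer ({y} : Set G)) → Cfsg.blockDefect p B' < r)) → (∀ B' : Set (Cfsg.IrrCharacter G), Cfsg.IsPBlock M B' → B' ≠ Cfsg.principalBlock M G → Cfsg.blockDefect p B' < r)) := by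
  haveI := hM.2.1; haveI := H6.charP_res hM
  have hp : p.Prime := Fact.out
  refine ⟨fun h y hy b hb hb1 => ?_, fun hr h B hB hB1 => ?_⟩
  · have hQ := H6.isPGroup_zpowers hp hy
    have hC : CK ⊤ (Subgroup.zpowers y) = Subgroup.centralizer ({y} : Set G) := by
      rw [CK_top, H6.centralizer_zpowers]
    obtain ⟨B, hI, hB⟩ := exists_ind_CK hQ le_top (c := eb M _ b) (by rw [hC]; exact blk_eb hb)
    obtain ⟨B, hB', rfl⟩ := exists_eB_eq hI.right
    have h1 := h B hB' fun h0 => hb1 ((eq_principal_iff_aug_eb hb).2 (third_main le_rfl Subgroup.le_normalizer_of_normal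
      hI.right ((eq_principal_iff_aug hB').1 h0) ⟨hQ, Subgroup.le_normalizer_of_normal, hI.left⟩ le_top hB))
    rw [hC] at hI
    obtain ⟨D, hD⟩ := exists_isDef p hI.left
    obtain ⟨E, hE, hDE⟩ := hI.exists_isDef_ge hD
    have h2 := Subgroup.card_le_of_le hDE
    rw [card_eq_pow_blockDefect_eb hM hb hD, card_eq_pow_blockDefect hM hB' hE,
      Nat.pow_le_pow_iff_right hp.one_lt] at h2
    exact h2.trans_lt h1
  · obtain ⟨D, hD⟩ := exists_isDef p (blk_eB hB)
    have h1 := card_eq_pow_blockDefect hM hB hD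
    by_cases h0 : D = ⊥
    · rw [h0, Subgroup.card_bot, eq_comm, Nat.pow_eq_one] at h1
      rwa [h1.resolve_left hp.ne_one]
    obtain ⟨y, hy, hyp⟩ := exists_orderOf_eq_prime (hD.isPGroup.to_le inf_le_left)
      (H1.inf_centralizer_ne_bot_of_isPGroup hD.isPGroup hD.isPGroup Subgroup.le_normalizer h0)
    obtain ⟨e, S⟩ := exists_maxP le_rfl Subgroup.le_normalizer_of_normal (blk_eB hB) hD
    have hDC : D ≤ Subgroup.centralizer (Subgroup.zpowers y : Set G) :=
      Subgroup.le_centralizer_iff.1 (Subgroup.zpowers_le.2 hy.2)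
    obtain ⟨f, hf⟩ := exists_nle S.pair (Subgroup.zpowers_le.2 hy.1)
      (hDC.trans (Subgroup.centralizer_le_normalizer _))
    have h2 := S.isDef_of_le hf.ple (CK_top _).le hf.left.centralizer_le_NS hDC
    have h3 := S.br_mul_of_ple hf.ple
    have h4 := (isPair_top_iff.1 hf.left).2
    rw [H6.centralizer_zpowers] at h2 h4
    obtain ⟨b, hb, rfl⟩ := exists_eb_eq h4
    have h5 := h y hyp b hb fun h0 => hB1 ((eq_principal_iff_aug hB).2 (aug_ne_of_br_mul
      hf.left.isPGroup ((blk_eB hB).mem.2.mono le_top) h3 ((eq_principal_iff_aug_eb hb).1 h0)))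
    rw [card_eq_pow_blockDefect_eb hM hb h2] at h1
    rwa [← Nat.pow_right_injective hp.two_le h1]

end Cfsg.Agent.S4717
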