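import Cfsg.Statements.S4719
import Mathlib
import Cfsg.Agent.H8.Landau
import Cfsg.Agent.H6.Height
import Cfsg.Agent.H6.Second

set_option autoImplicit false
universe u
open Cfsg

namespace Cfsg.Agent.S4719

open scoped ComplexConjugate commutatorElement Pointwise
-- OPENS
open Cfsg.Agent.H8
open Cfsg.Agent.H6 hiding blockDefect_eq blockHeight_eq block_eq_blockOf block_eq_of_mem
  block_nonempty centralChar_mem char_mem conj_char_mem deg_factorization_le exists_height_zero
  irrOne_mem_principal isPBlock_blockOf isPBlock_principal mem_blockOf_self orderOf_conj'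
  sameBlock_refl sameBlock_symm sameBlock_trans weak_orth
open Cfsg.Agent.H4 hiding exists_int_of_isIntegral_rat
open Cfsg.Agent.H5
open Cfsg.Agent.H3


/-- For every natural number a there is a bound N with the following property. Let G be a finite group with Sylow 2-subgroups of order 2^a and r ≥ 0 such that G has no non-principal 2-block (relative to a maximal ideal of the algebraic integers containing 2) of defect ≥ r, and suppose a Sylow 2-subgroup of G contains an elementary abelian subgroup of order 2^(r+1). Then the order of G is at most N. -/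
theorem result (a : ℕ) : ∃ N : ℕ, ∀ (G : Type u) [Group G] [Finite G] (M : Ideal Cfsg.AlgInt) (r : ℕ) (P : Sylow 2 G), Cfsg.IsPModular 2 M → Nat.card P = 2 ^ a → (∀ B : Set (Cfsg.IrrCharacter G), Cfsg.IsPBlock M B → B ≠ Cfsg.principalBlock M G → Cfsg.blockDefect 2 B < r) → (∃ E : Subgroup G, E ≤ (P : Subgroup G) ∧ IsMulCommutative E ∧ (∀ x ∈ E, x * x = 1) ∧ Nat.card E = 2 ^ (r + 1)) → Nat.card G ≤ N := by
  obtain ⟨c, hc⟩ := one_block_bound.{u} 2 a
  choose F hF using elem_chain_bound.{u} c a
  refine ⟨(Finset.range (a + 1)).sup F, fun G _ _ M r P hM hP h ⟨E, hEP, hE, h2, hr⟩ => ?_⟩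
  have := hM.2.1
  have ha : (Nat.card G).factorization 2 = a :=
    Nat.pow_right_injective le_rfl (P.card_eq_multiplicity.symm.trans hP)
  have hra : r < a + 1 := by
    have := Subgroup.card_le_of_le hEP
    rw [hr] at this
    have := (Nat.pow_le_pow_iff_right one_lt_two).mp (this.trans_eq hP)
    omega
  have h1 := hF r G E r ha.le hE h2 hr (fun Q hQ hQr => hc _ M hM (le_trans
    ((Nat.factorization_le_iff_dvd Nat.card_pos.ne' Nat.card_pos.ne').mpr
      (Subgroup.card_subgroup_dvd_card _) 2) ha.le) fun b hb => ?_) ⊥ bot_le (by simp)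
  · rw [Subgroup.centralizer_eq_top_iff_subset.mpr (by simp), Subgroup.card_top] at h1
    exact h1.trans (Finset.le_sup (f := F) (Finset.mem_range.mpr hra))
  have hQ2 : IsPGroup 2 Q := IsPGroup.of_card hQr
  have hd := inducedBlockDefined_centralizer hM hQ2 hb
  obtain ⟨B, hB⟩ := id hd
  obtain ⟨D, hD, hQD⟩ := exists_defectGroup_ge_of_induced hQ2 le_rfl hB
  by_contra hne
  have h3 := h B hB.2.1 fun e => hne ((third_main hM hd).mp (e ▸ hB))
  have h4 := Subgroup.card_le_of_le hQD
  rw [hQr, card_defectGroup hM hB.2.1 hD, Nat.pow_le_pow_iff_right one_lt_two] at h4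
  omega

end Cfsg.Agent.S4719
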