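import Cfsg.Statements.S4720
import Mathlib
import Cfsg.Agent.H8.Subsec3

set_option autoImplicit false
open Cfsg

namespace Cfsg.Agent.S4720

open scoped ComplexConjugate
-- OPENS
open Cfsg.Agent.H8
open Cfsg.Agent.H6 hiding blockCoeff_eq_zero blockCoeff_mem blockDefect_eq blockHeight_eq
  blockPart_add blockPart_eq_zero_of_regular blockPart_eq_zero_of_singular blockPart_irr_of_mem
  blockPart_irr_of_not_mem blockPart_isClassFunction blockPart_smul blockPart_sub blockPart_sum
  blockPart_zero block_eq_blockOf block_eq_of_mem block_nonempty card_defectGroup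
  centralChar_mem char_mem conj_char_mem deg_factorization_le exists_height_zero
  irrOne_mem_principal isPBlock_blockOf isPBlock_principal isPGroup_zpowers mem_blockOf_self
  orderOf_conj' sameBlock_refl sameBlock_symm sameBlock_trans weak_orth weak_orth'
open Cfsg.Agent.H4 hiding exists_int_of_isIntegral_rat
open Cfsg.Agent.H5
open Cfsg.Agent.H3


/-- Let p be a prime, M a maximal ideal of the algebraic integers containing p, P a p-subgroup of the finite group G, N a subgroup with P ≤ N ≤ N_G(P), and U a nonempty subset of P normalized by N such that an element of U and an element of P that are conjugate in G are already conjugate in N, and such that λ(C_G(y)) = w·#C_N(y) for every y ∈ U with one rational number w, where λ(X) denotes the sum of the squares of the degrees of the irreducible characters in the principal p-block of X. For a complex function θ on P and χ in the principal block of G put a_χ(θ) = #P⁻¹ Σ_{y ∈ P} χ(y) θ(y⁻¹). Then for generalized characters θ, η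 of P with θ vanishing outside U, Σ_χ a_χ(θ)·conj(a_χ(η)) = (w/#P²)·Σ_{y ∈ P} θ(y)·conj(Σ_{x ∈ N} η(x y x⁻¹)) (η extended by zero off P; the conjugates lie in P), the first sum over the principal p-block of G. -/
theorem result {G : Type*} [Group G] [Finite G] (p : ℕ) [Fact p.Prime] (M : Ideal Cfsg.AlgInt) (hM : Cfsg.IsPModular p M) (P : Subgroup G) (hP : IsPGroup p P) (N : Subgroup G) (hPN : P ≤ N) (hNN : N ≤ Subgroup.normalizer (P : Set G)) (U : Set G) (hUne : U.Nonempty) (hUP : U ⊆ (P : Set G)) (hUN : ∀ n ∈ N, ∀ u ∈ U, n * u * n⁻¹ ∈ U) (hfus : ∀ u ∈ U, ∀ g : G, g * u * g⁻¹ ∈ (P : Set G) → ∃ n ∈ N, n * u * n⁻¹ = g * u * g⁻¹) (w : ℚ) (hw : ∀ y ∈ U, ((∑ᶠ ψ ∈ Cfsg.principalBlock M ↥(Subgroup.centralizer ({y} : Set G)), Cfsg.charDegree (ψ : ↥(Subgroup.centralizer ({y} : Set G)) → ℂ) ^ 2) : ℚ) = w * Nat.card ↥(N ⊓ Subgroup.centralizer ({y} : Set G))) (θ η : ↥P → ℂ) (hθ : Cfsg.IsGeneralizedCharacter ↥P θ) (hη : Cfsg.IsGeneralizedCharacter ↥P η) (hθU : ∀ y : ↥P, (y : G) ∉ U → θ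 y = 0) : ∑ᶠ χ ∈ Cfsg.principalBlock M G, ((Nat.card ↥P : ℂ)⁻¹ * ∑ᶠ y : ↥P, (χ : G → ℂ) (y : G) * θ y⁻¹) * (starRingEnd ℂ) ((Nat.card ↥P : ℂ)⁻¹ * ∑ᶠ y : ↥P, (χ : G → ℂ) (y : G) * η y⁻¹) = ((w : ℂ) / ((Nat.card ↥P : ℂ) ^ 2)) * ∑ᶠ y : ↥P, θ y * (starRingEnd ℂ) (∑ᶠ x : ↥N, Cfsg.extendByZero P η ((x : G) * (y : G) * (x : G)⁻¹)) := by
  classical
  have := hM.2.1
  have := Fintype.ofFinite G
  have := Fintype.ofFinite P
  have := Fintype.ofFinite N
  have hp := hM.1
  have hpe : ∀ y : P, ∃ k, orderOf (y : G) = p ^ k := fun y => exists_orderOf_pow_of_mem hP y.2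
  have key : ∀ y y' : P, (y : G) ∈ U →
      ∑ χ ∈ bfin (principalBlock M G), conj ((χ : G → ℂ) y) * (χ : G → ℂ) y' =
        if IsConj (y : G) y' then
          (w : ℂ) * Nat.card ↥(N ⊓ Subgroup.centralizer ({(y : G)} : Set G)) else 0 := by
    intro y y' hy
    split_ifs with hc
    · have h := secData_centralizer (hpe y)
      have h1 := h.sum_principal_mul_conj hM (y := 1) (y' := 1) (by simpa using hp.one_lt.ne')
        (by simpa using hp.one_lt.ne')
      simp only [OneMemClass.coe_one, mul_one] at h1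
      have h2 := congrArg (fun q : ℚ => (q : ℂ)) (hw y hy)
      have := Fintype.ofFinite (Subgroup.centralizer ({(y : G)} : Set G))
      simp only [finsum_mem_bfin] at h2
      push_cast at h2
      rw [← h2, Finset.sum_congr rfl fun χ _ => by
        rw [← χ.2.isClassFunction.of_isConj hc, mul_comm], h1]
      refine Finset.sum_congr rfl fun ξ _ => ?_
      rw [irr_conj_one, irr_coe_charDegree, sq]
    · rw [← block_orth' hM isPBlock_principal (isPPart_self hp (hpe y')) (isPPart_self hp (hpe y))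
        (fun h => hc h.symm)]
      exact Finset.sum_congr rfl fun _ _ => mul_comm _ _
  have key2 : ∀ y : P, (y : G) ∈ U → ∑ x : N, extendByZero P η ((x : G) * y * (x : G)⁻¹) =
      Nat.card ↥(N ⊓ Subgroup.centralizer ({(y : G)} : Set G)) *
        ∑ y' : P, if IsConj (y : G) y' then η y' else 0 := by
    intro y hy
    have h1 := sum_conj_eq (G := N) (fun x : N => extendByZero P η x) ⟨y, hPN y.2⟩
    simp only [Subgroup.coe_mul, InvMemClass.coe_inv] at h1
    rw [h1]
    congr 1
    · congr 1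
      have : Subgroup.centralizer ({(⟨y, hPN y.2⟩ : N)} : Set N) =
          (N ⊓ Subgroup.centralizer ({(y : G)} : Set G)).subgroupOf N := by
        ext x
        simp [Subgroup.mem_subgroupOf, Subgroup.mem_centralizer_singleton_iff, Subtype.ext_iff]
      rw [this]
      exact Nat.card_congr (Subgroup.subgroupOfEquivOfLe inf_le_left).toEquiv
    · rw [← Finset.sum_filter]
      symm
      refine Finset.sum_bij (fun y' _ => ⟨y', hPN y'.2⟩) ?_ ?_ ?_ ?_
      · intro y' hy'
        obtain ⟨g, hg⟩ := isConj_iff.mp (Finset.mem_filter.mp hy').2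
        obtain ⟨n, hn, hn'⟩ := hfus y hy g (by rw [hg]; exact y'.2)
        exact Finset.mem_filter.mpr ⟨Finset.mem_univ _,
          isConj_iff.mpr ⟨⟨n, hn⟩, Subtype.ext (hn'.trans hg)⟩⟩
      · intro a _ b _ h
        exact Subtype.ext (congrArg (fun x : N => (x : G)) h)
      · intro z hz
        obtain ⟨n, rfl⟩ := isConj_iff.mp (Finset.mem_filter.mp hz).2
        exact ⟨⟨n * y * n⁻¹, hUP (hUN n n.2 y hy)⟩, Finset.mem_filter.mpr ⟨Finset.mem_univ _,
          isConj_iff.mpr ⟨n, rfl⟩⟩, rfl⟩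
      · intro y' _
        exact (extendByZero_coe P η y').symm
  have e1 : ∀ (φ : P → ℂ) (χ : IrrCharacter G), ∑ y : P, (χ : G → ℂ) y * φ y⁻¹ =
      ∑ y : P, conj ((χ : G → ℂ) y) * φ y := by
    intro φ χ
    rw [← Equiv.sum_comp (Equiv.inv P)]
    simp [irr_inv]
  simp only [finsum_mem_bfin]
  simp only [finsum_eq_sum_of_fintype, e1, map_mul, map_sum, map_inv₀,
    map_natCast, Complex.conj_conj]
  have e2 : ∀ χ : IrrCharacter G, ((Nat.card P : ℂ)⁻¹ * ∑ y : P, conj ((χ : G → ℂ) y) * θ y) *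
      ((Nat.card P : ℂ)⁻¹ * ∑ y : P, (χ : G → ℂ) y * conj (η y)) =
        ∑ y : P, ∑ y' : P, ((Nat.card P : ℂ) ^ 2)⁻¹ * (θ y * conj (η y')) *
          (conj ((χ : G → ℂ) y) * (χ : G → ℂ) y') := by
    intro χ
    rw [mul_mul_mul_comm, Finset.sum_mul_sum, Finset.mul_sum]
    refine Finset.sum_congr rfl fun y _ => ?_
    rw [Finset.mul_sum]
    refine Finset.sum_congr rfl fun y' _ => ?_
    ring
  simp only [e2]
  rw [Finset.sum_comm, Finset.mul_sum]
  refine Finset.sum_congr rfl fun y _ => ?_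
  by_cases hy : (y : G) ∈ U
  · rw [Finset.sum_comm, ← map_sum, key2 y hy, map_mul, map_natCast, map_sum, Finset.mul_sum,
      Finset.mul_sum, Finset.mul_sum]
    refine Finset.sum_congr rfl fun y' _ => ?_
    rw [← Finset.mul_sum, key y y' hy]
    split_ifs
    · ring
    · simp
  · simp [hθU y hy]

end Cfsg.Agent.S4720
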