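import Cfsg.Statements.S4721
import Cfsg.Agent.H6.AbFrob3
-- import your own Cfsg.Agent.* helpers here

set_option autoImplicit false
open Cfsg

namespace Cfsg.Agent.S4721

open Cfsg.Agent.H4 Cfsg.Agent.H6


/-- Let p be a prime, M a maximal ideal of the algebraic integers containing p, and G a finite group with a nontrivial abelian Sylow p-subgroup P, N = N_G(P), C = C_G(P), such that N/C is cyclic of order 3, #P > 4, and C_G(y) ∩ N = C for every non-identity y ∈ P. Then the principal p-block is the disjoint union of a set X of exactly 3 characters containing the principal character and a set Y of (#P − 1)/3 characters, with signs a_χ = ±1 (χ ∈ X, a = 1 at the principal character) and δ = ±1 such that every χ ∈ X takes the value a_χ at every element whose p-part is a non-identity element of P, and there is a map ζ from the non-principal linear characters of P onto Y, constant on N-conjugacy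 classes, with ζ_ψ(z) = δ·Σ ψ'(y) over the N-orbit of ψ, for z with p-part y ≠ 1 in P. If moreover G has an involution lying in no proper normal subgroup of G, then exactly two of the three numbers −δ and a_χ (χ ∈ X non-principal) equal −1, and the product of the degrees of the two non-principal members of X and of any member of Y is a perfect square. -/
theorem result {G : Type*} [Group G] [Finite G] (p : ℕ) [Fact p.Prime] (M : Ideal Cfsg.AlgInt) (hM : Cfsg.IsPModular p M) (P : Sylow p G) (hab : IsMulCommutative P) (hP1 : Nat.card P ≠ 1) (hCN : (Subgroup.centralizer ((P : Subgroup G) : Set G)).relIndex (Subgroup.normalizer ((P : Subgroup G) : Set G)) = 3) (hcyc : ∃ g : G, g ∈ Subgroup.normalizer ((P : Subgroup G) : Set G) ∧ Subgroup.centralizer ((P : Subgroup G) : Set G) ⊔ Subgroup.zpowers g = Subgroup.normalizer ((P : Subgroup G) : Set G)) (hm2 : 3 + 1 < Nat.card P) (hfrob : ∀ y : G,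 y ∈ (P : Subgroup G) → y ≠ 1 → Subgroup.centralizer ({y} : Set G) ⊓ Subgroup.normalizer ((P : Subgroup G) : Set G) = Subgroup.centralizer ((P : Subgroup G) : Set G)) : ∃ (X Y : Set (Cfsg.IrrCharacter G)), Cfsg.principalBlock M G = X ∪ Y ∧ Disjoint X Y ∧ Nat.card X = 3 ∧ Nat.card Y = (Nat.card P - 1) / 3 ∧ (∃ χ₁ ∈ X, (χ₁ : G → ℂ) = fun _ => 1) ∧ ∃ (a : Cfsg.IrrCharacter G → ℤ) (δ : ℤ) (ζ : (↥(P : Subgroup G) →* ℂˣ) → Cfsg.IrrCharacter G), (δ = 1 ∨ δ = -1) ∧ (∀ χ ∈ X, (a χ = 1 ∨ a χ = -1) ∧ ∀ z y : G, Cfsg.IsPPart p z y → y ∈ (P : Subgroup G) → y ≠ 1 → (χ : G → ℂ) z = (a χ : ℂ)) ∧ (∀ ψ : ↥(P : Subgroup G) →* ℂˣ, ψ ≠ 1 → ζ ψ ∈ Y) ∧ (∀ η ∈ Y, ∃ ψ : ↥(P : Subgroup G) →* ℂˣ, ψ ≠ 1 ∧ ζ ψ = η) ∧ (∀ ψ ψ' : ↥(P : Subgroup G) →* ℂˣ, ψ ≠ 1 → (∃ n : G, n ∈ Subgroup.normalizer ((P : Subgroup G) : Set G) ∧ ∀ w w' : ↥(P : Subgroup G), (w' : G) = n * w * n⁻¹ → ψ' w' = ψ w) → ζ ψ' = ζ ψ) ∧ (∀ ψ : ↥(P :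 Subgroup G) →* ℂˣ, ψ ≠ 1 → ∀ (z : G) (y : ↥(P : Subgroup G)), Cfsg.IsPPart p z (y : G) → (y : G) ≠ 1 → (ζ ψ : G → ℂ) z = (δ : ℂ) * ∑ᶠ ψ' ∈ {ψ' : ↥(P : Subgroup G) →* ℂˣ | ∃ n : G, n ∈ Subgroup.normalizer ((P : Subgroup G) : Set G) ∧ ∀ w w' : ↥(P : Subgroup G), (w' : G) = n * w * n⁻¹ → ψ' w' = ψ w}, ((ψ' y : ℂˣ) : ℂ)) ∧ ((∃ t : G, orderOf t = 2 ∧ ∀ K : Subgroup G, K.Normal → t ∈ K → K = ⊤) → Nat.card {χ : Cfsg.IrrCharacter G // χ ∈ X ∧ (χ : G → ℂ) ≠ (fun _ => 1) ∧ a χ = -1} + (if δ = 1 then 1 else 0) = 2 ∧ ∀ η ∈ Y, IsSquare (Cfsg.charDegree (η : G → ℂ) * ∏ᶠ χ ∈ {χ : Cfsg.IrrCharacter G | χ ∈ X ∧ (χ : G → ℂ) ≠ fun _ => 1}, Cfsg.charDegree (χ : G → ℂ))) := by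
  classical
  haveI := hM.2.1
  haveI := Fintype.ofFinite G
  haveI := Fintype.ofFinite (P : Subgroup G)
  have h : AF P := ⟨hab.is_comm.comm, fun y hy h1 => (hfrob y hy h1).le⟩
  have hm : Nat.card (autz (P : Subgroup G)) = 3 := by rw [card_autz, hCN]
  obtain ⟨D⟩ := h.nonempty_data hM (hm ▸ hm2)
  obtain ⟨ψ₀, hψ₀, -⟩ := h.exists_ne (hm ▸ hm2) 1
  have hY := D.card_Y h
  rw [hm] at hY
  have hY' : (Nat.card P - 1) / 3 = D.Y.card := by omega
  refine ⟨D.X, D.Y, D.principal_eq, Finset.disjoint_coe.2 D.disjoint_XY,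
    by simpa using D.card_X h hM hm hψ₀, by rw [hY']; simp, ⟨_, D.one_mem_X, rfl⟩,
    D.a, D.δ, D.ζ, D.sign, fun χ hχ => ⟨D.a_sign h hM hm hψ₀ hχ, fun z y hz hy h1 =>
      D.apply_X h hM hχ hz hy h1⟩, fun ψ hψ => D.ζ_mem_Y hψ, fun η hη => D.mem_Y.1 hη,
    fun ψ ψ' hψ h1 => ?_, fun ψ hψ z y hz hy => ?_, fun ⟨t, ht, hK⟩ => ?_⟩
  · obtain ⟨α, hα, rfl⟩ := orb_iff.1 h1
    exact (D.eq_iff _ _ hψ (AF.comp_ne_one hψ α)).2 ⟨α, hα, rfl⟩
  · rw [h.finsum_orbit hψ, D.apply_ζ h hM hψ hz fun e => hy (congrArg Subtype.val e),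
      D.d_eq_zero h hM hm hψ, Int.cast_zero, zero_add]
    rfl
  obtain ⟨ψ, hψ, h0, h1⟩ := h.exists_ucol_invol hM hm (D.eight_lt h hm hm2) (by omega) ht
  obtain ⟨χ₂, χ₃, h2, h3, h23, hX⟩ := D.exists_X h hM hm hψ
  have ht2 : t ^ 2 = 1 := ht ▸ pow_orderOf_eq_one t
  obtain ⟨x, hx⟩ := exists_int_of_involution χ₂.2.isCharacter ht2
  obtain ⟨y, hy⟩ := exists_int_of_involution χ₃.2.isCharacter ht2
  obtain ⟨z, hz⟩ := exists_int_of_involution (D.ζ ψ).2.isCharacter ht2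
  obtain ⟨e1, e2, e3⟩ := D.invol_eqs h hM hm hψ h2 h3 h23 hX h0 h1 hx hy hz rfl rfl rfl
  have hne : ∀ (χ : IrrCharacter G) (x : ℤ), χ ≠ irrOne G → (χ : G → ℂ) t = x →
      x ≠ charDegree (χ : G → ℂ) := fun χ x hχ hx e => by
    refine hχ (Subtype.ext (χ.2.charKer_eq_top_iff.1 (hK _ χ.2.isCharacter.charKer_normal
      (χ.2.isCharacter.mem_charKer.2 ?_))))
    rw [hx, e, ← irr_deg_cast]; simp
  have ha2 := D.a_sign h hM hm hψ (χ := χ₂) (by simp [hX])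
  have ha3 := D.a_sign h hM hm hψ (χ := χ₃) (by simp [hX])
  obtain ⟨e4, e5⟩ := three_signs χ₂.2.charDegree_pos χ₃.2.charDegree_pos
    (D.ζ ψ).2.charDegree_pos ha2 ha3 (by rcases D.sign with e | e <;> simp [e]) e1 e2 e3
    (hne _ _ h2 hx) (hne _ _ h3 hy) (hne _ _ (D.ne_one ψ hψ) hz)
  have hset : ∀ χ : IrrCharacter G, (χ ∈ (D.X : Set (IrrCharacter G)) ∧
      (χ : G → ℂ) ≠ fun _ => 1) ↔ χ = χ₂ ∨ χ = χ₃ := fun χ => by
    rw [show ((χ : G → ℂ) ≠ fun _ => 1) ↔ χ ≠ irrOne G from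
      (Subtype.ext_iff (a1 := χ) (a2 := irrOne G)).not.symm, hX]
    simp only [Finset.coe_insert, Finset.coe_singleton, Set.mem_insert_iff, Set.mem_singleton_iff]
    constructor
    · rintro ⟨rfl | h | h, h'⟩
      exacts [absurd rfl h', Or.inl h, Or.inr h]
    · rintro (rfl | rfl)
      exacts [⟨by simp, h2⟩, ⟨by simp, h3⟩]
  refine ⟨?_, fun η hη => ?_⟩
  · simp only [← and_assoc, hset]
    rw [Nat.card_eq_fintype_card, Fintype.card_subtype, show (Finset.univ.filter fun χ =>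
      (χ = χ₂ ∨ χ = χ₃) ∧ D.a χ = -1) = ({χ₂, χ₃} : Finset _).filter fun χ => D.a χ = -1 by
        ext; simp, Finset.card_filter, Finset.sum_pair h23]
    rcases ha2 with a | a <;> rcases ha3 with b | b <;> rcases D.sign with c | c <;>
      simp [a, b, c] at e4 ⊢
  · rw [show {χ : IrrCharacter G | χ ∈ (D.X : Set (IrrCharacter G)) ∧ (χ : G → ℂ) ≠ fun _ => 1} =
      {χ₂, χ₃} from Set.ext hset, finprod_mem_pair h23, mul_comm,
      show charDegree (η : G → ℂ) = charDegree (D.ζ ψ : G → ℂ) by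
        unfold charDegree
        rw [D.eq_on_regular h hM hη (D.ζ_mem_Y hψ) (by simpa using hM.1.one_lt.ne')]]
    exact e5

end Cfsg.Agent.S4721
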