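import Cfsg.Statements.S4722
import Mathlib
import Cfsg.Agent.H8.Subsec3
import Cfsg.Agent.H4.Char4

set_option autoImplicit false
open Cfsg

namespace Cfsg.Agent.S4722

open scoped ComplexConjugate
-- OPENS
open Cfsg.Agent.H8
open Cfsg.Agent.H6 hiding blockCoeff_eq_zero blockCoeff_mem blockDefect_eq blockHeight_eq
  blockPart_add blockPart_eq_zero_of_regular blockPart_eq_zero_of_singular blockPart_irr_of_mem
  blockPart_irr_of_not_mem blockPart_isClassFunction blockPart_smul blockPart_sub blockPart_sum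
  blockPart_zero block_eq_blockOf block_eq_of_mem block_nonempty card_defectGroup
  centralChar_mem char_mem conj_char_mem deg_factorization_le exists_height_zero
  irrOne_mem_principal isPBlock_blockOf isPBlock_principal isPGroup_zpowers mem_blockOf_self
  orderOf_conj' sameBlock_refl sameBlock_symm sameBlock_trans weak_orth weak_orth'
open Cfsg.Agent.H4 hiding exists_int_of_isIntegral_rat
open Cfsg.Agent.H5
open Cfsg.Agent.H3

theorem cs_aux {ι : Type*} (s : Finset ι) (a d x : ι → ℝ) (hd : ∀ i, 0 < d i)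
    (h1 : ∑ i ∈ s, a i * d i = 0) (h2 : ∑ i ∈ s, a i * x i = 0)
    (h3 : ∑ i ∈ s, a i * x i ^ 2 / d i = 0) (hpos : (s.filter fun i => 0 < a i).card < 2) :
    ∃ c : ℝ, ∀ i ∈ s, a i ≠ 0 → x i = c * d i := by
  obtain ⟨c, hc⟩ : ∃ c : ℝ, ∀ i ∈ s, 0 < a i → x i = c * d i := by
    by_cases h : ∃ i ∈ s, 0 < a i
    · obtain ⟨i, hi, hai⟩ := h
      refine ⟨x i / d i, fun j hj haj => ?_⟩
      have := Finset.card_le_one.mp (Nat.lt_succ_iff.mp hpos) j (Finset.mem_filter.mpr ⟨hj, haj⟩)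
        i (Finset.mem_filter.mpr ⟨hi, hai⟩)
      subst this
      rw [div_mul_cancel₀ _ (hd j).ne']
    · exact ⟨0, fun i hi hai => absurd ⟨i, hi, hai⟩ h⟩
  refine ⟨c, fun i hi hai => ?_⟩
  have h4 : ∑ i ∈ s, a i * (x i - c * d i) ^ 2 / d i = 0 := by
    have : ∀ i, a i * (x i - c * d i) ^ 2 / d i =
        a i * x i ^ 2 / d i - 2 * c * (a i * x i) + c ^ 2 * (a i * d i) := by
      intro i
      have := (hd i).ne'
      field_simp
      ring
    simp only [this, Finset.sum_add_distrib, Finset.sum_sub_distrib, ← Finset.mul_sum, h1, h2, h3]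
    simp
  have h5 := (Finset.sum_eq_zero_iff_of_nonpos (fun j hj => by
    rcases lt_or_ge 0 (a j) with h | h
    · rw [hc j hj h]; simp
    · exact div_nonpos_of_nonpos_of_nonneg (mul_nonpos_of_nonpos_of_nonneg h (sq_nonneg _))
        (hd j).le)).mp h4 i hi
  rw [div_eq_zero_iff, mul_eq_zero] at h5
  rcases h5 with (h | h) | h
  · exact absurd h hai
  · exact sub_eq_zero.mp (pow_eq_zero_iff two_ne_zero |>.mp h)
  · exact absurd h (hd i).ne'


/-- Let M be a maximal ideal of the algebraic integers containing 2, P a 2-subgroup of the finite group G, U a subset of P, and t an involution of G such that no element of U is inverted by any conjugate of t. Let θ be a generalized character of P vanishing outside U, and for χ in the principal 2-block B₀ put a_χ = #P⁻¹ Σ_{y ∈ P} χ(y) θ(y⁻¹). Then Σ_{χ ∈ B₀} a_χ χ(t)^2/χ(1) = 0, Σ_{χ ∈ B₀} a_χ χ(1) = 0 and Σ_{χ ∈ B₀} a_χ χ(t) = 0. If moreover #P⁻¹ Σ_{y ∈ P} θ(y) ≠ 0, then either at least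 two of the a_χ have positive real part and at least two have negative real part, or G has a proper normal subgroup containing O_2'(G) and t. -/
theorem result {G : Type*} [Group G] [Finite G] (M : Ideal Cfsg.AlgInt) (hM : Cfsg.IsPModular 2 M) (P : Subgroup G) (hP : IsPGroup 2 P) (U : Set G) (hUP : U ⊆ (P : Set G)) (t : G) (ht : orderOf t = 2) (hinv : ∀ u ∈ U, ∀ g : G, (g * t * g⁻¹) * u * (g * t * g⁻¹)⁻¹ ≠ u⁻¹) (θ : ↥P → ℂ) (hθ : Cfsg.IsGeneralizedCharacter ↥P θ) (hθU : ∀ y : ↥P, (y : G) ∉ U → θ y = 0) : (∑ᶠ χ ∈ Cfsg.principalBlock M G, ((Nat.card ↥P : ℂ)⁻¹ * ∑ᶠ y : ↥P, (χ : G → ℂ) (y : G) * θ y⁻¹) * (χ : G → ℂ) t ^ 2 / (χ : G → ℂ) 1 = 0) ∧ (∑ᶠ χ ∈ Cfsg.principalBlock M G, ((Nat.card ↥P : ℂ)⁻¹ * ∑ᶠ y : ↥P, (χ : G → ℂ) (y : G) * θ y⁻¹) * (χ : G → ℂ) 1 = 0) ∧ (∑ᶠ χ ∈ Cfsg.principalBlock M G, ((Nat.card ↥P : ℂ)⁻¹ * ∑ᶠ y : ↥P, (χ : G → ℂ) (y : G) * θ y⁻¹) * (χ : G → ℂ) t = 0) ∧ ((Nat.card ↥P : ℂ)⁻¹ * ∑ᶠ y : ↥P, θ y ≠ 0 → (2 ≤ Nat.card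 {χ : Cfsg.IrrCharacter G // χ ∈ Cfsg.principalBlock M G ∧ 0 < (((Nat.card ↥P : ℂ)⁻¹ * ∑ᶠ y : ↥P, (χ : G → ℂ) (y : G) * θ y⁻¹)).re} ∧ 2 ≤ Nat.card {χ : Cfsg.IrrCharacter G // χ ∈ Cfsg.principalBlock M G ∧ (((Nat.card ↥P : ℂ)⁻¹ * ∑ᶠ y : ↥P, (χ : G → ℂ) (y : G) * θ y⁻¹)).re < 0}) ∨ ∃ K : Subgroup G, K.Normal ∧ K ≠ ⊤ ∧ Cfsg.pPrimeCore 2 G ≤ K ∧ t ∈ K) := by
  classical
  have := hM.2.1
  have := Fintype.ofFinite G
  have := Fintype.ofFinite P
  have hp := hM.1
  have hpe : ∀ y : P, ∃ k, orderOf (y : G) = 2 ^ k := fun y => exists_orderOf_pow_of_mem hP y.2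
  have htt : t * t = 1 := by rw [← sq, ← ht, pow_orderOf_eq_one]
  have hti : t⁻¹ = t := inv_eq_of_mul_eq_one_right htt
  have htr : ∀ χ : IrrCharacter G, conj ((χ : G → ℂ) t) = (χ : G → ℂ) t := by
    intro χ; rw [← irr_inv, hti]
  simp only [finsum_mem_bfin]
  simp only [finsum_eq_sum_of_fintype]
  have red : ∀ F : IrrCharacter G → ℂ, (∀ y : P, (y : G)⁻¹ ∈ U →
      ∑ χ ∈ bfin (principalBlock M G), (χ : G → ℂ) y * F χ = 0) →
      ∑ χ ∈ bfin (principalBlock M G),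
        ((Nat.card P : ℂ)⁻¹ * ∑ y : P, (χ : G → ℂ) y * θ y⁻¹) * F χ = 0 := by
    intro F hF
    simp only [mul_assoc, ← Finset.mul_sum, Finset.sum_mul]
    rw [Finset.sum_comm, Finset.sum_eq_zero, mul_zero]
    intro y _
    by_cases hy : (y : G)⁻¹ ∈ U
    · simp only [mul_left_comm _ (θ _), ← Finset.mul_sum, hF y hy, mul_zero]
    · simp [hθU y⁻¹ hy]
  have hinv' : ∀ y : G, y⁻¹ ∈ U → ∀ a, IsConj t a → a * y * a⁻¹ ≠ y⁻¹ := by
    intro y hy a ha h
    obtain ⟨g, rfl⟩ := isConj_iff.mp ha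
    apply hinv _ hy g
    rw [inv_inv, ← h]
    have : g * t * g⁻¹ * (g * t * g⁻¹) = 1 := by
      calc g * t * g⁻¹ * (g * t * g⁻¹) = g * (t * t) * g⁻¹ := by group
        _ = 1 := by rw [htt]; group
    generalize g * t * g⁻¹ = a at *
    calc a * (a * y * a⁻¹) * a⁻¹ = (a * a) * y * (a * a)⁻¹ := by group
      _ = y := by rw [this]; group
  have H1 : ∑ χ ∈ bfin (principalBlock M G), ((Nat.card P : ℂ)⁻¹ *
      ∑ y : P, (χ : G → ℂ) y * θ y⁻¹) * ((χ : G → ℂ) t ^ 2 / (χ : G → ℂ) 1) = 0 := by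
    refine red _ fun y hy => ?_
    have h1 := blockPart_pSection hM (isPBlock_principal (M := M) (G := G))
      (θ := ∑ χ : IrrCharacter G, ((χ : G → ℂ) t ^ 2 / (χ : G → ℂ) 1) • (χ : G → ℂ))
      (isClassFunction_sum _ _ fun χ _ => χ.2.isClassFunction.smul _)
      (isPPart_self hp (hpe y)) (by
        intro v hv
        have h2 := card_class_mul_eq t t v⁻¹
        have h3 : IsEmpty {p : G × G // IsConj t p.1 ∧ IsConj t p.2 ∧ p.1 * p.2 = v⁻¹} := by
          refine ⟨fun ⟨⟨a, b⟩, ha, hb, hab⟩ => hinv' y hy a ha ?_⟩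
          have sq1 : ∀ c, IsConj t c → c⁻¹ = c := by
            intro c hc
            obtain ⟨g, rfl⟩ := isConj_iff.mp hc
            rw [conj_inv, hti]
          obtain ⟨k, hk⟩ := IsPPart.mem_zpowers hp hv
          simp only at hab hk
          have hv' : a * v * a⁻¹ = v⁻¹ := by
            have : v = b * a := by rw [← inv_inv v, ← hab, mul_inv_rev, sq1 a ha, sq1 b hb]
            rw [← hab, this]; group
          rw [← hk, ← conj_zpow, hv', inv_zpow]
        rw [Nat.card_of_isEmpty, Nat.cast_zero, eq_comm, mul_eq_zero] at h2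
        have h4 := h2.resolve_left (div_ne_zero (mul_ne_zero (index_ne_zero_C _)
          (index_ne_zero_C _)) natCard_ne_zero')
        rw [Finset.sum_apply, ← h4]
        refine Finset.sum_congr rfl fun χ _ => ?_
        rw [irr_inv, Complex.conj_conj, Pi.smul_apply, smul_eq_mul]; ring)
    rw [blockPart_apply] at h1
    simp only [classInner_sum_irr_left] at h1
    rw [← h1]
    exact Finset.sum_congr rfl fun _ _ => mul_comm _ _
  have H2 : ∑ χ ∈ bfin (principalBlock M G), ((Nat.card P : ℂ)⁻¹ *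
      ∑ y : P, (χ : G → ℂ) y * θ y⁻¹) * (χ : G → ℂ) 1 = 0 := by
    refine red _ fun y hy => ?_
    have := block_orth' hM (isPBlock_principal (G := G)) (isPPart_self hp (hpe y))
      (isPPart_self hp (x := 1) ⟨0, by simp⟩) (by
        intro h
        rw [isConj_one_left] at h
        exact hinv' y hy t (IsConj.refl t) (by simp [h]))
    simpa only [irr_conj_one] using this
  have H3 : ∑ χ ∈ bfin (principalBlock M G), ((Nat.card P : ℂ)⁻¹ *
      ∑ y : P, (χ : G → ℂ) y * θ y⁻¹) * (χ : G → ℂ) t = 0 := by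
    refine red _ fun y hy => ?_
    have := block_orth' hM (isPBlock_principal (G := G)) (isPPart_self hp (hpe y))
      (isPPart_self hp (x := t) ⟨1, by simp [ht]⟩) (by
        intro h
        refine hinv' y hy y h.symm ?_
        obtain ⟨g, hg⟩ := isConj_iff.mp h.symm
        have : (y : G)⁻¹ = y := by rw [← hg, conj_inv, hti]
        rw [mul_inv_cancel_right, this])
    simpa only [htr] using this
  refine ⟨by simpa only [mul_div_assoc] using H1, H2, H3, fun h1 => ?_⟩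
  have ha : ∀ χ : IrrCharacter G, ∃ n : ℤ,
      (Nat.card P : ℂ)⁻¹ * ∑ y : P, (χ : G → ℂ) y * θ y⁻¹ = n := by
    intro χ
    obtain ⟨n, hn⟩ := (χ.2.isGen.restrict P).classInner_int hθ
    refine ⟨n, ?_⟩
    rw [← hn, classInner_def]
    simp only [hθ.apply_inv]
  choose a ha using ha
  have ha1 : a (irrOne G) ≠ 0 := by
    intro h
    apply h1
    have := ha (irrOne G)
    rw [h, Int.cast_zero] at this
    rw [← this, ← Equiv.sum_comp (Equiv.inv P)]
    simp
  simp only [ha, Complex.intCast_re] at H1 H2 H3 ⊢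
  have hx : ∀ χ : IrrCharacter G, (χ : G → ℂ) t = (((χ : G → ℂ) t).re : ℂ) :=
    fun χ => (Complex.conj_eq_iff_re.mp (htr χ)).symm
  have R1 : ∑ χ ∈ bfin (principalBlock M G), (a χ : ℝ) * ((χ : G → ℂ) t).re ^ 2 /
      (charDegree (χ : G → ℂ) : ℝ) = 0 := by
    have : ((∑ χ ∈ bfin (principalBlock M G), (a χ : ℝ) * ((χ : G → ℂ) t).re ^ 2 /
        (charDegree (χ : G → ℂ) : ℝ) : ℝ) : ℂ) = 0 := by
      rw [← H1]; push_cast
      refine Finset.sum_congr rfl fun χ _ => ?_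
      rw [← hx, irr_coe_charDegree, mul_div_assoc]
    exact_mod_cast this
  have R2 : ∑ χ ∈ bfin (principalBlock M G), (a χ : ℝ) * (charDegree (χ : G → ℂ) : ℝ) = 0 := by
    simp only [← irr_coe_charDegree] at H2
    exact_mod_cast H2
  have R3 : ∑ χ ∈ bfin (principalBlock M G), (a χ : ℝ) * ((χ : G → ℂ) t).re = 0 := by
    have := congrArg Complex.re H3
    simpa using this
  have hd : ∀ χ : IrrCharacter G, (0 : ℝ) < charDegree (χ : G → ℂ) :=
    fun χ => by exact_mod_cast irr_charDegree_pos χ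
  have h1m : irrOne G ∈ bfin (principalBlock M G) := mem_bfin.mpr irrOne_mem_principal
  rw [or_iff_not_imp_left]
  intro hn
  obtain ⟨c, hc⟩ : ∃ c : ℝ, ∀ χ ∈ bfin (principalBlock M G), (a χ : ℝ) ≠ 0 →
      ((χ : G → ℂ) t).re = c * charDegree (χ : G → ℂ) := by
    rw [not_and_or, not_le, not_le] at hn
    rcases hn with hn | hn
    · refine cs_aux _ _ _ _ hd R2 R3 R1 ?_
      rwa [Nat.subtype_card ((bfin (principalBlock M G)).filter fun χ => 0 < (a χ : ℝ))
        (by simp)] at hn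
    · obtain ⟨c, hc⟩ := cs_aux (bfin (principalBlock M G)) (fun χ => -(a χ : ℝ)) _
        (fun χ => ((χ : G → ℂ) t).re) hd (by simp [R2]) (by simp [R3])
        (by simp only [neg_mul, neg_div, Finset.sum_neg_distrib, R1, neg_zero]) (by
          rwa [Nat.subtype_card ((bfin (principalBlock M G)).filter fun χ => 0 < -(a χ : ℝ))
            (by simp)] at hn)
      exact ⟨c, fun χ hχ h => hc χ hχ (neg_ne_zero.mpr h)⟩
  have hc1 : c = 1 := by
    have := hc _ h1m (by exact_mod_cast ha1)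
    have e : charDegree ((irrOne G : IrrCharacter G) : G → ℂ) = 1 := charDegree_one
    simpa [e] using this.symm
  obtain ⟨χ, hχ, hne, haχ⟩ : ∃ χ ∈ bfin (principalBlock M G), χ ≠ irrOne G ∧ a χ ≠ 0 := by
    by_contra hcon
    push Not at hcon
    rw [Finset.sum_eq_single (irrOne G) (fun χ hχ hne => by simp [hcon χ hχ hne])
      (fun h => absurd h1m h)] at H2
    simp [ha1] at H2
  refine ⟨charKer (χ : G → ℂ), χ.2.isCharacter.charKer_normal,
    fun h => hne (Subtype.ext (χ.2.charKer_eq_top_iff.mp h)),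
    pPrimeCore_le_charKer hM (mem_bfin.mp hχ), χ.2.isCharacter.mem_charKer.mpr ?_⟩
  rw [hx, hc χ hχ (by exact_mod_cast haχ), hc1, one_mul, ← irr_coe_charDegree]
  simp

end Cfsg.Agent.S4722
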