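import Cfsg.Statements.S4724
import Cfsg.Agent.H4.BT4
import Cfsg.Agent.S0806
import Cfsg.Agent.S0493
import Cfsg.Agent.H19.PSL2p

set_option autoImplicit false
open Cfsg

namespace Cfsg.Agent.S4724

open Cfsg.Agent.H4

open Cfsg.Agent.H19 Cfsg.Agent.H4BT Subgroup MulAction


/-- Let G be a transitive permutation group of prime degree p having exactly one irreducible character of degree p. Let P be a Sylow p-subgroup and suppose N_G(P) = P·E for a subgroup E with P ∩ E = 1, such that the normalizer of E has order 2·#E and E meets each of its conjugates by elements outside its normalizer trivially. Then p is 5, 7 or 11 and G is isomorphic to PSL(2, p). -/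
theorem result {α : Type*} [Fintype α] [DecidableEq α] {p : ℕ} [Fact p.Prime] (hα : Fintype.card α = p) (G : Subgroup (Equiv.Perm α)) [MulAction.IsPretransitive G α] (huniq : ∃! χ : Cfsg.IrrCharacter G, Cfsg.charDegree (χ : G → ℂ) = p) (P : Sylow p G) (E : Subgroup G) (hPE : (P : Subgroup G) ⊔ E = Subgroup.normalizer ((P : Subgroup G) : Set G)) (hPE' : (P : Subgroup G) ⊓ E = ⊥) (hNE : Nat.card (Subgroup.normalizer (E : Set G)) = 2 * Nat.card E) (hTI : ∀ g : G, g ∉ Subgroup.normalizer (E : Set G) → E ⊓ E.map (MulAut.conj g).toMonoidHom = ⊥) : (p = 5 ∨ p = 7 ∨ p = 11) ∧ ∃ (F : Type) (_ : Field F) (_ : Fintype F), Fintype.card F = p ∧ Nonempty (G ≃* Matrix.ProjectiveSpecialLinearGroup (Fin 2) F) := by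
  classical
  haveI := Fintype.ofFinite G
  have hp : p.Prime := Fact.out
  have hα' : Nat.card α = p := by rw [Nat.card_eq_fintype_card, hα]
  haveI : Nontrivial α := Finite.one_lt_card_iff_nontrivial.mp (hα' ▸ hp.one_lt)
  obtain ⟨ψ, hd, hu⟩ := huniq
  obtain ⟨x, hx, hP⟩ := H2.Pm.zpowers_eq_sylow (G := G) hα' P
  obtain ⟨e, he⟩ := H2.Pm.exists_coord' hα' hx
  have h : PO p x ⊥ := po_bot hx (le_antisymm (fun t ht => by
    have h1 := H2.Pm.coord_affine x t e he 1 fun a => by
      rw [← mul_smul, mem_centralizer_singleton_iff.mp ht, mul_smul, he]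
    rw [show t = x ^ (e (t • e.symm 0)).val from eq_of_smul_eq_smul (α := α) fun a =>
      e.injective (by rw [H2.Pm.coord_pow x e he, h1]; simp)]
    exact pow_mem (mem_zpowers x) _) (zpowers_le.mpr (mem_centralizer_singleton_iff.mpr rfl)))
  obtain ⟨g, c, hg, rfl⟩ := exists_Gen_E h (by rw [NN, hP]; exact hPE) (hP ▸ hPE')
  haveI : IsPreprimitive G α := IsPreprimitive.of_prime_card (hα' ▸ hp)
  haveI := simple_of h hg hd hu P hP fun M _ h0 => by
    haveI := H2.Pm.normal_trans' (X := α) M h0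
    exact hα' ▸ H2.Pm.card_dvd_of_trans
  have hc : ¬ ∀ a b : G, a * b = b * a := fun hc => hp.one_lt.ne (by
    have := ψ.2.apply_one_eq_one_of_comm hc
    rw [← ψ.2.isCharacter.charDegree_cast, hd] at this
    exact_mod_cast this.symm)
  have hc' : ¬ IsMulCommutative G := fun ⟨⟨h⟩⟩ => hc h
  have hT : ∀ a ∈ zpowers g, a ≠ 1 → ∀ t, t * a * t⁻¹ ∈ zpowers g →
      t ∈ normalizer (zpowers g : Set G) := fun a ha a1 t ht => by
    by_contra hn
    have := hTI t hn ▸ mem_inf.mpr ⟨ht, mem_map.mpr ⟨a, ha, rfl⟩⟩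
    exact a1 (conj_eq_one_iff.mp (mem_bot.mp this))
  have het := eN_mul' h.ord
  rw [show eN h.ord = orderOf g from hg.ordg.symm] at het
  have ht0 := tN_pos h.ord
  obtain ⟨n, hn | hn⟩ := Nat.even_or_odd' (orderOf g)
  swap
  · have hn0 : 0 < n := Nat.pos_of_ne_zero (by
      rintro rfl
      have h1 := degree_sq_le_card ψ
      rw [orderOf_eq_one_iff.mp hn, zpowers_one_eq_bot, normalizer_eq_top, card_top, card_bot] at hNE
      rw [hd, hNE] at h1
      nlinarith [hp.two_le])
    obtain ⟨s, hD⟩ := exists_DT hc' hn hNE hT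
    obtain ⟨φ⟩ := odd_case h hg hD hn0 hd hu
    refine ⟨?_, ZMod p, inferInstance, inferInstance, ZMod.card p, ⟨φ⟩⟩
    have h1 : p ∈ ({2, 3, 5, 7, 9, 11} : Finset ℕ) := by
      by_contra hq
      have h2 : ((stabilizer G (e.symm 0)).map φ.toMonoidHom).index = p :=
        (index_map_equiv _ φ).trans (by rw [index_stabilizer_of_transitive, hα'])
      exact absurd (((S0806.result (ZMod.card p) hq).1 _ fun e' => hp.one_lt.ne (by
        rw [← h2, e', index_top])).trans h2.le) (by omega)
    have h3 : 3 < p := by nlinarith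
    simp only [Finset.mem_insert, Finset.mem_singleton] at h1
    have : p ≠ 9 := by rintro rfl; norm_num at hp
    omega
  have hn0 : 0 < n := by have := orderOf_pos g; omega
  have hoc : orderOf c = orderOf g := hg.ordc.trans hg.ordg.symm
  have hc1 : ∀ j, g ^ j ≠ 1 → 1 - (c : ZMod p) ^ j ≠ 0 := fun j hj e => hj (by
    rw [← orderOf_dvd_iff_pow_eq_one, ← hoc, orderOf_dvd_iff_pow_eq_one]
    exact Units.ext (by rw [Units.val_pow_eq_pow_val, Units.val_one]; linear_combination -e))
  have hg1 : g ^ 1 ≠ 1 := pow_ne_one_of_lt_orderOf one_ne_zero (by omega)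
  have hgn : g ^ n ≠ 1 := pow_ne_one_of_lt_orderOf hn0.ne' (by omega)
  obtain ⟨f, hf⟩ : ∃ f : α ≃ ZMod p, ∀ (j : ℕ) a, f (g ^ j • a) = c ^ j * f a := by
    have h1 := H2.Pm.coord_affine x g e he c fun a => by
      rw [← mul_smul, mul_inv_eq_iff_eq_mul.mp hg.cj, mul_smul, xp, H2.Pm.coord_pow x e he,
        ZMod.natCast_zmod_val]
    refine ⟨e.trans (Equiv.subRight (e (g • e.symm 0) / (1 - c))), fun j a => ?_⟩
    have h2 := hc1 1 hg1
    rw [pow_one] at h2
    simp only [Equiv.trans_apply, Equiv.subRight_apply]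
    induction j with
    | zero => simp
    | succ j ih =>
      rw [pow_succ', mul_smul, h1, pow_succ', mul_assoc, ← ih]
      field_simp
      ring
  have hf0 : ∀ j : ℕ, g ^ j • f.symm 0 = f.symm 0 := fun j => f.injective (by simp [hf])
  have hfix : ∀ j : ℕ, g ^ j ≠ 1 → ∀ a, g ^ j • a = a → a = f.symm 0 := fun j hj a ha => by
    have := hf j a
    rw [ha] at this
    exact f.injective (by
      rw [Equiv.apply_symm_apply]
      exact (mul_eq_zero.mp (by linear_combination this)).resolve_left (hc1 j hj))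
  have hsg : ∀ a : G, Equiv.Perm.sign (a : Equiv.Perm α) = 1 := fun a => by
    rcases (Equiv.Perm.sign.comp G.subtype).normal_ker.eq_bot_or_eq_top with e | e
    · exact absurd (fun a b => (MonoidHom.ker_eq_bot_iff _).mp e (by
        rw [map_mul, map_mul, mul_comm])) hc
    · exact (e ▸ mem_top a : a ∈ (Equiv.Perm.sign.comp G.subtype).ker)
  have ht2 : 2 ≤ tN h.ord := by
    by_contra hlt
    have h1 : EE h.ord = ⊤ := index_eq_one.mp (show tN h.ord = 1 by omega)
    have hg0 : (g : Equiv.Perm α) (f.symm 0) = f.symm 0 := by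
      have := hf0 1; rwa [pow_one] at this
    have h2 : ∀ a, (g : Equiv.Perm α) a = a → a = f.symm 0 := fun a ha =>
      hfix 1 hg1 a (by rwa [pow_one])
    have h3 : (g : Equiv.Perm α).IsCycle := ⟨f.symm 1, fun e => by simpa using h2 _ e,
      fun y hy => by
        obtain ⟨j, hj⟩ := hg.gen (Units.mk0 (f y) fun e => hy (by
          rw [show y = f.symm 0 by simp [← e], hg0])) (h1 ▸ mem_top _)
        refine ⟨j, f.injective ?_⟩
        have := hf j (f.symm 1)
        rw [← Units.val_pow_eq_pow_val, ← hj, Equiv.apply_symm_apply, mul_one] at this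
        rw [zpow_natCast, ← SubgroupClass.coe_pow]
        exact this⟩
    have h4 : (g : Equiv.Perm α).support = Finset.univ.erase (f.symm 0) := by
      ext a
      simp only [Equiv.Perm.mem_support, Finset.mem_erase, Finset.mem_univ, and_true]
      exact ⟨fun h e => h (e ▸ hg0), fun h e => h (h2 a e)⟩
    have h5 := h3.sign
    rw [hsg, h4, Finset.card_erase_of_mem (Finset.mem_univ _), Finset.card_univ, hα, ← het, hn,
      Nat.add_sub_cancel, mul_assoc, pow_mul] at h5
    simp at h5
  have h3 := H2.Pm.three_trans_of_even hα' (mt IsSimpleGroup.comm_iff_isSolvable.mpr hc) P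
    ((hn ▸ even_two_mul n : Even (orderOf g)).trans_dvd
      (orderOf_dvd_natCard _ (by rw [← hP]; exact hg.mem)))
  have huu : g ^ n * g ^ n = 1 := by rw [← pow_add, ← two_mul, ← hn, pow_orderOf_eq_one]
  have hC : Nat.card (centralizer {g ^ n}) ≤ 2 * (2 * n) := by
    rw [← hn, ← Nat.card_zpowers, ← hNE]
    refine card_le_of_le fun t ht => hT _ (pow_mem (mem_zpowers g) n) hgn t ?_
    rw [mem_centralizer_singleton_iff.mp ht, mul_inv_cancel_right]
    exact pow_mem (mem_zpowers g) n
  have h2 := H2.Pm.mt_le h3 (m := 2) (by omega)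
  have h4 := Nat.mul_le_mul_left (2 * n) ht2
  rw [hn] at het
  have hsw := fun (a b : α) (hab : a ≠ b) => swap_conj (h2 (by omega)) huu (hfix n hgn) hab
  have h5 := sq_of_swap h3 (fun a b hab => (hsw a b hab).2 (by omega)) huu (hf0 n) (hfix n hgn)
    (hf0 1) (hfix 1 hg1)
  have h6 : orderOf g ∣ 2 := orderOf_dvd_of_pow_eq_one (by simpa [sq] using h5)
  have h7 := Nat.le_of_dvd two_pos h6
  obtain ⟨a, b, hab⟩ := exists_pair_ne α
  have h8 := (hsw a b hab).1
  obtain rfl : p = 5 := by omega
  refine ⟨Or.inl rfl, ZMod 5, inferInstance, inferInstance, ZMod.card 5,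
    iso_PSL_of_simple_card 5 hp (by norm_num) ?_ _ (ZMod.card 5)⟩
  rw [S0493.result (fun _ => hc mul_comm') ((card_le_of_le (K := alternatingGroup α) fun a ha =>
    Equiv.Perm.mem_alternatingGroup.mpr (hsg ⟨a, ha⟩)).trans (by
      rw [nat_card_alternatingGroup, hα']; decide))]
  norm_num

end Cfsg.Agent.S4724
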