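import Cfsg.Statements.S4725
import Mathlib
import Cfsg.Agent.H8.Induced

set_option autoImplicit false
open Cfsg

namespace Cfsg.Agent.S4725

-- OPENS
open Cfsg.Agent.H8
open Cfsg.Agent.H6 hiding blockCoeff_eq_zero blockCoeff_mem blockPart_add
  blockPart_eq_zero_of_regular blockPart_eq_zero_of_singular blockPart_irr_of_mem
  blockPart_irr_of_not_mem blockPart_isClassFunction blockPart_smul blockPart_sub blockPart_sum
  blockPart_zero block_eq_blockOf block_eq_of_mem block_nonempty centralChar_mem char_mem
  conj_char_mem irrOne_mem_principal isPBlock_blockOf isPBlock_principal mem_blockOf_self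
  orderOf_conj' sameBlock_refl sameBlock_symm sameBlock_trans weak_orth weak_orth'
open Cfsg.Agent.H4 hiding exists_int_of_isIntegral_rat
open Cfsg.Agent.H5
open Cfsg.Agent.H3


/-- Let p be a prime, M a maximal ideal of the algebraic integers containing p, H a subgroup of the finite group G, and b a p-block of H inducing the p-block B of G, with b and B of the same defect. Then for every height-zero ζ ∈ b there is a height-zero χ ∈ B whose multiplicity in the character induced from ζ is not divisible by p. -/
theorem result {G : Type*} [Group G] [Fintype G] (p : ℕ) [Fact p.Prime] (M : Ideal Cfsg.AlgInt) (hM : Cfsg.IsPModular p M) (H : Subgroup G) (b : Set (Cfsg.IrrCharacter ↥H)) (B : Set (Cfsg.IrrCharacter G)) (hind : Cfsg.IsInducedBlock M H b B) (hdef : Cfsg.blockDefect p b = Cfsg.blockDefect p B) (ζ : Cfsg.IrrCharacter ↥H) (hζ : ζ ∈ b) (hζ0 : Cfsg.blockHeight p b (ζ : ↥H → ℂ) = 0) : ∃ χ ∈ B, Cfsg.blockHeight p B (χ : G → ℂ) = 0 ∧ ∃ a : ℕ, Cfsg.classInner (Cfsg.indFun H (ζ : ↥H → ℂ)) (χ : G → ℂ) = (a : ℂ) ∧ ¬ p ∣ a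 := by
  have := hM.2.1
  have hp : p.Prime := Fact.out
  have := Fintype.ofFinite H
  obtain ⟨n, hn, hn0, hnf⟩ := blockPart_indFun_self hM hind hζ
  have hch := isCharacter_indFun H ζ.2.isCharacter
  choose a ha using fun χ : IrrCharacter G => hch.classInner_nat χ.2.isCharacter
  have h1 : n = ∑ χ ∈ bfin B, a χ * charDegree (χ : G → ℂ) := by
    rw [blockPart_apply] at hn
    have : (n : ℂ) = ((∑ χ ∈ bfin B, a χ * charDegree (χ : G → ℂ) : ℕ) : ℂ) := by
      rw [← hn]; push_cast
      exact Finset.sum_congr rfl fun χ _ => by rw [ha, irr_coe_charDegree]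
    exact_mod_cast this
  have h2 : n.factorization p = bmin p B := by
    rw [hnf, charDegree_indFun, Nat.factorization_mul Subgroup.index_ne_zero_of_finite
      (irr_charDegree_ne_zero ζ)]
    have e1 := (height_eq_zero_iff hζ).mp hζ0
    have e2 := defect_add_bmin (p := p) ⟨ζ, hζ⟩
    have e3 := defect_add_bmin (p := p) (block_nonempty hind.2.1)
    have e4 : H.index.factorization p + (Nat.card H).factorization p = (Nat.card G).factorization p := by
      rw [← H.index_mul_card, Nat.factorization_mul Subgroup.index_ne_zero_of_finite Nat.card_pos.ne']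
      rfl
    simp only [Finsupp.coe_add, Pi.add_apply]
    omega
  by_contra hcon
  push Not at hcon
  have h3 : p ^ (bmin p B + 1) ∣ n := by
    rw [h1]
    refine Finset.dvd_sum fun χ hχ => ?_
    have hχ := mem_bfin.mp hχ
    rw [← pow_mul_rdeg (p := p) hχ, mul_left_comm, pow_succ]
    refine Nat.mul_dvd_mul_left _ ?_
    by_cases h0 : blockHeight p B (χ : G → ℂ) = 0
    · exact Dvd.dvd.mul_right (hcon χ hχ h0 _ (ha χ)) _
    · exact Dvd.dvd.mul_left (by
        by_contra h; exact h0 ((not_dvd_rdeg_iff hχ).mp h)) _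
  rw [hp.pow_dvd_iff_le_factorization hn0] at h3
  omega

end Cfsg.Agent.S4725
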