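import Cfsg.Statements.S4726
import Cfsg.Agent.H7.Cover2
-- import your own Cfsg.Agent.* helpers here

set_option autoImplicit false
open Cfsg

namespace Cfsg.Agent.S4726

open MonoidAlgebra Cfsg.Agent.H3 Cfsg.Agent.H4 Cfsg.Agent.H7
open Cfsg.Agent.H6 (Res locRing redC redA eB fB intAlg classSum omega chiL)
open scoped Pointwise
set_option linter.style.haveILetI false


/-- Let p be a prime, M a maximal ideal of the algebraic integers containing p, H a subgroup of the finite group G and b a p-block of H with defect group D₀ such that C_G(D₀) ≤ H. Then b induces a block of G, and for every block B of G induced by b there is a defect group D of B with Z(D) ≤ Z(D₀) ≤ D₀ ≤ D (as subgroups of G). In particular, if the defect groups of B are abelian then D₀ is a defect group of B. -/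
theorem result {G : Type*} [Group G] [Finite G] (p : ℕ) [Fact p.Prime] (M : Ideal Cfsg.AlgInt) (hM : Cfsg.IsPModular p M) (H : Subgroup G) (b : Set (Cfsg.IrrCharacter ↥H)) (hb : Cfsg.IsPBlock M b) (D₀ : Subgroup ↥H) (hD₀ : Cfsg.IsDefectGroup p M b D₀) (hC : Subgroup.centralizer ((D₀.map H.subtype : Subgroup G) : Set G) ≤ H) : Cfsg.InducedBlockDefined M H b ∧ ∀ B : Set (Cfsg.IrrCharacter G), Cfsg.IsInducedBlock M H b B → (∃ D : Subgroup G, Cfsg.IsDefectGroup p M B D ∧ (Subgroup.center ↥D).map D.subtype ≤ ((Subgroup.center ↥D₀).map D₀.subtype).map H.subtype ∧ ((Subgroup.center ↥D₀).map D₀.subtype).map H.subtype ≤ D₀.map H.subtype ∧ D₀.map H.subtype ≤ D) ∧ (∀ D : Subgroup G, Cfsg.IsDefectGroup p M B D → IsMulCommutative ↥D → Cfsg.IsDefectGroup p M B (D₀.map H.subtype)) := by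
  haveI := hM.2.1
  haveI := H6.charP_res hM
  refine ⟨inducedBlockDefined_of_centralizer_le hM hb hD₀ hC, fun B hB => ?_⟩
  have h0 := (isDefectGroup_iff_eb hM hb).1 hD₀
  have hZ : ∀ D : Subgroup G, (Subgroup.center D).map D.subtype =
      D ⊓ Subgroup.centralizer (D : Set G) := fun D => by
    ext x
    constructor
    · rintro ⟨y, hy, rfl⟩
      exact ⟨y.2, fun u hu => congrArg Subtype.val (Subgroup.mem_center_iff.1 hy ⟨u, hu⟩)⟩
    · rintro ⟨h1, h2⟩
      exact ⟨⟨x, h1⟩, Subgroup.mem_center_iff.2 fun u => Subtype.ext (h2 u u.2), rfl⟩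
  have hZ' : ((Subgroup.center D₀).map D₀.subtype).map H.subtype = D₀.map H.subtype ⊓
      Subgroup.centralizer ((D₀.map H.subtype : Subgroup G) : Set G) := by
    ext x
    constructor
    · rintro ⟨_, ⟨y, hy, rfl⟩, rfl⟩
      refine ⟨⟨_, y.2, rfl⟩, ?_⟩
      rintro _ ⟨u, hu, rfl⟩
      exact congrArg (fun z : D₀ => ((z : H) : G)) (Subgroup.mem_center_iff.1 hy ⟨u, hu⟩)
    · rintro ⟨⟨y, hy, rfl⟩, h2⟩
      exact ⟨y, ⟨⟨y, hy⟩, Subgroup.mem_center_iff.2 fun u => Subtype.ext (Subtype.ext
        (h2 _ ⟨u, u.2, rfl⟩)), rfl⟩, rfl⟩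
  obtain ⟨e, he, h1⟩ := exists_pair_of_br_ne le_rfl (blk_eb hb) h0.isPGroup h0.le h0.br_ne
  have hCK : CK ⊤ (D₀.map H.subtype) ≤ H := inf_le_left.trans hC
  have he' := he
  rw [CK_eq_of_le le_top hCK] at he'
  have h2 := (ind_iff_of_pair le_top h0.isPGroup h0.le hCK (blk_eb hb) he' h1 (blk_eB hB.2.1)).1
    (IsInducedBlock.ind hB)
  have hp : IsPair p ⊤ (D₀.map H.subtype) e := ⟨h0.isPGroup, Subgroup.le_normalizer_of_normal, he'⟩
  obtain ⟨D, f, hle, hD⟩ := exists_ple_isDef le_rfl Subgroup.le_normalizer (blk_eB hB.2.1) hp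
    le_top h2
  have h3 : D ⊓ Subgroup.centralizer ((D₀.map H.subtype : Subgroup G) : Set G) ≤
      D₀.map H.subtype := by
    set R := D ⊓ Subgroup.centralizer ((D₀.map H.subtype : Subgroup G) : Set G)
    have hRN : R ≤ Subgroup.normalizer ((D₀.map H.subtype : Subgroup G) : Set G) :=
      inf_le_right.trans (Subgroup.centralizer_le_normalizer _)
    have hR : IsPGroup p R := hD.isPGroup.to_le inf_le_left
    have h4 := hle.br_ne (hle.isPair_right hp) inf_le_left hRN
    have h5 : br (D₀.map H.subtype ⊔ R) (eb M H b) ≠ 0 := by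
      rw [sup_comm, ← br_br]
      exact br_ne_of_mul hR (((eb_mem_Fix b).2.mono (inf_le_right.trans hC)).br hRN)
        (he'.mem.2.mono (le_inf inf_le_right le_top)) h1 h4
    exact le_sup_right.trans (h0.eq_of_le (sup_le h0.le (inf_le_right.trans hC))
      (isPGroup_sup' h0.isPGroup hR hRN) h5 le_sup_left).le
  constructor
  · refine ⟨D, (isDefectGroup_iff hM hB.2.1).2 hD, ?_, Subgroup.map_mono (Subgroup.map_subtype_le _),
      hle.le⟩
    rw [hZ, hZ']
    have h4 := Subgroup.centralizer_le (SetLike.coe_subset_coe.2 hle.le)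
    exact le_inf ((inf_le_inf_left _ h4).trans h3) (inf_le_right.trans h4)
  · intro D' hD' hab
    obtain ⟨x, -, rfl⟩ := ((isDefectGroup_iff hM hB.2.1).1 hD').exists_conj hD
    have h4 : MulAut.conj x • D' ≤
        Subgroup.centralizer ((D₀.map H.subtype : Subgroup G) : Set G) := fun u hu v hv => by
      have := congrArg Subtype.val (hab.is_comm.comm (⟨_, mem_conj_smul.1 (hle.le hv)⟩ : D')
        ⟨_, mem_conj_smul.1 hu⟩)
      simp only [Subgroup.coe_mul, mul_assoc, mul_inv_cancel_left, mul_right_inj] at this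
      rw [← mul_assoc, ← mul_assoc] at this
      exact mul_right_cancel this
    rw [isDefectGroup_iff hM hB.2.1, le_antisymm hle.le ((le_inf le_rfl h4).trans h3)]
    exact hD

end Cfsg.Agent.S4726
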