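import Cfsg.Statements.S4727
import Cfsg.Agent.H7.Avg
import Cfsg.Agent.H8.Subsec3
-- import your own Cfsg.Agent.* helpers here

set_option autoImplicit false
open Cfsg

namespace Cfsg.Agent.S4727

open MonoidAlgebra Cfsg.Agent.H3 Cfsg.Agent.H4 Cfsg.Agent.H7
open Cfsg.Agent.H6 (Res locRing redC redA eB fB intAlg classSum omega chiL)
open scoped Pointwise
set_option linter.style.haveILetI false


/-- Let p be a prime, π a set of primes containing p, M a maximal ideal of the algebraic integers containing p, and B a p-block of the finite group G with defect group D; let B₁ be the block of N_G(D) with defect group D that induces B (the Brauer correspondent of B). Suppose every element of O_π'(N_G(D)), the largest normal subgroup of N_G(D) whose order has no prime divisor in π, lies in the kernel of every member of B₁. If y is a p-element whose centralizer C has a normal Hall π'-subgroup (every element of C whose order has no prime divisor in π lies in O_π'(C)), then χ(y x) = χ(y) for every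 χ ∈ B and every x ∈ C whose order has no prime divisor in π. -/
theorem result {G : Type*} [Group G] [Finite G] (p : ℕ) [Fact p.Prime] (M : Ideal Cfsg.AlgInt) (hM : Cfsg.IsPModular p M) (π : Set ℕ) (hpπ : p ∈ π) (B : Set (Cfsg.IrrCharacter G)) (hB : Cfsg.IsPBlock M B) (D : Subgroup G) (hBD : Cfsg.IsDefectGroup p M B D) (B₁ : Set (Cfsg.IrrCharacter ↥(Subgroup.normalizer (D : Set G)))) (hB₁ : Cfsg.IsInducedBlock M (Subgroup.normalizer (D : Set G)) B₁ B) (hB₁D : Cfsg.IsDefectGroup p M B₁ (D.subgroupOf (Subgroup.normalizer (D : Set G)))) (hker : ∀ n : ↥(Subgroup.normalizer (D : Set G)), n ∈ Cfsg.piCore {q | q ∉ π} ↥(Subgroup.normalizer (D : Set G)) → n ∈ Cfsg.blockKer B₁) (y : G) (hy : ∃ k : ℕ, orderOf y = p ^ k) (hC : ∀ x : ↥(Subgroup.centralizer ({y} : Set G)), (∀ q : ℕ, q.Prime → q ∣ orderOf x → q ∉ π) → x ∈ Cfsg.piCore {q | q ∉ π} ↥(Subgroup.centralizer ({y} : Set G))) : ∀ χ ∈ B, ∀ x : G, x ∈ Subgroup.centralizer ({y} : Set G) → (∀ q : ℕ, q.Prime → q ∣ orderOf x → q ∉ π) → (χ : G →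 ℂ) (y * x) = (χ : G → ℂ) y := by
  classical
  haveI := hM.2.1
  haveI := H6.charP_res hM
  haveI := Fintype.ofFinite G
  have hπ : p ∉ {q | q ∉ π} := fun h => h hpπ
  obtain ⟨e, S, he⟩ := exists_maxP_kerOf_iff hM hπ hBD hB₁ hB₁D
  intro χ hχ x hx ho
  have hs := H8.secData_centralizer hy
  have hC' : Subgroup.centralizer ({y} : Set G) =
      Subgroup.centralizer (Subgroup.zpowers y : Set G) := by
    ext g
    rw [hs.mem_iff, (H8.secData_zpowers hy).mem_iff]
  have hQ := H8.isPGroup_zpowers hy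
  have ho' : ∀ q : ℕ, q.Prime →
      q ∣ orderOf (⟨x, hx⟩ : Subgroup.centralizer ({y} : Set G)) → q ∉ π := fun q hq hd =>
    ho q hq (by rwa [← Subgroup.orderOf_coe] at hd)
  have hxp : ¬ p ∣ orderOf (⟨x, hx⟩ : Subgroup.centralizer ({y} : Set G)) :=
    fun h => ho' p Fact.out h hpπ
  have h1 := hs.blockPart_apply hM hB χ.2.isCharacter.isClassFunction hxp
  have h2 := hs.blockPart_apply hM hB χ.2.isCharacter.isClassFunction (y := 1)
    (by simpa using (Fact.out : p.Prime).one_lt.ne')
  rw [H6.blockPart_irr_of_mem hχ] at h1 h2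
  rw [OneMemClass.coe_one, mul_one] at h2
  rw [h2]
  refine h1.trans (Finset.sum_congr rfl fun b hb => ?_)
  obtain ⟨hb', -, hI⟩ := isInducedBlock_iff_ind.1 (H8.mem_indBlocks.1 hb)
  have hk : KerOf (Opi {q | q ∉ π} (Subgroup.centralizer ({y} : Set G))) (eb M _ b) := by
    have h4 := blk_eb hb'
    generalize eb M _ b = f at hI h4
    rw [hC', ← CK_top] at hI h4 ⊢
    exact S.kerOf_Opi hπ (he.2 hker) ⟨hQ, Subgroup.le_normalizer_of_normal, h4⟩ le_top
      ((ind_CK_iff hQ le_top h4 (blk_eB hB)).1 hI)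
  have h3 := (kerOf_Opi_eb_iff hM hπ hb').1 hk _ (hC _ ho')
  haveI := Fintype.ofFinite (Subgroup.centralizer ({y} : Set G))
  rw [H6.blockPart_eq_sum, H6.blockPart_eq_sum]
  refine Finset.sum_congr rfl fun ξ _ => ?_
  split_ifs with hξ
  · rw [h3 ξ hξ]
  · rfl

end Cfsg.Agent.S4727
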