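import Cfsg.Statements.S4728
import Cfsg.Agent.H7.Avg
-- import your own Cfsg.Agent.* helpers here

set_option autoImplicit false
open Cfsg

namespace Cfsg.Agent.S4728

open MonoidAlgebra Cfsg.Agent.H3 Cfsg.Agent.H4 Cfsg.Agent.H7
open Cfsg.Agent.H6 (Res locRing redC redA eB fB intAlg classSum omega chiL)
open scoped Pointwise
set_option linter.style.haveILetI false


/-- Let p be a prime, π a set of primes containing p, M a maximal ideal of the algebraic integers containing p, B a p-block of the finite group G with defect group D, and B₁ the block of N_G(D) with defect group D inducing B. Let D₀ be a p-subgroup, H₀ = D₀·C_G(D₀), and b a block of H₀ inducing B. Write O_π'(X) for the largest normal subgroup of X whose order has no prime divisor in π. Suppose that O_π'(C_G(D₀)) is a normal Hall π'-subgroup of C_G(D₀) (it contains every element of C_G(D₀) whose order has no prime divisor in π) and that every element of it lies in the kernel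 of every member of b. Then every element of O_π'(N_G(D)) lies in the kernel of every member of B₁. -/
theorem result {G : Type*} [Group G] [Finite G] (p : ℕ) [Fact p.Prime] (M : Ideal Cfsg.AlgInt) (hM : Cfsg.IsPModular p M) (π : Set ℕ) (hpπ : p ∈ π) (B : Set (Cfsg.IrrCharacter G)) (hB : Cfsg.IsPBlock M B) (D : Subgroup G) (hBD : Cfsg.IsDefectGroup p M B D) (B₁ : Set (Cfsg.IrrCharacter ↥(Subgroup.normalizer (D : Set G)))) (hB₁ : Cfsg.IsInducedBlock M (Subgroup.normalizer (D : Set G)) B₁ B) (hB₁D : Cfsg.IsDefectGroup p M B₁ (D.subgroupOf (Subgroup.normalizer (D : Set G)))) (D₀ : Subgroup G) (hD₀ : IsPGroup p D₀) (H₀ : Subgroup G) (hH₀ : H₀ = D₀ ⊔ Subgroup.centralizer (D₀ : Set G)) (b : Set (Cfsg.IrrCharacter ↥H₀)) (hb : Cfsg.IsInducedBlock M H₀ b B) (hcompl : ∀ x : ↥(Subgroup.centralizer (D₀ : Set G)), (∀ q : ℕ, q.Prime → q ∣ orderOf x → q ∉ π) → x ∈ Cfsg.piCore {q | q ∉ π} ↥(Subgroup.centralizer (D₀ : Set G))) (hkerb : ∀ x : ↥(Subgroup.centralizer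 (D₀ : Set G)), x ∈ Cfsg.piCore {q | q ∉ π} ↥(Subgroup.centralizer (D₀ : Set G)) → ∀ θ ∈ b, ∀ h : ↥H₀, (h : G) = (x : G) → (θ : ↥H₀ → ℂ) h = (θ : ↥H₀ → ℂ) 1) : ∀ n : ↥(Subgroup.normalizer (D : Set G)), n ∈ Cfsg.piCore {q | q ∉ π} ↥(Subgroup.normalizer (D : Set G)) → n ∈ Cfsg.blockKer B₁ := by
  haveI := hM.2.1
  haveI := H6.charP_res hM
  have hπ : p ∉ {q | q ∉ π} := fun h => h hpπ
  obtain ⟨e, S, he⟩ := exists_maxP_kerOf_iff hM hπ hBD hB₁ hB₁D
  obtain ⟨hb', -, hI⟩ := isInducedBlock_iff_ind.1 hb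
  have h1 : D₀ ≤ H₀ := hH₀ ▸ le_sup_left
  have h2 : Subgroup.centralizer (D₀ : Set G) ≤ H₀ := hH₀ ▸ le_sup_right
  have h3 : H₀ ≤ Subgroup.normalizer (D₀ : Set G) :=
    hH₀ ▸ sup_le Subgroup.le_normalizer (Subgroup.centralizer_le_normalizer _)
  have h4 : Blk (Subgroup.centralizer (D₀ : Set G)) (eb M H₀ b) := by
    have h5 := (blk_iff_of_normal hD₀ h1 h3 h2 inf_le_left).1 (blk_eb hb')
    have h6 : Fix (Res M) (Subgroup.centralizer (D₀ : Set G)) H₀ =
        Fix (Res M) (Subgroup.centralizer (D₀ : Set G)) (Subgroup.centralizer (D₀ : Set G)) := by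
      rw [hH₀]
      exact Fix_sup_of_le_centralizer le_rfl
    rwa [h6] at h5
  have h5 := Ind.br_mul hD₀ le_top (h1.trans Subgroup.le_normalizer) (by rwa [CK_top]) h3 le_top hI
  refine he.1 (S.kerOf_Opi_up hπ (isPair_top_iff.2 ⟨hD₀, h4⟩) le_top h5 ?_ ?_)
  · rw [CK_top]
    intro x hx ho
    refine (mem_Opi (x := ⟨x, hx⟩)).2 (hcompl _ fun q hq hd => ho q hq ?_)
    rwa [← Subgroup.orderOf_coe] at hd
  · rw [CK_top, kerOf_eb_iff hM ((Opi_le _ _).trans h2) (not_dvd_card_Opi Fact.out hπ _) hb']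
    intro x hx θ hθ
    exact hkerb ⟨x, Opi_le _ _ hx⟩ (mem_Opi.1 hx) θ hθ x rfl

end Cfsg.Agent.S4728
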