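import Cfsg.Statements.S4729
import Cfsg.Agent.H6.Kernel
import Cfsg.Agent.H5.Det
import Cfsg.Agent.H8.Glaub2
import Cfsg.Agent.H8.Val
-- import your own Cfsg.Agent.* helpers here

set_option autoImplicit false
open Cfsg

namespace Cfsg.Agent.S4729

open MonoidAlgebra Cfsg.Agent.H3 Cfsg.Agent.H4 Cfsg.Agent.H7
open Cfsg.Agent.H6 (Res locRing redC redA eB fB intAlg classSum omega chiL)
open scoped Pointwise
set_option linter.style.haveILetI false


/-- Let p be a prime, M a maximal ideal of the algebraic integers containing p, G a finite perfect group and P a Sylow p-subgroup. If the principal p-block of G contains a faithful irreducible character of degree less than 2p, then the centralizer of P is a p-group. -/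
theorem result {G : Type*} [Group G] [Finite G] (p : ℕ) [Fact p.Prime] (M : Ideal Cfsg.AlgInt) (hM : Cfsg.IsPModular p M) (hperf : commutator G = ⊤) (P : Sylow p G) (χ : Cfsg.IrrCharacter G) (hχ : χ ∈ Cfsg.principalBlock M G) (hfaith : ∀ g : G, (χ : G → ℂ) g = (χ : G → ℂ) 1 → g = 1) (hdeg : Cfsg.charDegree (χ : G → ℂ) < 2 * p) : IsPGroup p ↥(Subgroup.centralizer ((P : Subgroup G) : Set G)) := by
  classical
  haveI := hM.2.1
  haveI := Fintype.ofFinite G
  by_contra hn
  obtain ⟨q, hq, h1, h2⟩ : ∃ q : ℕ, q.Prime ∧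
      q ∣ Nat.card (Subgroup.centralizer ((P : Subgroup G) : Set G)) ∧ q ≠ p := by
    by_contra! h
    exact hn (IsPGroup.iff_card.2 ⟨_, Nat.eq_prime_pow_of_unique_prime_dvd Nat.card_pos.ne'
      fun hd hd' => h _ hd hd'⟩)
  haveI := Fact.mk hq
  obtain ⟨⟨x, hx⟩, ho⟩ := exists_prime_orderOf_dvd_card' q h1
  replace ho : orderOf x = q := (Subgroup.orderOf_coe _).trans ho
  set H := Subgroup.zpowers x
  have hH : Nat.card H = q := (Nat.card_zpowers x).trans ho
  have hpq : ¬ p ∣ q := fun e => h2 ((Nat.prime_dvd_prime_iff_eq hM.1 hq).1 e).symm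
  have h3 : ∀ y : H, redC M (χ.1 y) = redC M (χ.1 1) := fun y => by
    have a1 := H6.redC_centralChar_principal hχ y
    have a2 : ¬ p ∣ (Subgroup.centralizer ({(y : G)} : Set G)).index := fun e =>
      P.not_dvd_index (e.trans (Subgroup.index_dvd_of_le fun g hg =>
        Subgroup.mem_centralizer_singleton_iff.2 (Subgroup.zpowers_le.2 hx y.2 g hg)))
    have a3 : centralChar χ.1 y * χ.1 1 = (Subgroup.centralizer ({(y : G)} : Set G)).index * χ.1 y :=
      div_mul_cancel₀ _ (H8.irr_one_ne_zero χ)
    have a4 := congrArg (redC M) a3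
    rw [H6.redC_mul (H6.centralChar_mem χ.2 _) (H6.irr_mem χ _),
      H6.redC_mul (natCast_mem _ _) (H6.irr_mem χ _), a1, H6.redC_natCast] at a4
    exact (mul_left_cancel₀ (mt (H6.natCast_res_eq_zero_iff hM _).1 a2) a4).symm
  have hθ := χ.2.isCharacter.comp H.subtype
  choose m hm using fun η : IrrCharacter H => hθ.classInner_nat η.2.isCharacter
  have hc : ∀ a b : H, a * b = b * a := fun a b => (IsCyclic.isMulCommutative (α := H)).is_comm.comm a b
  choose lam hl using fun η : IrrCharacter H => η.2.exists_linear_of_comm hc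
  let o : IrrCharacter H := ⟨fun _ => 1, isIrrCharacter_one⟩
  have h4 : ∀ η, η ≠ o → p ∣ m η := fun η hη => by
    have a1 : (Fintype.card H : ℂ) ≠ 0 := by simp
    have a2 : ∑ y : H, starRingEnd ℂ (η.1 y) = 0 := by
      have := irr_classInner o η
      rw [if_neg (Ne.symm hη), classInner_def] at this
      simpa [o] using this
    have a3 : ∑ y : H, χ.1 y * starRingEnd ℂ (η.1 y) = (q * m η : ℕ) := by
      rw [Nat.cast_mul, ← hm, classInner_def, ← hH, Nat.card_eq_fintype_card,
        mul_inv_cancel_left₀ a1]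
      rfl
    have a4 := congrArg (redC M) a3
    rw [H6.redC_sum _ fun y _ => mul_mem (H6.irr_mem χ _) (H8.conj_char_mem η.2.isGen _),
      Finset.sum_congr rfl fun y _ => by
        rw [H6.redC_mul (H6.irr_mem χ _) (H8.conj_char_mem η.2.isGen _), h3],
      ← Finset.mul_sum, ← H6.redC_sum _ fun y _ => H8.conj_char_mem η.2.isGen _, a2, H6.redC_zero,
      mul_zero, H6.redC_natCast, eq_comm, H6.natCast_res_eq_zero_iff hM] at a4
    exact (hM.1.dvd_mul.1 a4).resolve_left hpq
  have h5 : (fun y : H => χ.1 y) = ∑ η : IrrCharacter H, (m η : ℂ) • η.1 := by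
    simp only [← hm]
    exact hθ.isClassFunction.eq_sum
  have h6 : charDegree χ.1 = ∑ η, m η := by
    have := congrFun h5 1
    simp only [Finset.sum_apply, Pi.smul_apply, hl, map_one, Units.val_one, smul_eq_mul, mul_one,
      OneMemClass.coe_one, ← χ.2.isCharacter.charDegree_cast] at this
    exact_mod_cast this
  have h7 : ∏ η, lam η ^ m η = 1 := by
    have a1 : H5.detHom χ.1 = 1 := MonoidHom.ext fun g =>
      Abelianization.commutator_subset_ker _ (hperf ▸ Subgroup.mem_top g)
    have a2 := H5.detHom_comp χ.2.isCharacter H.subtype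
    rw [a1, MonoidHom.one_comp] at a2
    rw [← a2]
    change _ = H5.detHom fun y : H => χ.1 y
    rw [h5, H5.detHom_sum _ _ fun η _ => η.2.isCharacter.natCast_smul _]
    exact Finset.prod_congr rfl fun η _ => by
      rw [H5.detHom_natCast_smul η.2.isCharacter, hl, H5.detHom_linear]
  have ho1 : lam o = 1 := H5.linear_ext (hl o).symm
  by_cases h8 : ∀ η, η ≠ o → m η = 0
  · have a1 : ∀ y : H, χ.1 y = m o := fun y => by
      rw [congrFun h5 y, Finset.sum_apply, Finset.sum_eq_single o (fun η _ e => by simp [h8 η e])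
        (by simp)]
      simp [o]
    rw [hfaith x ((a1 ⟨x, Subgroup.mem_zpowers x⟩).trans (a1 1).symm), orderOf_one] at ho
    exact hq.ne_one ho.symm
  push Not at h8
  obtain ⟨η, e1, e2⟩ := h8
  have a1 := Nat.le_of_dvd (Nat.pos_of_ne_zero e2) (h4 η e1)
  have a2 : m η = p := by
    obtain ⟨c, hc⟩ := h4 η e1
    have := Finset.single_le_sum (f := m) (fun _ _ => Nat.zero_le _) (Finset.mem_univ η)
    have : p * c < p * 2 := by omega
    have := Nat.lt_of_mul_lt_mul_left this
    obtain rfl | rfl : c = 0 ∨ c = 1 := by omega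
    all_goals omega
  rw [Finset.prod_eq_single η (fun η' _ e => ?_) (by simp), a2] at h7
  · have a3 := H5.linear_pow_card (lam η)
    rw [hH] at a3
    refine e1 (Subtype.ext ?_)
    rw [hl, show lam η = 1 from MonoidHom.ext fun y => (pow_eq_one_iff_of_coprime
      ((Nat.Prime.coprime_iff_not_dvd hM.1).2 hpq)).1
        ⟨DFunLike.congr_fun h7 y, DFunLike.congr_fun a3 y⟩]
    rfl
  · by_cases e' : η' = o
    · rw [e', ho1]; ext; simp
    · have := Finset.add_le_sum (f := m) (fun _ _ => Nat.zero_le _) (Finset.mem_univ η')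
        (Finset.mem_univ η) e
      rw [Nat.eq_zero_of_dvd_of_lt (h4 η' e') (by omega)]; ext; simp

end Cfsg.Agent.S4729
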