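import Cfsg.Statements.S4730
import Cfsg.Agent.H8.Princ
import Cfsg.Agent.H8.Blich
-- import your own Cfsg.Agent.* helpers here

set_option autoImplicit false
open Cfsg

namespace Cfsg.Agent.S4730

open Cfsg.Agent.H4 Cfsg.Agent.H5 Cfsg.Agent.H6


/-- Let p be a prime, M a maximal ideal of the algebraic integers containing p, and G a finite group with trivial centre, Sylow p-subgroup P of order p^a and centre Z(P) of order p^b. If χ is a faithful irreducible character of G whose degree is a power of p, then the p-block of χ has defect at most a − b; in particular, if P is abelian then χ lies in a block of defect zero. -/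
theorem result {G : Type*} [Group G] [Finite G] (p : ℕ) [Fact p.Prime] (M : Ideal Cfsg.AlgInt) (hM : Cfsg.IsPModular p M) (hZ : Subgroup.center G = ⊥) (P : Sylow p G) (a b : ℕ) (ha : Nat.card P = p ^ a) (hb : Nat.card (Subgroup.center ↥(P : Subgroup G)) = p ^ b) (χ : Cfsg.IrrCharacter G) (hfaith : ∀ g : G, (χ : G → ℂ) g = (χ : G → ℂ) 1 → g = 1) (n : ℕ) (hdeg : Cfsg.charDegree (χ : G → ℂ) = p ^ n) : Cfsg.blockDefect p (Cfsg.blockOf M (χ : G → ℂ)) ≤ a - b ∧ (IsMulCommutative ↥(P : Subgroup G) → Cfsg.blockDefect p (Cfsg.blockOf M (χ : G → ℂ)) = 0) := by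
  classical
  have hp : p.Prime := Fact.out
  haveI := Fintype.ofFinite G
  haveI := hM.2.1
  have hB := H8.isPBlock_blockOf (M := M) χ
  obtain ⟨ψ, hψ, hψ0⟩ := H8.exists_eq_bmin (p := p) (H8.block_nonempty hB)
  set Z := Subgroup.center (P : Subgroup G)
  set j : Z →* G := (P : Subgroup G).subtype.comp Z.subtype
  have hj : Function.Injective j := (Subgroup.subtype_injective _).comp (Subgroup.subtype_injective _)
  have h1 : ∀ z : Z, z ≠ 1 → MemLocalIdeal M (ψ.1 (j z) / ψ.1 1) := by
    intro z hz
    have hi : ¬ p ∣ (Subgroup.centralizer ({j z} : Set G)).index := by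
      refine fun hd => P.not_dvd_index (hd.trans (Subgroup.index_dvd_of_le fun x hx => ?_))
      rw [Subgroup.mem_centralizer_singleton_iff]
      exact congrArg Subtype.val (Subgroup.mem_center_iff.1 z.2 ⟨x, hx⟩)
    have h2 : χ.1 (j z) = 0 := by
      rcases χ.2.eq_zero_or_norm_eq_of_coprime (d := p ^ n)
        (by rw [← hdeg, χ.2.isCharacter.charDegree_cast])
        (((Nat.Prime.coprime_iff_not_dvd hp).2 hi).pow_left n) with h | h
      · exact h
      · exfalso
        have h3 := χ.2.isCharacter.mem_charCenter.2 h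
        rw [χ.2.charCenter_eq_center ((H8.charKer_eq_bot_iff χ.2.isCharacter).2 hfaith), hZ,
          Subgroup.mem_bot, ← j.map_one] at h3
        exact hz (hj h3)
    have h3 := hψ (j z)
    rw [centralChar, h2, mul_zero, zero_div, zero_sub, memLocalIdeal_neg_iff, centralChar] at h3
    have h4 := MemLocalIdeal.mul_left' (inv_natCast_mem hM hi) h3
    have h5 : ((Subgroup.centralizer ({j z} : Set G)).index : ℂ) ≠ 0 := index_ne_zero_C _
    rwa [mul_div_assoc, inv_mul_cancel_left₀ h5] at h4
  obtain ⟨m, hm⟩ := (ψ.2.isCharacter.comp j).classInner_nat isCharacter_one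
  have h2 : ((p ^ b * m : ℕ) : ℂ) / (charDegree ψ.1 : ℕ) =
      1 + ∑ z ∈ Finset.univ.erase (1 : Z), ψ.1 (j z) / ψ.1 1 := by
    rw [classInner_one_right, hb] at hm
    have h3 : ((p ^ b : ℕ) : ℂ) ≠ 0 := Nat.cast_ne_zero.2 (pow_pos hp.pos b).ne'
    rw [Nat.cast_mul, ← hm, mul_inv_cancel_left₀ h3, H8.irr_coe_charDegree, Finset.sum_div,
      ← Finset.add_sum_erase _ _ (Finset.mem_univ (1 : Z)), j.map_one,
      div_self (H8.irr_one_ne_zero ψ)]
  have h3 : ¬ MemLocalIdeal M (((p ^ b * m : ℕ) : ℂ) / (charDegree ψ.1 : ℕ)) := by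
    rw [h2]
    intro h
    have := MemLocalIdeal.sub' h (memLocalIdeal_sum (Finset.univ.erase (1 : Z))
      fun z hz => h1 z (Finset.ne_of_mem_erase hz))
    rw [add_sub_cancel_right] at this
    exact not_memLocalIdeal_one this
  have hm0 : m ≠ 0 := by
    rintro rfl
    apply h3; simpa using memLocalIdeal_zero
  rw [memLocalIdeal_natCast_div_iff hM (mul_ne_zero (pow_pos hp.pos b).ne' hm0)
    (H8.irr_charDegree_ne_zero ψ), Nat.factorization_mul (pow_pos hp.pos b).ne' hm0,
    Finsupp.add_apply, hp.factorization_pow, Finsupp.single_eq_same, hψ0] at h3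
  have h4 : (Nat.card G).factorization p = a := by
    have := H8.card_sylow_eq P
    rw [ha] at this
    exact (Nat.pow_right_injective hp.two_le this).symm
  have h5 : blockDefect p (blockOf M χ.1) ≤ a - b := by
    rw [H8.blockDefect_eq, h4]; omega
  refine ⟨h5, fun hc => ?_⟩
  have h6 : Z = ⊤ := by
    rw [eq_top_iff]
    intro x _
    exact Subgroup.mem_center_iff.2 fun y => hc.is_comm.comm y x
  rw [h6, Subgroup.card_top, ha] at hb
  have := Nat.pow_right_injective hp.two_le hb
  omega

end Cfsg.Agent.S4730
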