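import Cfsg.Statements.S4731
import Mathlib
import Cfsg.Agent.H8.Princ

set_option autoImplicit false
open Cfsg

namespace Cfsg.Agent.S4731

-- OPENS
open Cfsg.Agent.H8
open Cfsg.Agent.H6 hiding blockCoeff_eq_zero blockPart_add blockPart_eq_zero_of_regular
  blockPart_eq_zero_of_singular blockPart_irr_of_mem blockPart_irr_of_not_mem
  blockPart_isClassFunction blockPart_smul blockPart_sub blockPart_sum blockPart_zero
  block_eq_blockOf block_eq_of_mem block_nonempty centralChar_mem char_mem conj_char_mem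
  irrOne_mem_principal isPBlock_blockOf isPBlock_principal mem_blockOf_self orderOf_conj'
  sameBlock_refl sameBlock_symm sameBlock_trans weak_orth weak_orth'
open Cfsg.Agent.H4
open Cfsg.Agent.H5
open Cfsg.Agent.H3


/-- Let p ≠ q be primes, M_p and M_q maximal ideals of the algebraic integers containing p and q respectively, and G a finite group with no element of order pq; let q^b be the q-part of the order of G. For a p-block B_p (relative to M_p), a q-block B_q (relative to M_q) and a p-singular element y, the sum of χ(1)χ(y) over the irreducible characters χ lying in both B_p and B_q is q^b times an algebraic integer. -/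
theorem result {G : Type*} [Group G] [Finite G] (p q : ℕ) [Fact p.Prime] [Fact q.Prime] (hpq : p ≠ q) (Mp Mq : Ideal Cfsg.AlgInt) (hMp : Cfsg.IsPModular p Mp) (hMq : Cfsg.IsPModular q Mq) (hno : ∀ g : G, orderOf g ≠ p * q) (b : ℕ) (hb : (Nat.card G).factorization q = b) (Bp : Set (Cfsg.IrrCharacter G)) (hBp : Cfsg.IsPBlock Mp Bp) (Bq : Set (Cfsg.IrrCharacter G)) (hBq : Cfsg.IsPBlock Mq Bq) (y : G) (hy : p ∣ orderOf y) : ∃ ω : Cfsg.AlgInt, ∑ᶠ χ ∈ Bp ∩ Bq, (Cfsg.charDegree (χ : G → ℂ) : ℂ) * (χ : G → ℂ) y = (q : ℂ) ^ b * (ω : ℂ) := by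
  subst hb
  have := Fintype.ofFinite G
  obtain ⟨Q⟩ : Nonempty (Sylow q G) := inferInstance
  have := Fintype.ofFinite (Q : Subgroup G)
  set θ : G → ℂ := ∑ χ ∈ bfin (Bp ∩ Bq), (χ : G → ℂ) y • (fun g => (starRingEnd ℂ) ((χ : G → ℂ) g))
    with hθ
  have h1 := apply_one_eq_of_vanish Q (θ := θ) (fun g hg => by
    rw [hθ, Finset.sum_apply]
    exact inter_sum_vanish hpq hMp hMq hno hBp hBq hy hg)
  have h2 : IsIntegral ℤ (classInner (fun x : (Q : Subgroup G) => θ x) (fun _ => 1)) := by
    have : (fun x : (Q : Subgroup G) => θ x) = ∑ χ ∈ bfin (Bp ∩ Bq), (χ : G → ℂ) y •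
        (fun x : (Q : Subgroup G) => (starRingEnd ℂ) ((χ : G → ℂ) x)) := by
      ext x; simp [hθ, Finset.sum_apply]
    rw [this, classInner_sum_left]
    refine IsIntegral.sum _ fun χ _ => ?_
    rw [classInner_smul_left]
    obtain ⟨n, hn⟩ := (χ.2.isCharacter.conj.restrict (Q : Subgroup G)).classInner_nat isCharacter_one
    rw [hn]
    exact (χ.2.isCharacter.isIntegral y).mul (isIntegral_natCast n)
  refine ⟨⟨_, h2⟩, ?_⟩
  rw [finsum_mem_bfin]
  push_cast at h1
  rw [← h1, hθ, Finset.sum_apply]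
  refine Finset.sum_congr rfl fun χ _ => ?_
  rw [irr_coe_charDegree, Pi.smul_apply, irr_conj_one, smul_eq_mul, mul_comm]

end Cfsg.Agent.S4731
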