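import Cfsg.Statements.S4733
import Mathlib
import Cfsg.Agent.H8.Height2

set_option autoImplicit false
open Cfsg

namespace Cfsg.Agent.S4733

-- OPENS
open Cfsg.Agent.H8
open Cfsg.Agent.H6 hiding blockCoeff_eq_zero block_eq_blockOf block_eq_of_mem block_nonempty
  centralChar_mem char_mem conj_char_mem irrOne_mem_principal isPBlock_blockOf
  isPBlock_principal mem_blockOf_self orderOf_conj' sameBlock_refl sameBlock_symm
  sameBlock_trans weak_orth weak_orth'
open Cfsg.Agent.H4
open Cfsg.Agent.H5
open Cfsg.Agent.H3


/-- Let p be a prime, M a maximal ideal of the algebraic integers containing p, and B a p-block of the finite group G with k irreducible characters and p-regular rank l (the number of irreducible Brauer characters). Then l ≤ k, and the following are equivalent: B has defect 0; k = l = 1; k = l. -/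
theorem result {G : Type*} [Group G] [Finite G] (p : ℕ) [Fact p.Prime] (M : Ideal Cfsg.AlgInt) (hM : Cfsg.IsPModular p M) (B : Set (Cfsg.IrrCharacter G)) (hB : Cfsg.IsPBlock M B) : Cfsg.blockRank p B ≤ Nat.card B ∧ (Cfsg.blockDefect p B = 0 ↔ (Nat.card B = 1 ∧ Cfsg.blockRank p B = 1)) ∧ (Cfsg.blockDefect p B = 0 ↔ Nat.card B = Cfsg.blockRank p B) := by
  have := Fintype.ofFinite G
  have := hM.2.1
  have h1 := blockRank_le_card (p := p) B
  have h2 := blockRank_pos hM.1 (block_nonempty hB)
  refine ⟨h1, ⟨fun h => ?_, fun h => defect_zero_of_card_eq_one hM hB h.1⟩,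
    ⟨fun h => ?_, fun h => defect_zero_of_card_eq_rank hM hB h⟩⟩
  · have := card_eq_one_of_defect_zero hM hB h
    omega
  · have := card_eq_one_of_defect_zero hM hB h
    omega

end Cfsg.Agent.S4733
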