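import Cfsg.Statements.S4734
import Cfsg.Agent.H7.Avg
-- import your own Cfsg.Agent.* helpers here

set_option autoImplicit false
open Cfsg

namespace Cfsg.Agent.S4734

open MonoidAlgebra Cfsg.Agent.H3 Cfsg.Agent.H4 Cfsg.Agent.H7
open Cfsg.Agent.H6 (Res locRing redC redA eB fB intAlg classSum omega chiL)
open scoped Pointwise
set_option linter.style.haveILetI false


/-- Let p be a prime, π a set of primes containing p, M a maximal ideal of the algebraic integers containing p, B a p-block of the finite group G with defect group D, and B₁ the block of N_G(D) with defect group D inducing B. Write O_π'(X) for the largest normal subgroup of X whose order has no prime divisor in π, and suppose every element of O_π'(N_G(D)) lies in the kernel of every member of B₁. Let G₀ be a subgroup and B₀ a block of G₀ with defect group D₀ such that C_G(D₀) ≤ G₀ and B₀ induces B. Then every element of O_π'(G₀) lies in the kernel of every member of B₀. -/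
theorem result {G : Type*} [Group G] [Finite G] (p : ℕ) [Fact p.Prime] (M : Ideal Cfsg.AlgInt) (hM : Cfsg.IsPModular p M) (π : Set ℕ) (hpπ : p ∈ π) (B : Set (Cfsg.IrrCharacter G)) (hB : Cfsg.IsPBlock M B) (D : Subgroup G) (hBD : Cfsg.IsDefectGroup p M B D) (B₁ : Set (Cfsg.IrrCharacter ↥(Subgroup.normalizer (D : Set G)))) (hB₁ : Cfsg.IsInducedBlock M (Subgroup.normalizer (D : Set G)) B₁ B) (hB₁D : Cfsg.IsDefectGroup p M B₁ (D.subgroupOf (Subgroup.normalizer (D : Set G)))) (hker : ∀ n : ↥(Subgroup.normalizer (D : Set G)), n ∈ Cfsg.piCore {q | q ∉ π} ↥(Subgroup.normalizer (D : Set G)) → n ∈ Cfsg.blockKer B₁) (G₀ : Subgroup G) (B₀ : Set (Cfsg.IrrCharacter ↥G₀)) (hB₀ : Cfsg.IsInducedBlock M G₀ B₀ B) (D₀ : Subgroup ↥G₀) (hD₀ : Cfsg.IsDefectGroup p M B₀ D₀) (hC : Subgroup.centralizer ((D₀.map G₀.subtype : Subgroup G) : Set G) ≤ G₀) : ∀ x : ↥G₀, x ∈ Cfsg.piCore {q | q ∉ π} ↥G₀ → x ∈ Cfsg.blockKer B₀ := by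
  haveI := hM.2.1
  haveI := H6.charP_res hM
  have hπ : p ∉ {q | q ∉ π} := fun h => h hpπ
  obtain ⟨e, S, he⟩ := exists_maxP_kerOf_iff hM hπ hBD hB₁ hB₁D
  obtain ⟨hb, -, hI⟩ := isInducedBlock_iff_ind.1 hB₀
  have hD := (isDefectGroup_iff_eb hM hb).1 hD₀
  generalize D₀.map G₀.subtype = Q at hD hC
  obtain ⟨c, T⟩ := exists_maxP le_rfl Subgroup.le_normalizer (blk_eb hb) hD
  have hC' : CK ⊤ Q ≤ G₀ := by rwa [CK_top]
  have hc : Blk (CK ⊤ Q) c := CK_eq_of_le le_top hC' ▸ T.blk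
  have h1 := (ind_iff_of_pair le_top hD.isPGroup hD.le hC' (blk_eb hb) hc T.br_mul
    (blk_eB hB)).1 hI
  have h2 := S.kerOf_Opi hπ (he.2 hker) ⟨hD.isPGroup, Subgroup.le_normalizer_of_normal, hc⟩ le_top h1
  rw [← kerOf_Opi_eb_iff hM hπ hb]
  refine KerOf.of_br le_rfl (blk_eb hb) (Opi_le _ _) (le_normalizer_Opi _ _)
    (not_dvd_card_Opi Fact.out hπ _) hD.isPGroup (hD.le.trans (le_normalizer_Opi _ _))
    ((mem_Fix.1 (eb_mem_Fix B₀)).2.mono hD.le) hc.ne_zero T.br_mul (h2.mono ?_)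
  rw [← CK_top]
  exact inf_Opi_le _ hC'

end Cfsg.Agent.S4734
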