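import Cfsg.Statements.S4735
import Cfsg.Agent.H7.PRat
-- import your own Cfsg.Agent.* helpers here

set_option autoImplicit false
open Cfsg

namespace Cfsg.Agent.S4735

open MonoidAlgebra Cfsg.Agent.H3 Cfsg.Agent.H4 Cfsg.Agent.H7
open Cfsg.Agent.H6 (Res locRing redC redA eB fB intAlg classSum omega chiL)
open scoped Pointwise
set_option linter.style.haveILetI false

open scoped ComplexConjugate

theorem sum_principal_quot {G : Type*} [Group G] [Finite G] {p : ℕ} {M : Ideal AlgInt}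
    (hM : IsPModular p M) {N : Subgroup G} [N.Normal] (hN : ¬ p ∣ Nat.card N) {A : Type*}
    [AddCommMonoid A] (F : (G → ℂ) → A) :
    ∑ χ ∈ H8.bfin (principalBlock M G), F χ.1 =
      ∑ ψ ∈ H8.bfin (principalBlock M (G ⧸ N)), F fun g => ψ.1 g := by
  haveI := hM.2.1
  have hπ := QuotientGroup.mk'_surjective N
  symm
  refine Finset.sum_bij (fun ψ _ => irrComp _ hπ ψ) (fun ψ hψ => ?_) (fun ψ _ ψ' _ h => ?_)
    (fun χ hχ => ?_) fun _ _ => rfl
  · exact H8.mem_bfin.2 (H6.sameBlock_comp _ hπ (H8.mem_bfin.1 hψ))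
  · ext x
    obtain ⟨g, rfl⟩ := hπ x
    exact congrFun (congrArg Subtype.val h) g
  · have h1 := H6.le_charKer_of_mem_principal hM hN (H8.mem_bfin.1 hχ)
    have h2 : (fun g => deflate N χ.1 (QuotientGroup.mk' N g)) = χ.1 := funext (deflate_mk h1)
    refine ⟨⟨_, χ.2.deflate h1⟩, H8.mem_bfin.2 (H6.sameBlock_of_comp_pPrime hM _ hπ
      (by rwa [QuotientGroup.ker_mk']) isIrrCharacter_one (χ.2.deflate h1) ?_), Subtype.ext h2⟩
    rw [h2]
    exact H8.mem_bfin.1 hχ

/-- Let p be a prime, M a maximal ideal of the algebraic integers containing p, G a finite group, H = O_p'(G) and Ḡ = G/H. For x ∈ G write λ(G, x) for the sum of |χ(x)|^2 over the irreducible characters χ in the principal p-block of G. Then λ(G, x) is a positive integer, λ(G, x) = λ(Ḡ, x̄) where x̄ is the image of x, and λ(G, x) ≤ #C_Ḡ(x̄). Moreover λ(G, 1) = [G : H] if and only if the principal block is the only p-block of Ḡ. -/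
theorem result {G : Type*} [Group G] [Finite G] (p : ℕ) [Fact p.Prime] (M : Ideal Cfsg.AlgInt) (hM : Cfsg.IsPModular p M) (x : G) : (∃ n : ℕ, 0 < n ∧ ∑ᶠ χ ∈ Cfsg.principalBlock M G, Complex.normSq ((χ : G → ℂ) x) = n) ∧ ∑ᶠ χ ∈ Cfsg.principalBlock M G, Complex.normSq ((χ : G → ℂ) x) = ∑ᶠ ψ ∈ Cfsg.principalBlock M (G ⧸ Cfsg.pPrimeCore p G), Complex.normSq ((ψ : G ⧸ Cfsg.pPrimeCore p G → ℂ) (QuotientGroup.mk x)) ∧ ∑ᶠ χ ∈ Cfsg.principalBlock M G, Complex.normSq ((χ : G → ℂ) x) ≤ (Nat.card ↥(Subgroup.centralizer ({(QuotientGroup.mk x : G ⧸ Cfsg.pPrimeCore p G)} : Set (G ⧸ Cfsg.pPrimeCore p G))) : ℝ) ∧ ((∑ᶠ χ ∈ Cfsg.principalBlock M G, Cfsg.charDegree (χ : G → ℂ) ^ 2) = (Cfsg.pPrimeCore p G).index ↔ ∀ B : Set (Cfsg.IrrCharacter (G ⧸ Cfsg.pPrimeCore p G)), Cfsg.IsPBlock M B → B = Cfsg.principalBlock M (G ⧸ Cfsg.pPrimeCore p G)) := by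
  haveI := hM.2.1
  classical
  have hN : ¬ p ∣ Nat.card (pPrimeCore p G) := by
    rw [← H6.blockKerSub_principal hM]
    exact H6.not_dvd_card_blockKerSub hM H6.isPBlock_principal
  simp only [H8.finsum_mem_bfin]
  have h1 := sum_principal_quot hM hN fun f => Complex.normSq (f x)
  refine ⟨?_, h1, ?_, ?_⟩
  · obtain ⟨n, hn⟩ := exists_int_of_forall_ringEquiv
      (z := ∑ χ ∈ H8.bfin (principalBlock M G), χ.1 x * conj (χ.1 x))
      (IsIntegral.sum _ fun χ _ => (χ.2.isCharacter.isIntegral x).mul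
        (isIntegral_conj (χ.2.isCharacter.isIntegral x))) fun σ => by
      rw [map_sum]
      refine Finset.sum_bij' (fun χ _ => ⟨_, χ.2.map_ringHom (σ : ℂ →+* ℂ)⟩)
        (fun χ _ => ⟨_, χ.2.map_ringHom (σ.symm : ℂ →+* ℂ)⟩) (fun χ hχ => ?_) (fun χ hχ => ?_)
        (fun χ _ => Subtype.ext (funext fun g => σ.symm_apply_apply _))
        (fun χ _ => Subtype.ext (funext fun g => σ.apply_symm_apply _)) fun χ _ => ?_
      · rw [H8.mem_bfin, mem_principal_iff_rs hM] at hχ ⊢
        rw [rs_map]; exact (map_ne_zero _).2 hχ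
      · rw [H8.mem_bfin, mem_principal_iff_rs hM] at hχ ⊢
        rw [rs_map]; exact (map_ne_zero _).2 hχ
      · rw [map_mul]
        exact congrArg _ (χ.2.isGen.map_conj (σ : ℂ →+* ℂ) x)
    have h2 : ∑ χ ∈ H8.bfin (principalBlock M G), Complex.normSq (χ.1 x) = n := by
      simp only [Complex.mul_conj] at hn
      exact_mod_cast hn
    have h3 : (1 : ℝ) ≤ n := by
      rw [← h2]
      simpa using Finset.single_le_sum (f := fun χ : IrrCharacter G => Complex.normSq (χ.1 x))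
        (fun _ _ => Complex.normSq_nonneg _) (H8.mem_bfin.2 H6.irrOne_mem_principal)
    have h4 : 1 ≤ n := by exact_mod_cast h3
    lift n to ℕ using by omega
    exact ⟨n, by omega, by simpa using h2⟩
  · rw [h1, ← sum_irr_norm_sq]
    simp only [Complex.normSq_eq_norm_sq]
    exact Finset.sum_le_sum_of_subset_of_nonneg (Finset.subset_univ _) fun _ _ _ => by positivity
  · rw [sum_principal_quot hM hN fun f => charDegree f ^ 2]
    have h2 : ∑ ψ : IrrCharacter (G ⧸ pPrimeCore p G), charDegree ψ.1 ^ 2 =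
        (pPrimeCore p G).index := by
      have := sum_irr_degree_sq (G := G ⧸ pPrimeCore p G)
      simp only [← H8.irr_coe_charDegree] at this
      exact_mod_cast this
    rw [← h2]
    change ∑ ψ ∈ H8.bfin (principalBlock M (G ⧸ pPrimeCore p G)), charDegree ψ.1 ^ 2 = _ ↔ _
    constructor
    · intro h B hB
      obtain ⟨χ, hχ⟩ := H6.block_nonempty hB
      rw [H6.block_eq_blockOf hB hχ]
      refine (H6.block_eq_blockOf H6.isPBlock_principal ?_).symm
      by_contra hc
      exact (Finset.sum_lt_sum_of_subset (Finset.subset_univ _) (Finset.mem_univ χ)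
        (by simpa using hc) (pow_pos (H8.irr_charDegree_pos χ) 2)
        fun _ _ _ => Nat.zero_le _).ne h
    · intro h
      exact (H8.sum_eq_sum_bfin _ _ fun χ hχ => absurd
        (h _ (H6.isPBlock_blockOf χ) ▸ H6.mem_blockOf_self χ) hχ).symm

end Cfsg.Agent.S4735
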