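import Cfsg.Statements.S4736
import Mathlib
import Cfsg.Agent.H8.Deg1
import Cfsg.Agent.H8.Fong1
import Cfsg.Agent.H6.Princ3

set_option autoImplicit false
open Cfsg

namespace Cfsg.Agent.S4736

open scoped ComplexConjugate commutatorElement Pointwise
-- OPENS
open Cfsg.Agent.H8
open Cfsg.Agent.H6 hiding blockCoeff_eq_zero blockCoeff_mem blockDefect_eq blockHeight_eq
  blockPart_add blockPart_eq_zero_of_regular blockPart_eq_zero_of_singular blockPart_irr_of_mem
  blockPart_irr_of_not_mem blockPart_isClassFunction blockPart_smul blockPart_sub blockPart_sum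
  blockPart_zero block_eq_blockOf block_eq_of_mem block_nonempty card_defectGroup
  centralChar_mem char_mem conj_char_mem deg_factorization_le exists_height_zero
  irrOne_mem_principal isPBlock_blockOf isPBlock_principal isPGroup_zpowers mem_blockOf_self
  orderOf_conj' sameBlock_refl sameBlock_symm sameBlock_trans weak_orth weak_orth'
open Cfsg.Agent.H4 hiding exists_int_of_isIntegral_rat
open Cfsg.Agent.H5
open Cfsg.Agent.H3 hiding mem_of_pow_mem_of_coprime


/-- Let p be a prime, M a maximal ideal of the algebraic integers containing p, and G a finite p-solvable group with Sylow p-subgroup P. Then P is abelian if and only if every irreducible character in the principal p-block of G has height zero. -/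
theorem result {G : Type*} [Group G] [Finite G] (p : ℕ) [Fact p.Prime] (M : Ideal Cfsg.AlgInt) (hM : Cfsg.IsPModular p M) (hsolv : Cfsg.IsPSolvable p G) (P : Sylow p G) : IsMulCommutative P ↔ ∀ χ ∈ Cfsg.principalBlock M G, Cfsg.blockHeight p (Cfsg.principalBlock M G) (χ : G → ℂ) = 0 := by
  haveI := hM.2.1
  have hB := H6.isPBlock_principal (M := M) (G := G)
  have h0 : bmin p (principalBlock M G) = 0 := bmin_eq_zero_of_one_mem H6.irrOne_mem_principal
  let N := pPrimeCore p G
  let π := QuotientGroup.mk' N
  have hP := (sylowIn_top P).map π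
  rw [Subgroup.map_top_of_surjective _ (QuotientGroup.mk'_surjective N)] at hP
  have hG := H9.isPConstrained_iff.1 (H9.isPConstrained_of_isPSolvable hsolv)
  constructor
  · intro h χ hχ
    have h1 : pCore p (G ⧸ N) ≤ (P : Subgroup G).map π :=
      hP.le_of_le_normalizer (H1.isPGroup_pCore p _) le_top Subgroup.le_normalizer_of_normal
    have h2 : ∀ a ∈ (P : Subgroup G).map π, ∀ b ∈ (P : Subgroup G).map π, a * b = b * a := by
      rintro _ ⟨a, ha, rfl⟩ _ ⟨b, hb, rfl⟩
      rw [← map_mul, ← map_mul]
      exact congrArg (fun x : P => π x) (h.is_comm.comm (⟨a, ha⟩ : P) ⟨b, hb⟩)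
    have h3 : (P : Subgroup G).map π = pCore p (G ⧸ N) :=
      le_antisymm (fun a ha => hG fun b hb => h2 b (h1 hb) a ha) h1
    have h4 := hP.not_dvd
    rw [Subgroup.relIndex_top_right, h3] at h4
    rw [h3] at h2
    have hk := (H6.mem_principal_iff_of_isPSolvable hM hsolv).1 hχ
    have h5 := cd_dvd_index_of_comm h2 (mem_cd_of (χ.2.deflate hk)
      ((deflate_mk hk 1).trans (irr_coe_charDegree χ).symm))
    rw [H8.blockHeight_eq, h0, Nat.sub_zero]
    exact Nat.factorization_eq_zero_of_not_dvd fun h6 => h4 (h6.trans h5)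
  · intro h
    obtain ⟨h1, h2⟩ := ito (H9.isPSolvable_quotient hsolv N) fun d hd h1 => by
      obtain ⟨φ, hφ, h2⟩ := mem_cd.1 hd
      have h3 := h ⟨_, hφ.inflate⟩ ((H6.mem_principal_iff_of_isPSolvable hM hsolv).2
        (le_charKer_inflate _))
      rw [H8.blockHeight_eq, h0, Nat.sub_zero, charDegree_eq_of (χ := fun g : G => φ g) (d := d) h2] at h3
      exact ((Nat.Prime.dvd_iff_one_le_factorization Fact.out (pos_of_mem_cd hd).ne').1
        h1).not_gt (by omega)
    have h3 := sylow_eq_pCore hP.toSylowTop h1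
    rw [hP.coe_toSylowTop] at h3
    refine ⟨⟨fun a b => ?_⟩⟩
    have h4 := h2 (π a) (h3 ▸ ⟨a, a.2, rfl⟩) (π b) (h3 ▸ ⟨b, b.2, rfl⟩)
    apply H9.injective_comp_subtype (H9.inf_ker_mk'_pPrimeCore P.2)
    rw [map_mul, map_mul]
    exact h4

end Cfsg.Agent.S4736
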