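import Cfsg.Statements.S4955
import Mathlib
import Cfsg.Agent.H8.Ord1
import Cfsg.Agent.H8.Val

set_option autoImplicit false
open Cfsg

namespace Cfsg.Agent.S4955

open scoped ComplexConjugate commutatorElement Pointwise
-- OPENS
open Cfsg.Agent.H8
open Cfsg.Agent.H6
open Cfsg.Agent.H4 hiding exists_int_of_isIntegral_rat
open Cfsg.Agent.H5
open Cfsg.Agent.H3


/-- Let X be a finite group with an abelian normal Sylow p-subgroup V (a normal p-subgroup of index prime to p in which any two elements commute), and let G be a complement to V in X. Then for every v in V, writing C for the centralizer of v in G, the number k(X) of conjugacy classes of X satisfies k(X) ≤ (order of C)·(order of V) − ((order of G) − k(G)); the statement is written with the subtracted term moved to the left. In particular, if some v in V is centralized by no nonidentity element of G, then k(X) is at most the order of V. -/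
theorem result {X : Type*} [Group X] [Finite X] (p : ℕ) [Fact p.Prime] (V : Subgroup X) [V.Normal] (hVp : IsPGroup p V) (hidx : ¬ p ∣ V.index) (hab : ∀ a ∈ V, ∀ b ∈ V, a * b = b * a) (G : Subgroup X) (hGV : Subgroup.IsComplement' V G) (v : X) (hv : v ∈ V) : Nat.card (ConjClasses X) + Nat.card G ≤ Nat.card ↥(G ⊓ Subgroup.centralizer ({v} : Set X)) * Nat.card V + Nat.card (ConjClasses G) := by
  classical
  have hp : p.Prime := Fact.out
  have := Fintype.ofFinite X
  obtain ⟨M, hM⟩ := exists_isPModular hp
  have := hM.2.1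
  set T := Finset.univ.filter (fun χ : IrrCharacter X => ¬ V ≤ charKer (χ : X → ℂ)) with hT
  obtain ⟨k, hk⟩ := hVp ⟨v, hv⟩
  have hk' : v ^ p ^ k = 1 := congrArg Subtype.val hk
  have hVi : V.index = Nat.card G := hGV.symm.index_eq_card
  have h0 : ∀ χ ∈ T, (χ : X → ℂ) v ≠ 0 := by
    intro χ _ h0
    have h1 : charDegree (χ : X → ℂ) ∣ V.index := by
      have := (NEmb.ofNormal V).degree_dvd_index_of_comm
        (fun a b => Subtype.ext (hab _ a.2 _ b.2)) χ.2 χ.2.isCharacter.charDegree_cast.symm
      rwa [NEmb.ofNormal_range] at this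
    have h2 := redC_char_pElem hM χ.2.isCharacter hk'
    rw [h0, redC_zero, ← χ.2.isCharacter.charDegree_cast, redC_natCast, eq_comm,
      natCast_res_eq_zero_iff hM] at h2
    exact hidx (h2.trans h1)
  set C := Subgroup.centralizer ({v} : Set X) with hC
  have h1 := card_le_of_sum_irr_normSq T h0 (c := Nat.card C - Nat.card G) (by
    intro m hm
    have h2 := sum_irr_norm_sq (v ^ m)
    rw [centralizer_pow_of_coprime v (hm.coprime_dvd_right (orderOf_dvd_natCard v)),
      ← Finset.sum_filter_add_sum_filter_not _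
        (fun χ : IrrCharacter X => V ≤ charKer (χ : X → ℂ))] at h2
    have h3 : ∑ χ ∈ Finset.univ.filter (fun χ : IrrCharacter X => V ≤ charKer (χ : X → ℂ)),
        ‖(χ : X → ℂ) (v ^ m)‖ ^ 2 = Nat.card G := by
      rw [← hVi, ← sum_charDegree_sq_ker V]
      push_cast
      refine Finset.sum_congr rfl fun χ hχ => ?_
      rw [apply_of_mem_charKer ((Finset.mem_filter.mp hχ).2 (V.pow_mem hv m)),
        norm_apply_one χ.2.isCharacter]
    rw [h3] at h2
    linarith)
  have h2 := Finset.card_filter_add_card_filter_not (s := Finset.univ)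
    (fun χ : IrrCharacter X => V ≤ charKer (χ : X → ℂ))
  rw [card_irr_ker, Finset.card_univ, Fintype.card_eq_nat_card, card_irr_eq_card_conjClasses]
    at h2
  have h3 : Nat.card (ConjClasses (X ⧸ V)) ≤ Nat.card (ConjClasses G) :=
    Nat.card_le_card_of_surjective _ (ConjClasses.map_surjective
      (f := (QuotientGroup.mk' V).comp G.subtype) (by
        intro q
        obtain ⟨x, rfl⟩ := QuotientGroup.mk_surjective q
        obtain ⟨⟨a, b⟩, rfl⟩ := hGV.2 x
        exact ⟨b, by simp⟩))
  have h4 : Nat.card C ≤ Nat.card ↥(G ⊓ C) * Nat.card V := by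
    rw [← Nat.card_prod]
    have hVC : V ≤ C := fun a ha => Subgroup.mem_centralizer_singleton_iff.mpr (hab a ha v hv)
    refine Nat.card_le_card_of_surjective
      (fun x : ↥(G ⊓ C) × V => (⟨x.2 * x.1, C.mul_mem (hVC x.2.2) x.1.2.2⟩ : C)) ?_
    rintro ⟨x, hx⟩
    obtain ⟨⟨a, b⟩, rfl⟩ := hGV.2 x
    exact ⟨⟨⟨b, b.2, (C.mul_mem_cancel_left (hVC a.2)).mp hx⟩, a⟩, rfl⟩
  have h5 : T.card + Nat.card G ≤ Nat.card C := by
    have : (T.card : ℝ) + Nat.card G ≤ Nat.card C := by linarith
    exact_mod_cast this
  rw [← hT] at h2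
  omega

end Cfsg.Agent.S4955
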