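import Cfsg.Statements.S4956
import Mathlib

set_option autoImplicit false
open Cfsg

namespace Cfsg.Agent.S4956

theorem lemB {X : Type*} [Group X] [Finite X] (V : Subgroup X) [hV : V.Normal]
    (hab : ∀ a ∈ V, ∀ b ∈ V, a * b = b * a) (g : X) (n : ℕ) (hn : g ^ n = 1)
    (hcop : (Nat.card V).Coprime n) (w : X) (hw : w ∈ V)
    (hc : Commute g (w * (g * w * g⁻¹)⁻¹)) : w * (g * w * g⁻¹)⁻¹ = 1 := by
  set c := w * (g * w * g⁻¹)⁻¹ with hcdef
  have hcV : c ∈ V := V.mul_mem hw (V.inv_mem (hV.conj_mem w hw g))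
  have h1 : g * w * g⁻¹ = c⁻¹ * w := by
    rw [hcdef]; group
  have h2 : ∀ i : ℕ, g ^ i * w * (g ^ i)⁻¹ = (c⁻¹) ^ i * w := by
    intro i
    induction i with
    | zero => simp
    | succ i ih =>
      have : g ^ (i + 1) * w * (g ^ (i + 1))⁻¹ = g * (g ^ i * w * (g ^ i)⁻¹) * g⁻¹ := by
        rw [pow_succ']; group
      rw [this, ih]
      have hc' : Commute g (c⁻¹ ^ i) := hc.inv_right.pow_right i
      calc g * (c⁻¹ ^ i * w) * g⁻¹ = (g * c⁻¹ ^ i) * w * g⁻¹ := by group
        _ = c⁻¹ ^ i * (g * w * g⁻¹) := by rw [hc'.eq]; group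
        _ = c⁻¹ ^ (i + 1) * w := by rw [h1, pow_succ]; group
  have h3 := h2 n
  rw [hn] at h3
  have h4 : c⁻¹ ^ n = 1 := by simpa using h3
  have h5 : c⁻¹ ^ Nat.card V = 1 := by
    have := pow_card_eq_one' (x := (⟨c⁻¹, V.inv_mem hcV⟩ : V))
    exact congrArg Subtype.val this
  have h6 : c⁻¹ ^ Nat.gcd (Nat.card V) n = 1 := pow_gcd_eq_one.mpr ⟨h5, h4⟩
  rw [hcop] at h6
  simpa using h6

theorem lemC {X : Type*} [Group X] [Finite X] (V : Subgroup X) [hV : V.Normal]
    (hab : ∀ a ∈ V, ∀ b ∈ V, a * b = b * a) (g : X) (n : ℕ) (hn : g ^ n = 1)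
    (hcop : (Nat.card V).Coprime n) (v : X) (hv : v ∈ V) :
    ∃ w ∈ V, ∃ c ∈ V, Commute g c ∧ v = c * (w * (g * w * g⁻¹)⁻¹) := by
  let ψ : V →* V :=
    { toFun := fun w => ⟨w * (g * w * g⁻¹)⁻¹, V.mul_mem w.2 (V.inv_mem (hV.conj_mem _ w.2 g))⟩
      map_one' := by ext; simp
      map_mul' := by
        intro a b
        ext
        simp only [Subgroup.coe_mul]
        have ha := V.inv_mem (hV.conj_mem _ a.2 g)
        have hb := V.inv_mem (hV.conj_mem _ b.2 g)
        have e : (g * (a * b) * g⁻¹)⁻¹ = (g * b * g⁻¹)⁻¹ * (g * a * g⁻¹)⁻¹ := by group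
        rw [e, hab _ hb _ ha]
        have := hab _ b.2 _ ha
        calc (a : X) * b * ((g * a * g⁻¹)⁻¹ * (g * b * g⁻¹)⁻¹)
            = a * (b * (g * a * g⁻¹)⁻¹) * (g * b * g⁻¹)⁻¹ := by group
          _ = _ := by rw [this]; group }
  have hker : ∀ u : V, ψ u = 1 → Commute g u := by
    intro u hu
    have : (u : X) * (g * u * g⁻¹)⁻¹ = 1 := congrArg Subtype.val hu
    rw [mul_inv_eq_one] at this
    show g * u = u * g
    conv_rhs => rw [this]
    group
  let ψ' : ψ.range →* ψ.range := (ψ.comp ψ.range.subtype).codRestrict _ (fun x => ⟨x, rfl⟩)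
  have hinj : Function.Injective ψ' := by
    rw [injective_iff_map_eq_one]
    rintro ⟨_, ⟨w, rfl⟩⟩ h
    have h1 : ψ (ψ w) = 1 := congrArg Subtype.val h
    have h2 := lemB V hab g n hn hcop w w.2 (hker _ h1)
    apply Subtype.ext
    apply Subtype.ext
    exact h2
  have hsurj := Finite.surjective_of_injective hinj
  obtain ⟨⟨_, ⟨w, rfl⟩⟩, hw⟩ := hsurj ⟨ψ ⟨v, hv⟩, ⟨_, rfl⟩⟩
  have hw' : ψ (ψ w) = ψ ⟨v, hv⟩ := congrArg Subtype.val hw
  refine ⟨w, w.2, ((⟨v, hv⟩ * (ψ w)⁻¹ : V) : X), Subtype.prop _, hker _ ?_, ?_⟩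
  · rw [map_mul, map_inv, hw', mul_inv_cancel]
  · show v = v * ((w : X) * (g * w * g⁻¹)⁻¹)⁻¹ * _
    group

theorem lemD {X : Type*} [Group X] [Finite X] (V : Subgroup X) [hV : V.Normal]
    (hab : ∀ a ∈ V, ∀ b ∈ V, a * b = b * a) (G : Subgroup X)
    (hdisj : ∀ x, x ∈ V → x ∈ G → x = 1) (n : ℕ) (hGn : ∀ g ∈ G, g ^ n = 1)
    (hcop : (Nat.card V).Coprime n) (s t g g' w k : X) (hsV : s ∈ V) (htV : t ∈ V) (hw : w ∈ V)
    (hg0 : g ∈ G) (hg' : g' ∈ G) (hk : k ∈ G) (hsg : s * g = g * s) (htg : t * g' = g' * t)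
    (hx : w * k * (s * g) * (w * k)⁻¹ = t * g') : t = k * s * k⁻¹ ∧ k * g * k⁻¹ = g' := by
  have ht : t = (w * k * (s * g) * (w * k)⁻¹) * g'⁻¹ := by
    rw [hx]; group
  have hg : k * g * k⁻¹ = g' := by
    have hm : (k * g * k⁻¹) * g'⁻¹ = 1 := by
      apply hdisj
      · have e : (k * g * k⁻¹) * g'⁻¹ = (k * s * k⁻¹)⁻¹ * w⁻¹ * t * (g' * w * g'⁻¹) := by
          rw [ht]; group
        rw [e]
        exact V.mul_mem (V.mul_mem (V.mul_mem (V.inv_mem (hV.conj_mem _ hsV _))
          (V.inv_mem hw)) htV) (hV.conj_mem _ hw _)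
      · exact G.mul_mem (G.mul_mem (G.mul_mem hk hg0) (G.inv_mem hk)) (G.inv_mem hg')
    exact mul_inv_eq_one.mp hm
  have hs1V : k * s * k⁻¹ ∈ V := hV.conj_mem _ hsV _
  have hs1c : Commute g' (k * s * k⁻¹) := by
    rw [← hg]
    show _ = _
    calc k * g * k⁻¹ * (k * s * k⁻¹) = k * (g * s) * k⁻¹ := by group
      _ = _ := by rw [← hsg]; group
  have hkey : t * (k * s * k⁻¹)⁻¹ = w * (g' * w * g'⁻¹)⁻¹ := by
    have e1 : t = w * (k * s * k⁻¹) * (g' * w * g'⁻¹)⁻¹ := by
      rw [ht, ← hg]; group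
    have e2 := hab _ hs1V _ (V.inv_mem (hV.conj_mem _ hw g'))
    rw [e1, mul_assoc w, e2]; group
  have hone := lemB V hab g' _ (hGn _ hg') hcop w hw (by
    rw [← hkey]
    exact (show Commute g' t from htg.symm).mul_right hs1c.inv_right)
  rw [← hkey, mul_inv_eq_one] at hone
  exact ⟨hone, hg⟩

/-- Let X be a finite group, V an abelian normal subgroup of X (any two elements of V commute) and G a complement to V in X whose order is coprime to that of V. Let S be a set of representatives of the orbits of G on V under conjugation: S lies in V and every element of V is conjugate under G to exactly one member of S. Then the number of conjugacy classes of X equals the sum, over s in S, of the number of conjugacy classes of the centralizer of s in G. -/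
theorem result {X : Type*} [Group X] [Finite X] (V : Subgroup X) [V.Normal] (hab : ∀ a ∈ V, ∀ b ∈ V, a * b = b * a) (G : Subgroup X) (hGV : Subgroup.IsComplement' V G) (hcop : (Nat.card V).Coprime (Nat.card G)) (S : Finset X) (hSV : ∀ s ∈ S, s ∈ V) (hrep : ∀ v ∈ V, ∃! s, s ∈ S ∧ ∃ g ∈ G, g * v * g⁻¹ = s) : Nat.card (ConjClasses X) = ∑ s ∈ S, Nat.card (ConjClasses ↥(G ⊓ Subgroup.centralizer ({s} : Set X))) := by
  classical
  have hV : V.Normal := inferInstance
  have hGn : ∀ g ∈ G, g ^ Nat.card G = 1 := fun g hg =>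
    congrArg Subtype.val (pow_card_eq_one' (x := (⟨g, hg⟩ : G)))
  have hdisj : ∀ x, x ∈ V → x ∈ G → x = 1 := fun x h1 h2 =>
    (Subgroup.disjoint_def.mp hGV.disjoint) h1 h2
  let F : (Σ s : S, ConjClasses ↥(G ⊓ Subgroup.centralizer ({(s : X)} : Set X))) → ConjClasses X :=
    fun a => Quotient.liftOn a.2 (fun g => ConjClasses.mk ((a.1 : X) * g)) (by
      intro g h hgh
      obtain ⟨c, hc⟩ := isConj_iff.mp (show IsConj g h from hgh)
      rw [ConjClasses.mk_eq_mk_iff_isConj, isConj_iff]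
      refine ⟨c, ?_⟩
      have hcs : (a.1 : X) * c = c * a.1 := (Subgroup.mem_centralizer_iff.mp c.2.2) _ rfl
      rw [← hc]
      simp only [Subgroup.coe_mul, Subgroup.coe_inv]
      calc (c : X) * (a.1 * g) * (c : X)⁻¹ = (c * a.1) * g * (c : X)⁻¹ := by group
        _ = _ := by rw [← hcs]; group)
  have hF : Function.Bijective F := by
    constructor
    · rintro ⟨s, a⟩ ⟨t, b⟩ h
      induction a using Quotient.inductionOn with | _ g => ?_
      induction b using Quotient.inductionOn with | _ g' => ?_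
      have h1 : ConjClasses.mk ((s : X) * g) = ConjClasses.mk ((t : X) * g') := h
      rw [ConjClasses.mk_eq_mk_iff_isConj, isConj_iff] at h1
      obtain ⟨x, hx⟩ := h1
      obtain ⟨⟨w, k⟩, rfl⟩ := (hGV.existsUnique x).exists
      have hsV := hSV _ s.2
      have htV := hSV _ t.2
      have hsg : (s : X) * g = g * s := (Subgroup.mem_centralizer_iff.mp g.2.2) _ rfl
      have htg : (t : X) * g' = g' * t := (Subgroup.mem_centralizer_iff.mp g'.2.2) _ rfl
      simp only at hx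
      obtain ⟨hone, hg⟩ := lemD V hab G hdisj _ hGn hcop s t g g' w k hsV htV w.2 g.2.1 g'.2.1 k.2
        hsg htg hx
      have hst : s = t := by
        apply Subtype.ext
        exact (hrep s hsV).unique ⟨s.2, 1, G.one_mem, by simp⟩ ⟨t.2, k, k.2, hone.symm⟩
      subst hst
      congr 1
      apply Quotient.sound
      show IsConj g g'
      rw [isConj_iff]
      refine ⟨⟨k, k.2, ?_⟩, Subtype.ext hg⟩
      show (k : X) ∈ Subgroup.centralizer _
      rw [Subgroup.mem_centralizer_iff]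
      rintro _ rfl
      conv_lhs => rw [hone]
      group
    · intro C
      induction C using Quotient.inductionOn with | _ x => ?_
      obtain ⟨⟨v, g⟩, rfl⟩ := (hGV.existsUnique x).exists
      obtain ⟨w, hw, c, hc, hgc, hv⟩ := lemC V hab (g : X) _ (hGn _ g.2) hcop v v.2
      obtain ⟨s, ⟨hsS, k, hk, hks⟩, -⟩ := hrep c hc
      refine ⟨⟨⟨s, hsS⟩, Quotient.mk _ ⟨k * g * k⁻¹, G.mul_mem (G.mul_mem hk g.2) (G.inv_mem hk), ?_⟩⟩, ?_⟩
      · show k * g * k⁻¹ ∈ Subgroup.centralizer _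
        rw [Subgroup.mem_centralizer_iff]
        intro y hy
        rw [Set.mem_singleton_iff] at hy
        rw [hy]
        show s * _ = _ * s
        rw [← hks]
        calc k * c * k⁻¹ * (k * g * k⁻¹) = k * (c * g) * k⁻¹ := by group
          _ = _ := by rw [← hgc.eq]; group
      · show ConjClasses.mk (s * (k * g * k⁻¹)) = ConjClasses.mk ((v : X) * g)
        rw [ConjClasses.mk_eq_mk_iff_isConj, isConj_iff]
        refine ⟨w * k⁻¹, ?_⟩
        rw [← hks, hv]
        have := hab _ hw _ hc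
        calc w * k⁻¹ * (k * c * k⁻¹ * (k * g * k⁻¹)) * (w * k⁻¹)⁻¹ = (w * c) * g * w⁻¹ := by group
          _ = _ := by rw [this]; group
  rw [← Nat.card_congr (Equiv.ofBijective F hF), Nat.card_sigma]
  exact Finset.sum_coe_sort S (fun s => Nat.card (ConjClasses ↥(G ⊓ Subgroup.centralizer ({s} : Set X))))

end Cfsg.Agent.S4956
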