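import Cfsg.Statements.S4958
import Cfsg.Agent.H28.Kn1

set_option autoImplicit false
open Cfsg

namespace Cfsg.Agent.S4958

open Subgroup Finset Cfsg.Agent.H4 Cfsg.Agent.H28

universe u

theorem card_inf_mul {G : Type*} [Group G] (H L : Subgroup G) : Nat.card ↥(L ⊓ H) * H.relIndex L = Nat.card L := by
  rw [← inf_relIndex_left, ← relIndex_bot_left, ← relIndex_bot_left, relIndex_mul_relIndex _ _ _ bot_le inf_le_left]

theorem chain {X : Type u} [Group X] [Finite X] {p N : ℕ} (hN : p.Coprime N) {V H : Subgroup X}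
    (hV : ∀ a ∈ V, ∀ b ∈ V, a * b = b * a) (hp : ∀ a ∈ V, a ^ p = 1) (hH : ∀ a b : H, a * b = b * a)
    (hH' : ∀ h ∈ H, h ^ N = 1) {B : Type u} [Group B] [Fintype B] {w0 : B → ℝ} {m : ℝ} (hm : 0 ≤ m)
    (hB : WM B w0 m) (W : Subgroup X) : W ≤ V → (∀ h ∈ H, ∀ x ∈ W, h * x * h⁻¹ ∈ W) →
    ∃ (A : Type u) (_ : Group A) (_ : Fintype A) (j : B × H →* A) (w : A → ℝ) (u : H → ℝ),
      WM A w ((Fintype.card A / Fintype.card B) ^ 2 * m) ∧ (∀ a h, w (j (a, h)) = w0 a * u h) ∧ u 1 = 1 ∧
        (∀ h, 0 ≤ u h ∧ u h * Nat.card ↥(W ⊓ centralizer {h.1}) ≤ Nat.card W) ∧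
          ∀ a h, j (a, h) = 1 → a = 1 ∧ ∀ x ∈ W, h.1 * x * h.1⁻¹ = x := by
  classical
  have nB : (Fintype.card B : ℝ) ≠ 0 := by exact_mod_cast Fintype.card_ne_zero
  induction W using WellFoundedLT.induction with
  | _ W ih =>
  intro hWV hW
  by_cases h0 : W = ⊥
  · subst h0
    exact ⟨B, _, _, MonoidHom.fst _ _, w0, fun _ => 1, by simpa [nB] using hB, by simp, rfl, by simp,
      fun a h e => ⟨e, by simp⟩⟩
  obtain ⟨U, ⟨u1, u2⟩, u3⟩ := Set.Finite.exists_maximal
    (Set.toFinite {U : Subgroup X | U < W ∧ ∀ h ∈ H, ∀ x ∈ U, h * x * h⁻¹ ∈ U}) ⟨⊥, bot_lt_iff_ne_bot.2 h0, by simp⟩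
  obtain ⟨A, _, _, j, w, u, a1, a2, a3, a4, a5⟩ := ih U u1 (u1.le.trans hWV) u2
  let C : Subgroup H :=
    { carrier := {h | ∀ x ∈ W, h.1 * x * h.1⁻¹ * x⁻¹ ∈ U}
      one_mem' := by simp
      mul_mem' := fun {g h} hg hh x hx => by
        simpa [mul_assoc] using mul_mem (u2 g g.2 _ (hh x hx)) (hg x hx)
      inv_mem' := fun {h} hh x hx => by
        simpa [mul_assoc] using inv_mem (hh _ (hW _ (inv_mem h.2) x hx)) }
  have : C.Normal := ⟨fun n hn g => by rwa [hH g n, mul_inv_cancel_right]⟩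
  have := Fintype.ofFinite (H ⧸ C)
  have b1 : ∀ h : H, h ∉ C → ∀ x ∈ W, h.1 * x * h.1⁻¹ * x⁻¹ ∈ U → x ∈ U := fun h hh x hx e => by
    let T : Subgroup X :=
      { carrier := {x | x ∈ W ∧ h.1 * x * h.1⁻¹ * x⁻¹ ∈ U}
        one_mem' := by simp
        mul_mem' := fun {x y} hx hy => ⟨mul_mem hx.1 hy.1, by
          have := mul_mem hx.2 hy.2
          rw [mul_assoc, hV _ (hWV (inv_mem hx.1)) _ (hWV (u1.le hy.2))] at this
          simpa [mul_assoc] using this⟩
        inv_mem' := fun {x} hx => ⟨inv_mem hx.1, by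
          have := inv_mem hx.2
          rw [mul_inv_rev, hV _ (hWV (inv_mem (inv_mem hx.1))) _ (hWV (inv_mem (hW _ h.2 _ hx.1)))] at this
          simpa [mul_assoc] using this⟩ }
    refine u3 (y := T) ⟨lt_of_le_of_ne (fun y hy => hy.1) fun e => hh fun y hy => (e ▸ hy : y ∈ T).2,
      fun g hg y hy => ⟨hW g hg y hy.1, ?_⟩⟩ (fun y hy => ⟨u1.le hy, mul_mem (u2 _ h.2 _ hy) (inv_mem hy)⟩) ⟨hx, e⟩
    have e1 : h.1 * g = g * h.1 := congrArg Subtype.val (hH h ⟨g, hg⟩)
    rw [show h.1 * (g * y * g⁻¹) * h.1⁻¹ * (g * y * g⁻¹)⁻¹ = h.1 * g * y * (h.1 * g)⁻¹ * g * y⁻¹ * g⁻¹ by group, e1]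
    simpa [mul_assoc] using u2 g hg _ hy.2
  have b2 : Fintype.card (H ⧸ C) + 1 ≤ U.relIndex W := by
    obtain ⟨x, hx, hx'⟩ := SetLike.exists_of_lt u1
    rw [← Fintype.card_option, ← Nat.card_eq_fintype_card]
    refine Nat.card_le_card_of_injective (fun c : Option (H ⧸ C) => (QuotientGroup.mk
      (c.elim 1 fun c => ⟨_, hW _ c.out.2 x hx⟩ : W) : W ⧸ U.subgroupOf W)) ?_
    have k : ∀ g : H, g.1 * x * g.1⁻¹ ∉ U := fun g e => hx' (by simpa [mul_assoc] using u2 _ (inv_mem g.2) _ e)
    rintro (_ | c) (_ | d) e <;> rw [QuotientGroup.eq, mem_subgroupOf] at e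
    · exact absurd (by simpa using e) (k d.out)
    · exact absurd (by simpa using inv_mem e) (k c.out)
    · rw [← c.out_eq, ← d.out_eq, Option.some.injEq]
      refine QuotientGroup.eq.2 (by_contra fun h => hx' (b1 _ h x hx ?_))
      rw [hV _ (hWV (hW _ (c.out⁻¹ * d.out).2 x hx)) _ (hWV (inv_mem hx))]
      simpa [mul_assoc] using u2 _ (inv_mem c.out.2) _ e
  have b3 := card_inf_mul U W
  rw [inf_eq_right.2 u1.le] at b3
  refine ⟨A × (H ⧸ C), inferInstance, inferInstance, j.prod ((QuotientGroup.mk' C).comp (MonoidHom.snd _ _)),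
    fun x => w x.1 * if x.2 = 1 then ((1 : ℕ) : ℝ) else Fintype.card (H ⧸ C) + (1 : ℕ),
    fun h => u h * if h ∈ C then (1 : ℝ) else Fintype.card (H ⧸ C) + 1, ?_, fun a h => ?_, by simp [a3], fun h => ?_,
    fun a h e => ?_⟩
  · have hc : ∀ a b : H ⧸ C, a * b = b * a := fun a b => by
      induction a using QuotientGroup.induction_on
      induction b using QuotientGroup.induction_on
      rw [← QuotientGroup.mk_mul, hH, QuotientGroup.mk_mul]
    have := a1.prod (B := H ⧸ C) (by positivity) hc 1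
    convert this using 1
    · congr!
    · simp only [Fintype.card_prod]; push_cast; ring
  · simp [a2, mul_assoc]
  · obtain ⟨c1, c2⟩ := a4 h
    refine ⟨by beta_reduce; split_ifs <;> positivity, ?_⟩
    rw [← b3]
    beta_reduce
    split_ifs with hh
    · have c3 := card_inf_mul U (W ⊓ centralizer {h.1})
      rw [inf_right_comm, inf_eq_right.2 u1.le] at c3
      have c4 : (U.relIndex (W ⊓ centralizer {h.1}) : ℝ) ≤ U.relIndex W := by
        exact_mod_cast relIndex_le_of_le_right inf_le_left index_ne_zero_of_finite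
      rw [← c3]
      push_cast
      rw [mul_one, ← mul_assoc]
      gcongr
    · have c3 : W ⊓ centralizer {h.1} = U ⊓ centralizer {h.1} :=
        le_antisymm (fun x hx => ⟨b1 h hh x hx.1 (by simp [← mem_centralizer_singleton_iff.1 hx.2]), hx.2⟩)
          (inf_le_inf_right _ u1.le)
      have c4 : (Fintype.card (H ⧸ C) + 1 : ℝ) ≤ U.relIndex W := by exact_mod_cast b2
      rw [c3, mul_right_comm]
      push_cast
      gcongr
  · obtain ⟨c1, c2⟩ := a5 a h (congrArg Prod.fst e)
    have c3 : h ∈ C := (QuotientGroup.eq_one_iff _).1 (congrArg Prod.snd e)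
    refine ⟨c1, fun x hx => ?_⟩
    have c4 : ∀ k : ℕ, h.1 ^ k * x * (h.1 ^ k)⁻¹ = (h.1 * x * h.1⁻¹ * x⁻¹) ^ k * x := fun k => by
      induction k with
      | zero => simp
      | succ k ih =>
        rw [show h.1 ^ (k + 1) * x * (h.1 ^ (k + 1))⁻¹ = h.1 * (h.1 ^ k * x * (h.1 ^ k)⁻¹) * h.1⁻¹ by group, ih,
          show h.1 * ((h.1 * x * h.1⁻¹ * x⁻¹) ^ k * x) * h.1⁻¹ =
            h.1 * (h.1 * x * h.1⁻¹ * x⁻¹) ^ k * h.1⁻¹ * (h.1 * x * h.1⁻¹ * x⁻¹) * x by group,
          c2 _ (pow_mem (c3 x hx) k), pow_succ]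
    have c5 := c4 N
    rw [hH' _ h.2, one_mul, inv_one, mul_one, eq_comm, mul_eq_right] at c5
    exact mul_inv_eq_one.1 (orderOf_eq_one_iff.1 (Nat.eq_one_of_dvd_coprimes hN
      (orderOf_dvd_of_pow_eq_one (hp _ (hWV (u1.le (c3 x hx))))) (orderOf_dvd_of_pow_eq_one c5)))

/-- Let X be a finite group and V a normal subgroup of X in which every element has order dividing the prime p, whose index in X is prime to p and which is its own centralizer in X; so V is an elementary abelian normal Sylow p-subgroup, and any complement G to V in X is a group of order prime to p acting faithfully on the vector space V by conjugation (the coprime linear setting of the k(GV) problem). Let G be a complement to V in X and suppose that for some v in V the centralizer of v in G is abelian. Then the number of conjugacy classes of X is at most the order of V (the abelian-stabilizer criterion for the k(GV) problem). -/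
theorem result {X : Type*} [Group X] [Finite X] (p : ℕ) [Fact p.Prime] (V : Subgroup X) [V.Normal] (hVexp : ∀ v ∈ V, v ^ p = 1) (hidx : ¬ p ∣ V.index) (hself : Subgroup.centralizer (V : Set X) = V) (G : Subgroup X) (hGV : Subgroup.IsComplement' V G) (v : X) (hv : v ∈ V) (hab : ∀ a ∈ G ⊓ Subgroup.centralizer ({v} : Set X), ∀ b ∈ G ⊓ Subgroup.centralizer ({v} : Set X), a * b = b * a) : Nat.card (ConjClasses X) ≤ Nat.card V := by
  classical
  have := Fintype.ofFinite X
  set H := G ⊓ centralizer {v}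
  have hp : p.Prime := Fact.out
  have hV : ∀ a ∈ V, ∀ b ∈ V, a * b = b * a := fun a ha b hb => mem_centralizer_iff.1 (hself.ge hb) a ha
  have hN : p.Coprime (Nat.card G) := hp.coprime_iff_not_dvd.2 (hGV.symm.index_eq_card ▸ hidx)
  have hG : ∀ g ∈ G, g ^ Nat.card G = 1 := fun g hg => congrArg Subtype.val (pow_card_eq_one' (x := (⟨g, hg⟩ : G)))
  have hZ : ∀ a b : zpowers v, a * b = b * a := (zpowers_isMulCommutative v).1.1
  obtain ⟨e, he⟩ : ∃ e : ℕ, e = if v = 1 then 1 else 0 := ⟨_, rfl⟩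
  obtain ⟨n, hn⟩ : ∃ n : ℝ, n = Fintype.card (zpowers v) := ⟨_, rfl⟩
  have n1 : 1 ≤ n := by rw [hn]; exact_mod_cast Fintype.card_pos
  have hB : WM (zpowers v) (fun a => if a = 1 then (e : ℝ) else n + e) (n * (n + e - 1)) := by
    convert (WM.unit.{0}.prod zero_le_one hZ e).comap (MonoidHom.inr _ _) (Prod.mk_right_injective _) using 1
    · funext a; by_cases h : a = 1 <;> simp [hn, h]
    · simp [← hn, div_self (show n ≠ 0 by positivity)]
  have m0 : 0 < n * (n + e - 1) := by
    refine mul_pos (by positivity) ?_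
    split_ifs at he with h
    · rw [he]; push_cast; linarith
    · have : (1 : ℝ) < n := by
        rw [hn]; exact_mod_cast Fintype.one_lt_card_iff.2 ⟨⟨v, mem_zpowers v⟩, 1, fun e => h (congrArg Subtype.val e)⟩
      rw [he]; push_cast; linarith
  have m1 : ∑ a : zpowers v, (if a = 1 then (e : ℝ) else n + e) = n * (n + e - 1) := by
    rw [show (fun a : zpowers v => if a = 1 then (e : ℝ) else n + e) = fun a => (n + e) - if a = 1 then n else 0 from
      funext fun a => by split_ifs <;> ring]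
    simp [← hn]
    ring
  obtain ⟨A, _, _, j, w, u, a1, a2, a3, a4, a5⟩ := chain (H := H) hN hV hVexp
    (fun a b => Subtype.ext (hab a a.2 b b.2)) (fun h hh => hG h hh.1) m0.le hB V le_rfl
    fun h _ x hx => ‹V.Normal›.conj_mem x hx h
  have a6 := a1.comap j ((injective_iff_map_eq_one j).2 fun x hx => by
    obtain ⟨b1, b2⟩ := a5 x.1 x.2 hx
    exact Prod.ext b1 (Subtype.ext (disjoint_def.1 hGV.disjoint (hself.le (mem_centralizer_iff.2 fun y hy =>
      (mul_inv_eq_iff_eq_mul.1 (b2 y hy)).symm)) x.2.2.1)))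
  have c1 : ∀ (a : zpowers v) (h : H), Commute a.1 h.1 := by
    rintro ⟨_, k, rfl⟩ h
    exact (show Commute h.1 v from mem_centralizer_singleton_iff.1 h.2.2).symm.zpow_left k
  let f : zpowers v × H →* X := (zpowers v).subtype.noncommCoprod H.subtype c1
  have nA : (Fintype.card A : ℝ) ≠ 0 := by exact_mod_cast Fintype.card_ne_zero
  have nH : (0 : ℝ) < Fintype.card H := by exact_mod_cast Fintype.card_pos
  have d1 : ∀ χ : IrrCharacter X, (Fintype.card H) ^ 2 * (n * (n + e - 1)) ≤ wq (fun x => w (j x)) fun x => χ.1 (f x) :=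
    fun χ => by
      refine (le_of_eq ?_).trans ((a6.2.2 _ (χ.2.isCharacter.comp f).isGen).resolve_left fun h => ?_)
      · rw [Fintype.card_prod, ← hn]; push_cast; rw [← hn]; field_simp
      rw [wq_eq_zero a6.2.1] at h
      have h1 : ∀ a : zpowers v, (if a = 1 then (e : ℝ) else n + e) = 0 ∨ χ.1 a = 0 := fun a => by
        simpa [a2, a3, show f (a, 1) = a.1 from mul_one _] using h (a, 1)
      split_ifs at he with hv1
      · exact χ.2.apply_one_ne_zero (by simpa [he] using h1 1)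
      obtain ⟨d, -, hd⟩ := χ.2.exists_degree
      obtain ⟨k, hk⟩ := (χ.2.isCharacter.restrict (zpowers v)).classInner_nat isCharacter_one
      rw [classInner_one_right, sum_eq_single 1 (fun a _ ha => (h1 a).resolve_left (by rw [if_neg ha]; positivity))
        (by simp), Subgroup.coe_one, hd, Nat.card_zpowers, orderOf_eq_prime (hVexp v hv) hv1,
        inv_mul_eq_iff_eq_mul₀ (by exact_mod_cast hp.ne_zero)] at hk
      exact hidx (Dvd.dvd.trans ⟨k, by exact_mod_cast hk⟩ (H8.cd_dvd_index_of_comm hV (H8.mem_cd_of χ.2 hd)))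
  have d2 : ∀ (a : zpowers v) (h : H), (if a = 1 then (e : ℝ) else n + e) = 0 ∨
      Nat.card (centralizer {f (a, h)}) ≤ Nat.card ↥(V ⊓ centralizer {h.1}) * Nat.card H := fun a h => by
    refine or_iff_not_imp_left.2 fun ha => ?_
    have b1 : v ∈ zpowers a.1 := by
      split_ifs at he with hv1
      · simp [hv1]
      · have := mem_zpowers_of_prime_card (G := zpowers v) (p := p) (g' := ⟨v, mem_zpowers v⟩)
          (by rw [Nat.card_zpowers, orderOf_eq_prime (hVexp v hv) hv1]) (g := a) fun e => ha (by simp [e, he])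
        obtain ⟨k, hk⟩ := this
        exact ⟨k, congrArg Subtype.val hk⟩
    obtain ⟨k, hk⟩ := exists_pow_eq_self_of_coprime (x := a.1) (hN.symm.coprime_dvd_right
      (orderOf_dvd_of_pow_eq_one (hVexp _ (zpowers_le.2 hv a.2))))
    have b2 : ∀ x ∈ centralizer {f (a, h)}, ∃ y : ↥(V ⊓ centralizer {h.1}) × H, x = y.1.1 * y.2.1 := fun x hx => by
      have e1 : Commute x (a.1 * h.1) := mem_centralizer_singleton_iff.1 hx
      have e2 : Commute x a.1 := by
        have := (e1.pow_right (Nat.card G)).pow_right k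
        rwa [(c1 a h).mul_pow, hG _ h.2.1, mul_one, hk] at this
      have e3 : Commute x h.1 := by simpa using e2.inv_right.mul_right e1
      have e4 : Commute x v := by obtain ⟨i, hi⟩ := b1; exact hi ▸ e2.zpow_right i
      obtain ⟨⟨y, g⟩, rfl⟩ := hGV.2 x
      have e5 : Commute g.1 v := by simpa using (show Commute y.1 v from hV _ y.2 _ hv).inv_left.mul_left e4
      have e6 : Commute g.1 h.1 := hab _ ⟨g.2, mem_centralizer_singleton_iff.2 e5⟩ _ h.2
      exact ⟨⟨⟨y, y.2, mem_centralizer_singleton_iff.2 (show Commute y.1 h.1 by simpa using e3.mul_left e6.inv_left)⟩,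
        ⟨g, g.2, mem_centralizer_singleton_iff.2 e5⟩⟩, rfl⟩
    choose g hg using b2
    rw [← Nat.card_prod]
    exact Nat.card_le_card_of_injective (fun x : centralizer {f (a, h)} => g x.1 x.2) fun x y e =>
      Subtype.ext (by rw [hg x.1 x.2, hg y.1 y.2, show g x.1 x.2 = g y.1 y.2 from e])
  have d3 : ∑ χ : IrrCharacter X, wq (fun x => w (j x)) (fun x => χ.1 (f x)) ≤
      Nat.card V * (Fintype.card H ^ 2 * (n * (n + e - 1))) := by
    simp only [wq]
    rw [sum_comm, ← m1, Fintype.sum_prod_type, mul_sum, mul_sum]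
    refine sum_le_sum fun a _ => ?_
    refine (sum_le_card_nsmul _ _ ((if a = 1 then (e : ℝ) else n + e) * (Nat.card V * Nat.card H)) fun h _ => ?_).trans
      (le_of_eq (by simp; ring))
    rw [← mul_sum, sum_irr_norm_sq, a2, mul_assoc]
    rcases d2 a h with b | b
    · simp [b]
    · refine mul_le_mul_of_nonneg_left ?_ (hB.2.1 a)
      have b' : (Nat.card (centralizer {f (a, h)}) : ℝ) ≤ Nat.card ↥(V ⊓ centralizer {h.1}) * Nat.card H := by
        exact_mod_cast b
      refine (mul_le_mul_of_nonneg_left b' (a4 h).1).trans ?_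
      rw [← mul_assoc]
      exact mul_le_mul_of_nonneg_right (a4 h).2 (by positivity)
  have d4 := (card_nsmul_le_sum _ _ _ fun χ _ => d1 χ).trans d3
  rw [nsmul_eq_mul, card_univ, ← Nat.card_eq_fintype_card, card_irr_eq_card_conjClasses] at d4
  exact_mod_cast le_of_mul_le_mul_right d4 (by positivity)

end Cfsg.Agent.S4958
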