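import Cfsg.Statements.S4959
import Mathlib
import Cfsg.Agent.H2.KGV4
import Cfsg.Agent.H1.Basic
import Cfsg.Agent.H3.SylowIn

set_option autoImplicit false
open Cfsg

namespace Cfsg.Agent.S4959

open Subgroup Cfsg.Agent.H2.KGV

/-- Let X be a finite group and V a normal subgroup of X in which every element has order dividing the prime p, whose index in X is prime to p and which is its own centralizer in X; so V is an elementary abelian normal Sylow p-subgroup, and any complement G to V in X is a group of order prime to p acting faithfully on the vector space V by conjugation (the coprime linear setting of the k(GV) problem). Let G be a complement to V in X, let v be in V and let H be the centralizer of v in G. Suppose there is a subgroup U of V normalized by H, on which H acts faithfully, and carrying an H-invariant bi-additive pairing β with values in the integers modulo p that is nondegenerate on U (equivalently: the restriction of the module V to H has a faithful self-dual submodule;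 such a v is called a real vector for G). Then the number of conjugacy classes of X is at most the order of V (the real-vector criterion for the k(GV) problem). The pairing is given as a function on X whose relevant values are those on pairs from U. -/
theorem result {X : Type*} [Group X] [Finite X] (p : ℕ) [Fact p.Prime] (V : Subgroup X) [V.Normal] (hVexp : ∀ v ∈ V, v ^ p = 1) (hidx : ¬ p ∣ V.index) (hself : Subgroup.centralizer (V : Set X) = V) (G : Subgroup X) (hGV : Subgroup.IsComplement' V G) (v : X) (hv : v ∈ V) (U : Subgroup X) (hUV : U ≤ V) (hUinv : ∀ h ∈ G, h * v * h⁻¹ = v → ∀ u ∈ U, h * u * h⁻¹ ∈ U) (hUfaith : ∀ h ∈ G, h * v * h⁻¹ = v → (∀ u ∈ U, h * u * h⁻¹ = u) → h = 1) (β : X → X → ZMod p) (hβl : ∀ u ∈ U, ∀ u' ∈ U, ∀ w ∈ U, β (u * u') w = β u w + β u' w) (hβr : ∀ u ∈ U, ∀ w ∈ U, ∀ w' ∈ U, β u (w * w') = β u w + β u w') (hβinv : ∀ h ∈ G, h * v * h⁻¹ = v → ∀ u ∈ U, ∀ w ∈ U, β (h * u * h⁻¹) (h * w * h⁻¹) = β u w) (hβnd : ∀ u ∈ U, (∀ w ∈ U, β u w = 0) → u = 1) : Nat.card (ConjClasses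 X) ≤ Nat.card V := by
  classical
  have := Fintype.ofFinite X
  have hp : p.Prime := Fact.out
  obtain ⟨M, hM⟩ := H6.exists_isPModular hp
  have := hM.2.1
  have hV : ∀ a ∈ V, ∀ b ∈ V, a * b = b * a := fun a ha b hb => mem_centralizer_iff.1 (hself.ge hb) a ha
  let H := G ⊓ centralizer {v}
  have hH : ¬ p ∣ Nat.card H := fun e =>
    hidx (hGV.symm.index_eq_card ▸ e.trans (card_dvd_of_le inf_le_left))
  have hv' : ∀ h : H, h.1 * v * h.1⁻¹ = v := fun h =>
    mul_inv_eq_iff_eq_mul.2 (mem_centralizer_singleton_iff.1 h.2.2)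
  letI : CommGroup U := { (inferInstance : Group U) with
    mul_comm := fun a b => Subtype.ext (hV _ (hUV a.2) _ (hUV b.2)) }
  obtain ⟨r, hr, h1⟩ := good_grp (H := H) (W := U) (fun x => Subtype.ext (hVexp _ (hUV x.2)))
    (fun h u => ⟨h.1 * u * h.1⁻¹, hUinv _ h.2.1 (hv' h) _ u.2⟩) (fun h a b => Subtype.ext conj_mul.symm)
    (fun x => Subtype.ext (by simp)) (fun a b x => Subtype.ext (by simp [mul_assoc])) hM hH (fun u w => β u w)
    (fun a b w => hβl _ a.2 _ b.2 _ w.2) (fun u a b => hβr _ u.2 _ a.2 _ b.2)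
    (fun g x y => hβinv _ g.2.1 (hv' g) _ x.2 _ y.2)
    fun x hx => Subtype.ext (hβnd _ x.2 fun w hw => hx ⟨w, hw⟩)
  refine count hM hV hGV hidx hv (hVexp v hv) hr (fun h => ?_) fun h e => Subtype.ext
    (hUfaith _ h.2.1 (hv' h) fun u hu => congrArg Subtype.val ((h1 h).2 e ⟨u, hu⟩))
  obtain ⟨b2, -⟩ := h1 h
  rw [Nat.card_congr (β := ↥(U ⊓ (V ⊓ centralizer {h.1})))
    ⟨fun x => ⟨x.1.1, x.1.2, hUV x.1.2, mem_centralizer_singleton_iff.2
        (mul_inv_eq_iff_eq_mul.1 (congrArg Subtype.val x.2)).symm⟩,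
      fun x => ⟨⟨x.1, x.2.1⟩, Subtype.ext
        (mul_inv_eq_iff_eq_mul.2 (mem_centralizer_singleton_iff.1 x.2.2.2).symm)⟩, fun _ => rfl, fun _ => rfl⟩] at b2
  have b4 := H1.card_sup_mul_card_inf (N := U) (H := V ⊓ centralizer {h.1}) fun x hx =>
    H3.mem_normalizer_of_conj_mem fun u hu => by rwa [hV _ hx.1 _ (hUV hu), mul_inv_cancel_right]
  have b5 : Nat.card ↥(U ⊔ (V ⊓ centralizer {h.1})) ≤ Nat.card V := card_le_of_le (sup_le hUV inf_le_left)
  have b6 : (Nat.card U : ℝ) * Nat.card ↥(V ⊓ centralizer {h.1}) ≤ Nat.card V * Nat.card ↥(U ⊓ (V ⊓ centralizer {h.1})) := by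
    exact_mod_cast b4 ▸ Nat.mul_le_mul_right _ b5
  have b7 : (0 : ℝ) < Nat.card ↥(U ⊓ (V ⊓ centralizer {h.1})) := by exact_mod_cast Nat.card_pos
  refine le_of_mul_le_mul_right (le_trans ?_ b6) b7
  rw [mul_right_comm]
  exact mul_le_mul_of_nonneg_right b2 (Nat.cast_nonneg _)

end Cfsg.Agent.S4959
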