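import Cfsg.Statements.S4964
import Cfsg.Agent.H7.Local5
import Cfsg.Agent.H1.Coprime
import Cfsg.Agent.H3.PGroup1
-- import your own Cfsg.Agent.* helpers here

set_option autoImplicit false
open Cfsg

namespace Cfsg.Agent.S4964

open MonoidAlgebra Cfsg.Agent.H3 Cfsg.Agent.H4 Cfsg.Agent.H7
open Cfsg.Agent.H6 (Res locRing redC redA eB fB intAlg classSum omega chiL)
open scoped Pointwise
set_option linter.style.haveILetI false


/-- Let D be a normal p-subgroup of the finite group G, let D′ be its commutator subgroup (normal in G), and fix a maximal ideal M of the algebraic integers containing p. Then (i) two irreducible characters of G ⧸ D′ lie in the same p-block if and only if their inflations to G do, and (ii) every p-block of G contains the inflation of some irreducible character of G ⧸ D′; so inflation induces a bijection between the p-blocks of G ⧸ D′ and the p-blocks of G. -/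
theorem result {G : Type*} [Group G] [Finite G] (p : ℕ) [Fact p.Prime] (M : Ideal Cfsg.AlgInt) (hM : Cfsg.IsPModular p M) (D : Subgroup G) [D.Normal] (hD : IsPGroup p D) : (∀ χ ψ : Cfsg.IrrCharacter (G ⧸ ⁅D, D⁆), Cfsg.SameBlock M (χ : G ⧸ ⁅D, D⁆ → ℂ) (ψ : G ⧸ ⁅D, D⁆ → ℂ) ↔ Cfsg.SameBlock M ((χ : G ⧸ ⁅D, D⁆ → ℂ) ∘ QuotientGroup.mk) ((ψ : G ⧸ ⁅D, D⁆ → ℂ) ∘ QuotientGroup.mk)) ∧ ∀ B : Set (Cfsg.IrrCharacter G), Cfsg.IsPBlock M B → ∃ χ : Cfsg.IrrCharacter (G ⧸ ⁅D, D⁆), ∃ θ ∈ B, (θ : G → ℂ) = (χ : G ⧸ ⁅D, D⁆ → ℂ) ∘ QuotientGroup.mk := by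
  haveI := hM.2.1; haveI := H6.charP_res hM
  have hp : p.Prime := Fact.out
  have hDD : ⁅D, D⁆ ≤ D := Subgroup.commutator_le_left D D
  have hs := QuotientGroup.mk'_surjective ⁅D, D⁆
  refine ⟨fun χ ψ => ⟨H6.sameBlock_comp _ hs, fun h => ?_⟩, fun B hB => ?_⟩
  · refine H6.sameBlock_of_pRegular hM χ.2 ψ.2 fun q hq => ?_
    haveI := Subgroup.Normal.map ‹D.Normal› _ hs
    by_cases hc : q ∈ Subgroup.centralizer (D.map (QuotientGroup.mk' ⁅D, D⁆) : Set (G ⧸ ⁅D, D⁆))
    · obtain ⟨g, rfl, hg⟩ := H6.exists_pRegular_lift hp _ hs hq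
      have h1 : g ∈ Subgroup.centralizer (D : Set G) := by
        refine H1.le_centralizer_of_commutator_le_frattini (A := Subgroup.zpowers g)
          Subgroup.le_normalizer_of_normal ?_ (le_trans ?_ (commutator_le_frattiniOf hD))
          (Subgroup.mem_zpowers g)
        · obtain ⟨n, hn⟩ := IsPGroup.iff_card.1 (hD.to_subgroup (frattini D))
          rw [Nat.card_zpowers, hn]
          exact (((Nat.Prime.coprime_iff_not_dvd hp).2 hg).symm).pow_right n
        · refine le_trans ((Subgroup.map_eq_bot_iff _).1 ?_) (QuotientGroup.ker_mk' ⁅D, D⁆).le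
          rw [Subgroup.map_commutator, MonoidHom.map_zpowers]
          exact (Subgroup.commutator_comm _ _).trans
            (Subgroup.commutator_eq_bot_iff_le_centralizer.2 (Subgroup.zpowers_le.2 hc))
      have h2 := H6.comap_centralizer_eq hp (QuotientGroup.mk' ⁅D, D⁆)
        (by rw [QuotientGroup.ker_mk']; exact hD.to_le hDD) hg
        (by rw [QuotientGroup.ker_mk']; exact Subgroup.centralizer_le hDD h1)
      have h3 : ∀ φ : G ⧸ ⁅D, D⁆ → ℂ, centralChar (fun x => φ (QuotientGroup.mk' ⁅D, D⁆ x)) g =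
          centralChar φ (QuotientGroup.mk' ⁅D, D⁆ g) := fun φ => by
        rw [H6.centralChar_comp _ φ g (n := 1) (by
          rw [← h2, Subgroup.index_comap_of_surjective _ hs, mul_one]), Nat.cast_one, mul_one]
      rw [← h3, ← h3]
      exact (H6.sameBlock_iff_redC χ.2.inflate ψ.2.inflate).1 h g
    · have key : ∀ φ : IrrCharacter (G ⧸ ⁅D, D⁆), redC M (centralChar φ.1 q) = 0 := fun φ => by
        have hb := H6.isPBlock_blockOf (M := M) φ
        rw [← lam_eB_ind hb (H6.mem_blockOf_self φ), ← lam_br_of_normal (hD.map (QuotientGroup.mk' ⁅D, D⁆)) le_top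
          Subgroup.le_normalizer_of_normal (blk_eB hb)
          (ind_orb_mem_Fix Subgroup.le_normalizer_of_normal trivial), br_def,
          trunc_eq_zero_iff.2 fun x hx => coeff_ind_of_not_mem ?_,
          (isCommSub_Z ⊤).lam_zero (blk_eB hb)]
        rintro ⟨t, -, rfl⟩
        exact hc (by simpa [mul_assoc] using Subgroup.Normal.conj_mem inferInstance _ hx t⁻¹)
      rw [key, key]
  · obtain ⟨θ, hθ, h⟩ := H6.exists_mem_le_charKer hM hB (hD.to_le hDD)
    exact ⟨⟨_, θ.2.deflate h⟩, θ, hθ, funext fun g => (deflate_mk h g).symm⟩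

end Cfsg.Agent.S4964
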