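import Cfsg.Statements.S4965
import Mathlib

set_option autoImplicit false
open Cfsg

namespace Cfsg.Agent.S4965

/-- Let X be a finite group with an abelian normal subgroup V (any two elements of V commute), and let φ be the action of X ⧸ V on V induced by conjugation (well defined because V is abelian; the hypothesis hφ says that the class of x acts as conjugation by x). Then X has at most as many conjugacy classes as the semidirect product of V by X ⧸ V formed with this action: the split extension has the largest class number among extensions with the given action. -/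
theorem result {X : Type*} [Group X] [Finite X] (V : Subgroup X) [V.Normal] (hab : ∀ a ∈ V, ∀ b ∈ V, a * b = b * a) (φ : X ⧸ V →* MulAut ↥V) (hφ : ∀ (x : X) (v : ↥V), ((φ (QuotientGroup.mk x) v : ↥V) : X) = x * v * x⁻¹) : Nat.card (ConjClasses X) ≤ Nat.card (ConjClasses (SemidirectProduct ↥V (X ⧸ V) φ)) := by
  classical
  have hfin : Finite (SemidirectProduct ↥V (X ⧸ V) φ) :=
    Finite.of_equiv _ (SemidirectProduct.equivProd (φ := φ)).symm
  have hcard : Nat.card (SemidirectProduct ↥V (X ⧸ V) φ) = Nat.card X := by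
    rw [Nat.card_congr (SemidirectProduct.equivProd (φ := φ)), Nat.card_prod,
      Subgroup.card_eq_card_quotient_mul_card_subgroup V, mul_comm]
  have h1 := card_comm_eq_card_conjClasses_mul_card X
  have h2 := card_comm_eq_card_conjClasses_mul_card (SemidirectProduct ↥V (X ⧸ V) φ)
  -- choose base commuting pairs
  let base : (X ⧸ V) × (X ⧸ V) → X × X := fun ab =>
    if h : ∃ p : X × X, Commute p.1 p.2 ∧ (p.1 : X ⧸ V) = ab.1 ∧ (p.2 : X ⧸ V) = ab.2 then h.choose
    else (1, 1)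
  have hbase : ∀ p : X × X, Commute p.1 p.2 →
      Commute (base (p.1, p.2)).1 (base (p.1, p.2)).2 ∧
        ((base (p.1, p.2)).1 : X ⧸ V) = p.1 ∧ ((base (p.1, p.2)).2 : X ⧸ V) = p.2 := by
    intro p hp
    have h : ∃ q : X × X, Commute q.1 q.2 ∧ (q.1 : X ⧸ V) = ((p.1 : X ⧸ V), (p.2 : X ⧸ V)).1 ∧
      (q.2 : X ⧸ V) = ((p.1 : X ⧸ V), (p.2 : X ⧸ V)).2 := ⟨p, hp, rfl, rfl⟩
    simp only [base, dif_pos h]
    exact h.choose_spec
  have hmem : ∀ x y : X, (y : X ⧸ V) = x → x * y⁻¹ ∈ V := by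
    intro x y h
    have := QuotientGroup.eq.mp h
    have h2 := (inferInstance : V.Normal).conj_mem _ this y
    simpa [mul_assoc] using h2
  let f : {p : X × X // Commute p.1 p.2} →
      {p : SemidirectProduct ↥V (X ⧸ V) φ × SemidirectProduct ↥V (X ⧸ V) φ // Commute p.1 p.2} :=
    fun p => ⟨(⟨⟨p.1.1 * (base (p.1.1, p.1.2)).1⁻¹, hmem _ _ (hbase p.1 p.2).2.1⟩, (p.1.1 : X ⧸ V)⟩,
      ⟨⟨p.1.2 * (base (p.1.1, p.1.2)).2⁻¹, hmem _ _ (hbase p.1 p.2).2.2⟩, (p.1.2 : X ⧸ V)⟩), by
      obtain ⟨⟨x, y⟩, hxy⟩ := p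
      obtain ⟨hc, hx, hy⟩ := hbase (x, y) hxy
      simp only at hc hx hy hxy ⊢
      have hφ' : ∀ (a b : X), (b : X ⧸ V) = a → ∀ v : V,
          ((φ (QuotientGroup.mk a) v : ↥V) : X) = b * v * b⁻¹ := by
        intro a b h v; rw [← h, hφ]
      apply SemidirectProduct.ext
      · simp only [SemidirectProduct.mul_left]
        apply Subtype.ext
        simp only [Subgroup.coe_mul]
        rw [hφ' _ _ hx, hφ' _ _ hy]
        simp only
        generalize (base ((x : X ⧸ V), (y : X ⧸ V))).1 = x0 at *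
        generalize (base ((x : X ⧸ V), (y : X ⧸ V))).2 = y0 at *
        have e1 : x * x0⁻¹ * (x0 * (y * y0⁻¹) * x0⁻¹) = (x * y) * (x0 * y0)⁻¹ := by group
        have e2 : y * y0⁻¹ * (y0 * (x * x0⁻¹) * y0⁻¹) = (y * x) * (y0 * x0)⁻¹ := by group
        rw [e1, e2, hxy.eq, hc.eq]
      · simp only [SemidirectProduct.mul_right]
        rw [← QuotientGroup.mk_mul, ← QuotientGroup.mk_mul, hxy.eq]⟩
  have hf : Function.Injective f := by
    rintro ⟨⟨x, y⟩, hxy⟩ ⟨⟨x', y'⟩, hxy'⟩ h
    have h1 : x * (base ((x : X ⧸ V), (y : X ⧸ V))).1⁻¹ = x' * (base ((x' : X ⧸ V), (y' : X ⧸ V))).1⁻¹ :=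
      congrArg (fun q => ((q.1.1.left : V) : X)) h
    have h3 : y * (base ((x : X ⧸ V), (y : X ⧸ V))).2⁻¹ = y' * (base ((x' : X ⧸ V), (y' : X ⧸ V))).2⁻¹ :=
      congrArg (fun q => ((q.1.2.left : V) : X)) h
    have h2 : (x : X ⧸ V) = x' := congrArg (fun q => q.1.1.right) h
    have h4 : (y : X ⧸ V) = y' := congrArg (fun q => q.1.2.right) h
    rw [h2, h4] at h1 h3
    simp only [Subtype.mk.injEq, Prod.mk.injEq]
    exact ⟨mul_right_cancel h1, mul_right_cancel h3⟩
  have h3 := Nat.card_le_card_of_injective f hf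
  rw [h1, h2, hcard] at h3
  exact Nat.le_of_mul_le_mul_right h3 Nat.card_pos

end Cfsg.Agent.S4965
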