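import Cfsg.Statements.S4967
import Mathlib

set_option autoImplicit false
open Cfsg

namespace Cfsg.Agent.S4967

open Module

theorem core {F K H : Type*} [Field F] [Fintype F] [Field K] [Algebra F K] [Finite K] [CommGroup H]
    [Finite H] (χ : H →* K) (hχ : Function.Injective χ) (hg : Algebra.adjoin F (Set.range χ) = ⊤) :
    ((∃ B : LinearMap.BilinForm F K, B.Nondegenerate ∧ ∀ h x y, B (χ h * x) (χ h * y) = B x y) ↔
      ∃ i < finrank F K, Nat.card H ∣ Fintype.card F ^ i + 1) ∧ ∀ i < finrank F K,
        Nat.card H ∣ Fintype.card F ^ i + 1 → (i = 0 ∧ finrank F K = 1) ∨ finrank F K = 2 * i := by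
  haveI := isCyclic_of_injective_ringHom χ hχ
  have fr : ∀ (i : ℕ) (x : K), (FiniteField.frobeniusAlgHom F K ^ i) x = x ^ Fintype.card F ^ i :=
    fun i x => by rw [AlgHom.coe_pow, FiniteField.coe_frobeniusAlgHom, pow_iterate]
  have key : ∀ i, Nat.card H ∣ Fintype.card F ^ i + 1 ↔
      ∀ h, (FiniteField.frobeniusAlgHom F K ^ i) (χ h) = χ h⁻¹ := fun i => by
    rw [← IsCyclic.exponent_eq_card, Monoid.exponent_dvd_iff_forall_pow_eq_one]
    refine forall_congr' fun h => ?_
    rw [fr, ← map_pow, hχ.eq_iff, pow_succ, mul_eq_one_iff_eq_inv]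
  refine ⟨⟨fun ⟨B, h1, h2⟩ => ?_, fun ⟨i, _, h⟩ => ?_⟩, fun i hi h => ?_⟩
  · have h3 : ∀ a : K, ∃ b, ∀ x y, B (a * x) y = B x (b * y) := fun a => by
      induction hg.ge (Algebra.mem_top (x := a)) using Algebra.adjoin_induction with
      | mem x hx =>
        obtain ⟨h, rfl⟩ := hx
        exact ⟨χ h⁻¹, fun x y => by rw [← h2 h x, ← mul_assoc, ← map_mul]; simp⟩
      | algebraMap r => exact ⟨algebraMap F K r, fun x y => by simp [← Algebra.smul_def]⟩
      | add x y _ _ a b =>
        exact ⟨a.choose + b.choose, fun u v => by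
          rw [add_mul, add_mul, map_add, map_add, LinearMap.add_apply, a.choose_spec, b.choose_spec]⟩
      | mul x y _ _ a b =>
        exact ⟨b.choose * a.choose, fun u v => by
          rw [mul_assoc, a.choose_spec, b.choose_spec, mul_assoc]⟩
    choose σ hσ using h3
    have u : ∀ a b, (∀ x, B (a * x) 1 = B x b) → σ a = b := fun a b h => sub_eq_zero.1
      (h1.2 _ fun x => by rw [map_sub, ← h, hσ, mul_one, sub_self])
    let s : K →ₐ[F] K :=
      { toFun := σ
        map_one' := u _ _ (by simp)
        map_mul' := fun a b => u _ _ fun x => by rw [mul_assoc, hσ, hσ, mul_one, mul_comm]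
        map_zero' := u _ _ (by simp)
        map_add' := fun a b => u _ _ fun x => by simp [add_mul, hσ]
        commutes' := fun r => u _ _ fun x => by simp [← Algebra.smul_def, Algebra.algebraMap_eq_smul_one] }
    obtain ⟨i, hi⟩ := (FiniteField.bijective_frobeniusAlgHom_pow F K).2 s
    exact ⟨i, i.2, (key i).2 fun h => (DFunLike.congr_fun hi _).trans (u _ _ fun x => by
      rw [← h2 h x, ← map_mul]; simp)⟩
  · let s := FiniteField.frobeniusAlgHom F K ^ i
    have nd := traceForm_nondegenerate F K
    refine ⟨(Algebra.traceForm F K).compl₂ s.toLinearMap, ⟨fun x e => nd.1 x fun y => ?_,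
      fun y e => s.injective ((nd.2 _ e).trans (map_zero s).symm)⟩, fun g x y => ?_⟩
    · obtain ⟨z, rfl⟩ := (Finite.injective_iff_surjective.1 s.injective) y
      exact e z
    · change Algebra.trace F K (_ * s _) = Algebra.trace F K (_ * s _)
      rw [map_mul s, show s (χ g) = _ from (key i).1 h g, mul_mul_mul_comm, ← map_mul χ]; simp
  · have h1 := (key i).1 h
    have h2 : finrank F K ∣ 2 * i := by
      rw [← FiniteField.orderOf_frobeniusAlgHom, orderOf_dvd_iff_pow_eq_one, two_mul, pow_add]
      refine AlgHom.ext_of_adjoin_eq_top hg ?_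
      rintro _ ⟨h, rfl⟩
      simp [h1]
    rcases i with _ | i
    · refine .inl ⟨rfl, Subalgebra.bot_eq_top_iff_finrank_eq_one.1 (top_unique (hg.ge.trans
        (Algebra.adjoin_le ?_)))⟩
      rintro _ ⟨h, rfl⟩
      have : χ h * χ h = 1 := by rw [← map_one χ, ← mul_inv_cancel h, map_mul, ← h1]; rfl
      rcases mul_self_eq_one_iff.1 this with e | e <;> rw [e]
      exacts [one_mem _, neg_mem (one_mem _)]
    · obtain ⟨c, hc⟩ := h2
      refine .inr ?_
      rcases c with _ | _ | c
      · omega
      · omega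
      · nlinarith

/-- Let F be a finite field with r elements and of characteristic p, H a finite abelian group of order prime to p, and V a faithful irreducible representation of H over F of dimension n (faithful: distinct elements act differently; irreducible: the only H-invariant subspaces are 0 and V). Call V self-dual when it carries a nondegenerate H-invariant bilinear form. If n = 1 and V is self-dual then H has order at most 2. If n ≥ 2 then V is self-dual if and only if n is even and the order of H divides r^(n/2) + 1. -/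
theorem result {F : Type*} [Field F] [Fintype F] (p : ℕ) [Fact p.Prime] [CharP F p] {H : Type*} [CommGroup H] [Finite H] (hcop : ¬ p ∣ Nat.card H) {V : Type*} [AddCommGroup V] [Module F V] [FiniteDimensional F V] (ρ : Representation F H V) (hfaith : Function.Injective ρ) (hirr : ∀ U : Submodule F V, (∀ h : H, ∀ u ∈ U, ρ h u ∈ U) → U = ⊥ ∨ U = ⊤) : (Module.finrank F V = 1 → (∃ B : LinearMap.BilinForm F V, B.Nondegenerate ∧ ∀ h : H, ∀ x y : V, B (ρ h x) (ρ h y) = B x y) → Nat.card H ≤ 2) ∧ (2 ≤ Module.finrank F V → ((∃ B : LinearMap.BilinForm F V, B.Nondegenerate ∧ ∀ h : H, ∀ x y : V, B (ρ h x) (ρ h y) = B x y) ↔ (Even (Module.finrank F V) ∧ Nat.card H ∣ Fintype.card F ^ (Module.finrank F V / 2) + 1))) := by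
  rcases subsingleton_or_nontrivial V with hV | hV
  · simp [finrank_zero_of_subsingleton]
  haveI : Finite V := Module.finite_of_finite F
  let K := Algebra.adjoin F (Set.range ρ)
  haveI : IsMulCommutative K := Algebra.isMulCommutative_adjoin F (by
    rintro _ ⟨a, rfl⟩ _ ⟨b, rfl⟩; rw [← map_mul, ← map_mul, mul_comm])
  let χ : H →* K := ρ.codRestrict K fun h => Algebra.subset_adjoin ⟨h, rfl⟩
  have inj : ∀ a : K, a ≠ 0 → Function.Injective a.1 := fun a ha =>
    LinearMap.ker_eq_bot.1 ((hirr _ fun h u hu => by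
      have := LinearMap.congr_fun (congrArg Subtype.val (mul_comm' a (χ h))) u
      exact this.trans (by change ρ h (a.1 u) = 0; rw [hu, map_zero])).resolve_right
      fun e => ha (Subtype.ext (LinearMap.ker_eq_top.1 e)))
  haveI : Finite (End F V) := Finite.of_injective _ DFunLike.coe_injective
  letI : CommRing K := { (inferInstance : Ring K) with mul_comm := mul_comm' }
  haveI : NoZeroDivisors K := ⟨fun {a b} h => or_iff_not_imp_left.2 fun ha => Subtype.ext
    (LinearMap.ext fun v => inj a ha ((LinearMap.congr_fun (congrArg Subtype.val h) v).trans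
      (map_zero _).symm))⟩
  haveI : IsDomain K := NoZeroDivisors.to_isDomain K
  letI : Field K := (Finite.isField_of_domain K).toField
  obtain ⟨v, hv⟩ := exists_ne (0 : V)
  let f : K →ₗ[F] V := LinearMap.applyₗ v ∘ₗ K.val.toLinearMap
  have hf : ∀ h x, f (χ h * x) = ρ h (f x) := fun h x => rfl
  let e : K ≃ₗ[F] V := LinearEquiv.ofBijective f ⟨(injective_iff_map_eq_zero f).2 fun a ha =>
    by_contra fun h => hv (inj a h (ha.trans (map_zero _).symm)), LinearMap.range_eq_top.1
      ((hirr _ (by rintro h _ ⟨x, rfl⟩; exact ⟨_, hf h x⟩)).resolve_left fun e =>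
        hv (e.le ⟨1, rfl⟩))⟩
  obtain ⟨c1, c2⟩ := core (F := F) χ (fun a b h => hfaith (congrArg Subtype.val h)) (by
    refine Subalgebra.map_injective (f := K.val) Subtype.val_injective ?_
    rw [AlgHom.map_adjoin, ← Set.range_comp, Algebra.map_top, Subalgebra.range_val]; rfl)
  have c3 : (∃ B : LinearMap.BilinForm F V, B.Nondegenerate ∧ ∀ h : H, ∀ x y : V,
      B (ρ h x) (ρ h y) = B x y) ↔ ∃ i < finrank F K, Nat.card H ∣ Fintype.card F ^ i + 1 := by
    refine Iff.trans ?_ c1
    constructor
    · rintro ⟨B, h1, h2⟩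
      exact ⟨_, h1.congr e.symm, fun h x y => h2 h (f x) (f y)⟩
    rintro ⟨B, h1, h2⟩
    refine ⟨_, h1.congr e, fun h x y => ?_⟩
    obtain ⟨x, rfl⟩ := e.surjective x
    obtain ⟨y, rfl⟩ := e.surjective y
    change B (e.symm (e (χ h * x))) (e.symm (e (χ h * y))) = B (e.symm (e x)) (e.symm (e y))
    simp only [e.symm_apply_apply, h2]
  rw [c3, ← e.finrank_eq]
  refine ⟨fun h ⟨i, a, b⟩ => ?_, fun h => ⟨fun ⟨i, a, b⟩ => ?_, fun a => ⟨_, by omega, a.2⟩⟩⟩
  · obtain rfl : i = 0 := by omega
    exact Nat.le_of_dvd two_pos b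
  · have := (c2 i a b).resolve_left (by omega)
    rw [this, Nat.mul_div_cancel_left _ two_pos]
    exact ⟨even_two_mul i, b⟩

end Cfsg.Agent.S4967
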