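import Cfsg.Statements.S5005
import Mathlib
import Cfsg.Agent.H8.M24C

set_option autoImplicit false
open Cfsg

namespace Cfsg.Agent.S5005

open scoped ComplexConjugate commutatorElement Pointwise
-- OPENS H16
open Cfsg.Agent.H8
open Cfsg.Agent.H6 hiding blockCoeff_eq_zero blockCoeff_mem blockDefect_eq blockHeight_eq
  blockPart_add blockPart_eq_zero_of_regular blockPart_eq_zero_of_singular blockPart_irr_of_mem
  blockPart_irr_of_not_mem blockPart_isClassFunction blockPart_smul blockPart_sub blockPart_sum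
  blockPart_zero block_eq_blockOf block_eq_of_mem block_nonempty card_defectGroup
  centralChar_mem char_mem conj_char_mem deg_factorization_le exists_height_zero
  irrOne_mem_principal isPBlock_blockOf isPBlock_principal isPGroup_zpowers mem_blockOf_self
  orderOf_conj' sameBlock_refl sameBlock_symm sameBlock_trans weak_orth weak_orth'
open Cfsg.Agent.H4 hiding exists_int_of_isIntegral_rat
open Cfsg.Agent.H5
open Cfsg.Agent.H3
open Cfsg.Agent.H16 hiding center_eq_bot_of_simple centralizer_zpowers rep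

theorem card_cent {x : M24} (hx : x ∈ K22) {n : ℕ}
    (h : Nat.card (K22 ⊓ Subgroup.centralizer ({x} : Set M24) : Subgroup M24) = n) :
    Nat.card (Subgroup.centralizer ({⟨x, hx⟩} : Set K22)) = n :=
  (Nat.card_congr (centEquiv K22 ⟨x, hx⟩).toEquiv).trans h

theorem main (M : Ideal Cfsg.AlgInt) (hM : Cfsg.IsPModular 2 M) (χ ψ : IrrCharacter K22) :
    SameBlock M (χ : K22 → ℂ) (ψ : K22 → ℂ) := by
  classical
  haveI : Fact (Nat.Prime 11) := ⟨by norm_num⟩
  haveI : Fact (Nat.Prime 7) := ⟨by norm_num⟩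
  haveI : Fact (Nat.Prime 5) := ⟨by norm_num⟩
  haveI := Fintype.ofFinite K22
  refine sameBlock_of_vanish hM (fun z hz χ hχ => ?_) (fun χ h => ?_) χ ψ
  · have m1 : gpt 23 ∈ fixSet z := mem_fixSet.2 z.2.1
    have m2 : gpt 0 ∈ fixSet z := mem_fixSet.2 z.2.2
    obtain ⟨h1, h2, h3⟩ := facts_2A (z := z) (by rwa [Subgroup.orderOf_coe]) ⟨_, m1⟩
    have e : ∀ a b : K22, a ∈ Subgroup.centralizer {b} ↔
        (a : M24) ∈ Subgroup.centralizer {(b : M24)} := fun a b => by
      simp only [Subgroup.mem_centralizer_singleton_iff, Subtype.ext_iff, Subgroup.coe_mul]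
    have h4 : fixingSubgroup M24 (fixSet z : Set GolayPt) ≤ K22 := fun q hq =>
      ⟨(mem_fixingSubgroup_iff _).1 hq _ m1, (mem_fixingSubgroup_iff _).1 hq _ m2⟩
    refine apply_eq_zero_of_not_mem_principal hM ⟨1, hz⟩
      (Q := (fixingSubgroup M24 (fixSet z : Set GolayPt)).subgroupOf K22)
      (IsPGroup.of_card (n := 4) h1).comap_subtype (fun q hq => (e _ _).2 (h2 hq))
      (fun c hc q hq => h3 c ((e _ _).1 hc) q hq) (fun y _ hy hy2 hle => ?_) hχ
    rw [← Subgroup.orderOf_coe] at hy hy2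
    exact not_dvd_card_cent hy hy2 (h1 ▸ Subgroup.card_dvd_of_le fun q hq =>
      (e ⟨q, h4 hq⟩ y).1 (hle hq))
  have h0 := χ.2.charDegree_pos.ne'
  have h1 : 2 ^ 7 ∣ charDegree (χ : K22 → ℂ) := by
    rw [Nat.prime_two.pow_dvd_iff_le_factorization h0, h,
      ← Nat.prime_two.pow_dvd_iff_le_factorization Nat.card_pos.ne', card_K22]
    norm_num
  have h2 : ¬ 2 ^ 8 ∣ charDegree (χ : K22 → ℂ) := by
    rw [Nat.prime_two.pow_dvd_iff_le_factorization h0, h,
      ← Nat.prime_two.pow_dvd_iff_le_factorization Nat.card_pos.ne', card_K22]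
    norm_num
  have h3 := charDegree_sq_le_card χ.2
  rw [card_K22] at h3
  have h4 : charDegree (χ : K22 → ℂ) < 768 := lt_of_pow_lt_pow_left₀ 2 (by norm_num) (by omega)
  have x11 := po_bot_of_card (x := (⟨m11, m11_mem⟩ : K22))
    ((Subgroup.orderOf_coe _).symm.trans orderOf_m11) (card_cent _ card_cent22_m11)
  have x7 := po_bot_of_card (x := (⟨m7, m7_mem⟩ : K22))
    ((Subgroup.orderOf_coe _).symm.trans orderOf_m7) (card_cent _ card_cent22_m7)
  have x5 := po_bot_of_card (x := (⟨m5, m5_mem⟩ : K22))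
    ((Subgroup.orderOf_coe _).symm.trans orderOf_m5) (card_cent _ card_cent22_m5)
  have e11 : H19.eN x11.ord = 5 := by
    obtain ⟨n, h5, h6⟩ := eN_facts x11
    rw [card_K22] at h5
    have : H19.eN x11.ord * (n * 11 + 1) = (H19.eN x11.ord * n) * 11 + H19.eN x11.ord := by ring
    omega
  have e7 : H19.eN x7.ord = 3 := by
    obtain ⟨n, h5, h6⟩ := eN_facts x7
    rw [card_K22] at h5
    have : H19.eN x7.ord * (n * 7 + 1) = (H19.eN x7.ord * n) * 7 + H19.eN x7.ord := by ring
    omega
  have e5 : H19.eN x5.ord = 4 := by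
    obtain ⟨n, h5, h6⟩ := eN_facts x5
    rw [card_K22] at h5
    have : H19.eN x5.ord * (n * 5 + 1) = (H19.eN x5.ord * n) * 5 + H19.eN x5.ord := by ring
    omega
  obtain ⟨B⟩ := x11.nonempty_BD
  have hd : charDegree (χ : K22 → ℂ) = 384 := by
    rcases B.cases χ with hX | ⟨q, rfl⟩ | ⟨hX, hc⟩
    · have := B.degX χ hX
      unfold Int.ModEq at this
      rcases B.ha χ hX with e | e <;> rw [e] at this <;> omega
    · have := B.degμ q
      change _ ≡ B.ε * (H19.eN x11.ord : ℕ) [ZMOD (11 : ℕ)] at this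
      rw [e11] at this
      unfold Int.ModEq at this
      rcases B.hε with e | e <;> rw [e] at this <;> omega
    · have := B.fd_other hX hc
      omega
  have hχ := χ.2.isCharacter
  have s11 := le_sum_normSq_bot x11 hχ (by rw [hd]; norm_num)
  have s7 := le_sum_normSq_bot x7 hχ (by rw [hd]; norm_num)
  have s5 := le_sum_normSq_bot x5 hχ (by rw [hd]; norm_num)
  rw [e11, card_K22] at s11
  rw [e7, card_K22] at s7
  rw [e5, card_K22] at s5
  have h7 := sum_order_le {1, 3, 5, 7, 11} (f := fun g => ‖(χ : K22 → ℂ) g‖ ^ 2)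
    fun _ => by positivity
  rw [sum_normSq_eq_card χ.2, card_K22, Finset.sum_insert (by decide),
    Finset.sum_insert (by decide), Finset.sum_insert (by decide), Finset.sum_insert (by decide),
    Finset.sum_singleton] at h7
  have s1 : ∑ g with orderOf g = 1, ‖(χ : K22 → ℂ) g‖ ^ 2 = 384 ^ 2 := by
    rw [show (Finset.univ.filter fun g : K22 => orderOf g = 1) = {1} from by ext; simp,
      Finset.sum_singleton, norm_apply_one hχ, hd]
    norm_num
  have s3 : ∑ g with orderOf g = 3, ‖(χ : K22 → ℂ) g‖ ^ 2 ≤ 0 := by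
    push_cast at s11 s7 s5 h7
    linarith
  have h8 := S0928.result 3 χ fun g hg => by
    have := (Finset.single_le_sum (f := fun g => ‖(χ : K22 → ℂ) g‖ ^ 2) (fun _ _ => by positivity)
      (Finset.mem_filter.2 ⟨Finset.mem_univ g, hg⟩)).trans s3
    simpa using le_antisymm this (by positivity)
  have h9 : 3 ^ 2 ∣ charDegree (χ : K22 → ℂ) := by
    rw [Nat.prime_three.pow_dvd_iff_le_factorization h0, h8,
      ← Nat.prime_three.pow_dvd_iff_le_factorization Nat.card_pos.ne', card_K22]
    norm_num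
  omega


/-- All irreducible complex characters of the Mathieu group `M₂₂` lie in a single 2-block: any two of them lie in the same block relative to every maximal ideal of the algebraic integers containing 2. -/
theorem result (M : Ideal Cfsg.AlgInt) (hM : Cfsg.IsPModular 2 M)
    (χ ψ : Cfsg.IrrCharacter ↥Cfsg.Spor.M22) : Cfsg.SameBlock M (χ : ↥Cfsg.Spor.M22 → ℂ) (ψ : ↥Cfsg.Spor.M22 → ℂ) := by
  haveI := hM.2.1
  have := sameBlock_comp (M := M) sporM22.symm.toMonoidHom sporM22.symm.surjective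
    (main M hM ⟨_, χ.2.comp_of_surjective sporM22.toMonoidHom sporM22.surjective⟩
      ⟨_, ψ.2.comp_of_surjective sporM22.toMonoidHom sporM22.surjective⟩)
  simpa using this

end Cfsg.Agent.S5005
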