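import Cfsg.Statements.S5006
import Mathlib
import Cfsg.Agent.H8.M24C

set_option autoImplicit false
open Cfsg

namespace Cfsg.Agent.S5006

open scoped ComplexConjugate commutatorElement Pointwise
-- OPENS H16
open Cfsg.Agent.H8
open Cfsg.Agent.H6 hiding blockCoeff_eq_zero blockCoeff_mem blockDefect_eq blockHeight_eq
  blockPart_add blockPart_eq_zero_of_regular blockPart_eq_zero_of_singular blockPart_irr_of_mem
  blockPart_irr_of_not_mem blockPart_isClassFunction blockPart_smul blockPart_sub blockPart_sum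
  blockPart_zero block_eq_blockOf block_eq_of_mem block_nonempty card_defectGroup
  centralChar_mem char_mem conj_char_mem deg_factorization_le exists_height_zero
  irrOne_mem_principal isPBlock_blockOf isPBlock_principal isPGroup_zpowers mem_blockOf_self
  orderOf_conj' sameBlock_refl sameBlock_symm sameBlock_trans weak_orth weak_orth'
open Cfsg.Agent.H4 hiding exists_int_of_isIntegral_rat
open Cfsg.Agent.H5
open Cfsg.Agent.H3
open Cfsg.Agent.H16 hiding center_eq_bot_of_simple centralizer_zpowers rep


/-- All irreducible complex characters of the Mathieu group `M₂₄` lie in a single 2-block: any two of them lie in the same block relative to every maximal ideal of the algebraic integers containing 2. -/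
theorem result (M : Ideal Cfsg.AlgInt) (hM : Cfsg.IsPModular 2 M)
    (χ ψ : Cfsg.IrrCharacter ↥Cfsg.M24) : Cfsg.SameBlock M (χ : ↥Cfsg.M24 → ℂ) (ψ : ↥Cfsg.M24 → ℂ) := by
  classical
  haveI : Fact (Nat.Prime 23) := ⟨by norm_num⟩
  haveI := Fintype.ofFinite M24
  refine sameBlock_of_vanish hM (fun z hz χ hχ => ?_) (fun χ h => ?_) χ ψ
  · rcases (fixSet z).eq_empty_or_nonempty with hf | hf
    · obtain ⟨Q, h1, h2, h3, h4⟩ := facts_2B hz hf
      exact apply_eq_zero_of_not_mem_principal hM ⟨1, hz⟩ h1 h3 h4 (fun y _ hy hy2 hle =>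
        not_dvd_card_cent hy hy2 (h2.trans (Subgroup.card_dvd_of_le hle))) hχ
    · obtain ⟨h1, h2, h3⟩ := facts_2A hz hf
      exact apply_eq_zero_of_not_mem_principal hM ⟨1, hz⟩ (IsPGroup.of_card (n := 4) h1) h2 h3
        (fun y _ hy hy2 hle => not_dvd_card_cent hy hy2 (h1 ▸ Subgroup.card_dvd_of_le hle)) hχ
  have hv : ∀ g, 2 ∣ orderOf g → (χ : M24 → ℂ) g = 0 := fun g hg =>
    apply_eq_zero_of_defect_zero (by norm_num) χ.2 h.ge hg
  have h0 := χ.2.charDegree_pos.ne'
  have h1 : 2 ^ 10 ∣ charDegree (χ : M24 → ℂ) := by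
    rw [Nat.prime_two.pow_dvd_iff_le_factorization h0, h,
      ← Nat.prime_two.pow_dvd_iff_le_factorization Nat.card_pos.ne', card_M24]
    norm_num
  have h2 : ¬ 2 ^ 11 ∣ charDegree (χ : M24 → ℂ) := by
    rw [Nat.prime_two.pow_dvd_iff_le_factorization h0, h,
      ← Nat.prime_two.pow_dvd_iff_le_factorization Nat.card_pos.ne', card_M24]
    norm_num
  have h3 := charDegree_sq_le_card χ.2
  rw [card_M24] at h3
  have h4 : charDegree (χ : M24 → ℂ) < 16384 := lt_of_pow_lt_pow_left₀ 2 (by norm_num) (by omega)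
  have hx := po_bot_of_card orderOf_m23 card_cent_m23
  obtain ⟨n, h5, h6⟩ := eN_facts hx
  have he : H19.eN hx.ord = 11 := by
    rw [card_M24] at h5
    have : H19.eN hx.ord * (n * 23 + 1) = (H19.eN hx.ord * n) * 23 + H19.eN hx.ord := by ring
    omega
  obtain ⟨B⟩ := hx.nonempty_BD
  obtain ⟨q, rfl⟩ : ∃ q, B.μ q = χ := by
    by_contra hc
    push Not at hc
    by_cases hX : χ ∈ B.X
    · have := B.degX χ hX
      unfold Int.ModEq at this
      rcases B.ha χ hX with e | e <;> rw [e] at this <;> omega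
    · have := B.fd_other hX hc
      omega
  have hd : charDegree (B.μ q : M24 → ℂ) = 1024 := by
    have := B.degμ q
    change _ ≡ B.ε * (H19.eN hx.ord : ℕ) [ZMOD (23 : ℕ)] at this
    rw [he] at this
    unfold Int.ModEq at this
    rcases B.hε with e | e <;> rw [e] at this <;> omega
  have hχ := (B.μ q).2.isCharacter
  have e23 := sum_singular_bot hx (θ := fun g => (B.μ q : M24 → ℂ) g * conj ((B.μ q : M24 → ℂ) g))
    fun a b => by simp only [hχ.isClassFunction a b]
  have e1 : ∀ i : (ZMod 23)ˣ, (B.μ q : M24 → ℂ) (H19.xp m23 (i : ZMod 23)) *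
      conj ((B.μ q : M24 → ℂ) (H19.xp m23 (i : ZMod 23))) = H19.per (H19.EE hx.ord) q (i : ZMod 23) *
        conj (H19.per (H19.EE hx.ord) q (i : ZMod 23)) := fun i => by
    rw [B.valμ' q i.ne_zero]
    rcases B.hε with e | e <;> simp [e]
  simp only [e1] at e23
  rw [H19.sum_units_per_mul_conj, if_pos rfl, show Nat.card (H19.EE hx.ord) = 11 from he, he,
    card_M24] at e23
  simp only [Complex.mul_conj, Complex.normSq_eq_norm_sq] at e23
  have e23' : (23 * 11 : ℝ) * ∑ g with orderOf g = 23, ‖(B.μ q : M24 → ℂ) g‖ ^ 2 =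
      244823040 * (23 * 11 - 11 ^ 2) := by exact_mod_cast e23
  have e3 := le_sum_normSq_order (p := 2) (k := 3) Nat.prime_three hχ hv (by rw [hd]; norm_num)
    (fun g hg => by rcases card_cent3 hg with e | e <;> rw [e] <;> norm_num) orderOf_3B
  have e5 := le_sum_normSq_order (p := 2) (k := 2) Nat.prime_five hχ hv (by rw [hd]; norm_num)
    (fun g hg => by rw [card_cent5 hg]; norm_num) orderOf_m5
  have e7 := le_sum_normSq_order (p := 2) (k := 1) Nat.prime_seven hχ hv (by rw [hd]; norm_num)
    (fun g hg => by rw [card_cent7 hg]; norm_num) orderOf_m7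
  have i3 := (Subgroup.centralizer ({t3B} : Set M24)).card_mul_index
  have i5 := (Subgroup.centralizer ({m5} : Set M24)).card_mul_index
  have i7 := (Subgroup.centralizer ({m7} : Set M24)).card_mul_index
  rw [C3B_facts.1, card_M24] at i3
  rw [card_cent_m5, card_M24] at i5
  rw [card_cent_m7, card_M24] at i7
  rw [show (Subgroup.centralizer ({t3B} : Set M24)).index = 485760 by omega] at e3
  rw [show (Subgroup.centralizer ({m5} : Set M24)).index = 4080384 by omega] at e5
  rw [show (Subgroup.centralizer ({m7} : Set M24)).index = 5829120 by omega] at e7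
  have h7 := sum_order_le {3, 5, 7, 23} (f := fun g => ‖(B.μ q : M24 → ℂ) g‖ ^ 2)
    fun _ => by positivity
  rw [sum_normSq_eq_card (B.μ q).2, card_M24, Finset.sum_insert (by decide),
    Finset.sum_insert (by decide), Finset.sum_insert (by decide), Finset.sum_singleton] at h7
  push_cast at e3 e5 e7 h7
  linarith

end Cfsg.Agent.S5006
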