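import Cfsg.Statements.S5015
import Cfsg.Agent.H29.RankOne

set_option autoImplicit false
open Cfsg

namespace Cfsg.Agent.S5015
open Cfsg.Agent.H29


/-- Let a group Y act doubly transitively on a set Ω with at least three points, and suppose that the stabilizer of a point α contains a nilpotent subgroup A, normalized by that stabilizer, which acts regularly on the points other than α. Then for any y in Y moving α, the subgroups A and y A y⁻¹ are the unipotent subgroups of a rank one group, and the normal closure of A in Y (the subgroup generated by all conjugates of A) is generated by A and y A y⁻¹ alone. -/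
theorem result {Y Ω : Type*} [Group Y] [MulAction Y Ω]
    (h2 : MulAction.IsMultiplyPretransitive Y Ω 2) (hΩ : 3 ≤ ENat.card Ω) (α : Ω) (A : Subgroup Y)
    (hA : A ≤ MulAction.stabilizer Y α) (hAn : ∀ y ∈ MulAction.stabilizer Y α, Cfsg.conjBy A y = A)
    (hnil : Group.IsNilpotent A) (hreg : ∀ β γ : Ω, β ≠ α → γ ≠ α → ∃! a : Y, a ∈ A ∧ a • β = γ)
    (y : Y) (hy : y ∉ MulAction.stabilizer Y α) :
    Cfsg.IsRankOnePair A (Cfsg.conjBy A y) ∧ Subgroup.normalClosure (A : Set Y) = A ⊔ Cfsg.conjBy A y := by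
  have hwd : ∀ g g' : Y, g • α = g' • α → conjBy A g = conjBy A g' := by
    intro g g' e
    rw [conjBy_eq_conjBy_iff]
    apply hAn
    rw [MulAction.mem_stabilizer_iff, mul_smul, e, inv_smul_smul]
  have hy' : y • α ≠ α := hy
  have hAfix : ∀ a ∈ A, a • α = α := fun a ha => hA ha
  have hthird : ∃ γ : Ω, γ ≠ α ∧ γ ≠ y • α := by
    by_contra hc
    push Not at hc
    have : (Set.univ : Set Ω) ⊆ {α, y • α} := by
      intro γ _
      by_cases h : γ = α
      · exact Or.inl h
      · exact Or.inr (hc γ h)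
    have h1 := Set.encard_le_encard this
    rw [Set.encard_univ] at h1
    have h2 : ({α, y • α} : Set Ω).encard ≤ 2 := by
      rw [Set.encard_pair hy'.symm]
    have := hΩ.trans (h1.trans h2)
    norm_num at this
  -- regularity for conjugates
  have hregB : ∀ γ : Ω, γ ≠ y • α → ∃ b ∈ conjBy A y, b • α = γ := by
    intro γ hγ
    obtain ⟨a, ⟨ha, e⟩, -⟩ := hreg (y⁻¹ • α) (y⁻¹ • γ)
      (by intro e; apply hy'; rw [inv_smul_eq_iff] at e; exact e.symm)
      (by intro e; apply hγ; rw [inv_smul_eq_iff] at e; exact e)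
    refine ⟨y * a * y⁻¹, conj_mem_conjBy ha y, ?_⟩
    rw [mul_smul, mul_smul, e, smul_inv_smul]
  have hfix : ∀ a ∈ A, ∀ β, β ≠ α → a • β = β → a = 1 := by
    intro a ha β hβ e
    obtain ⟨a', -, hu⟩ := hreg β β hβ hβ
    exact (hu a ⟨ha, e⟩).trans (hu 1 ⟨A.one_mem, one_smul _ _⟩).symm
  have hne : A ≠ conjBy A y := by
    intro e
    obtain ⟨γ, h1, h2⟩ := hthird
    obtain ⟨b, hb, e'⟩ := hregB γ h2
    rw [← e] at hb
    exact h1 (e'.symm.trans (hAfix b hb))
  refine ⟨r1_mk hne hnil (Group.nilpotent_of_mulEquiv (conjByEquiv A y)) ?_ ?_, ?_⟩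
  · intro a ha ha1
    obtain ⟨b, hb, e⟩ := hregB (a • y • α) (fun e => ha1 (hfix a ha _ hy' e))
    refine ⟨b, hb, ?_, ?_⟩
    · rintro rfl
      rw [one_smul, ← hAfix a ha, smul_left_cancel_iff, hAfix a ha] at e
      exact hy' e.symm
    · rw [conjBy_conjBy]
      exact hwd _ _ (by rw [e, mul_smul])
  · intro b hb hb1
    obtain ⟨a', ha', rfl⟩ := mem_conjBy'.1 hb
    have h1 : (y * a' * y⁻¹) • α ≠ α := by
      intro e
      apply hb1
      have : a' = 1 := hfix a' ha' (y⁻¹ • α)
        (by intro e; apply hy'; rw [inv_smul_eq_iff] at e; exact e.symm)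
        (by rw [mul_smul, mul_smul, ← eq_inv_smul_iff] at e; exact e)
      simp [this]
    obtain ⟨a, ⟨ha, e⟩, -⟩ := hreg (y • α) _ hy' h1
    refine ⟨a, ha, ?_, ?_⟩
    · rintro rfl
      rw [one_smul, mul_smul, mul_smul, smul_left_cancel_iff, ← inv_smul_eq_iff, hAfix _ (A.inv_mem ha'),
        eq_inv_smul_iff] at e
      exact hy' e
    · rw [conjBy_conjBy]
      exact hwd _ _ (by rw [mul_smul, e])
  · apply le_antisymm
    · rw [Subgroup.normalClosure, Subgroup.closure_le]
      intro x hx
      obtain ⟨a, ha, hc⟩ := Group.mem_conjugatesOfSet_iff.1 hx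
      obtain ⟨g, rfl⟩ := isConj_iff.1 hc
      have h1 : g * a * g⁻¹ ∈ conjBy A g := conj_mem_conjBy ha g
      by_cases hg : g • α = α
      · rw [hAn g hg] at h1
        exact Subgroup.mem_sup_left h1
      · obtain ⟨a', ⟨ha', e⟩, -⟩ := hreg (y • α) _ hy' hg
        rw [hwd g (a' * y) (by rw [mul_smul, e]), ← conjBy_conjBy] at h1
        exact conjBy_le_of_mem le_sup_right (Subgroup.mem_sup_left ha') h1
    · refine sup_le Subgroup.le_normalClosure ?_
      rw [← conjBy_normal (Subgroup.normalClosure (A : Set Y)) y]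
      exact conjBy_mono Subgroup.le_normalClosure y

end Cfsg.Agent.S5015
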