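import Cfsg.Statements.S5017
import Cfsg.Agent.H29.RankOne

set_option autoImplicit false
open Cfsg

namespace Cfsg.Agent.S5017
open Cfsg.Agent.H29


/-- Let X be a rank one group with unipotent subgroups A and B and N a normal subgroup of X. Then either X = N A or N lies in the centre of X. Consequently a perfect rank one group is quasisimple. -/
theorem result {X : Type*} [Group X] {A B : Subgroup X} (h : Cfsg.IsRankOneGroup X A B) :
    (∀ N : Subgroup X, N.Normal → N ⊔ A = ⊤ ∨ N ≤ Subgroup.center X) ∧
    (Group.IsPerfect X → Cfsg.IsQuasisimple X) := by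
  obtain ⟨hgen, h⟩ := h
  have key : ∀ N : Subgroup X, N.Normal → N ⊔ A = ⊤ ∨ N ≤ Subgroup.center X := by
    intro N hN
    rcases r1_normal_dichotomy h (N := N) (by rw [hgen]; exact le_top) (fun x _ => conjBy_normal N x) with e | e
    · exact Or.inl (e.trans hgen)
    · right
      intro n hn
      rw [Subgroup.mem_center_iff]
      exact fun g => (e n hn g (by rw [hgen]; trivial)).symm
  refine ⟨key, fun hp => ⟨hp, ?_⟩⟩
  have hnt : Nontrivial (X ⧸ Subgroup.center X) := by
    rw [QuotientGroup.nontrivial_iff]
    intro e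
    apply r1_not_comm h
    rw [comm_bot_iff]
    intro a _ b _
    exact Subgroup.mem_center_iff.1 (e.symm ▸ Subgroup.mem_top b) a
  refine ⟨fun N hN => ?_⟩
  rcases key (N.comap (QuotientGroup.mk' _)) (hN.comap _) with e | e
  · right
    have hA := h.nilpotent_left
    have hs : Function.Surjective ((QuotientGroup.mk' N).comp ((QuotientGroup.mk' (Subgroup.center X)).comp A.subtype)) := by
      rw [← MonoidHom.range_eq_top, eq_top_iff]
      rintro q -
      obtain ⟨q, rfl⟩ := QuotientGroup.mk'_surjective N q
      obtain ⟨x, rfl⟩ := QuotientGroup.mk'_surjective _ q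
      have hx : x ∈ (N.comap (QuotientGroup.mk' _) ⊔ A : Subgroup X) := by rw [e]; trivial
      haveI := hN.comap (QuotientGroup.mk' (Subgroup.center X))
      obtain ⟨n, hn, a, ha, rfl⟩ := Subgroup.mem_sup_of_normal_left.1 hx
      refine ⟨⟨a, ha⟩, ?_⟩
      have : QuotientGroup.mk' N (QuotientGroup.mk' (Subgroup.center X) n) = 1 :=
        (QuotientGroup.eq_one_iff _).2 hn
      rw [map_mul, map_mul, this, one_mul]
      rfl
    have h1 := Group.nilpotent_of_surjective _ hs
    have h2 : Subsingleton ((X ⧸ Subgroup.center X) ⧸ N) := by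
      by_contra hc
      rw [not_subsingleton_iff_nontrivial] at hc
      exact Group.IsPerfect.not_isNilpotent _ h1
    exact QuotientGroup.subsingleton_iff.1 h2
  · left
    rw [eq_bot_iff]
    intro q hq
    obtain ⟨x, rfl⟩ := QuotientGroup.mk'_surjective _ q
    exact (QuotientGroup.eq_one_iff _).2 (e hq)

end Cfsg.Agent.S5017
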