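import Cfsg.Statements.S5018
import Cfsg.Agent.H29.RankOne

set_option autoImplicit false
open Cfsg

namespace Cfsg.Agent.S5018
open Cfsg.Agent.H29


/-- A rank one group is not nilpotent, and its second centre equals its centre. -/
theorem result {X : Type*} [Group X] {A B : Subgroup X} (h : Cfsg.IsRankOneGroup X A B) :
    Subgroup.upperCentralSeries X 2 = Subgroup.center X ∧ ¬ Group.IsNilpotent X := by
  obtain ⟨hgen, h⟩ := h
  refine ⟨le_antisymm ?_ ?_, fun hn => r1_not_nilpotent h inferInstance⟩
  · intro z hz
    rw [Subgroup.mem_upperCentralSeries_succ_iff, Subgroup.upperCentralSeries_one] at hz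
    rw [Subgroup.mem_center_iff]
    intro x
    refine (r1_second_center h (by rw [hgen]; trivial) ?_ x (by rw [hgen]; trivial)).symm
    intro x _ y _
    exact (Subgroup.mem_center_iff.1 (hz x) y).symm
  · rw [← Subgroup.upperCentralSeries_one]
    exact Subgroup.upperCentralSeries_mono _ (by norm_num)

end Cfsg.Agent.S5018
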