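import Cfsg.Statements.S5020
import Cfsg.Agent.H29.Special
import Cfsg.Agent.S5017

set_option autoImplicit false
open Cfsg

namespace Cfsg.Agent.S5020
open Cfsg.Agent.H29

open scoped commutatorElement

theorem swap_point {G : Type*} [Group G] {A B : Subgroup G} (hs : IsSpecialRankOnePair A B)
    {g : G} (hg : g ∈ A ⊔ B) (h1 : conjBy A g = B) (h2 : conjBy B g = A) {x : G} (hx : x ∈ A) (x1 : x ≠ 1) :
    ∃ x' ∈ A, conjBy B (g * x) = conjBy B x' ∧ x' * x ∈ ⁅A, rankOneDiagonal A B⁆ := by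
  obtain ⟨y, hy⟩ := RR_exists hs.1 hx x1
  set m := x * y⁻¹ * x with hm
  have hA : conjBy A (g * m⁻¹) = A := by
    rw [← conjBy_conjBy, (conjBy_eq_iff.1 (hy.om_B hs)).symm, h2]
  have hB : conjBy B (g * m⁻¹) = B := by
    rw [← conjBy_conjBy, (conjBy_eq_iff.1 hy.om_A).symm, h1]
  have hH : g * m⁻¹ ∈ rankOneDiagonal A B :=
    ⟨⟨Subgroup.mul_mem _ hg (Subgroup.inv_mem _ hy.om_mem), conjBy_eq_self_iff.1 hA⟩,
      conjBy_eq_self_iff.1 hB⟩
  set h := g * m⁻¹ with hh
  refine ⟨h * x⁻¹ * h⁻¹, hA ▸ conj_mem_conjBy (A.inv_mem hx) h, ?_, ?_⟩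
  · have e1 : conjBy B (m * x) = conjBy B x⁻¹ := by
      have e2 := (hy.inv hs).e
      rw [inv_inv, inv_inv] at e2
      rw [← conjBy_conjBy, ← e2, hm, hy.braid hs, conjBy_conjBy, inv_mul_cancel_right,
        ← conjBy_conjBy, conjBy_of_mem hx, hy.e]
    rw [show g * x = h * (m * x) by rw [hh]; group, ← conjBy_conjBy, e1, conjBy_conjBy,
      ← conjBy_conjBy (h := h * x⁻¹), (conjBy_eq_iff.1 hB).symm]
  · rw [Subgroup.commutator_comm]
    have := Subgroup.commutator_mem_commutator hH (A.inv_mem hx)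
    rwa [commutatorElement_def, inv_inv] at this

theorem two_add {G : Type*} [Group G] {A B : Subgroup G} (hs : IsSpecialRankOnePair A B)
    (hab : HasAbelianUnipotents A B) {a x : G} (ha : a ∈ A) (a1 : a ≠ 1) (hx : x ∈ A) (x1 : x ≠ 1)
    (ax : a * x ≠ 1) : a * x * x ∈ ⁅A, rankOneDiagonal A B⁆ := by
  obtain ⟨b, hb⟩ := RR_exists hs.1 ha a1
  have hA := hb.om_A
  have hB := hb.om_B hs
  have hm := hb.om_mem
  have hom := hb.om_a hs
  set m := a * b⁻¹ * a with hm'
  obtain ⟨x1, hx1, e1, v1⟩ := swap_point hs hm hA hB hx x1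
  obtain ⟨x2, hx2, e2, v2⟩ := swap_point hs (Subgroup.inv_mem _ hm) (conjBy_eq_iff.1 hB).symm
    (conjBy_eq_iff.1 hA).symm (A.mul_mem ha hx) ax
  have h2 : a * x2 ≠ 1 := by
    intro e
    rw [mul_eq_one_iff_inv_eq] at e
    rw [← e, ← conjBy_conjBy, conjBy_eq_iff, inv_inv, conjBy_conjBy, hm', mul_inv_cancel_right,
      ← conjBy_conjBy (h := a), ← conjBy_conjBy (h := a), conjBy_inj, conjBy_of_mem (B.inv_mem hb.hb)] at e2
    exact ‹x ≠ 1› (r1_eq_one hs.1 hx e2)
  obtain ⟨x3, hx3, e3, v3⟩ := swap_point hs hm hA hB (A.mul_mem ha hx2) h2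
  have e4 : x1 = a * x3 := by
    apply r1_conjBy_inj hs.1 hx1 (A.mul_mem ha hx3)
    rw [← e1, ← conjBy_conjBy _ x3 a, ← e3, conjBy_conjBy,
      show a * (m * (a * x2)) = (a * m * a) * x2 by group, ← conjBy_conjBy _ x2, ← e2, conjBy_conjBy]
    congr 1
    calc m * x = a * b⁻¹ * a * x := by rw [hm']
      _ = _ := by rw [← hom]; group
  letI : CommGroup A := { (inferInstance : Group A) with mul_comm := hab.1.is_comm.comm }
  have key : (⟨a, ha⟩ * ⟨x, hx⟩ * ⟨x, hx⟩ : A) = (⟨x3, hx3⟩ * (⟨a, ha⟩ * ⟨x2, hx2⟩))⁻¹ *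
      ((⟨a, ha⟩ * ⟨x3, hx3⟩) * ⟨x, hx⟩) * (⟨x2, hx2⟩ * (⟨a, ha⟩ * ⟨x, hx⟩)) := by
    apply Additive.ofMul.injective
    simp only [ofMul_mul, ofMul_inv]
    abel
  have key' : a * x * x = (x3 * (a * x2))⁻¹ * ((a * x3) * x) * (x2 * (a * x)) := congrArg Subtype.val key
  rw [key']
  exact Subgroup.mul_mem _ (Subgroup.mul_mem _ (Subgroup.inv_mem _ v3) (e4 ▸ v1)) v2

theorem big {G : Type*} [Group G] {A B : Subgroup G} (hs : IsSpecialRankOnePair A B)
    (hab : HasAbelianUnipotents A B) (hc : 3 < ENat.card A) : A ≤ ⁅A, rankOneDiagonal A B⁆ := by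
  classical
  set V := ⁅A, rankOneDiagonal A B⁆
  have cong : ∀ a ∈ A, ∀ x ∈ A, a ≠ 1 → x ≠ 1 → a * x ≠ 1 → x * a⁻¹ ∈ V := by
    intro a ha x hx a1 x1 ax
    have c := comm_of_isMulCommutative hab.1 ha hx
    have h1 := two_add hs hab ha a1 hx x1 ax
    have h2 := two_add hs hab hx x1 ha a1 (c ▸ ax)
    have : x * a⁻¹ = (x * a * a)⁻¹ * (a * x * x) := by
      rw [eq_inv_mul_iff_mul_eq, ← c]
      calc a * x * a * (x * a⁻¹) = a * x * (a * x) * a⁻¹ := by group
        _ = _ := by conv_lhs => enter [1, 2]; rw [c]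
                    group
    rw [this]; exact V.mul_mem (V.inv_mem h2) h1
  obtain ⟨a, ha, a1⟩ := r1_exists_ne_one hs.1
  have : ∃ x : A, x ∉ ({1, ⟨a, ha⟩, ⟨a⁻¹, A.inv_mem ha⟩} : Finset A) := by
    by_contra hn
    push Not at hn
    have h1 : ENat.card A ≤ 3 := by
      have : Fintype A := ⟨_, hn⟩
      rw [ENat.card_eq_coe_fintype_card]
      have := Finset.card_le_card (fun x _ => hn x : Finset.univ ⊆ _)
      have h3 := this.trans Finset.card_le_three
      exact_mod_cast h3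
    exact absurd hc (not_lt.2 h1)
  obtain ⟨⟨x, hx⟩, hx'⟩ := this
  simp only [Finset.mem_insert, Finset.mem_singleton, not_or, Subtype.ext_iff] at hx'
  obtain ⟨x1, x2, x3⟩ := hx'
  have hy := cong a ha x hx a1 x1 (fun e => x3 (eq_inv_of_mul_eq_one_right e))
  have hyA : x * a⁻¹ ∈ A := A.mul_mem hx (A.inv_mem ha)
  have y1 : x * a⁻¹ ≠ 1 := fun e => x2 (mul_inv_eq_one.1 e)
  intro z hz
  by_cases z1 : z = 1
  · rw [z1]; exact V.one_mem
  by_cases z2 : x * a⁻¹ * z = 1
  · rw [eq_inv_of_mul_eq_one_right z2]; exact V.inv_mem hy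
  · have := V.mul_mem (cong _ hyA z hz y1 z1 z2) hy
    rwa [inv_mul_cancel_right] at this

/-- Let X be a special rank one group with abelian unipotent subgroups A and B, and H = N(A) ∩ N(B) its diagonal subgroup. Then either A has at most three elements and X is isomorphic to SL₂(2), SL₂(3) or PSL₂(3); or X = X' A with the commutator subgroup X' quasisimple and the commutator subgroup ⁅A, H⁆ having more than three elements. -/
theorem result {X : Type*} [Group X] {A B : Subgroup X} (h : Cfsg.IsRankOneGroup X A B)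
    (hs : Cfsg.IsSpecialRankOnePair A B) (hab : Cfsg.HasAbelianUnipotents A B) :
    (ENat.card A ≤ 3 ∧ (Nonempty (X ≃* Matrix.SpecialLinearGroup (Fin 2) (ZMod 2)) ∨
        Nonempty (X ≃* Matrix.SpecialLinearGroup (Fin 2) (ZMod 3)) ∨
        Nonempty (X ≃* Matrix.ProjectiveSpecialLinearGroup (Fin 2) (ZMod 3)))) ∨
    (commutator X ⊔ A = ⊤ ∧ Cfsg.IsQuasisimple (commutator X) ∧
      3 < ENat.card ↥(⁅A, Cfsg.rankOneDiagonal A B⁆ : Subgroup X)) := by
  by_cases hc : 3 < ENat.card A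
  · right
    have h1 := big hs hab hc
    have h2 : A ≤ commutator X := h1.trans (Subgroup.commutator_mono le_top le_top)
    have h3 : commutator X = ⊤ := by
      rw [eq_top_iff, ← h.1]
      refine sup_le h2 ?_
      obtain ⟨x, -, e⟩ := r1_exists_conj h.2
      rw [← e, ← conjBy_normal (commutator X) x]
      exact conjBy_mono h2 x
    have h4 : ⁅A, rankOneDiagonal A B⁆ = A := by
      apply le_antisymm _ h1
      rw [Subgroup.commutator_le]
      intro a ha g hg
      rw [commutatorElement_def, mul_assoc, mul_assoc]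
      apply A.mul_mem ha
      rw [← mul_assoc, ← conjBy_eq_self_iff.2 hg.1.2]
      exact conj_mem_conjBy (A.inv_mem ha) g
    refine ⟨by rw [h3, top_sup_eq], ?_, by rwa [h4]⟩
    have hq := (S5017.result h).2 ⟨h3⟩
    rw [h3]
    let e : (⊤ : Subgroup X) ≃* X := Subgroup.topEquiv
    refine ⟨?_, ?_⟩
    · haveI := hq.1
      exact Group.IsPerfect.ofSurjective (f := e.symm.toMonoidHom) e.symm.surjective
    · haveI := hq.2
      have e2 : (⊤ : Subgroup X) ⧸ Subgroup.center (⊤ : Subgroup X) ≃* X ⧸ Subgroup.center X :=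
        QuotientGroup.congr _ _ e (by
          ext x; simp only [Subgroup.mem_map, Subgroup.mem_center_iff]
          constructor
          · rintro ⟨y, hy, rfl⟩ g
            exact congrArg Subtype.val (hy ⟨g, trivial⟩)
          · intro hx
            exact ⟨⟨x, trivial⟩, fun g => Subtype.ext (hx g), rfl⟩)
      exact e2.isSimpleGroup
  · left
    push Not at hc
    refine ⟨hc, ?_⟩
    have hfin : Finite A := by
      rw [← ENat.card_lt_top]; exact lt_of_le_of_lt hc (ENat.coe_lt_top 3)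
    have hc' : Nat.card A ≤ 3 := by
      rw [ENat.card_eq_coe_natCard] at hc; exact_mod_cast hc
    have hc1 : 1 < Nat.card A := (Subgroup.one_lt_card_iff_ne_bot A).2 (r1_ne_bot h.2)
    have hp : (Nat.card A).Prime := by
      interval_cases Nat.card A <;> norm_num
    obtain ⟨a, ha, a1⟩ := r1_exists_ne_one h.2
    obtain ⟨b, hb⟩ := RR_exists h.2 ha a1
    obtain ⟨x, -, e⟩ := r1_exists_conj h.2
    have hcB : Nat.card B = Nat.card A := by rw [← e]; exact (Nat.card_congr (conjByEquiv A x).toEquiv).symm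
    have gen : ∀ (C : Subgroup X) (c : X), c ∈ C → c ≠ 1 → (Nat.card C).Prime → C ≤ Subgroup.zpowers c := by
      intro C c hc c1 hp y hy
      haveI := Fact.mk hp
      obtain ⟨k, hk⟩ := mem_zpowers_of_prime_card (g := (⟨c, hc⟩ : C)) (g' := ⟨y, hy⟩) rfl
        (fun e => c1 (congrArg Subtype.val e))
      exact ⟨k, congrArg Subtype.val hk⟩
    have htop : Subgroup.closure ({a, b} : Set X) = ⊤ := by
      rw [eq_top_iff, ← h.1]
      apply sup_le
      · exact (gen A a ha a1 hp).trans ((Subgroup.zpowers_le).2 (Subgroup.subset_closure (by simp)))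
      · exact (gen B b hb.hb hb.b1 (hcB ▸ hp)).trans
          ((Subgroup.zpowers_le).2 (Subgroup.subset_closure (by simp)))
    have hap : a ^ Nat.card A = 1 :=
      congrArg Subtype.val (pow_card_eq_one' (x := (⟨a, ha⟩ : A)))
    have e0 : X ≃* Subgroup.closure ({a, b} : Set X) := by rw [htop]; exact Subgroup.topEquiv.symm
    have h23 : Nat.card A = 2 ∨ Nat.card A = 3 := by omega
    rcases h23 with h2 | h3
    · rw [h2] at hap
      left
      rcases special_closure_iso hs hab hb hap with ⟨⟨f⟩⟩ | ⟨⟨f⟩⟩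
      · exact ⟨e0.trans f⟩
      · have hz : Subgroup.center (Matrix.SpecialLinearGroup (Fin 2) (ZMod 2)) = ⊥ := by
          rw [eq_bot_iff]
          intro z hz
          obtain ⟨r, hr, e⟩ := Matrix.SpecialLinearGroup.mem_center_iff.1 hz
          have : r = 1 := by clear e; revert hr; revert r; decide
          apply Subtype.ext; rw [← e, this, map_one]; rfl
        exact ⟨e0.trans (f.trans ((QuotientGroup.quotientMulEquivOfEq hz).trans QuotientGroup.quotientBot))⟩
    · rw [h3] at hap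
      right
      rcases special_closure_iso hs hab hb hap with ⟨⟨f⟩⟩ | ⟨⟨f⟩⟩
      · exact Or.inl ⟨e0.trans f⟩
      · exact Or.inr ⟨e0.trans f⟩

end Cfsg.Agent.S5020
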