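import Cfsg.Statements.S5023
import Cfsg.Agent.H29.RankOneQuad

set_option autoImplicit false
open Cfsg

namespace Cfsg.Agent.S5023
open Cfsg.Agent.H29


/-- Let X be a rank one group with unipotent subgroups A and B that acts faithfully on an abelian group V (written additively) with A acting quadratically: a' • (a • v − v) = a • v − v for all a, a' in A and v in V. Then A is either torsion-free or an elementary abelian p-group for some prime p. -/
theorem result {X : Type*} [Group X] {A B : Subgroup X} (h : Cfsg.IsRankOneGroup X A B)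
    {V : Type*} [AddCommGroup V] [DistribMulAction X V] (hf : ∀ x : X, (∀ v : V, x • v = v) → x = 1)
    (hq : ∀ a ∈ A, ∀ a' ∈ A, ∀ v : V, a' • (a • v - v) = a • v - v) :
    (∀ a ∈ A, a ≠ 1 → ¬ IsOfFinOrder a) ∨ ∃ p : ℕ, p.Prime ∧ Cfsg.IsElementaryAbelian p A := by
  have hq' : QuadOn A V := fun a ha n a' ha' => hq a ha a' ha' n
  have hr := h.2
  have hmul : ∀ a ∈ A, ∀ a' ∈ A, ∀ v : V, (a * a') • v - v = (a • v - v) + (a' • v - v) := by
    intro a ha a' ha' v
    have := hq a' ha' a ha v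
    rw [smul_sub] at this
    rw [mul_smul]
    linear_combination (norm := abel_nf) this
  have hcomm : IsMulCommutative A := by
    apply isMulCommutative_of_comm
    intro a ha a' ha'
    rw [← mul_inv_eq_one]
    apply hf
    intro v
    rw [mul_smul]
    set w := (a' * a)⁻¹ • v
    have h1 := hmul a ha a' ha' w
    have h2 := hmul a' ha' a ha w
    have h3 : (a' * a) • w = v := smul_inv_smul _ _
    rw [← h3]
    linear_combination (norm := abel_nf) h1 - h2
  have hpow : ∀ a ∈ A, ∀ n : ℕ, ∀ v : V, (a ^ n) • v - v = n • (a • v - v) := by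
    intro a ha n v
    induction n with
    | zero => simp
    | succ n ih => rw [pow_succ, hmul _ (A.pow_mem ha n) a ha, ih, succ_nsmul]
  -- if `Fix B` is fixed by everything we get a contradiction
  have hcontra : ¬ ∀ u : V, FixBy B u → FixBy (B ⊔ A) u := by
    intro hF
    have h1 := r1_quad_triv (r1_symm hr) (r1_quad_right hr hq') hF
    apply r1_not_comm hr
    rw [comm_bot_iff]
    intro a ha b hb
    rw [← mul_inv_eq_one]
    apply hf
    intro v
    rw [mul_smul]
    set w := (b * a)⁻¹ • v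
    have h3 : (b * a) • w = v := smul_inv_smul _ _
    have h4 := h1 a (Subgroup.mem_sup_right ha) w b (Subgroup.mem_sup_left hb)
    have h5 := h1 b (Subgroup.mem_sup_left hb) w a (Subgroup.mem_sup_right ha)
    rw [← h3, mul_smul, mul_smul]
    rw [smul_sub] at h4 h5
    linear_combination (norm := abel_nf) h5 - h4
  have hkey : ∀ a ∈ A, a ≠ 1 → ∃ b ∈ B, ∀ u : V, FixBy A u →
      FixBy (A ⊔ B) (u - (a • (b • u - u) - (b • u - u))) := by
    intro a ha ha1
    obtain ⟨b, hb, -, e⟩ := r1_cond hr ha ha1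
    exact ⟨b, hb, fun u hu => r1_quad_key hr hq' ha hb e hu⟩
  have hkey' : ∀ a ∈ A, a ≠ 1 → ∃ b ∈ B, ∀ u : V, FixBy B u →
      FixBy (B ⊔ A) (u - (b • (a • u - u) - (a • u - u))) := by
    intro a ha ha1
    obtain ⟨b, hb, -, e⟩ := r1_cond hr ha ha1
    exact ⟨b, hb, fun u hu => r1_quad_key (r1_symm hr) (r1_quad_right hr hq') hb ha e.symm hu⟩
  by_cases hfin : ∀ a ∈ A, a ≠ 1 → ¬ IsOfFinOrder a
  · exact Or.inl hfin
  right
  push Not at hfin
  obtain ⟨a, ha, ha1, hfo⟩ := hfin
  obtain ⟨p, hp, hdvd⟩ := Nat.exists_prime_and_dvd (n := orderOf a) (by rwa [ne_eq, orderOf_eq_one_iff])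
  have ho : orderOf (a ^ (orderOf a / p)) = p := orderOf_pow_orderOf_div hfo.orderOf_pos.ne' hdvd
  set a0 := a ^ (orderOf a / p)
  have ha0 : a0 ∈ A := A.pow_mem ha _
  have ha01 : a0 ≠ 1 := by
    intro e; rw [e, orderOf_one] at ho; exact hp.one_lt.ne ho
  have hp0 : ∀ v : V, p • (a0 • v - v) = 0 := by
    intro v; rw [← hpow a0 ha0, ← ho, pow_orderOf_eq_one]; simp
  refine ⟨p, hp, hcomm, fun a' ha' => ?_⟩
  by_contra hz
  apply hcontra
  obtain ⟨b, hb, hk⟩ := hkey a0 ha0 ha01
  obtain ⟨b', hb', hk'⟩ := hkey' _ (A.pow_mem ha' p) hz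
  intro u hu
  have h1 : FixBy (A ⊔ B) ((a' ^ p) • u - u) := by
    rw [hpow a' ha']
    intro x hx
    have h2 := hk _ (hq' a' ha' u) x hx
    set w := a' • u - u
    have h3 := congrArg (fun z => p • z) h2
    rw [smul_comm, nsmul_sub, hp0, sub_zero] at h3
    exact h3
  have h2 := hk' u hu
  rwa [h1 b' (Subgroup.mem_sup_right hb'), sub_self, sub_zero] at h2

end Cfsg.Agent.S5023
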