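import Cfsg.Statements.S5024
import Cfsg.Agent.H29.Root1

set_option autoImplicit false
open Cfsg

namespace Cfsg.Agent.S5024
open Cfsg.Agent.H29


/-- Let S be a set of abstract root subgroups of G, A and C members of S, B a rank one partner of A in S and D a rank one partner of C in S. If the rank one group ⟨A, B⟩ is contained in ⟨C, D⟩ then the two coincide, and C and D are conjugates of A inside ⟨A, B⟩. -/
theorem result {G : Type*} [Group G] {S : Set (Subgroup G)} (hS : Cfsg.IsRootSubgroupSet S)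
    {A B C D : Subgroup G} (hA : A ∈ S) (hC : C ∈ S) (hB : B ∈ Cfsg.rankOnePartners S A) (hD : D ∈ Cfsg.rankOnePartners S C)
    (hle : A ⊔ B ≤ C ⊔ D) : A ⊔ B = C ⊔ D ∧ C ∈ Cfsg.unipotentSubgroups A B ∧ D ∈ Cfsg.unipotentSubgroups A B := by
  have h1 : A ∈ unipotentSubgroups C D :=
    (unip_or_central hS hC hD.2 hA (le_sup_left.trans hle)).resolve_right
      (fun e => r1_not_comm hB.2 (cm_mono e le_rfl (le_sup_right.trans hle)))
  have h2 : B ∈ unipotentSubgroups C D :=
    (unip_or_central hS hC hD.2 hB.1 (le_sup_right.trans hle)).resolve_right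
      (fun e => r1_not_comm (r1_symm hB.2) (cm_mono e le_rfl (le_sup_left.trans hle)))
  refine ⟨(r1_of_unip hD.2 h1 h2 hB.2.ne).2, ?_⟩
  rw [r1_unip_eq hD.2 h1 h2 hB.2.ne]
  exact ⟨left_mem_unip, r1_right_mem_unip hD.2⟩

end Cfsg.Agent.S5024
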