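import Cfsg.Statements.S5026
import Cfsg.Agent.H29.Root1

set_option autoImplicit false
open Cfsg

namespace Cfsg.Agent.S5026
open Cfsg.Agent.H29


/-- Let S be a degenerate set of abstract root subgroups of G (a set of abstract transvection groups) and let a, b be commuting non-identity elements of members of S with a b ≠ 1. Then the members of S centralizing a b are exactly those centralizing both a and b. -/
theorem result {G : Type*} [Group G] {S : Set (Subgroup G)} (hS : Cfsg.IsRootSubgroupSet S) (hdeg : Cfsg.IsDegenerateRootSet S)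
    {a b : G} (ha : a ∈ Cfsg.rootElements S) (hb : b ∈ Cfsg.rootElements S) (hab : a * b = b * a) (hab1 : a * b ≠ 1) :
    Cfsg.centralizingMembers S (Subgroup.zpowers (a * b)) =
      Cfsg.centralizingMembers S (Subgroup.zpowers a) ∩ Cfsg.centralizingMembers S (Subgroup.zpowers b) := by
  have key : ∀ {x : G} {C : Subgroup G}, C ≤ Subgroup.centralizer (Subgroup.zpowers x : Set G) ↔
      ∀ c ∈ C, x * c = c * x := by
    intro x C
    constructor
    · intro h c hc; exact h hc x (Subgroup.mem_zpowers x)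
    · rintro h c hc _ ⟨k, rfl⟩
      exact (Commute.zpow_left (h c hc) k)
  have main : ∀ {a b : G}, a ∈ rootElements S → b ∈ rootElements S → a * b = b * a → a * b ≠ 1 →
      ∀ C ∈ S, (∀ c ∈ C, a * b * c = c * (a * b)) → ∀ c ∈ C, a * c = c * a := by
    rintro a b ⟨a1, A, hA, ha⟩ ⟨b1, B, hB, hb⟩ hab hab1 C hC h
    by_contra hn
    have h1 : IsRankOnePair A C := by
      rcases hS.pair A hA C hC with e | e | e
      · exact absurd (comm_bot_iff.1 e a ha) hn
      · exact e
      · exact absurd e (hdeg A hA C hC)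
    have e1 : conjBy C b⁻¹ = conjBy C a := by
      rw [eq_comm, conjBy_eq_conjBy_iff, inv_inv, ← hab]
      exact conjBy_of_comm h
    have h2 := r1_self_conj h1 ha a1
    have h3 := r1_of_self_conj hS hC hB (B.inv_mem hb) (e1 ▸ h2.1)
    rw [e1, h2.2] at h3
    rcases unip_or_central hS hA h1 hB (h3.2 ▸ le_sup_left) with u | u
    · have e2 : A = conjBy A b := ti_of_r1 hS hA hC h1 (hS.conj_mem A hA b) ha
        (by rw [mem_conjBy, mul_assoc, hab, inv_mul_cancel_left]; exact ha) a1
      have e3 := r1_fix_eq h1 u left_mem_unip hb b1 e2.symm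
      exact hab1 (r1_eq_one_of_comm h1 (A.mul_mem ha (e3 ▸ hb)) h)
    · exact r1_not_comm h3.1 (cm_mono u le_rfl le_sup_right)
  ext C
  simp only [centralizingMembers, Set.mem_inter_iff, Set.mem_setOf_eq, key]
  constructor
  · rintro ⟨hC, h⟩
    exact ⟨⟨hC, main ha hb hab hab1 C hC h⟩, hC, main hb ha hab.symm (hab ▸ hab1) C hC (hab ▸ h)⟩
  · rintro ⟨⟨hC, h1⟩, -, h2⟩
    exact ⟨hC, fun c hc => Commute.mul_left (h1 c hc) (h2 c hc)⟩

end Cfsg.Agent.S5026
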