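import Cfsg.Statements.S5027
import Cfsg.Agent.H29.Root1

set_option autoImplicit false
open Cfsg

namespace Cfsg.Agent.S5027
open Cfsg.Agent.H29


/-- Let S be a set of abstract root subgroups of G such that every member of S has a rank one partner in S (the graph of rank one pairs on S has no isolated vertex). Then the second centre of G equals its centre. -/
theorem result {G : Type*} [Group G] {S : Set (Subgroup G)} (hS : Cfsg.IsRootSubgroupSet S)
    (hF : ∀ A ∈ S, ¬ Cfsg.IsIsolatedIn (Cfsg.FAdj S) S A) : Subgroup.upperCentralSeries G 2 = Subgroup.center G := by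
  apply le_antisymm
  · intro z hz
    rw [Subgroup.mem_upperCentralSeries_succ_iff, Subgroup.upperCentralSeries_one] at hz
    have : (⊤ : Subgroup G) ≤ Subgroup.centralizer {z} := by
      rw [← hS.generates]
      refine iSup₂_le fun A hA a ha => ?_
      rw [Subgroup.mem_centralizer_singleton_iff]
      by_contra hne
      obtain ⟨D, hD, h⟩ := (nonIso_iff hA).1 (hF A hA)
      have hc := Subgroup.mem_center_iff.1 (hz a)
      refine not_root_central_mul hS hA hD h (fun x _ => (hc x).symm) (fun x _ => (hc x).symm)
        (fun e => hne (commutatorElement_eq_one_iff_mul_comm.1 e).symm) ha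
        (by rintro rfl; simp at hne) (hS.conj_mem A hA z) ?_
      rw [commutatorElement_def, inv_mul_cancel_right]
      exact conj_mem_conjBy ha z
    rw [Subgroup.mem_center_iff]
    exact fun g => Subgroup.mem_centralizer_singleton_iff.1 (this (Subgroup.mem_top g))
  · rw [← Subgroup.upperCentralSeries_one]
    exact Subgroup.upperCentralSeries_mono G (by norm_num)

end Cfsg.Agent.S5027
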