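import Cfsg.Statements.S5029
import Cfsg.Agent.H29.Root2

set_option autoImplicit false
open Cfsg

namespace Cfsg.Agent.S5029
open Cfsg.Agent.H29

open scoped commutatorElement

/-- Let S be a set of abstract root subgroups of G, A ∈ S having a rank one partner in S, and B ∈ S with C = ⁅A, B⁆ ∈ S. Then the members of S contained in AC are the conjugates of A by elements of B together with C, they partition AC, the members of S inside AC partition AC so that A is a line partner of C, and for every non-identity a ∈ A the map b ↦ a⁻¹ b⁻¹ a b is an isomorphism from B onto C. -/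
theorem result {G : Type*} [Group G] {S : Set (Subgroup G)} (hS : Cfsg.IsRootSubgroupSet S)
    {A B : Subgroup G} (hA : ¬ Cfsg.IsIsolatedIn (Cfsg.FAdj S) S A) (hAS : A ∈ S) (hB : B ∈ S) (hC : ⁅A, B⁆ ∈ S) :
    Cfsg.membersIn S (A ⊔ ⁅A, B⁆) = (fun b : G => Cfsg.conjBy A b) '' (B : Set G) ∪ {⁅A, B⁆} ∧
    Cfsg.IsSubgroupPartition (A ⊔ ⁅A, B⁆) (Cfsg.membersIn S (A ⊔ ⁅A, B⁆)) ∧
    A ∈ Cfsg.linePartners S ⁅A, B⁆ ∧
    ∀ a ∈ A, a ≠ 1 → ∃ φ : ↥B ≃* ↥⁅A, B⁆, ∀ b : ↥B, (φ b : G) = a⁻¹ * (b : G)⁻¹ * a * b := by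
  have hN := (nonIso_iff hAS).1 hA
  have h := RC_of_mem hS hAS hB hC
  refine ⟨?_, line_partition hS hAS hN h, line_partner hS hAS hN h, fun a ha a1 => ?_⟩
  · ext E
    constructor
    · intro hE
      rcases line_members hS hAS hN h hE.1 hE.2 with ⟨b, hb, e⟩ | e
      · exact Or.inl ⟨b, hb, e⟩
      · exact Or.inr e
    · rintro (⟨b, hb, rfl⟩ | rfl)
      · exact ⟨hS.conj_mem A hAS b, conjBy_le_sup_comm hb⟩
      · exact ⟨hC, le_sup_right⟩
  · let f : B →* ↥⁅A, B⁆ := MonoidHom.mk' (fun b => ⟨⁅a⁻¹, (b : G)⁻¹⁆,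
      Subgroup.commutator_mem_commutator (A.inv_mem ha) (B.inv_mem b.2)⟩) (by
        intro b b'
        apply Subtype.ext
        have c1 := cm_el (RC_right h) (B.inv_mem b'.2)
          (Subgroup.commutator_mem_commutator (A.inv_mem ha) (B.inv_mem b.2))
        have c2 := cm_el (cm_self (hS.commutative _ hC))
          (Subgroup.commutator_mem_commutator (A.inv_mem ha) (B.inv_mem b.2))
          (Subgroup.commutator_mem_commutator (A.inv_mem ha) (B.inv_mem b'.2))
        change ⁅a⁻¹, ((b : G) * b')⁻¹⁆ = ⁅a⁻¹, (b : G)⁻¹⁆ * ⁅a⁻¹, (b' : G)⁻¹⁆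
        rw [c2]
        calc ⁅a⁻¹, ((b : G) * b')⁻¹⁆ = ⁅a⁻¹, (b' : G)⁻¹⁆ * ((b' : G)⁻¹ * ⁅a⁻¹, (b : G)⁻¹⁆) * b' := by
              simp only [commutatorElement_def]; group
          _ = _ := by rw [c1]; group)
    have hinj : Function.Injective f := by
      rw [injective_iff_map_eq_one]
      intro b hb
      have h1 : ⁅a⁻¹, (b : G)⁻¹⁆ = 1 := congrArg Subtype.val hb
      have := RC_inj hS hAS hN h (A.inv_mem ha) (B.inv_mem b.2) (inv_ne_one.2 a1)
        (commutatorElement_eq_one_iff_mul_comm.1 h1)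
      exact Subtype.ext (inv_eq_one.1 this)
    have hsurj : Function.Surjective f := by
      rintro ⟨c, hc⟩
      obtain ⟨b, hb, rfl⟩ := RC_surj h (A.inv_mem ha) (inv_ne_one.2 a1) hc
      exact ⟨⟨b⁻¹, B.inv_mem hb⟩, Subtype.ext (by simp [f])⟩
    exact ⟨MulEquiv.ofBijective f ⟨hinj, hsurj⟩, fun b => by simp [f, commutatorElement_def]⟩

end Cfsg.Agent.S5029
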