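import Cfsg.Statements.S5030
import Cfsg.Agent.H29.Root2

set_option autoImplicit false
open Cfsg

namespace Cfsg.Agent.S5030
open Cfsg.Agent.H29


/-- Let S be a set of abstract root subgroups of G and A, B, C ∈ S with ⁅A, B⁆ ∈ S and ⁅B, C⁆ ∈ S, where A and C are different and commute. For a non-identity b ∈ B put X = ⟨A, b⁻¹ C b⟩ and Y = ⟨b⁻¹ A b, C⟩ and R = ⟨A, B, C⟩. Then X and Y are either both abelian or both nilpotent of class exactly two; X and Y commute elementwise; XY is normal in R with R = (XY) B; and R is nilpotent. -/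
theorem result {G : Type*} [Group G] {S : Set (Subgroup G)} (hS : Cfsg.IsRootSubgroupSet S)
    {A B C : Subgroup G} (hA : A ∈ S) (hB : B ∈ S) (hC : C ∈ S) (hAB : ⁅A, B⁆ ∈ S) (hBC : ⁅B, C⁆ ∈ S)
    (hAC : C ∈ Cfsg.commutingPartners S A)
    {b : G} (hb : b ∈ B) (hb1 : b ≠ 1) :
    ((IsMulCommutative ↥(A ⊔ Cfsg.conjBy C b⁻¹) ∧ IsMulCommutative ↥(Cfsg.conjBy A b⁻¹ ⊔ C)) ∨
      ((¬ IsMulCommutative ↥(A ⊔ Cfsg.conjBy C b⁻¹) ∧
          ⁅⁅A ⊔ Cfsg.conjBy C b⁻¹, A ⊔ Cfsg.conjBy C b⁻¹⁆, A ⊔ Cfsg.conjBy C b⁻¹⁆ = ⊥) ∧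
        (¬ IsMulCommutative ↥(Cfsg.conjBy A b⁻¹ ⊔ C) ∧
          ⁅⁅Cfsg.conjBy A b⁻¹ ⊔ C, Cfsg.conjBy A b⁻¹ ⊔ C⁆, Cfsg.conjBy A b⁻¹ ⊔ C⁆ = ⊥))) ∧
    ⁅A ⊔ Cfsg.conjBy C b⁻¹, Cfsg.conjBy A b⁻¹ ⊔ C⁆ = ⊥ ∧
    (∀ r ∈ A ⊔ B ⊔ C, Cfsg.conjBy ((A ⊔ Cfsg.conjBy C b⁻¹) ⊔ (Cfsg.conjBy A b⁻¹ ⊔ C)) r =
      (A ⊔ Cfsg.conjBy C b⁻¹) ⊔ (Cfsg.conjBy A b⁻¹ ⊔ C)) ∧
    ((A ⊔ Cfsg.conjBy C b⁻¹) ⊔ (Cfsg.conjBy A b⁻¹ ⊔ C)) ⊔ B = A ⊔ B ⊔ C ∧
    Group.IsNilpotent ↥(A ⊔ B ⊔ C) := by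
  have h1 := RC_of_mem hS hA hB hAB
  have h2 := RC_symm (RC_of_mem hS hB hC hBC)
  have hc : ⁅A, C⁆ = ⊥ := hAC.2.2
  have hb' := B.inv_mem hb
  have b1 := inv_ne_one.2 hb1
  obtain ⟨k1, k2, k3⟩ := triple_main hS hA hB hC h1 h2 hc hb' b1
  have n1 := class_two_of_not_r1 hS hA (hS.conj_mem C hC b⁻¹) (triple_not_r1 hS hA hC h2 hc hb')
  have n2 := class_two_of_not_r1 hS (hS.conj_mem A hA b⁻¹) hC
    (fun h => triple_not_r1 hS hC hA h1 (cm_symm hc) hb' (r1_symm h))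
  have key : ∀ {A C : Subgroup G}, A ∈ S → C ∈ S → RootCommutatorCase S A B → RootCommutatorCase S C B →
      ⁅A, C⁆ = ⊥ → IsMulCommutative ↥(A ⊔ conjBy C b⁻¹) → IsMulCommutative ↥(conjBy A b⁻¹ ⊔ C) := by
    intro A C hA hC h1 h2 hc h
    have e1 : ⁅A, conjBy C b⁻¹⁆ = ⊥ := cm_mono (cm_self h) le_sup_left le_sup_right
    have e2 := cm_sup_right hc e1
    rw [RC_sup_conjBy h2 hb' b1] at e2
    have e3 : ⁅⁅A, B⁆, C⁆ = ⊥ := Subgroup.commutator_commutator_eq_bot_of_rotate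
      (by rw [Subgroup.commutator_comm B C]; exact cm_symm (cm_mono e2 le_rfl le_sup_right))
      (by rw [cm_symm hc, Subgroup.commutator_bot_left])
    exact comm_of_sup (hS.commutative _ (hS.conj_mem A hA _)) (hS.commutative C hC)
      (cm_mono (cm_sup_left hc e3) (conjBy_le_sup_comm hb') le_rfl)
  refine ⟨?_, k1, ?_, ?_, k3⟩
  · by_cases h : IsMulCommutative ↥(A ⊔ conjBy C b⁻¹)
    · exact Or.inl ⟨h, key hA hC h1 h2 hc h⟩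
    · refine Or.inr ⟨⟨h, n1⟩, fun h' => h ?_, n2⟩
      rw [sup_comm] at h' ⊢
      exact key hC hA h2 h1 (cm_symm hc) h'
  · rw [k2]
    have n : A ⊔ B ⊔ C ≤ Subgroup.normalizer (((A ⊔ ⁅A, B⁆) ⊔ (C ⊔ ⁅C, B⁆) : Subgroup G) : Set G) :=
      sup_le (sup_le ((le_sup_left.trans le_sup_left).trans Subgroup.le_normalizer)
        (fun x hx => norm_sup (le_norm_sup_comm hx) (le_norm_sup_comm hx)))
        ((le_sup_left.trans le_sup_right).trans Subgroup.le_normalizer)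
    exact fun r hr => conjBy_eq_self_iff.2 (n hr)
  · apply le_antisymm
    · have hA' : A ≤ A ⊔ B ⊔ C := le_sup_left.trans le_sup_left
      have hB' : B ≤ A ⊔ B ⊔ C := le_sup_right.trans le_sup_left
      exact sup_le (sup_le (sup_le hA' (conjBy_le_of_mem le_sup_right (hB' hb')))
        (sup_le (conjBy_le_of_mem hA' (hB' hb')) le_sup_right)) hB'
    · exact sup_le (sup_le ((le_sup_left.trans le_sup_left).trans le_sup_left) le_sup_right)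
        ((le_sup_right.trans le_sup_right).trans le_sup_left)

end Cfsg.Agent.S5030
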