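import Cfsg.Statements.S5031
import Cfsg.Agent.H29.Root2

set_option autoImplicit false
open Cfsg

namespace Cfsg.Agent.S5031
open Cfsg.Agent.H29


/-- Let S be a set of abstract root subgroups of G and let A, B ∈ S lie in different connected components of the graph of rank one pairs on S, each component having more than one member. Then B is not a line partner of A. -/
theorem result {G : Type*} [Group G] {S : Set (Subgroup G)} (hS : Cfsg.IsRootSubgroupSet S)
    {A B : Subgroup G} (hA : A ∈ S) (hB : B ∈ S)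
    (hne : Cfsg.componentOf (Cfsg.FAdj S) S A ≠ Cfsg.componentOf (Cfsg.FAdj S) S B)
    (hA2 : ∃ A' ∈ Cfsg.componentOf (Cfsg.FAdj S) S A, A' ≠ A) (hB2 : ∃ B' ∈ Cfsg.componentOf (Cfsg.FAdj S) S B, B' ≠ B) :
    B ∉ Cfsg.linePartners S A := by
  intro hL
  have ni : ∀ {A : Subgroup G}, (∃ A' ∈ componentOf (FAdj S) S A, A' ≠ A) → NonIso S A := by
    rintro A ⟨A', ⟨-, hp⟩, hne⟩
    rcases hp.cases_head with e | ⟨c, hc, -⟩
    · exact absurd e.symm hne
    · exact ⟨c, hc.2.1, hc.2.2⟩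
  have nA := ni hA2
  have nB := ni hB2
  have np : ¬ Relation.ReflTransGen (FAdj S) A B := by
    intro hp
    apply hne
    ext E
    exact ⟨fun h => ⟨h.1, (path_symm hp).trans h.2⟩, fun h => ⟨h.1, hp.trans h.2⟩⟩
  obtain ⟨⟨a, ha⟩, a1⟩ := Subgroup.ne_bot_iff_exists_ne_one.1 (hS.ne_bot A hA)
  obtain ⟨⟨b, hb⟩, b1⟩ := Subgroup.ne_bot_iff_exists_ne_one.1 (hS.ne_bot B hB)
  have a1 : a ≠ 1 := fun e => a1 (Subtype.ext e)
  have b1 : b ≠ 1 := fun e => b1 (Subtype.ext e)
  have hc := hL.1.2.2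
  have ab1 : a * b ≠ 1 := fun e =>
    hL.1.2.1 (nA.ti hS hA hB ha (by rw [eq_inv_of_mul_eq_one_left e]; exact B.inv_mem hb) a1).symm
  obtain ⟨P, hP, hp⟩ := hL.2.2.1 (a * b)
    (Subgroup.mul_mem _ (Subgroup.mem_sup_left ha) (Subgroup.mem_sup_right hb)) ab1
  have hL' := cm_self (comm_of_sup (hS.commutative A hA) (hS.commutative B hB) hc)
  have key : ∀ {A B : Subgroup G} {a b : G}, A ∈ S → B ∈ S → NonIso S A → ⁅P, B⁆ = ⊥ → a ∈ A → a ≠ 1 →
      b ∈ B → a * b ∈ P → ¬ Relation.ReflTransGen (FAdj S) A B → Relation.ReflTransGen (FAdj S) A P := by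
    rintro A B a b hA hB ⟨D, hD, h⟩ hc ha a1 hb hp np
    have s1 : FAdj S A D := ⟨hA, hD, h⟩
    rcases r1_or_r1 hS hP.1 hB hD hc (x := a) (by
      have := Subgroup.mul_mem _ (Subgroup.mem_sup_left hp) (Subgroup.mem_sup_right (B.inv_mem hb))
      simpa using this) (r1_self_conj h ha a1).1 with k | k
    · exact (Relation.ReflTransGen.single s1).tail ⟨hD, hP.1, r1_symm k⟩
    · exact absurd ((Relation.ReflTransGen.single s1).tail ⟨hD, hB, r1_symm k⟩) np
  exact np ((key hA hB nA (cm_mono hL' hP.2 le_sup_right) ha a1 hb hp np).trans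
    (path_symm (key hB hA nB (cm_mono hL' hP.2 le_sup_left) hb b1 ha (cm_el hc ha hb ▸ hp)
      (fun h => np (path_symm h)))))

end Cfsg.Agent.S5031
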