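import Cfsg.Statements.S5034
import Cfsg.Agent.H29.Root3

set_option autoImplicit false
open Cfsg

namespace Cfsg.Agent.S5034
open Cfsg.Agent.H29


/-- Let S be a non-degenerate class of abstract root subgroups of G, A ∈ S and B a rank one partner of A. Then some line partner C of A has ⁅B, C⁆ ∈ S, and the rank one pair A, B is special. -/
theorem result {G : Type*} [Group G] {S : Set (Subgroup G)} (hS : Cfsg.IsRootSubgroupClass S) (hnd : Cfsg.IsNondegenerateRootSet S)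
    {A B : Subgroup G} (hA : A ∈ S) (hB : B ∈ Cfsg.rankOnePartners S A) :
    (∃ C ∈ Cfsg.linePartners S A, C ∈ Cfsg.commutatorPartners S B) ∧ Cfsg.IsSpecialRankOnePair A B := by
  have hF := class_nonIso hS hnd.2.1
  obtain ⟨A₀, hA₀, B₀, hB₀, h₀⟩ := hnd.2.2
  have hl := line_partner hS.1 hA₀ (hF _ hA₀) h₀
  obtain ⟨g, rfl⟩ := hS.2.2 _ h₀.1 A hA
  have hl' := line_partner hS.1 (hS.1.conj_mem _ hA₀ g) (hF _ (hS.1.conj_mem _ hA₀ g)) (RC_conj hS.1 h₀ g)
  rw [← conjBy_commutator] at hl'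
  set A := conjBy ⁅A₀, B₀⁆ g
  obtain ⟨R, hR, m1, m2, m3, m4⟩ := line_point hS.1 hF hA hl' hB.1 hB.2
  refine ⟨⟨R, linePartners_symm hR (m3 ▸ line_partner hS.1 hA (hF A hA) m2), hR, (RC_symm m1).1⟩, ?_⟩
  have hAR : ⁅A, R⁆ = ⊥ := m3 ▸ RC_left m2
  have e : ⁅A, R ⊔ ⁅R, B⁆⁆ = R := by
    apply le_antisymm
    · exact comm_sup_le_right Subgroup.le_normalizer (cm_le_norm (cm_symm (RC_left m1)))
        (by rw [hAR]; exact bot_le) m3.le
    · conv_lhs => rw [← m3]
      exact Subgroup.commutator_mono le_rfl le_sup_right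
  refine r1_special_of_conj hB.2 (N := R ⊔ ⁅R, B⁆)
    (comm_of_sup (hS.1.commutative R hR) (hS.1.commutative _ m1.1) (RC_left m1))
    (sup_le ?_ le_norm_sup_comm) (by rw [e]; exact cm_symm hAR) (by rw [e]; exact RC_ne_bot hS.1 m1)
  rw [Subgroup.le_normalizer_iff_commutator_le_right, e]
  exact le_sup_left

end Cfsg.Agent.S5034
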