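import Cfsg.Statements.S5033
import Cfsg.Agent.S5020
import Cfsg.Agent.S5034
import Cfsg.Agent.S5032
import Cfsg.Agent.H29.Quad8
-- import your own Cfsg.Agent.* helpers here

set_option autoImplicit false
open Cfsg

namespace Cfsg.Agent.S5033

/-- Quasisimplicity criterion for groups generated by abstract root subgroups. Let S be a set of abstract root subgroups of G with more than one member such that: the graph of rank one pairs on S is connected; no two different members of S have the same set of commuting members of S; if S is degenerate then every member of S has more than three elements; and every rank one pair in S is special. Then for every A ∈ S one has G = G' A with A ∩ G' ≠ 1, and the commutator subgroup G' is quasisimple. Moreover G is perfect if S is non-degenerate, or if some rank one pair A, B in S generates a perfect group. -/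
theorem result {G : Type*} [Group G] {S : Set (Subgroup G)} (hS : Cfsg.IsRootSubgroupSet S) (h2 : ∃ A ∈ S, ∃ B ∈ S, A ≠ B)
    (h1 : Cfsg.IsConnectedFamily (Cfsg.FAdj S) S)
    (h2' : ∀ A ∈ S, ∀ C ∈ S, A ≠ C → Cfsg.centralizingMembers S A ≠ Cfsg.centralizingMembers S C)
    (h3 : Cfsg.IsDegenerateRootSet S → ∀ A ∈ S, 3 < ENat.card A)
    (h4 : ∀ A ∈ S, ∀ B ∈ Cfsg.rankOnePartners S A, Cfsg.IsSpecialRankOnePair A B) :
    (∀ A ∈ S, commutator G ⊔ A = ⊤ ∧ A ⊓ commutator G ≠ ⊥) ∧ Cfsg.IsQuasisimple ↥(commutator G) ∧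
    (Cfsg.IsNondegenerateRootSet S → commutator G = ⊤) ∧
    ((∃ A ∈ S, ∃ B ∈ Cfsg.rankOnePartners S A, Group.IsPerfect ↥(A ⊔ B)) → commutator G = ⊤) := by
  open Subgroup in
  open H29 in
  open scoped commutatorElement in
  obtain ⟨hc, A₀, hA₀, hn⟩ := (S5032.result hS h2).1 h1
  have hF := class_nonIso ⟨hS, hc⟩ ⟨A₀, hA₀, (nonIso_iff hA₀).1 hn⟩
  have hbig : IsDegenerateRootSet S → ∀ A ∈ S, ∀ B ∈ S, IsRankOnePair A B → A ≤ ⁅A ⊔ B, A ⊔ B⁆ :=
    fun hd A hA B hB h => (S5020.big (h4 A hA B ⟨hB, h⟩) ⟨hS.commutative A hA, hS.commutative B hB⟩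
      (h3 hd A hA)).trans (commutator_mono le_sup_left (inf_le_left.trans inf_le_left))
  have hp : commutator G = ⊤ := by
    obtain ⟨A, hA, h⟩ : ∃ A ∈ S, A ≤ commutator G := by
      by_cases hd : IsDegenerateRootSet S
      · obtain ⟨B, hB, h⟩ := hF A₀ hA₀
        exact ⟨A₀, hA₀, (hbig hd A₀ hA₀ B hB h).trans (commutator_mono le_top le_top)⟩
      · simp only [IsDegenerateRootSet, not_forall, not_not] at hd
        obtain ⟨A, -, B, -, h⟩ := hd
        exact ⟨_, h.1, commutator_mono le_top le_top⟩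
    rw [eq_top_iff, ← hS.generates]
    refine iSup₂_le fun B hB => ?_
    obtain ⟨g, rfl⟩ := hc.2 A hA B hB
    exact (conjBy_mono h g).trans (conjBy_normal _ g).le
  refine ⟨fun A hA => by rw [hp, top_sup_eq, inf_top_eq]; exact ⟨rfl, hS.ne_bot A hA⟩, ?_, fun _ => hp, fun _ => hp⟩
  rw [hp]
  refine quasisimple_of (fun e => hS.ne_bot A₀ hA₀ (le_bot_iff.1 (e ▸ le_top))) hp fun N _ hN => ?_
  haveI : N.Normal := normalizer_eq_top_iff.1 (eq_top_iff.2 fun g hg => conjBy_eq_self_iff.1 (hN g hg))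
  let π := QuotientGroup.mk' N
  have m : ∀ {x y}, ⁅x, y⁆ ∈ N ↔ π x * π y = π y * π x := fun {x y} => by
    rw [← QuotientGroup.eq_one_iff, ← commutatorElement_eq_one_iff_mul_comm, ← map_commutatorElement]; rfl
  have m1 : ∀ {n}, n ∈ N → π n = 1 := fun h => (QuotientGroup.eq_one_iff _).2 h
  by_cases h0 : ∃ A ∈ S, ∃ a ∈ A, a ≠ 1 ∧ a ∈ N
  · obtain ⟨A, hA, a, ha, a1, aN⟩ := h0
    have e1 : ∀ C ∈ S, A.map π = C.map π := fun C hC => by
      have := h1 A hA C hC
      clear hC
      induction this with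
      | refl => rfl
      | @tail C D _ h ih =>
        obtain ⟨g, rfl⟩ := hc.2 A hA C h.1
        obtain ⟨d, hd, -, e⟩ := r1_cond h.2.2 (conj_mem_conjBy ha g) (by simpa using a1)
        have e := congrArg (Subgroup.map π) e
        rw [map_conjBy, map_conjBy _ D, m1 (Normal.conj_mem ‹_› a aN g), conjBy_one, conjBy_eq_iff,
          conjBy_of_mem (inv_mem (mem_map_of_mem π hd))] at e
        exact ih.trans e
    have e2 : ∀ x, π x ∈ A.map π := root_induction hS (by simp) (fun C hC c h => e1 C hC ▸ mem_map_of_mem π h)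
      fun x y hx hy => map_mul π x y ▸ mul_mem hx hy
    left
    rw [eq_top_iff, ← hp, commutator_def, commutator_le]
    intro x _ y _
    obtain ⟨u, hu, e⟩ := e2 x
    obtain ⟨v, hv, e'⟩ := e2 y
    rw [m, ← e, ← e', ← map_mul, ← map_mul, comm_of_isMulCommutative (hS.commutative A hA) hu hv]
  right
  have h0 : ∀ A ∈ S, ∀ a ∈ A, a ∈ N → a = 1 := fun A hA a ha h => by_contra fun e => h0 ⟨A, hA, a, ha, e, h⟩
  have h5 : ∀ A ∈ S, ¬ A ≤ N := fun A hA h => hS.ne_bot A hA (eq_bot_iff.2 fun a ha => h0 A hA a ha (h ha))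
  have K : ∀ B ∈ S, ∀ C ∈ S, ⁅B, C⁆ ≤ N → ⁅B, C⁆ = ⊥ := fun B hB C hC h => by
    rcases hS.pair B hB C hC with k | k | k
    · exact k
    · have h6 := (derived_sup_le (hS.commutative B hB) (hS.commutative C hC)).trans h
      by_cases hd : IsDegenerateRootSet S
      · exact (h5 B hB ((hbig hd B hB C hC k).trans h6)).elim
      simp only [IsDegenerateRootSet, not_forall, not_not] at hd
      obtain ⟨P, hP, Q, hQ, r⟩ := hd
      obtain ⟨D, d1, d2⟩ := (S5034.result ⟨hS, hc⟩ ⟨⟨P, hP, _, r.1, RC_ne_left hS r, RC_left r⟩, ⟨B, hB, C, hC, k⟩,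
        P, hP, Q, hQ, r⟩ hB ⟨hC, k⟩).1
      refine (h5 _ d2.2 (commutator_le.2 fun c hc d hd => ?_)).elim
      obtain ⟨x, hx, e⟩ := r1_exists_conj k
      obtain ⟨b, hb, rfl⟩ := mem_conjBy'.1 (e.ge hc)
      rw [m, map_mul, map_mul, m.1 (h6 (commutator_mem_commutator hx (mem_sup_left hb))), map_inv,
        mul_inv_cancel_right, ← map_mul, ← map_mul, cm_el d1.1.2.2 hb hd]
    · exact (h5 _ k.1 h).elim
  have h6 : ∀ A ∈ S, ∀ n ∈ N, centralizingMembers S A ⊆ centralizingMembers S (conjBy A n) := fun A hA n hn B hB => by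
    refine ⟨hB.1, commutator_eq_bot_iff_le_centralizer.1 (K B hB.1 _ (hS.conj_mem A hA n)
      (commutator_le.2 fun b hb c hc => ?_))⟩
    obtain ⟨a, ha, rfl⟩ := mem_conjBy'.1 hc
    rw [m, map_mul, map_mul, map_inv, m1 hn, one_mul, inv_one, mul_one, ← map_mul, ← map_mul, hB.2 hb a ha]
  refine comm_bot_iff.2 fun n hn g _ => root_induction hS (P := fun g => n * g = g * n) (by simp)
    (fun A hA a ha => ?_) (fun x y hx hy => Commute.mul_right hx hy) g
  have e : A = conjBy A n := by_contra fun e => h2' A hA _ (hS.conj_mem A hA n) e ((h6 A hA n hn).antisymm (by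
    simpa only [conjBy_inv_conjBy] using h6 _ (hS.conj_mem A hA n) _ (inv_mem hn)))
  exact commutatorElement_eq_one_iff_mul_comm.1 (h0 A hA _ (mul_mem (e.ge (conj_mem_conjBy ha n)) (inv_mem ha))
    (m.2 (by rw [m1 hn, one_mul, mul_one])))

end Cfsg.Agent.S5033
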