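import Cfsg.Statements.S5035
import Cfsg.Agent.H29.Root3

set_option autoImplicit false
open Cfsg

namespace Cfsg.Agent.S5035
open Cfsg.Agent.H29


/-- Let S be a set of abstract root subgroups of G whose graph of rank one pairs is connected, and f a homomorphism from G onto a group H. Then either the images of the members of S form a set of abstract root subgroups of H whose graph of rank one pairs is again connected, or H equals the image of a member of S. -/
theorem result {G H : Type*} [Group G] [Group H] {S : Set (Subgroup G)} (hS : Cfsg.IsRootSubgroupSet S)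
    (hc : Cfsg.IsConnectedFamily (Cfsg.FAdj S) S) (f : G →* H) (hf : Function.Surjective f) :
    (Cfsg.IsRootSubgroupSet ((fun A : Subgroup G => A.map f) '' S) ∧
      Cfsg.IsConnectedFamily (Cfsg.FAdj ((fun A : Subgroup G => A.map f) '' S)) ((fun A : Subgroup G => A.map f) '' S)) ∨
    ∃ A ∈ S, A.map f = ⊤ := by
  by_cases hb : ∃ A ∈ S, A.map f = ⊥
  · right
    obtain ⟨A, hA, e⟩ := hb
    refine ⟨A, hA, ?_⟩
    have : (⊤ : Subgroup G).map f ≤ ⊥ := by
      rw [← hS.generates, Subgroup.map_le_iff_le_comap]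
      refine iSup₂_le fun B hB => ?_
      obtain ⟨g, rfl⟩ := path_isConj (hc A hA B hB)
      rw [← Subgroup.map_le_iff_le_comap, map_conjBy, e, conjBy_bot]
    rw [Subgroup.map_top_of_surjective f hf] at this
    exact eq_top_iff.2 (this.trans bot_le)
  left
  push Not at hb
  have rc : ∀ {A B : Subgroup G}, RootCommutatorCase S A B → ∀ a ∈ A.map f, a ≠ 1 →
      Subgroup.closure ((fun b : H => a * b * a⁻¹ * b⁻¹) '' (B.map f : Set H)) = ⁅A.map f, B.map f⁆ := by
    rintro A B h _ ⟨a, ha, rfl⟩ a1
    rw [← Subgroup.map_commutator, ← h.2.2.1 a ha (by rintro rfl; simp at a1), MonoidHom.map_closure,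
      Subgroup.coe_map, Set.image_image, Set.image_image]
    simp
  refine ⟨⟨?_, ?_, ?_, ?_, ?_⟩, ?_⟩
  · rintro _ ⟨A, hA, rfl⟩
    apply isMulCommutative_of_comm
    rintro _ ⟨a, ha, rfl⟩ _ ⟨b, hb, rfl⟩
    rw [← map_mul, ← map_mul, comm_of_isMulCommutative (hS.commutative A hA) ha hb]
  · rintro _ ⟨A, hA, rfl⟩; exact hb A hA
  · rw [eq_top_iff, ← Subgroup.map_top_of_surjective f hf, ← hS.generates, Subgroup.map_le_iff_le_comap]
    refine iSup₂_le fun B hB => ?_
    rw [← Subgroup.map_le_iff_le_comap]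
    exact le_iSup₂_of_le (f := fun (A : Subgroup H) (_ : A ∈ (fun A : Subgroup G => A.map f) '' S) => A)
      (B.map f) ⟨B, hB, rfl⟩ le_rfl
  · rintro _ ⟨A, hA, rfl⟩ g
    obtain ⟨g, rfl⟩ := hf g
    exact ⟨_, hS.conj_mem A hA g, map_conjBy f A g⟩
  · rintro _ ⟨A, hA, rfl⟩ _ ⟨B, hB, rfl⟩
    rcases hS.pair A hA B hB with e | e | e
    · left; rw [← Subgroup.map_commutator, e, Subgroup.map_bot]
    · rcases r1_map f e with k | k
      · left
        simp only [← k]
        rw [← Subgroup.map_commutator, cm_self (hS.commutative A hA), Subgroup.map_bot]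
      · exact Or.inr (Or.inl k)
    · refine Or.inr (Or.inr ⟨⟨_, e.1, Subgroup.map_commutator _ _ _⟩, ?_, rc e, ?_⟩)
      · rw [← comm_bot_iff, ← Subgroup.map_commutator, ← Subgroup.map_sup, ← Subgroup.map_commutator,
          RC_central e, Subgroup.map_bot]
      · intro b hb b1
        rw [closure_comm_swap, Subgroup.commutator_comm]
        exact rc (RC_symm e) b hb b1
  · rintro _ ⟨A, hA, rfl⟩ _ ⟨B, hB, rfl⟩
    have := hc A hA B hB
    clear hB
    induction this with
    | refl => exact Relation.ReflTransGen.refl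
    | tail _ h ih =>
      rcases r1_map f h.2.2 with k | k
      · simp only [← k]; exact ih
      · exact ih.tail ⟨⟨_, h.1, rfl⟩, ⟨_, h.2.1, rfl⟩, k⟩

end Cfsg.Agent.S5035
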