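import Cfsg.Statements.S5036
import Cfsg.Agent.H29.Root3

set_option autoImplicit false
open Cfsg

namespace Cfsg.Agent.S5036
open Cfsg.Agent.H29

open scoped commutatorElement

/-- Let S be a set of abstract root subgroups of G, A, B ∈ S with C = ⁅A, B⁆ ∈ S, and D ∈ S with ⁅D, C⁆ = A. Put X = ⟨B, D⟩ and N = AC. Then B, D form a rank one pair; the conjugates of A under X are the conjugates of C under X, namely the conjugates of A by elements of B together with C, equally the conjugates of C by elements of D together with A, and they partition N; and the centralizer of N in X is central in X. -/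
theorem result {G : Type*} [Group G] {S : Set (Subgroup G)} (hS : Cfsg.IsRootSubgroupSet S)
    {A B D : Subgroup G} (hA : A ∈ S) (hB : B ∈ S) (hC : ⁅A, B⁆ ∈ S) (hD : D ∈ S) (hDC : ⁅D, ⁅A, B⁆⁆ = A) :
    Cfsg.IsRankOnePair B D ∧
    {E | ∃ x ∈ B ⊔ D, E = Cfsg.conjBy A x} = {E | ∃ x ∈ B ⊔ D, E = Cfsg.conjBy ⁅A, B⁆ x} ∧
    {E | ∃ x ∈ B ⊔ D, E = Cfsg.conjBy A x} = (fun b : G => Cfsg.conjBy A b) '' (B : Set G) ∪ {⁅A, B⁆} ∧
    {E | ∃ x ∈ B ⊔ D, E = Cfsg.conjBy A x} = (fun d : G => Cfsg.conjBy ⁅A, B⁆ d) '' (D : Set G) ∪ {A} ∧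
    Cfsg.IsSubgroupPartition (A ⊔ ⁅A, B⁆) {E | ∃ x ∈ B ⊔ D, E = Cfsg.conjBy A x} ∧
    ∀ x ∈ (B ⊔ D) ⊓ Subgroup.centralizer ((A ⊔ ⁅A, B⁆ : Subgroup G) : Set G), ∀ y ∈ B ⊔ D, x * y = y * x := by
  have h1 := RC_of_mem hS hA hB hC
  set C := ⁅A, B⁆ with hCdef
  have h2 : RootCommutatorCase S D C := RC_of_mem hS hD hC (hDC ▸ hA)
  have hCD : ⁅C, D⁆ = A := by rw [Subgroup.commutator_comm, hDC]
  have hAC : ⁅A, C⁆ = ⊥ := RC_left h1
  have hBC : ⁅B, C⁆ = ⊥ := RC_right h1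
  have hDA : ⁅D, A⁆ = ⊥ := hDC ▸ RC_left h2
  have nB : B ≤ Subgroup.normalizer ((A ⊔ C : Subgroup G) : Set G) := le_norm_sup_comm
  have nD : D ≤ Subgroup.normalizer ((A ⊔ C : Subgroup G) : Set G) := by
    rw [sup_comm, ← hCD]; exact le_norm_sup_comm
  have r : IsRankOnePair B D := by
    by_contra hn
    have hnil := nilpotent_triple hS hB hC hD hBC hn (fun k => RC_not_r1 hS hD hC h2 (r1_symm k))
    have hAle : A ≤ B ⊔ D ⊔ C := by
      rw [← hDC]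
      exact (Subgroup.commutator_le_sup D C).trans (sup_le (le_sup_right.trans le_sup_left) le_sup_right)
    have := eq_bot_of_le_comm hnil (N := A ⊔ C) (sup_le hAle le_sup_right) (sup_le
      (hCD.ge.trans (Subgroup.commutator_mono le_sup_right (le_sup_right.trans le_sup_left)))
      (Subgroup.commutator_mono le_sup_left (le_sup_left.trans le_sup_left)))
    exact hS.ne_bot A hA (eq_bot_iff.2 (this ▸ le_sup_left))
  have nX : B ⊔ D ≤ Subgroup.normalizer ((A ⊔ C : Subgroup G) : Set G) := sup_le nB nD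
  have iB : ∀ a ∈ A, ∀ b ∈ B, b ≠ 1 → b * a = a * b → a = 1 := fun a ha b hb b1 e =>
    RC_inj hS hB ⟨D, hD, r⟩ (RC_symm h1) hb ha b1 e
  have iD : ∀ c ∈ C, ∀ d ∈ D, d ≠ 1 → d * c = c * d → c = 1 := fun c hc d hd d1 e =>
    RC_inj hS hD ⟨B, hB, r1_symm r⟩ h2 hd hc d1 e
  obtain ⟨b₀, hb₀, b₀1⟩ := r1_exists_ne_one r
  obtain ⟨d₀, hd₀, d₀1⟩ := r1_exists_ne_one (r1_symm r)
  let F : Subgroup G → Subgroup G := fun U => (A ⊔ C) ⊓ Subgroup.centralizer (U : Set G)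
  have Fc : ∀ U, ∀ x ∈ B ⊔ D, conjBy (F U) x = F (conjBy U x) := by
    intro U x hx
    simp only [F]
    rw [conjBy_inf, conjBy_centralizer, conjBy_eq_self_iff.2 (nX hx)]
  have FB : F B = C := by
    apply le_antisymm
    · intro x hx
      obtain ⟨a, ha, c, hc, rfl⟩ := mem_sup_of_cm hAC hx.1
      have : a = 1 := iB a ha b₀ hb₀ b₀1 (by
        apply mul_right_cancel (b := c)
        rw [mul_assoc, hx.2 b₀ hb₀, mul_assoc, mul_assoc, cm_el hBC hb₀ hc])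
      rw [this, one_mul]; exact hc
    · exact le_inf le_sup_right (fun c hc b hb => cm_el hBC hb hc)
  have FD : F D = A := by
    apply le_antisymm
    · intro x hx
      obtain ⟨a, ha, c, hc, rfl⟩ := mem_sup_of_cm hAC hx.1
      have : c = 1 := iD c hc d₀ hd₀ d₀1 (by
        apply mul_left_cancel (a := a)
        rw [← mul_assoc, ← cm_el hDA hd₀ ha, mul_assoc, hx.2 d₀ hd₀, mul_assoc])
      rw [this, mul_one]; exact ha
    · exact le_inf le_sup_left (fun c hc b hb => cm_el hDA hb hc)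
  have orb : {E | ∃ x ∈ B ⊔ D, E = conjBy A x} = F '' unipotentSubgroups B D := by
    rw [← r1_unip_symm r]
    ext E
    constructor
    · rintro ⟨x, hx, rfl⟩
      exact ⟨conjBy D x, ⟨x, by rwa [sup_comm], rfl⟩, by rw [← Fc D x hx, FD]⟩
    · rintro ⟨_, ⟨x, hx, rfl⟩, rfl⟩
      rw [sup_comm] at hx
      exact ⟨x, hx, by rw [← Fc D x hx, FD]⟩
  have e3 : {E | ∃ x ∈ B ⊔ D, E = conjBy A x} = (fun b : G => conjBy A b) '' (B : Set G) ∪ {C} := by
    rw [orb]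
    ext E
    constructor
    · rintro ⟨U, hU, rfl⟩
      rcases (r1_mem_unip_iff r).1 hU with rfl | ⟨b, hb, rfl⟩
      · exact Or.inr FB
      · exact Or.inl ⟨b, hb, by rw [← Fc D b (Subgroup.mem_sup_left hb), FD]⟩
    · rintro (⟨b, hb, rfl⟩ | rfl)
      · exact ⟨conjBy D b, (r1_mem_unip_iff r).2 (Or.inr ⟨b, hb, rfl⟩),
          by rw [← Fc D b (Subgroup.mem_sup_left hb), FD]⟩
      · exact ⟨B, left_mem_unip, FB⟩
  have AC1 : ∀ x ∈ A, x ∈ C → x = 1 := fun x h1 h2 => iB x h1 b₀ hb₀ b₀1 (cm_el hBC hb₀ h2)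
  refine ⟨r, ?_, e3, ?_, ?_, ?_⟩
  · rw [orb]
    ext E
    constructor
    · rintro ⟨_, ⟨x, hx, rfl⟩, rfl⟩
      exact ⟨x, hx, by rw [← Fc B x hx, FB]⟩
    · rintro ⟨x, hx, rfl⟩
      exact ⟨conjBy B x, ⟨x, hx, rfl⟩, by rw [← Fc B x hx, FB]⟩
  · rw [orb, ← r1_unip_symm r]
    ext E
    constructor
    · rintro ⟨U, hU, rfl⟩
      rcases (r1_mem_unip_iff (r1_symm r)).1 hU with rfl | ⟨b, hb, rfl⟩
      · exact Or.inr FD
      · exact Or.inl ⟨b, hb, by rw [← Fc B b (Subgroup.mem_sup_right hb), FB]⟩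
    · rintro (⟨b, hb, rfl⟩ | rfl)
      · exact ⟨conjBy B b, (r1_mem_unip_iff (r1_symm r)).2 (Or.inr ⟨b, hb, rfl⟩),
          by rw [← Fc B b (Subgroup.mem_sup_right hb), FB]⟩
      · exact ⟨D, left_mem_unip, FD⟩
  · refine ⟨?_, ?_, ?_⟩
    · rintro _ ⟨x, hx, rfl⟩
      exact conjBy_eq_self_iff.2 (nX hx) ▸ conjBy_mono le_sup_left x
    · intro x hx x1
      rw [e3]
      obtain ⟨a, ha, c, hc, rfl⟩ := mem_sup_of_cm hAC hx
      by_cases a1 : a = 1
      · subst a1; exact ⟨_, Or.inr rfl, by simpa using hc⟩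
      · obtain ⟨b, hb, eb⟩ := RC_mem_conj h1 ha a1 hc
        exact ⟨_, Or.inl ⟨b, hb, rfl⟩, eb ▸ conj_mem_conjBy ha b⟩
    · rw [orb]
      rintro _ ⟨U, hU, rfl⟩ _ ⟨V, hV, rfl⟩ hne
      obtain ⟨x, hx, rfl, rfl⟩ := r1_two_trans r hU hV (by rintro rfl; exact hne rfl)
      rw [← Fc B x hx, ← Fc D x hx, ← conjBy_inf, FB, FD, conjBy_eq_bot, eq_bot_iff]
      exact fun y hy => AC1 y hy.2 hy.1
  · intro x hx
    apply r1_comm_of_fix r
    intro U hU
    by_contra hne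
    obtain ⟨y, hy, e1, e2⟩ := r1_two_trans r hU (unip_conj hU hx.1) (Ne.symm hne)
    have e4 : F (conjBy U x) = F U := by
      rw [← Fc U x hx.1]
      exact conjBy_of_comm (fun a ha => (hx.2 a ha.1).symm)
    rw [← e2, ← e1, ← Fc B y hy, ← Fc D y hy, FB, FD, conjBy_inj] at e4
    exact RC_ne_left hS h1 e4

end Cfsg.Agent.S5036
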