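import Cfsg.Statements.S5037
import Cfsg.Agent.H29.Root3

set_option autoImplicit false
open Cfsg

namespace Cfsg.Agent.S5037
open Cfsg.Agent.H29

open scoped commutatorElement

theorem trick {G : Type*} [Group G] {A C B : Subgroup G} (le : Subgroup G → Subgroup G → Prop)
    (tr : ∀ X Y Z, le X Y → le Y Z → le X Z) (cj : ∀ X Y g, le X Y → le (conjBy X g) (conjBy Y g))
    (nr : ∀ g, le B (conjBy B g) → ¬ IsRankOnePair B (conjBy B g))
    (hAC : ⁅A, C⁆ = ⊥) (hA : IsRankOnePair A B) (hC : IsRankOnePair C B) (h : le A C) : le C A := by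
  have step : ∀ a ∈ A, a ≠ 1 → ∃ b ∈ B, ∃ c ∈ C, conjBy A b = conjBy B a ∧ conjBy C b = conjBy B c ∧
      le B (conjBy B (a⁻¹ * c)) := by
    intro a ha a1
    obtain ⟨b, hb, b1, e⟩ := r1_cond hA ha a1
    obtain ⟨c, hc, -, e'⟩ := r1_cond (r1_symm hC) hb b1
    refine ⟨b, hb, c, hc, e, e'.symm, ?_⟩
    have := cj _ _ a⁻¹ (cj _ _ b h)
    rwa [e, ← e', conjBy_inv_conjBy, conjBy_conjBy] at this
  obtain ⟨a, ha, a1⟩ := r1_exists_ne_one hA
  obtain ⟨b, hb, c, hc, e1, e2, l1⟩ := step a ha a1
  obtain ⟨b', hb', c', hc', -, -, l2⟩ := step a⁻¹ (A.inv_mem ha) (inv_ne_one.2 a1)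
  rw [inv_inv] at l2
  have l3 := tr _ _ _ l1 (cj _ _ (a⁻¹ * c) l2)
  have q := cm_el hAC ha hc
  rw [conjBy_conjBy, show a⁻¹ * c * (a * c') = c * c' by
    rw [mul_assoc, ← mul_assoc c, ← q]; group] at l3
  have cc : c * c' = 1 := by
    by_contra k
    exact nr _ l3 (r1_self_conj hC (C.mul_mem hc hc') k).1
  have l4 := cj _ _ b⁻¹ (cj _ _ c l2)
  rw [conjBy_conjBy B (a * c') c, ← mul_assoc, ← q, mul_assoc, cc, mul_one, ← e1, ← e2,
    conjBy_inv_conjBy, conjBy_inv_conjBy] at l4
  exact l4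

/-- Let S be a class of abstract root subgroups of G that is either degenerate or non-degenerate (so either the commutator case never occurs, or all three cases occur), and A ≠ C members of S. If every member of S commuting with A commutes with C, then A and C have the same commuting members of S; and if every rank one partner of A is a rank one partner of C, then A and C commute and have the same rank one partners. -/
theorem result {G : Type*} [Group G] {S : Set (Subgroup G)} (hS : Cfsg.IsRootSubgroupClass S)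
    (hdn : Cfsg.IsDegenerateRootSet S ∨ Cfsg.IsNondegenerateRootSet S)
    {A C : Subgroup G} (hA : A ∈ S) (hC : C ∈ S) (hAC : A ≠ C) :
    (Cfsg.centralizingMembers S A ⊆ Cfsg.centralizingMembers S C →
      Cfsg.centralizingMembers S A = Cfsg.centralizingMembers S C) ∧
    (Cfsg.rankOnePartners S A ⊆ Cfsg.rankOnePartners S C →
      ⁅A, C⁆ = ⊥ ∧ Cfsg.rankOnePartners S A = Cfsg.rankOnePartners S C) := by
  have hF : ∀ A ∈ S, NonIso S A := by
    apply class_nonIso hS
    rcases hdn with hd | hd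
    · by_contra hn
      push Not at hn
      obtain ⟨g, rfl⟩ := hS.2.2 A hA C hC
      apply hAC
      refine (conjBy_of_comm (root_induction hS.1 (P := fun g => ∀ a ∈ A, g * a = a * g) (by simp)
        (fun E hE e he a ha => ?_) (fun x y hx hy a ha => ?_) g)).symm
      · rcases hS.1.pair E hE A hA with k | k | k
        · exact cm_el k he ha
        · exact absurd k (hn E hE A hA)
        · exact absurd k (hd E hE A hA)
      · exact Commute.mul_left (hx a ha) (hy a ha)
    · exact hd.2.1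
  have cm : ∀ {X Y : Subgroup G}, X ∈ centralizingMembers S Y ↔ X ∈ S ∧ ⁅X, Y⁆ = ⊥ := by
    intro X Y
    rw [Subgroup.commutator_eq_bot_iff_le_centralizer]; rfl
  constructor
  · intro h
    apply Set.Subset.antisymm h
    have hc : ⁅A, C⁆ = ⊥ := (cm.1 (h (cm.2 ⟨hA, cm_self (hS.1.commutative A hA)⟩))).2
    obtain ⟨B, hB, r⟩ := hF C hC
    have rA : IsRankOnePair A B := by
      rcases hS.1.pair A hA B hB with k | k | k
      · exact absurd (cm.1 (h (cm.2 ⟨hB, cm_symm k⟩))).2 (r1_not_comm (r1_symm r))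
      · exact k
      · exfalso
        obtain ⟨b, hb, b1⟩ := r1_exists_ne_one (r1_symm r)
        obtain ⟨-, -, k1, -⟩ := RC_swap hS.1 r (cm_symm hc) k hb b1
        have := (cm.1 (h (cm.2 ⟨k.1, cm_symm (RC_left k)⟩))).2
        exact RC_ne_bot hS.1 k1 (cm_mono (cm_symm (cm_sup_left hc this)) le_rfl (conjBy_le_sup_comm hb))
    refine trick (fun X Y => centralizingMembers S X ⊆ centralizingMembers S Y)
      (fun _ _ _ => Set.Subset.trans) ?_ ?_ hc rA r h
    · intro X Y g k E hE
      have h1 := cm.1 hE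
      have := cm.1 (k (cm.2 ⟨hS.1.conj_mem E h1.1 g⁻¹, by
        rw [← cm_conj_iff (g := g), conjBy_conjBy_inv]; exact h1.2⟩))
      refine cm.2 ⟨h1.1, ?_⟩
      have := cm_conj this.2 g
      rwa [conjBy_conjBy_inv] at this
    · intro g k r
      exact r1_not_comm r (cm.1 (k (cm.2 ⟨hB, cm_self (hS.1.commutative B hB)⟩))).2
  · intro h
    have cj : ∀ X Y g, rankOnePartners S X ⊆ rankOnePartners S Y →
        rankOnePartners S (conjBy X g) ⊆ rankOnePartners S (conjBy Y g) := by
      intro X Y g k E hE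
      have h1 := r1_conj hE.2 g⁻¹
      rw [conjBy_inv_conjBy] at h1
      have h2 := r1_conj (k ⟨hS.1.conj_mem E hE.1 g⁻¹, h1⟩).2 g
      rw [conjBy_conjBy_inv] at h2
      exact ⟨hE.1, h2⟩
    have hc : ⁅A, C⁆ = ⊥ := by
      rcases hS.1.pair A hA C hC with k | k | k
      · exact k
      · exact absurd rfl (h ⟨hC, k⟩).2.ne
      · exfalso
        have k' := RC_symm k
        have no : ∀ B ∈ S, IsRankOnePair A B → ¬ IsRankOnePair ⁅A, C⁆ B := by
          intro B hB r r'
          obtain ⟨R, hR, m1, m2, m3, m4⟩ := line_point hS.1 hF hC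
            (linePartners_symm k'.1 (line_partner hS.1 hC (hF C hC) k')) hB (h ⟨hB, r⟩).2
          rcases line_members hS.1 hC (hF C hC) k' hR (m4 ▸ le_sup_right) with ⟨a, ha, e⟩ | e
          · have := cj _ _ a h
            rw [conjBy_of_mem ha, e] at this
            exact RC_not_r1 hS.1 hR hB m1 (this ⟨hB, r⟩).2
          · rw [Subgroup.commutator_comm, ← e] at r'
            exact RC_not_r1 hS.1 hR hB m1 r'
        have hl := linePartners_symm k.1 (line_partner hS.1 hA (hF A hA) k)
        obtain ⟨T, mT, hTA, hTP⟩ := line_third hS.1 hF hA hl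
        obtain ⟨D, hD, -, k2⟩ := line_trans hS.1 hF hA hl mT
        obtain ⟨B, hB, r⟩ := hF A hA
        obtain ⟨R, hR, m1, m2, m3, m4⟩ := line_point hS.1 hF hA hl hB r
        have opp : ∀ Q ∈ membersIn S (A ⊔ ⁅A, C⁆), Q ≠ R → IsRankOnePair Q B := by
          intro Q hQ hne
          rcases line_members hS.1 hA (hF A hA) m2 hQ.1 (by rw [m3, m4]; exact hQ.2) with ⟨d, hd, rfl⟩ | e
          · have := r1_conj r d
            rwa [cm_conjBy (cm_symm (RC_right m1)) hd] at this
          · exact absurd (e.trans m3) hne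
        by_cases e : ⁅A, C⁆ = R
        · obtain ⟨E, hE, nE, k3⟩ := line_trans hS.1 hF hA hl (P := A) ⟨hA, le_sup_left⟩
          obtain ⟨x, hx, ex⟩ := (k3 ⁅A, C⁆ ⟨k.1, le_sup_right⟩ (RC_ne_left hS.1 k).symm).2 T mT hTA
          have r1 := r1_conj r x
          rw [cm_conjBy (cm_symm hE.1.2.2) hx] at r1
          refine no _ (hS.1.conj_mem B hB x) r1 ?_
          have := opp (conjBy ⁅A, C⁆ x⁻¹) ⟨hS.1.conj_mem _ k.1 _,
            conjBy_eq_self_iff.2 (nE (E.inv_mem hx)) ▸ conjBy_mono le_sup_right x⁻¹⟩ (by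
              rw [← e, ne_eq, conjBy_eq_iff, inv_inv, ex]; exact hTP.symm)
          have := r1_conj this x
          rwa [conjBy_conjBy_inv] at this
        · exact no B hB r (opp _ ⟨k.1, le_sup_right⟩ e)
    refine ⟨hc, Set.Subset.antisymm h ?_⟩
    obtain ⟨B, hB, r⟩ := hF A hA
    refine trick (fun X Y => rankOnePartners S X ⊆ rankOnePartners S Y)
      (fun _ _ _ => Set.Subset.trans) cj ?_ hc r (h ⟨hB, r⟩).2 h
    intro g k r
    exact (k ⟨hS.1.conj_mem B hB g, r⟩).2.ne rfl

end Cfsg.Agent.S5037
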