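import Cfsg.Statements.S5038
import Cfsg.Agent.H29.Root3

set_option autoImplicit false
open Cfsg

namespace Cfsg.Agent.S5038
open Cfsg.Agent.H29


/-- Let S be a set of abstract root subgroups of G in which every member has a rank one partner, A ∈ S and B a line partner of A. Then the subgroup generated by the members of S normalizing AB permutes the members of S inside AB doubly transitively by conjugation. -/
theorem result {G : Type*} [Group G] {S : Set (Subgroup G)} (hS : Cfsg.IsRootSubgroupSet S)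
    (hF : ∀ A ∈ S, ¬ Cfsg.IsIsolatedIn (Cfsg.FAdj S) S A) {A B : Subgroup G} (hA : A ∈ S) (hB : B ∈ Cfsg.linePartners S A) :
    ∀ C₁ ∈ Cfsg.membersIn S (A ⊔ B), ∀ C₂ ∈ Cfsg.membersIn S (A ⊔ B), ∀ D₁ ∈ Cfsg.membersIn S (A ⊔ B),
      ∀ D₂ ∈ Cfsg.membersIn S (A ⊔ B), C₁ ≠ C₂ → D₁ ≠ D₂ →
        ∃ x ∈ ⨆ E ∈ Cfsg.normalizingMembers S (A ⊔ B), E, Cfsg.conjBy C₁ x = D₁ ∧ Cfsg.conjBy C₂ x = D₂ := by
  have hF' : ∀ A ∈ S, NonIso S A := fun A hA => (nonIso_iff hA).1 (hF A hA)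
  set M := ⨆ E ∈ normalizingMembers S (A ⊔ B), E
  have hM : M ≤ Subgroup.normalizer ((A ⊔ B : Subgroup G) : Set G) := iSup₂_le fun E hE => hE.2
  have fix : ∀ P ∈ membersIn S (A ⊔ B), ∀ Q ∈ membersIn S (A ⊔ B), ∀ Q' ∈ membersIn S (A ⊔ B),
      Q ≠ P → Q' ≠ P → ∃ x ∈ M, conjBy P x = P ∧ conjBy Q x = Q' := by
    intro P hP Q hQ Q' hQ' h1 h2
    obtain ⟨D, hD, hn, k⟩ := line_trans hS hF' hA hB hP
    obtain ⟨d, hd, e⟩ := (k Q hQ h1).2 Q' hQ' h2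
    exact ⟨d, le_iSup₂ (f := fun E (_ : E ∈ normalizingMembers S (A ⊔ B)) => E) D ⟨hD.1.1, hn⟩ hd,
      cm_conjBy (cm_symm hD.1.2.2) hd, e⟩
  have mA : A ∈ membersIn S (A ⊔ B) := ⟨hA, le_sup_left⟩
  have mB : B ∈ membersIn S (A ⊔ B) := ⟨hB.1.1, le_sup_right⟩
  obtain ⟨T, mT, hTA, hTB⟩ := line_third hS hF' hA hB
  have hAB := hB.1.2.1
  have tr : ∀ P ∈ membersIn S (A ⊔ B), ∀ Q ∈ membersIn S (A ⊔ B), ∃ x ∈ M, conjBy P x = Q := by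
    intro P hP Q hQ
    have : ∃ U ∈ membersIn S (A ⊔ B), P ≠ U ∧ Q ≠ U := by
      by_cases h1 : P ≠ A ∧ Q ≠ A
      · exact ⟨A, mA, h1⟩
      by_cases h2 : P ≠ B ∧ Q ≠ B
      · exact ⟨B, mB, h2⟩
      refine ⟨T, mT, ?_, ?_⟩
      · rintro rfl
        exact hAB ((not_not.1 fun k => h2 ⟨hTB, k⟩).symm.trans (not_not.1 fun k => h1 ⟨hTA, k⟩))
      · rintro rfl
        exact hAB ((not_not.1 fun k => h2 ⟨k, hTB⟩).symm.trans (not_not.1 fun k => h1 ⟨k, hTA⟩))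
    obtain ⟨U, hU, h1, h2⟩ := this
    obtain ⟨x, hx, -, e⟩ := fix U hU P hP Q hQ h1 h2
    exact ⟨x, hx, e⟩
  intro C₁ h1 C₂ h2 D₁ h3 D₂ h4 n1 n2
  obtain ⟨x, hx, ex⟩ := tr C₁ h1 D₁ h3
  have h5 : conjBy C₂ x ∈ membersIn S (A ⊔ B) :=
    ⟨hS.conj_mem _ h2.1 x, conjBy_eq_self_iff.2 (hM hx) ▸ conjBy_mono h2.2 x⟩
  obtain ⟨y, hy, e1, e2⟩ := fix D₁ h3 _ h5 D₂ h4 (fun e => n1 (conjBy_inj.1 (ex.trans e.symm))) n2.symm
  exact ⟨y * x, M.mul_mem hy hx, by rw [← conjBy_conjBy, ex, e1], by rw [← conjBy_conjBy, e2]⟩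

end Cfsg.Agent.S5038
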