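import Cfsg.Statements.S5039
import Cfsg.Agent.H23.Tri
import Cfsg.Agent.S5020
import Cfsg.Agent.S5034
-- import your own Cfsg.Agent.* helpers here

set_option autoImplicit false
universe u
open Cfsg

namespace Cfsg.Agent.S5039

/-- Let S be a class of abstract root subgroups of G containing two different commuting members. Suppose that, in case S is degenerate and every element of every member of S has order at most 3, the following holds: for every A ∈ S and every rank one partner B of A there are subgroups A₀ ≤ A and B₀ ≤ B generating an image of SL₂(k) with central kernel, k a field with at least four elements, A₀ and B₀ being the images of the unitriangular subgroups. Then every rank one pair A, B in S is special. -/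
theorem result {G : Type u} [Group G] {S : Set (Subgroup G)} (hS : Cfsg.IsRootSubgroupClass S)
    (hcomm : ∃ A ∈ S, ∃ C ∈ S, A ≠ C ∧ ⁅A, C⁆ = ⊥)
    (hH : Cfsg.IsDegenerateRootSet S → (∀ A ∈ S, ∀ a ∈ A, 0 < orderOf a ∧ orderOf a ≤ 3) →
      ∀ A ∈ S, ∀ B ∈ Cfsg.rankOnePartners S A, ∃ A₀ B₀ : Subgroup G, A₀ ≤ A ∧ B₀ ≤ B ∧
        ∃ (k : Type u) (_ : Field k), 3 < ENat.card k ∧ Cfsg.IsPSL2PairOver k A₀ B₀)
    {A B : Subgroup G} (hA : A ∈ S) (hB : B ∈ Cfsg.rankOnePartners S A) : Cfsg.IsSpecialRankOnePair A B := by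
  open Cfsg.Agent.H23 Subgroup in
  open H29 Tri in
  open scoped commutatorElement in
  by_cases hd : IsDegenerateRootSet S
  swap
  · simp only [IsDegenerateRootSet, not_forall, not_not] at hd
    obtain ⟨P, hP, Q, hQ, r⟩ := hd
    exact (S5034.result hS ⟨hcomm, ⟨A, hA, B, hB.1, hB.2⟩, P, hP, Q, hQ, r⟩ hA hB).2
  have tri : ∀ P ∈ S, ∀ Q ∈ S, ⁅P, Q⁆ ≠ ⊥ → IsRankOnePair P Q := fun P hP Q hQ h =>
    ((hS.1.pair P hP Q hQ).resolve_left h).resolve_right (hd P hP Q hQ)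
  by_cases h0 : ∃ C ∈ S, C ≠ A ∧ ⁅A, C⁆ = ⊥ ∧ ⁅C, B⁆ ≠ ⊥
  · obtain ⟨C, hC, h1, h2, h3⟩ := h0
    exact special hS.1 hA hB.1 hB.2 (tri C hC B hB.1 h3) h2 h1.symm
  push Not at h0
  exfalso
  have hc : 3 < ENat.card A := by
    by_cases h : ∀ A ∈ S, ∀ a ∈ A, 0 < orderOf a ∧ orderOf a ≤ 3
    · obtain ⟨A₀, B₀, h1, -, k, _, h2, φ, -, h3, h4, -⟩ := hH hd h A hA B hB
      refine h2.trans_le (ENat.card_le_card_of_injective
        (f := fun t => (⟨φ (up t), h1 (h4 ▸ mem_map_of_mem φ (up_mem t))⟩ : A)) fun s t e => ?_)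
      have h5 : (up s)⁻¹ * up t ∈ φ.ker := by
        rw [MonoidHom.mem_ker, map_mul, map_inv, inv_mul_eq_one]; exact congrArg Subtype.val e
      have h6 := mem_center_iff.1 (h3 h5) (lo 1)
      have h7 := congrArg (fun g : Matrix.SpecialLinearGroup (Fin 2) k => (g : Matrix (Fin 2) (Fin 2) k) 0 0) h6
      simp [up_val, lo_val, Matrix.mul_apply, Fin.sum_univ_two] at h7
      exact (sub_eq_zero.1 (by linear_combination h7)).symm
    · push Not at h
      obtain ⟨P, hP, a, ha, h⟩ := h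
      obtain ⟨g, rfl⟩ := hS.2.2 P hP A hA
      refine lt_of_lt_of_le (by simp; norm_num) (ENat.card_le_card_of_injective
        (f := fun i : Fin 4 => (⟨_, conj_mem_conjBy (pow_mem ha i) g⟩ : conjBy P g)) fun i j e => Fin.ext ?_)
      have h1 : (i : ℕ) ≡ j [MOD orderOf a] := pow_eq_pow_iff_modEq.1 (by simpa using e)
      rcases Nat.eq_zero_or_pos (orderOf a) with h2 | h2
      · rwa [h2, Nat.modEq_zero_iff] at h1
      · exact h1.eq_of_lt_of_lt (i.2.trans_le (h h2)) (j.2.trans_le (h h2))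
  obtain ⟨C, hC, D, hD, h1, h2, h3, h4⟩ : ∃ C ∈ S, ∃ D ∈ S, IsRankOnePair A D ∧ IsRankOnePair C D ∧ ⁅A, C⁆ = ⊥ ∧
      A ≠ C := by
    obtain ⟨P, hP, C, hC, h1, h2⟩ := hcomm
    by_contra hn
    have := class_connected hS (class_nonIso hS ⟨A, hA, B, hB.1, hB.2⟩) P hP C hC
    suffices ∀ Q, Relation.ReflTransGen (FAdj S) P Q → Q ≠ C ∧ ⁅Q, C⁆ = ⊥ from (this C ‹_›).1 rfl
    intro Q hQ
    induction hQ with
    | refl => exact ⟨h1, h2⟩
    | @tail Q R _ h ih =>
      refine ⟨fun e => r1_not_comm h.2.2 (e ▸ ih.2), by_contra fun h3 => hn ?_⟩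
      obtain ⟨g, rfl⟩ := hS.2.2 Q h.1 A hA
      exact ⟨_, hS.1.conj_mem C hC g, _, hS.1.conj_mem R h.2.1 g, r1_conj h.2.2 g,
        r1_conj (r1_symm (tri R h.2.1 C hC h3)) g, cm_conj ih.2 g, fun e => ih.1 (conjBy_inj.1 e)⟩
  refine hS.1.ne_bot A hA (le_bot_iff.1 ((S5020.big (special hS.1 hA hD h1 h2 h3 h4)
    ⟨hS.1.commutative A hA, hS.1.commutative D hD⟩ hc).trans (comm_bot_iff.2 fun x hx h hh => ?_).le))
  by_cases x1 : x = 1
  · rw [x1, one_mul, mul_one]
  obtain ⟨a, a1, a2⟩ : ∃ a : A, (a : G) ≠ 1 ∧ (a : G) ≠ x := by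
    by_contra! hn
    refine absurd (hc.trans_le (ENat.card_le_card_of_injective (f := fun a : A => (a : G) = 1) fun a b e =>
      Subtype.ext ?_)) (by simp)
    by_cases h5 : (a : G) = 1
    · rw [h5, (Eq.mp e h5 : (b : G) = 1)]
    · rw [hn a h5, hn b fun h6 => h5 (Eq.mpr e h6)]
  have := diag_fix hS.1 hA hD h1 h2 h3 h4 hC hB.2 h0 a.2 a1 (mul_mem (inv_mem a.2) hx)
    (fun e => a2 (inv_mul_eq_one.1 e)) hh
  rw [mul_inv_cancel_left] at this
  exact (mul_inv_eq_iff_eq_mul.1 this).symm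

end Cfsg.Agent.S5039
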