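import Cfsg.Statements.S5041
import Cfsg.Agent.H29.Root3

set_option autoImplicit false
open Cfsg

namespace Cfsg.Agent.S5041
open Cfsg.Agent.H29


/-- Let S be a non-degenerate class of abstract root subgroups of G. Then the graph on S joining A to its line partners, and the commuting graph on S, are both connected. -/
theorem result {G : Type*} [Group G] {S : Set (Subgroup G)} (hS : Cfsg.IsRootSubgroupClass S) (hnd : Cfsg.IsNondegenerateRootSet S) :
    Cfsg.IsConnectedFamily (Cfsg.EAdj S S) S ∧ Cfsg.IsConnectedFamily (Cfsg.DAdj S) S := by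
  have hF := class_nonIso hS hnd.2.1
  have key : IsConnectedFamily (EAdj S S) S := by
    intro A hA B hB
    have := class_connected hS hF A hA B hB
    clear hB
    induction this with
    | refl => exact Relation.ReflTransGen.refl
    | @tail A' B' _ h ih =>
      obtain ⟨A₀, hA₀, B₀, hB₀, h₀⟩ := hnd.2.2
      obtain ⟨g, e⟩ := hS.2.2 _ h₀.1 A' h.1
      have hl' := line_partner hS.1 (hS.1.conj_mem _ hA₀ g) (hF _ (hS.1.conj_mem _ hA₀ g)) (RC_conj hS.1 h₀ g)
      rw [← conjBy_commutator, ← e] at hl'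
      obtain ⟨R, hR, m1, m2, m3, m4⟩ := line_point hS.1 hF h.1 hl' h.2.1 h.2.2
      refine ((ih.tail ⟨h.1, hR, linePartners_symm hR (m3 ▸ line_partner hS.1 h.1 (hF _ h.1) m2)⟩).tail
        ⟨hR, m1.1, linePartners_symm m1.1 (line_partner hS.1 hR (hF _ hR) m1)⟩).tail ⟨m1.1, h.2.1, ?_⟩
      rw [Subgroup.commutator_comm]
      exact line_partner hS.1 h.2.1 (hF _ h.2.1) (RC_symm m1)
  refine ⟨key, fun A hA B hB => Relation.ReflTransGen.mono ?_ A B (key A hA B hB)⟩
  rintro P Q ⟨h1, h2, h3⟩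
  exact ⟨h1, h2, h3.1.2.1.symm, h3.1.2.2⟩

end Cfsg.Agent.S5041
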