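import Cfsg.Statements.S5040
import Cfsg.Agent.H29.Root3
import Cfsg.Agent.S5041
import Cfsg.Agent.S5036

set_option autoImplicit false
open Cfsg

namespace Cfsg.Agent.S5040
open Cfsg.Agent.H29


/-- Let S be a non-degenerate class of abstract root subgroups of G and Δ a weak TI-subset of S. Then the members of Δ commute with one another elementwise. -/
theorem result {G : Type*} [Group G] {S : Set (Subgroup G)} (hS : Cfsg.IsRootSubgroupClass S) (hnd : Cfsg.IsNondegenerateRootSet S)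
    {Δ : Set (Subgroup G)} (hΔ : Cfsg.IsWeakTISubset S Δ) : Cfsg.IsAbelianFamily Δ := by
  have hF := class_nonIso hS hnd.2.1
  obtain ⟨hsub, -, hne, hTI⟩ := hΔ
  -- elements fixing a member of `Δ` preserve `Δ`
  have stab : ∀ E ∈ S, ∀ e ∈ E, ∀ P ∈ Δ, conjBy P e = P → ∀ Q ∈ Δ, conjBy Q e ∈ Δ := by
    intro E hE e he P hP h Q hQ
    by_cases e1 : e = 1
    · rwa [e1, conjBy_one]
    rcases hTI e ⟨e1, E, hE, he⟩ with k | k
    · exact k ▸ ⟨Q, hQ, rfl⟩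
    · exact absurd hP (Set.disjoint_left.1 k ⟨P, hP, h⟩)
  let Δ₀ : Set (Subgroup G) := {A | A ∈ Δ ∧ ∃ B ∈ Δ, IsRankOnePair A B}
  have stab0 : ∀ E ∈ S, ∀ e ∈ E, ∀ P ∈ Δ, conjBy P e = P → ∀ Q ∈ Δ₀, conjBy Q e ∈ Δ₀ := by
    rintro E hE e he P hP h Q ⟨hQ, B, hB, r⟩
    exact ⟨stab E hE e he P hP h Q hQ, _, stab E hE e he P hP h B hB, r1_conj r e⟩
  have step : ∀ A ∈ Δ₀, ∀ P ∈ linePartners S A, P ∈ Δ₀ := by
    rintro A ⟨hA, B, hB, r⟩ P hP
    have hAS := hsub hA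
    obtain ⟨R, hR, m1, m2, m3, m4⟩ := line_point hS.1 hF hAS hP (hsub hB) r
    have h1 : ∀ d ∈ ⁅R, B⁆, conjBy A d ∈ Δ₀ := fun d hd =>
      stab0 _ m1.1 d hd B hB (cm_conjBy (cm_symm (RC_right m1)) hd) A ⟨hA, B, hB, r⟩
    rcases line_members hS.1 hAS (hF A hAS) m2 hP.1.1 (by rw [m3, m4]; exact le_sup_right) with
      ⟨d, hd, rfl⟩ | e
    · exact h1 d hd
    · obtain ⟨T, mT, hTA, hTP⟩ := line_third hS.1 hF hAS hP
      rcases line_members hS.1 hAS (hF A hAS) m2 mT.1 (by rw [m3, m4]; exact mT.2) with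
        ⟨d, hd, rfl⟩ | e'
      · obtain ⟨E, hE, -, k⟩ := line_trans hS.1 hF hAS hP (P := A) ⟨hAS, le_sup_left⟩
        obtain ⟨x, hx, ex⟩ := (k _ mT hTA).2 P ⟨hP.1.1, le_sup_right⟩ hP.1.2.1
        rw [← ex]
        exact stab0 E hE.1.1 x hx A hA (cm_conjBy (cm_symm hE.1.2.2) hx) _ (h1 d hd)
      · exact absurd (e'.trans e.symm) hTP
  intro A hA B hB
  by_contra hn
  have hAS := hsub hA
  have hBS := hsub hB
  have : ∃ A₀, A₀ ∈ Δ₀ := by
    rcases hS.1.pair A hAS B hBS with e | e | e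
    · exact absurd (comm_bot_iff.1 e) hn
    · exact ⟨A, hA, B, hB, e⟩
    · have hl := linePartners_symm e.1 (line_partner hS.1 hAS (hF A hAS) e)
      obtain ⟨E, hE, -, k⟩ := line_trans hS.1 hF hAS hl (P := A) ⟨hAS, le_sup_left⟩
      have k1 := (k _ ⟨e.1, le_sup_right⟩ (RC_ne_left hS.1 e).symm).1.2
      have r := (S5036.result hS.1 hAS hBS e.1 hE.1.1 (by rw [Subgroup.commutator_comm, k1])).1
      obtain ⟨x, hx, x1⟩ := r1_exists_ne_one (r1_symm r)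
      exact ⟨B, hB, _, stab E hE.1.1 x hx A hA (cm_conjBy (cm_symm hE.1.2.2) hx) B hB,
        (r1_self_conj (r1_symm r) hx x1).1⟩
  obtain ⟨A₀, hA₀⟩ := this
  apply hne
  apply Set.Subset.antisymm hsub
  intro P hP
  have := (S5041.result hS hnd).1 A₀ (hsub hA₀.1) P hP
  clear hP
  suffices P ∈ Δ₀ from this.1
  induction this with
  | refl => exact hA₀
  | tail _ h ih => exact step _ ih _ h.2.2

end Cfsg.Agent.S5040
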