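import Cfsg.Statements.S5042
import Cfsg.Agent.H29.Root3
import Cfsg.Agent.S5041

set_option autoImplicit false
open Cfsg

namespace Cfsg.Agent.S5042
open Cfsg.Agent.H29


/-- Let S be a non-degenerate class of abstract root subgroups of G, A ∈ S and B a rank one partner of A. Then G is generated by the line partners of A together with B. -/
theorem result {G : Type*} [Group G] {S : Set (Subgroup G)} (hS : Cfsg.IsRootSubgroupClass S) (hnd : Cfsg.IsNondegenerateRootSet S)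
    {A B : Subgroup G} (hA : A ∈ S) (hB : B ∈ Cfsg.rankOnePartners S A) :
    (⨆ C ∈ Cfsg.linePartners S A, C) ⊔ B = ⊤ := by
  have hF := class_nonIso hS hnd.2.1
  set H := (⨆ C ∈ linePartners S A, C) ⊔ B with hH
  let Δ : Set (Subgroup G) := {E | E ∈ S ∧ E ≤ H ∧ (∀ C ∈ linePartners S E, C ≤ H) ∧
    ∃ F ∈ S, F ≤ H ∧ (∀ C ∈ linePartners S F, C ≤ H) ∧ IsRankOnePair E F}
  have lconj : ∀ {E C : Subgroup G} (g : G), C ∈ linePartners S E →
      conjBy C g ∈ linePartners S (conjBy E g) := by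
    rintro E C g ⟨⟨h1, h2, h3⟩, h4, h5, h6⟩
    refine ⟨⟨hS.1.conj_mem C h1 g, fun e => h2 (conjBy_inj.1 e), cm_conj h3 g⟩, fun T hT => hT.2, ?_, ?_⟩
    · intro x hx x1
      rw [← conjBy_sup, mem_conjBy] at hx
      obtain ⟨T, hT, ht⟩ := h5 _ hx (fun e => x1 (by
        rw [show x = g * (g⁻¹ * x * g) * g⁻¹ by group, e]; simp))
      exact ⟨conjBy T g, ⟨hS.1.conj_mem T hT.1 g, by rw [← conjBy_sup]; exact conjBy_mono hT.2 g⟩,
        mem_conjBy.2 ht⟩
    · intro T hT U hU hne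
      have m : ∀ T ∈ membersIn S (conjBy E g ⊔ conjBy C g), conjBy T g⁻¹ ∈ membersIn S (E ⊔ C) := by
        intro T hT
        refine ⟨hS.1.conj_mem T hT.1 _, ?_⟩
        have := conjBy_mono hT.2 g⁻¹
        rwa [← conjBy_sup, conjBy_inv_conjBy] at this
      have := h6 _ (m T hT) _ (m U hU) (fun e => hne (conjBy_inj.1 e))
      rwa [← conjBy_inf, conjBy_eq_bot] at this
  have lc : ∀ {E : Subgroup G}, ∀ g ∈ H, (∀ C ∈ linePartners S E, C ≤ H) →
      ∀ C ∈ linePartners S (conjBy E g), C ≤ H := by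
    intro E g hg h C hC
    have := lconj g⁻¹ hC
    rw [conjBy_inv_conjBy] at this
    have := conjBy_le_of_mem (h _ this) hg
    rwa [conjBy_conjBy_inv] at this
  have dconj : ∀ E ∈ Δ, ∀ g ∈ H, conjBy E g ∈ Δ := by
    rintro E ⟨h1, h2, h3, F, h4, h5, h6, h7⟩ g hg
    exact ⟨hS.1.conj_mem E h1 g, conjBy_le_of_mem h2 hg, lc g hg h3, _, hS.1.conj_mem F h4 g,
      conjBy_le_of_mem h5 hg, lc g hg h6, r1_conj h7 g⟩
  have step : ∀ E ∈ Δ, ∀ P ∈ linePartners S E, P ∈ Δ := by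
    intro E hE P hP
    obtain ⟨hAS, h2, h3, F, h4, h5, h6, r⟩ := id hE
    obtain ⟨R, hR, m1, m2, m3, m4⟩ := line_point hS.1 hF hAS hP h4 r
    have hD : ⁅R, F⁆ ≤ H := by
      apply h6
      rw [Subgroup.commutator_comm]
      exact linePartners_symm (RC_symm m1).1 (line_partner hS.1 h4 (hF _ h4) (RC_symm m1))
    rcases line_members hS.1 hAS (hF E hAS) m2 hP.1.1 (by rw [m3, m4]; exact le_sup_right) with
      ⟨d, hd, rfl⟩ | e
    · exact dconj E hE d (hD hd)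
    · obtain ⟨T, mT, hTA, hTP⟩ := line_third hS.1 hF hAS hP
      rcases line_members hS.1 hAS (hF E hAS) m2 mT.1 (by rw [m3, m4]; exact mT.2) with
        ⟨d, hd, rfl⟩ | e'
      · obtain ⟨E', hE', -, k⟩ := line_trans hS.1 hF hAS hP (P := E) ⟨hAS, le_sup_left⟩
        obtain ⟨x, hx, ex⟩ := (k _ mT hTA).2 P ⟨hP.1.1, le_sup_right⟩ hP.1.2.1
        rw [← ex]
        exact dconj _ (dconj E hE d (hD hd)) x (h3 E' hE' hx)
      · exact absurd (e'.trans e.symm) hTP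
  have hLA : ∀ C ∈ linePartners S A, C ≤ H := fun C hC =>
    (le_iSup₂ (f := fun C (_ : C ∈ linePartners S A) => C) C hC).trans le_sup_left
  have hAH : A ≤ H := by
    obtain ⟨A₀, hA₀, B₀, hB₀, h₀⟩ := hnd.2.2
    obtain ⟨g, e⟩ := hS.2.2 _ h₀.1 A hA
    have hl' := line_partner hS.1 (hS.1.conj_mem _ hA₀ g) (hF _ (hS.1.conj_mem _ hA₀ g)) (RC_conj hS.1 h₀ g)
    rw [← conjBy_commutator, ← e] at hl'
    obtain ⟨E', hE', -, k⟩ := line_trans hS.1 hF hA hl' (P := A) ⟨hA, le_sup_left⟩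
    rw [← (k _ ⟨hl'.1.1, le_sup_right⟩ hl'.1.2.1).1.2]
    exact (Subgroup.commutator_le_sup _ _).trans (sup_le (hLA _ hl') (hLA _ hE'))
  have hAΔ : A ∈ Δ := by
    obtain ⟨x, hx, ex⟩ := r1_exists_conj hB.2
    refine ⟨hA, hAH, hLA, B, hB.1, le_sup_right, ?_, hB.2⟩
    rw [← ex]
    exact lc x ((sup_le hAH le_sup_right : A ⊔ B ≤ H) hx) hLA
  rw [eq_top_iff, ← hS.1.generates]
  refine iSup₂_le fun P hP => ?_
  have := (S5041.result hS hnd).1 A hA P hP
  clear hP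
  suffices P ∈ Δ from this.2.1
  induction this with
  | refl => exact hAΔ
  | tail _ h ih => exact step _ ih _ h.2.2

end Cfsg.Agent.S5042
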