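import Cfsg.Statements.S5043
import Cfsg.Agent.H23.RS2
-- import your own Cfsg.Agent.* helpers here

set_option autoImplicit false
open Matrix
open Cfsg

namespace Cfsg.Agent.S5043

/-- Let k be a field and n a natural number. In SL_{n+3}(k) (so in every dimension at least 3) the conjugates of the root subgroup of elementary transvections 1 + c E₁₂ (c ∈ k) — that is, the groups of transvections attached to an incident point–hyperplane pair — form a non-degenerate class of abstract k-root subgroups of SL_{n+3}(k) whose graph of rank one pairs is connected. -/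
theorem result (k : Type*) [Field k] (n : ℕ) :
    Cfsg.IsRootSubgroupClass {A : Subgroup (Matrix.SpecialLinearGroup (Fin (n + 3)) k) |
        ∃ g : Matrix.SpecialLinearGroup (Fin (n + 3)) k,
          A = Cfsg.conjBy (Subgroup.closure {t : Matrix.SpecialLinearGroup (Fin (n + 3)) k |
            ∃ c : k, (t : Matrix (Fin (n + 3)) (Fin (n + 3)) k) = Matrix.transvection 0 1 c}) g} ∧
    Cfsg.IsNondegenerateRootSet {A : Subgroup (Matrix.SpecialLinearGroup (Fin (n + 3)) k) |
        ∃ g : Matrix.SpecialLinearGroup (Fin (n + 3)) k,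
          A = Cfsg.conjBy (Subgroup.closure {t : Matrix.SpecialLinearGroup (Fin (n + 3)) k |
            ∃ c : k, (t : Matrix (Fin (n + 3)) (Fin (n + 3)) k) = Matrix.transvection 0 1 c}) g} ∧
    Cfsg.IsKRootSubgroupSet k {A : Subgroup (Matrix.SpecialLinearGroup (Fin (n + 3)) k) |
        ∃ g : Matrix.SpecialLinearGroup (Fin (n + 3)) k,
          A = Cfsg.conjBy (Subgroup.closure {t : Matrix.SpecialLinearGroup (Fin (n + 3)) k |
            ∃ c : k, (t : Matrix (Fin (n + 3)) (Fin (n + 3)) k) = Matrix.transvection 0 1 c}) g} ∧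
    Cfsg.IsConnectedFamily (Cfsg.FAdj {A : Subgroup (Matrix.SpecialLinearGroup (Fin (n + 3)) k) |
        ∃ g : Matrix.SpecialLinearGroup (Fin (n + 3)) k,
          A = Cfsg.conjBy (Subgroup.closure {t : Matrix.SpecialLinearGroup (Fin (n + 3)) k |
            ∃ c : k, (t : Matrix (Fin (n + 3)) (Fin (n + 3)) k) = Matrix.transvection 0 1 c}) g})
      {A : Subgroup (Matrix.SpecialLinearGroup (Fin (n + 3)) k) |
        ∃ g : Matrix.SpecialLinearGroup (Fin (n + 3)) k,
          A = Cfsg.conjBy (Subgroup.closure {t : Matrix.SpecialLinearGroup (Fin (n + 3)) k |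
            ∃ c : k, (t : Matrix (Fin (n + 3)) (Fin (n + 3)) k) = Matrix.transvection 0 1 c}) g} := by
  open Cfsg.Agent.H23 Subgroup in
    open Cfsg.Agent.H23.RS Cfsg.Agent.H29 in
    have h01 : (0 : Fin (n + 3)) ≠ 1 := by simp [Fin.ext_iff]
    have h02 : (0 : Fin (n + 3)) ≠ 2 := by simp [Fin.ext_iff, Nat.mod_eq_of_lt]
    have h12 : (1 : Fin (n + 3)) ≠ 2 := by simp [Fin.ext_iff, Nat.mod_eq_of_lt]
    have h := nilSys_NL (k := k) (ι := Fin (n + 3))
    rw [fam_NL h01]
    refine ⟨class_of_conn (h.rootSet gen_NL) ⟨_, _, single_NL h01, rfl⟩ (h.conn common_NL),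
      ⟨⟨_, ⟨_, single_NL h01, rfl⟩, _, ⟨_, single_NL h02, rfl⟩, fun e => ?_,
        h.cm_of (single_NL h01) (single_NL h02) (by simp [h01.symm, h02.symm])⟩,
      ⟨_, ⟨_, single_NL h01, rfl⟩, _, ⟨_, single_NL h01.symm, rfl⟩,
        (h.psl_of (single_NL h01) (single_NL h01.symm) one_ne_zero (by simp) (by simp)).2⟩,
      ⟨_, ⟨_, single_NL h01, rfl⟩, _, ⟨_, single_NL h12, rfl⟩, h.rc_of (single_NL h01) (single_NL h12)
        (by simp [h02.symm]) (by simp [h02.symm]) (by simpa [h02.symm] using single_NL h02)⟩⟩,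
      h.kRootSet gen_NL, h.conn common_NL⟩
    obtain ⟨c, -, hc⟩ := h.eq_iff (single_NL h01) (single_NL h02) e
    simpa [h12.symm] using congrFun (congrFun hc 0) 1

end Cfsg.Agent.S5043
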