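import Cfsg.Statements.S5045
import Cfsg.Agent.H23.RI3
-- import your own Cfsg.Agent.* helpers here

set_option autoImplicit false
open Cfsg

namespace Cfsg.Agent.S5045

/-- Let G be a finite group generated by a set D of root involutions, and W the set of members of D whose product with every other member of D has even order or is trivial (the isolated vertices of the odd-order-product graph on D). Then W is conjugation-invariant and generates a normal 2-subgroup of G meeting D in exactly W; the commutator of two members of D lying in different connected components of that graph, each with more than one member, lies in the subgroup generated by W; and for a in such a component, every member of D commuting with a, different from a and with product with a in D, lies in that component or in W. -/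
theorem result {G : Type*} [Group G] [Finite G] {D : Set G} (hD : Cfsg.IsRootInvolutionSet D) :
    (∀ w ∈ {w | Cfsg.IsIsolatedElem (Cfsg.OddAdj D) D w}, ∀ g : G, g * w * g⁻¹ ∈ {w | Cfsg.IsIsolatedElem (Cfsg.OddAdj D) D w}) ∧
    (Subgroup.closure {w | Cfsg.IsIsolatedElem (Cfsg.OddAdj D) D w}).Normal ∧
    IsPGroup 2 ↥(Subgroup.closure {w | Cfsg.IsIsolatedElem (Cfsg.OddAdj D) D w}) ∧
    (Subgroup.closure {w | Cfsg.IsIsolatedElem (Cfsg.OddAdj D) D w} : Set G) ∩ D = {w | Cfsg.IsIsolatedElem (Cfsg.OddAdj D) D w} ∧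
    (∀ a ∈ D, ∀ b ∈ D, (∃ a' ∈ Cfsg.elemComponentOf (Cfsg.OddAdj D) D a, a' ≠ a) →
      (∃ b' ∈ Cfsg.elemComponentOf (Cfsg.OddAdj D) D b, b' ≠ b) →
      Cfsg.elemComponentOf (Cfsg.OddAdj D) D a ≠ Cfsg.elemComponentOf (Cfsg.OddAdj D) D b →
        a * b * a⁻¹ * b⁻¹ ∈ Subgroup.closure {w | Cfsg.IsIsolatedElem (Cfsg.OddAdj D) D w}) ∧
    (∀ a ∈ D, (∃ a' ∈ Cfsg.elemComponentOf (Cfsg.OddAdj D) D a, a' ≠ a) →
      Cfsg.productPartners D a ⊆ Cfsg.elemComponentOf (Cfsg.OddAdj D) D a ∪ {w | Cfsg.IsIsolatedElem (Cfsg.OddAdj D) D w}) := by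
  open Cfsg.Agent.H23 Subgroup in
  open RI in
    set W := {w | IsIsolatedElem (OddAdj D) D w} with hW
    have h1 : ∀ w ∈ W, ∀ g : G, g * w * g⁻¹ ∈ W := fun w hw g =>
      iso_iff.2 ⟨hD.conj_mem w hw.1 g, fun x hx ho => (iso_iff.1 hw).2 _ (hD.conj_mem x hx g⁻¹) (by
        have := ho.conj g⁻¹
        rwa [show g⁻¹ * (g * w * g⁻¹) * g⁻¹⁻¹ = w by group] at this)⟩
    have h2 : (closure W).Normal := H24.normal_of_forall_cj_le fun g => by
      rw [H24.cj_closure, closure_le]
      rintro _ ⟨t, ht, rfl⟩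
      exact subset_closure (h1 t ht g)
    have h3 : IsPGroup 2 (closure W) := isPGroup_closure hD (fun _ h => h.1)
      (fun s hs t ht => by simpa only [iv hD hs.1] using h1 t ht s) fun s hs t ht => (iso_iff.1 hs).2 t ht.1
    have h4 : ∀ a ∈ D, (∃ a' ∈ elemComponentOf (OddAdj D) D a, a' ≠ a) → ∀ b, XX D a b →
        b ∈ elemComponentOf (OddAdj D) D a ∪ W := by
      rintro a ha ⟨a', h5, h6⟩ b hb
      obtain ⟨x, hx, ho⟩ := exists_od_of_path h5.2 h6
      by_cases h7 : b ∈ W
      · exact Or.inr h7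
      · obtain ⟨y, hy, ho'⟩ : ∃ y ∈ D, Od b y := by
          by_contra! h8
          exact h7 (iso_iff.2 ⟨hb.r, h8⟩)
        exact Or.inl ⟨hb.r, hb.path hD hx ho hy ho'⟩
    refine ⟨h1, h2, h3, Set.Subset.antisymm (fun d hd => iso_iff.2 ⟨hd.2, fun x hx => not_od_of_mem hD h3 hd.2 hd.1 hx⟩)
      fun w hw => ⟨subset_closure hw, hw.1⟩, fun a ha b hb ha' hb' hne => ?_,
      fun a ha ha' b hb => h4 a ha ha' b ((xx_iff ha).1 hb)⟩
    have h5 : ¬ Relation.ReflTransGen (OddAdj D) a b := fun h => hne (Set.ext fun c => and_congr_right fun _ =>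
      ⟨fun h' => (path_symm h).trans h', fun h' => h.trans h'⟩)
    rcases tri hD ha hb with h | h | h
    · rw [h]; simp
    · exact (h5 (.single ⟨ha, hb, h⟩)).elim
    rw [show a * b * a⁻¹ * b⁻¹ = cm a b from comm_eq_cm hD ha hb]
    rcases h4 a ha ha' _ (h.xl hD ha hb) with h6 | h6
    · rcases h4 b hb hb' _ (h.xr hD ha hb) with h7 | h7
      · exact (h5 (h6.2.trans (path_symm h7.2))).elim
      · exact subset_closure h7
    · exact subset_closure h6

end Cfsg.Agent.S5045
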