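import Cfsg.Statements.S5046
import Cfsg.Agent.H23.RI2
-- import your own Cfsg.Agent.* helpers here

set_option autoImplicit false
open Cfsg

namespace Cfsg.Agent.S5046

/-- Let G be a finite group generated by a set D of root involutions whose odd-order-product graph is connected, and d ∈ D. Then the members e of D with the same commuting members as d are exactly those for which the union of the commuting members of d and the members whose product with d has order 4 equals the corresponding union for e. -/
theorem result {G : Type*} [Group G] [Finite G] {D : Set G} (hD : Cfsg.IsRootInvolutionSet D)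
    (hc : Cfsg.IsConnectedSet (Cfsg.OddAdj D) D) {d : G} (hd : d ∈ D) :
    Cfsg.sameCommutingClass D d =
      {e | e ∈ D ∧ Cfsg.commutingMembers D d ∪ Cfsg.fourPartners D d = Cfsg.commutingMembers D e ∪ Cfsg.fourPartners D e} := by
  open Cfsg.Agent.H23 Subgroup in
  open RI in
    have hcl := cl_of_conn hD hc
    ext e
    rw [same_iff hD hcl hd]
    refine and_congr_right fun he => ?_
    have k : ∀ d ∈ D, ∀ x, x ∈ commutingMembers D d ∪ fourPartners D d ↔ x ∈ D ∧ x ∉ oddPartners D d := by
      intro d hd x
      constructor
      · rintro (h | h)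
        · exact ⟨h.1, fun h' => (od_iff.1 h').2.not_co hD hd h.1 h.2.symm⟩
        · exact ⟨h.1, fun h' => (od_iff.1 h').2.not_fo h.2⟩
      · rintro ⟨h1, h2⟩
        rcases tri hD hd h1 with h | h | h
        · exact Or.inl ⟨h1, h.symm⟩
        · exact (h2 (od_iff.2 ⟨h1, h⟩)).elim
        · exact Or.inr ⟨h1, h⟩
    refine ⟨fun h => Set.ext fun x => by rw [k d hd, k e he, h], fun h => ?_⟩
    refine odd_eq_of_subset hD hcl hd he fun x hx => ?_
    by_contra h1
    exact ((k d hd x).1 (h ▸ (k e he x).2 ⟨hx.1, h1⟩)).2 hx

end Cfsg.Agent.S5046
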