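import Cfsg.Statements.S5049
import Cfsg.Agent.H23.RI1
-- import your own Cfsg.Agent.* helpers here

set_option autoImplicit false
open Cfsg

namespace Cfsg.Agent.S5049

/-- Let G be a finite group generated by a set D of odd transpositions (root involutions with no product of order 4), Q = O₂(G), and for a ∈ D let Q_a be the commutator subgroup of Q with a. Then every member of D commuting with a centralizes Q_a; and for b ∈ D with ab of odd order greater than 1, the centralizer of ab in Q is the intersection of the centralizers of a and b in Q. -/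
theorem result {G : Type*} [Group G] [Finite G] {D : Set G} (hD : Cfsg.IsOddTranspositionSet D) {a : G} (ha : a ∈ D) :
    (∀ e ∈ Cfsg.commutingMembers D a, ∀ q ∈ ⁅Cfsg.pCore 2 G, Subgroup.zpowers a⁆, e * q = q * e) ∧
    (∀ b ∈ Cfsg.oddPartners D a,
      Cfsg.pCore 2 G ⊓ Subgroup.centralizer {a * b} = Cfsg.pCore 2 G ⊓ Subgroup.centralizer {a} ⊓ Subgroup.centralizer {b}) := by
  open Cfsg.Agent.H23 Subgroup in
  open RI in
    have hR := hD.1
    have h4 : ∀ u ∈ D, ∀ v ∈ D, ¬ Od u v → u * v = v * u := fun u hu v hv h =>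
      ((tri hR hu hv).resolve_right fun h' => h'.elim h (hD.2 u hu v hv))
    have hN : (pCore 2 G).Normal := inferInstance
    constructor
    · intro e he
      have : ⁅pCore 2 G, zpowers a⁆ ≤ centralizer {e} := by
        have hea : e * a = a * e := he.2
        refine H24.commutator_zpowers_right_le (le_normalizer (mem_centralizer_singleton_iff.2 hea.symm))
          fun q hq => ?_
        · rw [mem_centralizer_singleton_iff]
          have h1 := hR.conj_mem a ha q
          have h2 : e * (q * a * q⁻¹) = q * a * q⁻¹ * e := by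
            refine h4 e he.1 _ h1 fun ho => ho.not_co hR he.1 h1 ((cm_eq_one_iff hR he.1 h1).1 ?_)
            have h5 : cm e (q * a * q⁻¹) ∈ pCore 2 G := by
              rw [← QuotientGroup.eq_one_iff]
              have h6 : ((q : G) : G ⧸ pCore 2 G) = 1 := (QuotientGroup.eq_one_iff _).2 hq
              simp only [cm, QuotientGroup.mk_mul, QuotientGroup.mk_inv, h6, one_mul, inv_one, mul_one]
              rw [← QuotientGroup.mk_mul, ← QuotientGroup.mk_mul]
              exact congrArg _ ((cm_eq_one_iff hR he.1 ha).2 hea)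
            obtain ⟨k, hk⟩ := H24.isPGroup_iff.1 (H24.isPGroup_pCore 2 G) _ h5
            refine orderOf_eq_one_iff.1 (Nat.Coprime.eq_one_of_dvd ((Nat.coprime_two_right.2 ?_).pow_right k)
              (orderOf_dvd_of_pow_eq_one hk))
            rw [cm, ← pow_two]
            exact H11.odd_orderOf_pow ho.2 2
          rw [commutatorElement_def, iv hR ha, mul_assoc _ a e, ← hea, ← mul_assoc, ← h2, mul_assoc]
      intro q hq
      exact (mem_centralizer_singleton_iff.1 (this hq)).symm
    · intro b hb
      obtain ⟨hb, ho⟩ := od_iff.1 hb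
      have k : ∀ a ∈ D, ∀ b ∈ D, Od a b → ∀ c ∈ pCore 2 G, c * (a * b) = a * b * c → c * b = b * c := by
        intro a ha b hb ho c hc h
        have hv : b * c * b⁻¹ * c⁻¹ ∈ pCore 2 G := mul_mem (hN.conj_mem c hc b) (inv_mem hc)
        obtain ⟨k, hk⟩ := H24.isPGroup_iff.1 (H24.isPGroup_pCore 2 G) _ hv
        have h1 : Commute c (a * b) := h
        have h2 : Commute (b * c * b⁻¹) (a * b) := by
          have := h1.inv_right.conj b
          rwa [(by group : b * (a * b)⁻¹ * b⁻¹ = (b * (a * b) * b⁻¹)⁻¹),
            H11.invol_inverts_right (sq hR ha) (sq hR hb), inv_inv] at this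
        have h3 := (h2.mul_left h1.inv_left).symm
        have e : a * (c * b * c⁻¹) = a * b * (b * c * b⁻¹ * c⁻¹) := by
          rw [iv hR hb]; simp only [mul_assoc, mm hR hb]
        generalize hv' : b * c * b⁻¹ * c⁻¹ = v at hk h3 e
        by_cases h5 : Od a (c * b * c⁻¹)
        · have h6 : (a * b * v) ^ (orderOf (a * b * v) * orderOf (a * b)) = 1 := by
            rw [pow_mul, pow_orderOf_eq_one, one_pow]
          rw [h3.mul_pow, mul_comm (orderOf (a * b * v)), pow_mul, pow_orderOf_eq_one, one_pow, one_mul] at h6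
          have h7 : v = 1 := orderOf_eq_one_iff.1 (Nat.eq_one_of_dvd_coprimes
            ((Nat.coprime_two_right.2 (ho.2.mul (e ▸ h5.2))).pow_right k)
            (orderOf_dvd_of_pow_eq_one h6) (orderOf_dvd_of_pow_eq_one hk))
          rw [h7, mul_inv_eq_one, mul_inv_eq_iff_eq_mul] at hv'
          exact hv'.symm
        · have h6 := congrArg (· ^ 2 ^ k) (pow_four hR ha (hR.conj_mem b hb c) h5)
          simp only [e, one_pow] at h6
          rw [← pow_mul, h3.mul_pow, mul_comm 4, pow_mul v, hk, one_pow, mul_one] at h6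
          refine absurd (orderOf_eq_one_iff.1 (Nat.Coprime.eq_one_of_dvd ?_ (orderOf_dvd_of_pow_eq_one h6)))
            (mul_ne_one hR ha ho.1)
          exact ((Nat.coprime_two_right.2 ho.2).pow_right k).mul_right ((Nat.coprime_two_right.2 ho.2).pow_right 2)
      ext c
      simp only [mem_inf, mem_centralizer_singleton_iff]
      refine ⟨fun h => ?_, fun h => ⟨h.1.1, Commute.mul_right h.1.2 h.2⟩⟩
      have h1 := k a ha b hb ho c h.1 h.2
      refine ⟨⟨h.1, ?_⟩, h1⟩
      rw [← mul_left_inj b, mul_assoc, h.2, mul_assoc, ← h1, mul_assoc]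

end Cfsg.Agent.S5049
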