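import Cfsg.Statements.S5051
import Cfsg.Agent.H24.OT2

set_option autoImplicit false
open Cfsg

namespace Cfsg.Agent.S5051

/-- Let G be a finite group generated by a set D of odd transpositions, d ∈ D, x ∈ D with dx of odd order greater than 1, and X the subgroup generated by x together with the members of D having the same commuting members as d. Then X/O₂(X) is isomorphic to L₂(q) or Sz(q) for a power q > 2 of 2, or is a dihedral group. -/
theorem result {G : Type*} [Group G] [Finite G] {D : Set G} (hD : Cfsg.IsOddTranspositionSet D) {d x : G} (hd : d ∈ D)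
    (hx : x ∈ Cfsg.oddPartners D d) :
    (∃ (F : Type) (_ : Field F) (_ : Fintype F), CharP F 2 ∧ 4 ≤ Fintype.card F ∧
      Nonempty ((↥(Subgroup.closure (Cfsg.sameCommutingClass D d ∪ {x})) ⧸
        Cfsg.pCore 2 ↥(Subgroup.closure (Cfsg.sameCommutingClass D d ∪ {x}))) ≃* Matrix.ProjectiveSpecialLinearGroup (Fin 2) F)) ∨
    Cfsg.Lie.IsoSuzuki ((↥(Subgroup.closure (Cfsg.sameCommutingClass D d ∪ {x})) ⧸
        Cfsg.pCore 2 ↥(Subgroup.closure (Cfsg.sameCommutingClass D d ∪ {x})))) ∨
    (∃ n : ℕ, Nonempty ((↥(Subgroup.closure (Cfsg.sameCommutingClass D d ∪ {x})) ⧸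
        Cfsg.pCore 2 ↥(Subgroup.closure (Cfsg.sameCommutingClass D d ∪ {x}))) ≃* DihedralGroup n)) := by
  open Subgroup Cfsg.Agent.H24 in
  open scoped commutatorElement in
  open Cfsg.Agent.H10 (SubnormalIn OqOf) in
  open Cfsg.Agent.H9 (maxEA) in
    obtain ⟨D', d', x', h, hc⟩ := OT.exists_gn hD hd hx.1 (H23.RI.od_iff.1 hx).2 rfl
    exact h.cases hc

end Cfsg.Agent.S5051
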