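import Cfsg.Statements.S5054
import Cfsg.Agent.H23.OB3
-- import your own Cfsg.Agent.* helpers here

set_option autoImplicit false
open Cfsg

namespace Cfsg.Agent.S5054

/-- Let G be a finite group generated by a non-degenerate conjugacy class D of root involutions. Then for every d ∈ D and every x ∈ D with dx of odd order greater than 1, G is generated by x together with the members of D different from d that commute with d and have product with d in D; and the graph on D joining two different commuting members whose product lies in D is connected. -/
theorem result {G : Type*} [Group G] [Finite G] {D : Set G} (hD : Cfsg.IsNondegenerateRootInvolutionSet D)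
    (hcl : Cfsg.IsRootInvolutionClass D) :
    (∀ d ∈ D, ∀ x ∈ Cfsg.oddPartners D d, Subgroup.closure (Cfsg.productPartners D d ∪ {x}) = ⊤) ∧
    Cfsg.IsConnectedSet (Cfsg.ProdAdj D) D := by
  open Cfsg.Agent.H23 Subgroup in
  open RI in
  obtain ⟨s, hs, t, ht, hf⟩ := hD.2.2.2
  exact ⟨fun d hd x hx => gen hD.1 hcl.2.2 hs ht hf hd hx.1 (od_iff.1 hx).2,
    fun a ha b hb => Relation.ReflTransGen.mono (fun _ _ => prod_iff.2) _ _ (pc hD.1 hcl.2.2 hs ht hf ha hb)⟩

end Cfsg.Agent.S5054
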