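import Cfsg.Statements.S5057
import Cfsg.Agent.H11.Invol
import Cfsg.Agent.H23.RI1
-- import your own Cfsg.Agent.* helpers here

set_option autoImplicit false
open Cfsg

namespace Cfsg.Agent.S5057

section
open Cfsg Subgroup Cfsg.Agent.H23
open Equiv (Perm)

theorem ord : ∀ g : Perm (Fin 6), Perm.sign g = 1 → g ^ 4 = 1 ∨ g ^ 3 = 1 ∨ g ^ 5 = 1 := by
  decide +kernel

theorem ord' (g : alternatingGroup (Fin 6)) : orderOf g ∣ 4 ∨ orderOf g ∣ 3 ∨ orderOf g ∣ 5 := by
  simp only [orderOf_dvd_iff_pow_eq_one, Subtype.ext_iff]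
  exact ord g g.2

theorem ct {g : alternatingGroup (Fin 6)} (h : orderOf g = 2) : (g : Perm (Fin 6)).cycleType = {2, 2} := by
  haveI : Fact (Nat.Prime 2) := ⟨Nat.prime_two⟩
  have h1 : (g : Perm (Fin 6)) ^ 2 = 1 := by rw [← coe_pow, ← h, pow_orderOf_eq_one]; rfl
  have h2 := Perm.cycleType_of_pow_prime_eq_one h1
  have h3 := Perm.sign_of_cycleType (g : Perm (Fin 6))
  have h4 := Perm.sum_cycleType (g : Perm (Fin 6))
  have h5 := Finset.card_le_univ (g : Perm (Fin 6)).support
  have h6 : (g : Perm (Fin 6)).cycleType ≠ 0 := fun e =>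
    H11.ne_one_of_orderOf_two h (Subtype.ext (Perm.cycleType_eq_zero.1 e))
  rw [g.2] at h3
  generalize (g : Perm (Fin 6)).cycleType = s at *
  generalize s.card = k at *
  subst h2
  simp only [Multiset.sum_replicate, smul_eq_mul, Fintype.card_fin] at h3 h4 h5
  have : k ≤ 3 := by omega
  clear h4 h5
  interval_cases k
  · exact absurd rfl h6
  · exact absurd h3 (by decide)
  · rfl
  · exact absurd h3 (by decide)

end


/-- The involutions of the alternating group of degree 6 form a class of root involutions (a single conjugacy class of involutions generating the group, any two of which commute, have product of odd order, or have product of order 4 whose square is again an involution of the class), and the product of any two of them has order at most 5. -/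
theorem result :
    Cfsg.IsRootInvolutionClass {g : ↥(alternatingGroup (Fin 6)) | orderOf g = 2} ∧
    ∀ d ∈ {g : ↥(alternatingGroup (Fin 6)) | orderOf g = 2}, ∀ e ∈ {g : ↥(alternatingGroup (Fin 6)) | orderOf g = 2},
      orderOf (d * e) ≤ 5 := by
  open Cfsg.Agent.H23 Subgroup in
  have h5 : ∀ g : alternatingGroup (Fin 6), orderOf g ≤ 5 := fun g => by
    rcases ord' g with h | h | h <;> exact (Nat.le_of_dvd (by norm_num) h).trans (by norm_num)
  have hc : ∀ d ∈ {g : ↥(alternatingGroup (Fin 6)) | orderOf g = 2}, ∀ g : alternatingGroup (Fin 6),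
      g * d * g⁻¹ ∈ {g : ↥(alternatingGroup (Fin 6)) | orderOf g = 2} := fun d hd g =>
    (H11.orderOf_conj g d).trans hd
  obtain ⟨t, ht⟩ : ∃ t : alternatingGroup (Fin 6), orderOf t = 2 :=
    ⟨⟨Equiv.swap 0 1 * Equiv.swap 2 3, Equiv.Perm.mem_alternatingGroup.2 (by decide)⟩, H11.orderOf_two_of (by decide) (by decide)⟩
  refine ⟨⟨⟨fun d hd => hd, ?_, hc, fun a ha b hb => ?_⟩, ⟨t, ht⟩, fun a ha b hb => ?_⟩, fun d _ e _ => h5 _⟩
  · haveI := alternatingGroup.isSimpleGroup (α := Fin 6) (by simp)
    refine (Subgroup.Normal.eq_bot_or_eq_top (H24.normal_of_forall_cj_le fun g => ?_)).resolve_left fun e =>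
      H11.ne_one_of_orderOf_two ht (mem_bot.1 (e ▸ subset_closure ht))
    rw [H24.cj_closure, closure_le]
    rintro _ ⟨t, ht, rfl⟩
    exact subset_closure (hc t ht g)
  · by_cases h4 : orderOf (a * b) = 4
    · refine Or.inr (Or.inr ⟨h4, ?_⟩)
      rw [pow_two]
      exact H11.orderOf_two_of (RI.four_iff.1 h4).1 (RI.four_iff.1 h4).2
    rcases ord' (a * b) with h | h | h
    · left
      have : orderOf (a * b) ∣ 2 := by
        have := h5 (a * b)
        generalize orderOf (a * b) = n at *
        interval_cases n <;> simp_all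
      rw [orderOf_dvd_iff_pow_eq_one, pow_two, mul_eq_one_iff_eq_inv, mul_inv_rev, H11.inv_eq_of_orderOf_two ha,
        H11.inv_eq_of_orderOf_two hb] at this
      exact this
    · exact Or.inr (Or.inl (Odd.of_dvd_nat (by decide) h))
    · exact Or.inr (Or.inl (Odd.of_dvd_nat (by decide) h))
  · obtain ⟨g, hg⟩ := isConj_iff.1 (alternatingGroup.isConj_of (σ := a) (τ := b)
      (Equiv.Perm.isConj_iff_cycleType_eq.2 ((ct ha).trans (ct hb).symm)) (by
        rw [← Equiv.Perm.sum_cycleType, ct ha]; simp))
    exact ⟨g, hg.symm⟩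

end Cfsg.Agent.S5057
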