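import Cfsg.Statements.S5058
import Cfsg.Agent.H23.RS2
import Cfsg.Agent.H23.RI1
import Cfsg.Agent.H11.Invol
-- import your own Cfsg.Agent.* helpers here

set_option autoImplicit false
open Matrix
open Cfsg

namespace Cfsg.Agent.S5058

section
open Cfsg Subgroup Cfsg.Agent.H23
open Equiv (Perm)

open Cfsg.Agent.H23.RS Cfsg.Agent.H29 Matrix
open scoped MatrixGroups

theorem odd_sl2 {F : Type*} [Field F] [Finite F] [CharP F 2] {l : F} (hl : l ≠ 0) : Odd (orderOf (up (1 : F) * lo l)) := by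
  by_contra h
  obtain ⟨m, hm⟩ := Nat.not_odd_iff_even.1 h
  have h0 := orderOf_pos (up (1 : F) * lo l)
  refine pow_ne_one_of_lt_orderOf (x := up (1 : F) * lo l) (n := m) (by omega) (by omega) ?_
  have h1 : (up (1 : F) * lo l) ^ m * (up (1 : F) * lo l) ^ m = 1 := by rw [← pow_add, ← hm, pow_orderOf_eq_one]
  have h2 : up (1 : F) * lo l * (up (1 : F) * lo l) ^ m = (up (1 : F) * lo l) ^ m * (up (1 : F) * lo l) := by
    rw [← pow_succ, ← pow_succ']
  generalize (up (1 : F) * lo l) ^ m = y at h1 h2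
  have two : (2 : F) = 0 := CharTwo.two_eq_zero
  have a := fun i j => congrFun (congrFun (congrArg Subtype.val h1) i) j
  have b := fun i j => congrFun (congrFun (congrArg Subtype.val h2) i) j
  have a0 := a 0 0
  have a1 := a 1 1
  have b0 := b 0 0
  have b1 := b 0 1
  simp [up_val, lo_val, Matrix.mul_apply, Fin.sum_univ_two] at a0 a1 b0 b1
  have c1 : y.1 0 0 = y.1 1 1 := by
    have : (y.1 0 0 - y.1 1 1) ^ 2 = 0 := by linear_combination a0 - a1 + (y.1 1 1 ^ 2 - y.1 0 0 * y.1 1 1) * two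
    exact sub_eq_zero.1 (pow_eq_zero_iff two_ne_zero |>.1 this)
  have c2 : y.1 0 1 = 0 := (mul_eq_zero.1 (show l * y.1 0 1 = 0 by linear_combination b1 + c1)).resolve_left hl
  have c3 : y.1 1 0 = 0 := by linear_combination b0 + l * c2
  have c4 : y.1 0 0 = 1 := by
    have : (y.1 0 0 - 1) ^ 2 = 0 := by linear_combination a0 - y.1 1 0 * c2 + (1 - y.1 0 0) * two
    exact sub_eq_zero.1 (pow_eq_zero_iff two_ne_zero |>.1 this)
  ext i j
  fin_cases i <;> fin_cases j <;> simp [c2, c3, c4, ← c1]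

theorem three_sl2 {F : Type*} [Field F] [CharP F 2] : (up (1 : F) * lo 1) ^ 3 = 1 := by
  have two : (2 : F) = 0 := CharTwo.two_eq_zero
  ext i j
  fin_cases i <;> fin_cases j <;> simp [up_val, lo_val, pow_succ, Matrix.mul_apply, Fin.sum_univ_two] <;>
    grind

section
variable {k : Type*} [Field k] [CharP k 2] {R : Type*} [Ring R] [Algebra k R] {G : Type*} [Group G]
  {ρ : G →* R} {𝒩 : Set R} (h : NilSys k ρ 𝒩)
include h

theorem ord2 {a : G} {N : R} (hN : N ∈ 𝒩) (ha : ρ a = 1 + N) : orderOf a = 2 := by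
  rw [← one_smul k N] at ha
  exact H11.orderOf_two_of (mt (h.eq_one_iff hN ha).1 one_ne_zero) (h.inj (by
    rw [map_mul, ha, H23.RS.one_add_mul (h.sq N hN), CharTwo.add_self_eq_zero, zero_smul, add_zero, map_one]))

theorem tri {a b : G} {N M : R} (hN : N ∈ 𝒩) (ha : ρ a = 1 + N) (hM : M ∈ 𝒩) (hb : ρ b = 1 + M) :
    a * b = b * a ∨ (∃ l : k, l ≠ 0 ∧ orderOf (a * b) = orderOf (up (1 : k) * lo l)) ∨
      (orderOf (a * b) = 4 ∧ ∃ L ∈ 𝒩, ρ ((a * b) ^ 2) = 1 + L) := by
  rcases h.tri N hN M hM with e | ⟨l, hl, h1, h2⟩ | ⟨h1, h2, h3⟩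
  · refine Or.inl (h.inj ?_)
    simp only [map_mul, ha, hb, mul_add, add_mul, one_mul, mul_one, e]
    abel
  · obtain ⟨φ, h3, h4, h5⟩ := h.exists_sl hN hM hl h1 h2
    refine Or.inr (Or.inl ⟨l, hl, ?_⟩)
    rw [← orderOf_injective φ h3, map_mul, h.inj (show ρ (φ (up 1)) = ρ a by rw [h4, ha, one_smul]),
      h.inj (show ρ (φ (lo l)) = ρ b by rw [h5, hb, div_self hl, one_smul])]
  · have e := h.comm_val hN hM h1 h2 (c := 1) (d := 1) (by rw [ha, one_smul]) (by rw [hb, one_smul])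
    rw [H11.inv_eq_of_orderOf_two (ord2 h hN ha), H11.inv_eq_of_orderOf_two (ord2 h hM hb), one_mul, one_smul,
      mul_assoc (a * b)] at e
    have := ord2 h h3 e
    exact Or.inr (Or.inr ⟨H23.RI.four_iff.2 ⟨H11.ne_one_of_orderOf_two this, by
      rw [← pow_two, ← this, pow_orderOf_eq_one]⟩, _, h3, by rw [pow_two, e]⟩)

end

end


/-- Let F be a finite field of characteristic 2 and n a natural number. Then the transvections of SL_{n+3}(F) (so in every dimension at least 3) (the conjugates of the elementary matrices 1 + c E₁₂, c ≠ 0) form a class of root involutions of SL_{n+3}(F); when F has two elements they form a class of {3,4}⁺-transpositions (every product of odd order has order 1 or 3). -/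
theorem result (F : Type*) [Field F] [Fintype F] [CharP F 2] (n : ℕ) :
    Cfsg.IsRootInvolutionClass {t : Matrix.SpecialLinearGroup (Fin (n + 3)) F | ∃ c : F, c ≠ 0 ∧
        ∃ g : Matrix.SpecialLinearGroup (Fin (n + 3)) F, ((g⁻¹ * t * g : Matrix.SpecialLinearGroup (Fin (n + 3)) F) :
          Matrix (Fin (n + 3)) (Fin (n + 3)) F) = Matrix.transvection 0 1 c} ∧
    (Fintype.card F = 2 → Cfsg.IsThreeFourPlusTranspositionSet {t : Matrix.SpecialLinearGroup (Fin (n + 3)) F | ∃ c : F, c ≠ 0 ∧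
        ∃ g : Matrix.SpecialLinearGroup (Fin (n + 3)) F, ((g⁻¹ * t * g : Matrix.SpecialLinearGroup (Fin (n + 3)) F) :
          Matrix (Fin (n + 3)) (Fin (n + 3)) F) = Matrix.transvection 0 1 c}) := by
  open Cfsg.Agent.H23 Subgroup in
    open Cfsg.Agent.H23.RS Cfsg.Agent.H29 Subgroup in
    have h01 : (0 : Fin (n + 3)) ≠ 1 := by simp [Fin.ext_iff]
    have h02 : (0 : Fin (n + 3)) ≠ 2 := by simp [Fin.ext_iff, Nat.mod_eq_of_lt]
    have h12 : (1 : Fin (n + 3)) ≠ 2 := by simp [Fin.ext_iff, Nat.mod_eq_of_lt]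
    have h := nilSys_NL (k := F) (ι := Fin (n + 3))
    have e : ∀ c : F, Matrix.transvection (0 : Fin (n + 3)) 1 c = 1 + c • single 0 1 1 := fun c => by
      rw [smul_single, smul_eq_mul, mul_one]; rfl
    generalize hD : {t : Matrix.SpecialLinearGroup (Fin (n + 3)) F | ∃ c : F, c ≠ 0 ∧
      ∃ g : Matrix.SpecialLinearGroup (Fin (n + 3)) F, ((g⁻¹ * t * g : Matrix.SpecialLinearGroup (Fin (n + 3)) F) :
        Matrix (Fin (n + 3)) (Fin (n + 3)) F) = Matrix.transvection 0 1 c} = D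
    have hm : ∀ t, t ∈ D ↔ ∃ N ∈ NL F (Fin (n + 3)), slρ F _ t = 1 + N := fun t => by
      rw [← hD]
      constructor
      · rintro ⟨c, hc, g, hg⟩
        refine ⟨_, smul_NL (h.conj _ (single_NL h01) g) hc, ?_⟩
        rw [← conj_one_add, ← e, ← hg, ← slρ_apply, ← map_mul, ← map_mul]
        congr 1; group
      · rintro ⟨N, hN, ht⟩
        obtain ⟨g, hg⟩ := path_isConj (h.conn common_NL _ ⟨_, hN, rfl⟩ _ ⟨_, single_NL h01, rfl⟩)
        rw [rt_conj (h.sq N hN)] at hg
        obtain ⟨c, hc, hg⟩ := h.eq_iff (h.conj N hN g) (single_NL h01) hg.symm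
        refine ⟨c, hc, g⁻¹, ?_⟩
        rw [e, ← hg, ← slρ_apply, inv_inv, map_mul, map_mul, ht, ← one_smul F N, conj_one_add, one_smul, one_smul]
    have hR : IsRootInvolutionSet D := by
      refine ⟨fun d hd => ?_, ?_, fun d hd g => ?_, fun a ha b hb => ?_⟩
      · obtain ⟨N, hN, hd⟩ := (hm d).1 hd
        exact ord2 h hN hd
      · refine H12.SL_eq_top_of_transvection_mem fun i j hij c => ?_
        by_cases hc : c = 0
        · rw [hc, SpecialLinearGroup.transvection_coeff_zero]; exact one_mem _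
        · exact subset_closure ((hm _).2 ⟨_, smul_NL (single_NL hij) hc, by rw [smul_single, smul_eq_mul, mul_one]; rfl⟩)
      · obtain ⟨N, hN, hd⟩ := (hm d).1 hd
        exact (hm _).2 ⟨_, h.conj N hN g, by rw [map_mul, map_mul, hd, ← one_smul F N, conj_one_add, one_smul, one_smul]⟩
      · obtain ⟨N, hN, ha⟩ := (hm a).1 ha
        obtain ⟨M, hM, hb⟩ := (hm b).1 hb
        exact (tri h hN ha hM hb).imp_right fun h => h.imp (fun ⟨l, hl, h⟩ => h ▸ odd_sl2 hl) fun h => ⟨h.1, (hm _).2 h.2⟩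
    have hc : ∀ a ∈ D, IsConj (SpecialLinearGroup.transvection h01 (1 : F)) a := by
      rw [← hD]
      rintro a ⟨c, hc, g, hg⟩
      refine (isConj_iff.2 ⟨SpecialLinearGroup.diag2n h02 c hc, ?_⟩).trans (isConj_iff.2 ⟨g, show g * (g⁻¹ * a * g) * g⁻¹ = a by group⟩)
      rw [mul_inv_eq_iff_eq_mul]
      refine h.inj ?_
      rw [map_mul, map_mul, slρ_apply, slρ_apply, slρ_apply (_ * _), hg, SpecialLinearGroup.diag2n_coe]
      ext i j
      simp only [SpecialLinearGroup.transvection, transvection, diagonal_mul, mul_diagonal, Matrix.add_apply, one_apply,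
        single_apply]
      by_cases h1 : i = j
      · subst h1
        have : ¬ (0 = i ∧ 1 = i) := fun h => h01 (h.1.trans h.2.symm)
        simp [this]
      · by_cases h2 : 0 = i ∧ 1 = j
        · obtain ⟨rfl, rfl⟩ := h2
          simp [h01.symm, h12]
        · simp [h1, h2]
    refine ⟨⟨hR, ⟨SpecialLinearGroup.transvection h01 1, (hm _).2 ⟨_, single_NL h01, rfl⟩⟩, fun a ha b hb =>
      (isConj_iff.1 ((hc a ha).symm.trans (hc b hb))).imp fun _ h => h.symm⟩, fun h2 => ⟨hR, fun a ha b hb ho => ?_⟩⟩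
    obtain ⟨N, hN, ha'⟩ := (hm a).1 ha
    obtain ⟨M, hM, hb'⟩ := (hm b).1 hb
    rcases tri h hN ha' hM hb' with e | ⟨l, hl, e⟩ | ⟨e, -⟩
    · refine Or.inl (orderOf_eq_one_iff.2 (RI.eq_one_of_odd_four ho ?_))
      rw [Commute.mul_pow e, show 4 = 2 * 2 from rfl, pow_mul, pow_mul, ← hR.1 a ha, pow_orderOf_eq_one,
        hR.1 a ha, ← hR.1 b hb, pow_orderOf_eq_one, one_pow, one_mul]
    · have : l = 1 := by
        have := FiniteField.pow_card_sub_one_eq_one l hl
        rwa [h2, show 2 - 1 = 1 from rfl, pow_one] at this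
      rw [e, this]
      exact (Nat.dvd_prime Nat.prime_three).1 (orderOf_dvd_of_pow_eq_one three_sl2)
    · rw [e] at ho
      exact absurd ho (by decide)

end Cfsg.Agent.S5058
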