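import Cfsg.Statements.S5060
import Cfsg.Agent.H29.DicksonGen

set_option autoImplicit false
open Cfsg

namespace Cfsg.Agent.S5060
open Cfsg.Agent.H29

open scoped MatrixGroups

/-- Let k ⊆ K be fields with the characteristic of k not 2 and k not of order 3, and let α ∈ K be a non-zero element algebraic over k. Then the subgroup of SL₂(K) generated by the upper unitriangular matrices with entry c and the lower unitriangular matrices with entry cα, c ranging over k, is exactly the group of matrices of SL₂(K) with all entries in k(α). -/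
theorem result {k K : Type*} [Field k] [Field K] [Algebra k K] (hk2 : ringChar k ≠ 2) (hk3 : Nat.card k ≠ 3)
    (α : K) (hα : IsAlgebraic k α) (hα0 : α ≠ 0) :
    (Subgroup.closure ({g : Matrix.SpecialLinearGroup (Fin 2) K | ∃ c : k, (g : Matrix (Fin 2) (Fin 2) K) = !![1, algebraMap k K c; 0, 1]} ∪
        {g : Matrix.SpecialLinearGroup (Fin 2) K | ∃ c : k, (g : Matrix (Fin 2) (Fin 2) K) = !![1, 0; algebraMap k K c * α, 1]}) :
      Set (Matrix.SpecialLinearGroup (Fin 2) K)) =
    {g : Matrix.SpecialLinearGroup (Fin 2) K | ∀ i j : Fin 2, (g : Matrix (Fin 2) (Fin 2) K) i j ∈ IntermediateField.adjoin k ({α} : Set K)} := by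
  set K' := IntermediateField.adjoin k ({α} : Set K) with hK'
  have h2 : (2 : k) ≠ 0 := Ring.two_ne_zero hk2
  let α' : K' := ⟨α, IntermediateField.mem_adjoin_simple_self k α⟩
  have hint : IsIntegral k α' := (isIntegral_algHom_iff K'.val Subtype.val_injective).1 hα.isIntegral
  have htop : Algebra.adjoin k {α'} = ⊤ := by
    have := IntermediateField.adjoin_simple_toSubalgebra_of_isAlgebraic hint.isAlgebraic
    rw [← this]
    have h3 : IntermediateField.adjoin k {α'} = ⊤ := by
      apply IntermediateField.lift_injective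
      rw [IntermediateField.lift_top, IntermediateField.lift_adjoin_simple]
    rw [h3]; rfl
  let φ : SL(2, K') →* SL(2, K) := Matrix.SpecialLinearGroup.map (algebraMap K' K)
  apply le_antisymm
  · have : ∀ g : SL(2, K'), ∀ i j : Fin 2, (φ g : Matrix (Fin 2) (Fin 2) K) i j ∈ K' :=
      fun g i j => ((g : Matrix (Fin 2) (Fin 2) K') i j).2
    have hle : Subgroup.closure ({g : Matrix.SpecialLinearGroup (Fin 2) K | ∃ c : k, (g : Matrix (Fin 2) (Fin 2) K) = !![1, algebraMap k K c; 0, 1]} ∪
        {g : Matrix.SpecialLinearGroup (Fin 2) K | ∃ c : k, (g : Matrix (Fin 2) (Fin 2) K) = !![1, 0; algebraMap k K c * α, 1]}) ≤ φ.range := by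
      rw [Subgroup.closure_le]
      rintro g (⟨c, hc⟩ | ⟨c, hc⟩)
      · refine ⟨up (algebraMap k K' c), ?_⟩
        ext i j; rw [hc]; fin_cases i <;> fin_cases j <;> simp [φ, up_val]
      · refine ⟨lo (algebraMap k K' c * α'), ?_⟩
        ext i j; rw [hc]; fin_cases i <;> fin_cases j <;> simp [φ, lo_val, α']
    intro g hg
    obtain ⟨g, rfl⟩ := hle hg
    exact this g
  · intro g hg
    let g' : SL(2, K') := ⟨Matrix.of fun i j => ⟨_, hg i j⟩, by
      apply Subtype.val_injective
      have := g.det_coe
      rw [Matrix.det_fin_two] at this ⊢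
      simpa using this⟩
    have e : φ g' = g := by ext i j; rfl
    have := gen_sl2 h2 hk3 hint (fun e => hα0 (congrArg Subtype.val e)) htop
      ((Subgroup.closure ({g : Matrix.SpecialLinearGroup (Fin 2) K | ∃ c : k, (g : Matrix (Fin 2) (Fin 2) K) = !![1, algebraMap k K c; 0, 1]} ∪
        {g : Matrix.SpecialLinearGroup (Fin 2) K | ∃ c : k, (g : Matrix (Fin 2) (Fin 2) K) = !![1, 0; algebraMap k K c * α, 1]})).comap φ)
      (fun c => Subgroup.subset_closure (Or.inl ⟨c, by
        ext i j; fin_cases i <;> fin_cases j <;> simp [φ, up_val]⟩))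
      (fun c => Subgroup.subset_closure (Or.inr ⟨c, by
        ext i j; fin_cases i <;> fin_cases j <;> simp [φ, lo_val, α']⟩))
    rw [← e]
    exact (this ▸ Subgroup.mem_top g' : g' ∈ Subgroup.comap φ _)

end Cfsg.Agent.S5060
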