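import Cfsg.Statements.S5063
import Cfsg.Agent.H29.Quad9

set_option autoImplicit false
universe u
open Cfsg

namespace Cfsg.Agent.S5063
open Cfsg.Agent.H29


/-- Let k be a field of characteristic not 2 with k not of order 3, M a finite-dimensional k-vector space and G ≤ GL(M) such that (G, M) is a quadratic pair (M irreducible for G, and G generated by its quadratically acting elements σ whose scalar family 1 + c(σ − 1), c ∈ k, lies in G). Write 𝒬_d for the quadratic elements of G of minimal commutator rank, E(σ) for the subgroup generated by the members of 𝒬_d with the same fixed space and commutator space as σ, and Σ for the set of these subgroups. Then G is a central product of finitely many quasisimple normal subgroups G₁, …, G_s (pairwise commuting and together generating G), each generated by the quadratic elements of G it contains, and every quadratic element of G lies in one of them. -/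
theorem result {k : Type u} [Field k] (hk2 : ringChar k ≠ 2) (hk3 : Nat.card k ≠ 3)
    {M : Type u} [AddCommGroup M] [Module k M] [FiniteDimensional k M]
    {G : Subgroup (LinearMap.GeneralLinearGroup k M)} (hG : Cfsg.IsQuadraticPair G) :
    ∃ (s : ℕ) (Gi : Fin s → Subgroup (LinearMap.GeneralLinearGroup k M)),
      (∀ i, Gi i ≤ G ∧ ∀ g ∈ G, Cfsg.conjBy (Gi i) g = Gi i) ∧ (∀ i j, i ≠ j → ⁅Gi i, Gi j⁆ = ⊥) ∧ (⨆ i, Gi i) = G ∧
      (∀ i, Cfsg.IsQuasisimple ↥(Gi i) ∧ Subgroup.closure (Cfsg.quadraticElements G ∩ (Gi i : Set (LinearMap.GeneralLinearGroup k M))) = Gi i) ∧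
      Cfsg.quadraticElements G ⊆ ⋃ i, (Gi i : Set (LinearMap.GeneralLinearGroup k M)) := by
  obtain ⟨ι, _, Gi, c1, c2, c3, c4⟩ := central_product (two_ne_of_ringChar hk2) hk3 (Module.finrank k M + 1) G
    (nu_of_irreducible hG.1) hG.2 (fun _ _ _ => by omega)
  obtain ⟨s, ⟨e⟩⟩ := Finite.exists_equiv_fin ι
  have hle : ∀ i, Gi i ≤ G := fun i => c2 ▸ le_iSup Gi i
  refine ⟨s, fun i => Gi (e.symm i), fun i => ⟨hle _, fun g hg => ?_⟩,
    fun i j hij => c1 _ _ (e.symm.injective.ne hij), by rw [← c2]; exact e.symm.iSup_comp,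
    fun i => ⟨(c3 _).1, le_antisymm ((Subgroup.closure_le _).2 fun _ h => h.2) ?_⟩, fun σ hσ => ?_⟩
  · rw [conjBy_eq_self_iff]
    refine (c2.ge.trans (iSup_le fun j => ?_) : G ≤ _) hg
    by_cases h : j = e.symm i
    · rw [h]; exact Subgroup.le_normalizer
    · exact cm_le_norm (c1 _ _ h)
  · refine (c3 _).2.ge.trans (Subgroup.closure_mono fun σ hσ => ⟨?_, hσ.1⟩)
    exact ⟨hle _ hσ.1, hσ.2.1, hσ.2.2.trans (hle _)⟩
  · obtain ⟨i, hi⟩ := single_component hG.1 c1 c2 (sub_one_mem_QT.1 hσ).2 (c4 _ (sub_one_mem_QT.1 hσ).1)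
    exact Set.mem_iUnion.2 ⟨e i, by simp only [e.symm_apply_apply]; exact QT.mem_of_eq hi (by simp)⟩

end Cfsg.Agent.S5063
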