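import Cfsg.Statements.S5067


set_option autoImplicit false
open Cfsg

namespace Cfsg.Agent.S5067

open scoped commutatorElement
theorem key {P : Type*} [Group P] [Group.IsNilpotent P] (hna : ¬ IsMulCommutative P) {E : Subgroup P}
    (hE : IsMulCommutative ↥E) :
    Group.nilpotencyClass ↥(Subgroup.normalClosure (E : Set P)) < Group.nilpotencyClass P := by
  set N := Subgroup.normalClosure (E : Set P)
  have h2 : 2 ≤ Group.nilpotencyClass P := by
    by_contra h
    exact hna (Group.IsNilpotent.nilpotencyClass_le_one_iff.1 (by omega))
  have hN : N ≤ E ⊔ commutator P := by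
    have : (E ⊔ commutator P).Normal := by
      constructor
      intro x hx g
      have : g * x * g⁻¹ = ⁅g, x⁆ * x := by group
      rw [this]
      exact Subgroup.mul_mem _ (Subgroup.mem_sup_right (Subgroup.commutator_mem_commutator trivial trivial)) hx
    exact Subgroup.normalClosure_le_normal (fun x hx => Subgroup.mem_sup_left hx)
  have h1 : N.lowerCentralSeries 1 ≤ (⊤ : Subgroup P).lowerCentralSeries 2 := by
    set L := (⊤ : Subgroup P).lowerCentralSeries 2
    rw [Subgroup.lowerCentralSeries_succ, Subgroup.lowerCentralSeries_zero, Subgroup.commutator_le]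
    intro x hx y hy
    have hx' : x ∈ ((E ⊔ commutator P : Subgroup P) : Set P) := hN hx
    have hy' : y ∈ ((E ⊔ commutator P : Subgroup P) : Set P) := hN hy
    rw [Subgroup.mul_normal] at hx' hy'
    obtain ⟨e, he, p, hp, rfl⟩ := hx'
    obtain ⟨e', he', p', hp', rfl⟩ := hy'
    rw [← QuotientGroup.eq_one_iff, ← QuotientGroup.mk'_apply, map_commutatorElement,
      commutatorElement_eq_one_iff_commute]
    have hc : ∀ p ∈ commutator P, ∀ g : P, Commute (QuotientGroup.mk' L p) (QuotientGroup.mk' L g) := by
      intro p hp g
      rw [← commutatorElement_eq_one_iff_commute, ← map_commutatorElement, QuotientGroup.mk'_apply,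
        QuotientGroup.eq_one_iff]
      exact Subgroup.commutator_mem_commutator hp trivial
    have he2 : Commute (QuotientGroup.mk' L e) (QuotientGroup.mk' L e') :=
      Commute.map (congrArg Subtype.val (hE.is_comm.comm ⟨e, he⟩ ⟨e', he'⟩)) _
    simp only [map_mul]
    exact (he2.mul_right (hc p' hp' e).symm).mul_left (by rw [← map_mul]; exact hc p hp _)
  have h3 : ∀ n, N.lowerCentralSeries (n + 1) ≤ (⊤ : Subgroup P).lowerCentralSeries (n + 2) := by
    intro n
    induction n with
    | zero => exact h1
    | succ n ih => exact Subgroup.commutator_mono ih le_top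
  obtain ⟨n, hn⟩ := Nat.exists_eq_add_of_le' h2
  have := h3 n
  rw [← hn, Subgroup.lowerCentralSeries_nilpotencyClass, le_bot_iff,
    ← Subgroup.top_subtype_lowerCentralSeries, Subgroup.map_eq_bot_iff_of_injective _ N.subtype_injective,
    Subgroup.lowerCentralSeries_eq_bot_iff_nilpotencyClass_le] at this
  omega

/-- Let P be a non-abelian nilpotent p-group (every element of p-power order; P possibly infinite) generated by two abelian subgroups E and F. Then the normal closure of E in P, and likewise that of F, has nilpotency class strictly smaller than that of P. -/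
theorem result {P : Type*} [Group P] {p : ℕ} [Fact p.Prime] (hP : IsPGroup p P) [Group.IsNilpotent P]
    (hna : ¬ IsMulCommutative P) {E F : Subgroup P} (hE : IsMulCommutative ↥E) (hF : IsMulCommutative ↥F) (hgen : E ⊔ F = ⊤) :
    Group.nilpotencyClass ↥(Subgroup.normalClosure (E : Set P)) < Group.nilpotencyClass P ∧
    Group.nilpotencyClass ↥(Subgroup.normalClosure (F : Set P)) < Group.nilpotencyClass P := by
  exact ⟨key hna hE, key hna hF⟩

end Cfsg.Agent.S5067
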