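import Cfsg.Statements.S5070
import Cfsg.Agent.H23.RS2
-- import your own Cfsg.Agent.* helpers here

set_option autoImplicit false
open Matrix
open Cfsg

namespace Cfsg.Agent.S5070

/-- Let F be a field, m a natural number and V = F^{2(m+1)} with the standard non-degenerate alternating form f(u, v) = uᵀ J v. For a non-zero vector p let T(p) be the group of symplectic transvections v ↦ v + c f(v, p) p, c ∈ F. Then the subgroups T(p), p ≠ 0, generate the symplectic group Sp_{2(m+1)}(F) and form a degenerate class of abstract F-root subgroups of it (any two of them either commute elementwise or are the unipotent subgroups of a rank one group that is an image of SL₂(F) with central kernel, never the commutator case), and their graph of rank one pairs is connected. -/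
theorem result (F : Type*) [Field F] (m : ℕ) :
    Cfsg.IsRootSubgroupClass {A : Subgroup ↥(Matrix.symplecticGroup (Fin (m + 1)) F) | ∃ p : Fin (m + 1) ⊕ Fin (m + 1) → F, p ≠ 0 ∧
        A = Subgroup.closure {g : ↥(Matrix.symplecticGroup (Fin (m + 1)) F) | ∃ c : F, ∀ v : Fin (m + 1) ⊕ Fin (m + 1) → F,
          (g : Matrix (Fin (m + 1) ⊕ Fin (m + 1)) (Fin (m + 1) ⊕ Fin (m + 1)) F) *ᵥ v =
            v + (c * (v ⬝ᵥ (Matrix.J (Fin (m + 1)) F *ᵥ p))) • p}} ∧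
    Cfsg.IsDegenerateRootSet {A : Subgroup ↥(Matrix.symplecticGroup (Fin (m + 1)) F) | ∃ p : Fin (m + 1) ⊕ Fin (m + 1) → F, p ≠ 0 ∧
        A = Subgroup.closure {g : ↥(Matrix.symplecticGroup (Fin (m + 1)) F) | ∃ c : F, ∀ v : Fin (m + 1) ⊕ Fin (m + 1) → F,
          (g : Matrix (Fin (m + 1) ⊕ Fin (m + 1)) (Fin (m + 1) ⊕ Fin (m + 1)) F) *ᵥ v =
            v + (c * (v ⬝ᵥ (Matrix.J (Fin (m + 1)) F *ᵥ p))) • p}} ∧
    Cfsg.IsKRootSubgroupSet F {A : Subgroup ↥(Matrix.symplecticGroup (Fin (m + 1)) F) | ∃ p : Fin (m + 1) ⊕ Fin (m + 1) → F, p ≠ 0 ∧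
        A = Subgroup.closure {g : ↥(Matrix.symplecticGroup (Fin (m + 1)) F) | ∃ c : F, ∀ v : Fin (m + 1) ⊕ Fin (m + 1) → F,
          (g : Matrix (Fin (m + 1) ⊕ Fin (m + 1)) (Fin (m + 1) ⊕ Fin (m + 1)) F) *ᵥ v =
            v + (c * (v ⬝ᵥ (Matrix.J (Fin (m + 1)) F *ᵥ p))) • p}} ∧
    Cfsg.IsConnectedFamily (Cfsg.FAdj {A : Subgroup ↥(Matrix.symplecticGroup (Fin (m + 1)) F) | ∃ p : Fin (m + 1) ⊕ Fin (m + 1) → F, p ≠ 0 ∧
        A = Subgroup.closure {g : ↥(Matrix.symplecticGroup (Fin (m + 1)) F) | ∃ c : F, ∀ v : Fin (m + 1) ⊕ Fin (m + 1) → F,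
          (g : Matrix (Fin (m + 1) ⊕ Fin (m + 1)) (Fin (m + 1) ⊕ Fin (m + 1)) F) *ᵥ v =
            v + (c * (v ⬝ᵥ (Matrix.J (Fin (m + 1)) F *ᵥ p))) • p}})
      {A : Subgroup ↥(Matrix.symplecticGroup (Fin (m + 1)) F) | ∃ p : Fin (m + 1) ⊕ Fin (m + 1) → F, p ≠ 0 ∧
        A = Subgroup.closure {g : ↥(Matrix.symplecticGroup (Fin (m + 1)) F) | ∃ c : F, ∀ v : Fin (m + 1) ⊕ Fin (m + 1) → F,
          (g : Matrix (Fin (m + 1) ⊕ Fin (m + 1)) (Fin (m + 1) ⊕ Fin (m + 1)) F) *ᵥ v =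
            v + (c * (v ⬝ᵥ (Matrix.J (Fin (m + 1)) F *ᵥ p))) • p}} := by
  open Cfsg.Agent.H23 Subgroup in
    open Cfsg.Agent.H23.RS Cfsg.Agent.H29 Cfsg.Agent.H12 Subgroup in
    let ρ : symplecticGroup (Fin (m + 1)) F →* Module.End F (Fin (m + 1) ⊕ Fin (m + 1) → F) :=
      (Matrix.toLinAlgEquiv' (R := F) (n := Fin (m + 1) ⊕ Fin (m + 1))).toMonoidHom.comp (Submonoid.subtype _)
    have hρ : ∀ g v, ρ g v = g.1 *ᵥ v := fun g v => Matrix.toLinAlgEquiv'_apply _ _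
    have D := sd_spB (l := Fin (m + 1)) (F := F)
    have h : TvSys F (spB (Fin (m + 1)) F) ρ := by
      refine ⟨D, fun c => ⟨fun _ => ⟨c, rfl⟩, fun _ => rfl⟩, fun a b e => Subtype.ext (mat_ext_mulVec fun v => ?_),
        fun g x y => ?_, fun p c hp hc => ⟨(spEquiv _ F).symm (tv _ p c), fun x => ?_⟩⟩
      · rw [← hρ, ← hρ, e]
      · rw [hρ, hρ, mem_sp_iff.1 g.2]
      · rw [hρ, spEquiv_symm_mulVec, tv_apply D hp hc]
    have e : ∀ p : Fin (m + 1) ⊕ Fin (m + 1) → F, closure {g : symplecticGroup (Fin (m + 1)) F | ∃ c : F, ∀ v,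
        g.1 *ᵥ v = v + (c * (v ⬝ᵥ (Matrix.J (Fin (m + 1)) F *ᵥ p))) • p} =
          rt F ρ ((spB (Fin (m + 1)) F p).smulRight p) := fun p => by
      unfold rt
      congr 1
      ext g
      simp only [Set.mem_ofPred_eq, LinearMap.ext_iff, hρ, ← spB_apply, D.skew p]
      exact ⟨fun ⟨c, hc⟩ => ⟨-c, fun v => by simp [hc, smul_smul]⟩, fun ⟨c, hc⟩ => ⟨-c, fun v => by simp [hc, smul_smul]⟩⟩
    have e' : {A : Subgroup (symplecticGroup (Fin (m + 1)) F) | ∃ p : Fin (m + 1) ⊕ Fin (m + 1) → F, p ≠ 0 ∧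
        A = closure {g : symplecticGroup (Fin (m + 1)) F | ∃ c : F, ∀ v,
        g.1 *ᵥ v = v + (c * (v ⬝ᵥ (Matrix.J (Fin (m + 1)) F *ᵥ p))) • p}} = fam F ρ (NB (spB (Fin (m + 1)) F)) := by
      ext A
      simp only [e]
      exact ⟨fun ⟨p, hp, hA⟩ => ⟨_, ⟨p, hp, D.self_eq_zero rfl p, rfl⟩, hA⟩, fun ⟨_, ⟨p, hp, _, rfl⟩, hA⟩ => ⟨p, hp, hA⟩⟩
    have hg : ⨆ A ∈ fam F ρ (NB (spB (Fin (m + 1)) F)), A = ⊤ := by
      refine map_injective (f := (spEquiv (Fin (m + 1)) F).toMonoidHom) (spEquiv _ F).injective ?_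
      rw [map_top_of_surjective _ (spEquiv _ F).surjective, eq_top_iff, ← D.TG_eq_top rfl, TG, closure_le]
      rintro _ ⟨p, c, rfl⟩
      by_cases hp : p = 0
      · rw [hp, tv_zero_left D]; exact one_mem _
      refine ⟨(spEquiv _ F).symm (tv _ p c), le_iSup₂_of_le (f := fun A (_ : A ∈ fam F ρ (NB (spB (Fin (m + 1)) F))) => A)
        _ ⟨_, ⟨p, hp, D.self_eq_zero rfl p, rfl⟩, rfl⟩ le_rfl (subset_closure ⟨c, LinearMap.ext fun x => ?_⟩),
        (spEquiv _ F).apply_symm_apply _⟩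
      rw [hρ, spEquiv_symm_mulVec, tv_apply D (D.self_eq_zero rfl p) rfl]
      simp [smul_smul]
    rw [e']
    exact ⟨class_of_conn (h.nilSys.rootSet hg) ⟨_, _, ⟨Pi.single (.inl 0) 1, by simp, D.self_eq_zero rfl _, rfl⟩, rfl⟩
      (h.nilSys.conn h.common), h.nilSys.degenerate hg h.deg, h.nilSys.kRootSet hg, h.nilSys.conn h.common⟩

end Cfsg.Agent.S5070
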