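import Cfsg.Statements.S5071
import Cfsg.Agent.H23.RS2
-- import your own Cfsg.Agent.* helpers here

set_option autoImplicit false
open Matrix
open Cfsg

namespace Cfsg.Agent.S5071

/-- Let F be a finite field with q² elements, n a natural number, and h the Hermitian form Σ uᵢ vᵢ^q on F^{n+2}. For a non-zero isotropic vector p let T(p) be the group of unitary transvections with centre ⟨p⟩: the elements of SU_{n+2}(q) moving every vector by a multiple of p and fixing every vector perpendicular to p. Let Σ be the set of these T(p) and G₀ the subgroup they generate. Then, viewed inside G₀, the members of Σ form a degenerate class of abstract k-root subgroups of G₀ for some field k with q elements (any two commute or are the unipotent subgroups of a rank one group that is an image of SL₂(k) with central kernel, never the commutator case), and their graph of rank one pairs is connected. -/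
theorem result (F : Type*) [Field F] [Fintype F] (q n : ℕ) (hF : Fintype.card F = q ^ 2) :
    Cfsg.IsRootSubgroupClass ((fun A : Subgroup ↥(Cfsg.SU (n + 2) F q) => A.subgroupOf (⨆ B ∈ {A : Subgroup ↥(Cfsg.SU (n + 2) F q) | ∃ p : Fin (n + 2) → F, p ≠ 0 ∧ Cfsg.hermForm (n + 2) F q p p = 0 ∧
          A = Subgroup.closure {g : ↥(Cfsg.SU (n + 2) F q) |
            (∀ v : Fin (n + 2) → F, ∃ c : F, ((g : Matrix.SpecialLinearGroup (Fin (n + 2)) F) : Matrix (Fin (n + 2)) (Fin (n + 2)) F) *ᵥ v = v + c • p) ∧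
            ∀ v : Fin (n + 2) → F, Cfsg.hermForm (n + 2) F q v p = 0 →
              ((g : Matrix.SpecialLinearGroup (Fin (n + 2)) F) : Matrix (Fin (n + 2)) (Fin (n + 2)) F) *ᵥ v = v}}, B)) ''
      {A : Subgroup ↥(Cfsg.SU (n + 2) F q) | ∃ p : Fin (n + 2) → F, p ≠ 0 ∧ Cfsg.hermForm (n + 2) F q p p = 0 ∧
          A = Subgroup.closure {g : ↥(Cfsg.SU (n + 2) F q) |
            (∀ v : Fin (n + 2) → F, ∃ c : F, ((g : Matrix.SpecialLinearGroup (Fin (n + 2)) F) : Matrix (Fin (n + 2)) (Fin (n + 2)) F) *ᵥ v = v + c • p) ∧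
            ∀ v : Fin (n + 2) → F, Cfsg.hermForm (n + 2) F q v p = 0 →
              ((g : Matrix.SpecialLinearGroup (Fin (n + 2)) F) : Matrix (Fin (n + 2)) (Fin (n + 2)) F) *ᵥ v = v}}) ∧
    Cfsg.IsDegenerateRootSet ((fun A : Subgroup ↥(Cfsg.SU (n + 2) F q) => A.subgroupOf (⨆ B ∈ {A : Subgroup ↥(Cfsg.SU (n + 2) F q) | ∃ p : Fin (n + 2) → F, p ≠ 0 ∧ Cfsg.hermForm (n + 2) F q p p = 0 ∧
          A = Subgroup.closure {g : ↥(Cfsg.SU (n + 2) F q) |
            (∀ v : Fin (n + 2) → F, ∃ c : F, ((g : Matrix.SpecialLinearGroup (Fin (n + 2)) F) : Matrix (Fin (n + 2)) (Fin (n + 2)) F) *ᵥ v = v + c • p) ∧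
            ∀ v : Fin (n + 2) → F, Cfsg.hermForm (n + 2) F q v p = 0 →
              ((g : Matrix.SpecialLinearGroup (Fin (n + 2)) F) : Matrix (Fin (n + 2)) (Fin (n + 2)) F) *ᵥ v = v}}, B)) ''
      {A : Subgroup ↥(Cfsg.SU (n + 2) F q) | ∃ p : Fin (n + 2) → F, p ≠ 0 ∧ Cfsg.hermForm (n + 2) F q p p = 0 ∧
          A = Subgroup.closure {g : ↥(Cfsg.SU (n + 2) F q) |
            (∀ v : Fin (n + 2) → F, ∃ c : F, ((g : Matrix.SpecialLinearGroup (Fin (n + 2)) F) : Matrix (Fin (n + 2)) (Fin (n + 2)) F) *ᵥ v = v + c • p) ∧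
            ∀ v : Fin (n + 2) → F, Cfsg.hermForm (n + 2) F q v p = 0 →
              ((g : Matrix.SpecialLinearGroup (Fin (n + 2)) F) : Matrix (Fin (n + 2)) (Fin (n + 2)) F) *ᵥ v = v}}) ∧
    (∃ (L : Type) (_ : Field L) (_ : Fintype L), Fintype.card L = q ∧ Cfsg.IsKRootSubgroupSet L ((fun A : Subgroup ↥(Cfsg.SU (n + 2) F q) => A.subgroupOf (⨆ B ∈ {A : Subgroup ↥(Cfsg.SU (n + 2) F q) | ∃ p : Fin (n + 2) → F, p ≠ 0 ∧ Cfsg.hermForm (n + 2) F q p p = 0 ∧
          A = Subgroup.closure {g : ↥(Cfsg.SU (n + 2) F q) |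
            (∀ v : Fin (n + 2) → F, ∃ c : F, ((g : Matrix.SpecialLinearGroup (Fin (n + 2)) F) : Matrix (Fin (n + 2)) (Fin (n + 2)) F) *ᵥ v = v + c • p) ∧
            ∀ v : Fin (n + 2) → F, Cfsg.hermForm (n + 2) F q v p = 0 →
              ((g : Matrix.SpecialLinearGroup (Fin (n + 2)) F) : Matrix (Fin (n + 2)) (Fin (n + 2)) F) *ᵥ v = v}}, B)) ''
      {A : Subgroup ↥(Cfsg.SU (n + 2) F q) | ∃ p : Fin (n + 2) → F, p ≠ 0 ∧ Cfsg.hermForm (n + 2) F q p p = 0 ∧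
          A = Subgroup.closure {g : ↥(Cfsg.SU (n + 2) F q) |
            (∀ v : Fin (n + 2) → F, ∃ c : F, ((g : Matrix.SpecialLinearGroup (Fin (n + 2)) F) : Matrix (Fin (n + 2)) (Fin (n + 2)) F) *ᵥ v = v + c • p) ∧
            ∀ v : Fin (n + 2) → F, Cfsg.hermForm (n + 2) F q v p = 0 →
              ((g : Matrix.SpecialLinearGroup (Fin (n + 2)) F) : Matrix (Fin (n + 2)) (Fin (n + 2)) F) *ᵥ v = v}})) ∧
    Cfsg.IsConnectedFamily (Cfsg.FAdj ((fun A : Subgroup ↥(Cfsg.SU (n + 2) F q) => A.subgroupOf (⨆ B ∈ {A : Subgroup ↥(Cfsg.SU (n + 2) F q) | ∃ p : Fin (n + 2) → F, p ≠ 0 ∧ Cfsg.hermForm (n + 2) F q p p = 0 ∧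
          A = Subgroup.closure {g : ↥(Cfsg.SU (n + 2) F q) |
            (∀ v : Fin (n + 2) → F, ∃ c : F, ((g : Matrix.SpecialLinearGroup (Fin (n + 2)) F) : Matrix (Fin (n + 2)) (Fin (n + 2)) F) *ᵥ v = v + c • p) ∧
            ∀ v : Fin (n + 2) → F, Cfsg.hermForm (n + 2) F q v p = 0 →
              ((g : Matrix.SpecialLinearGroup (Fin (n + 2)) F) : Matrix (Fin (n + 2)) (Fin (n + 2)) F) *ᵥ v = v}}, B)) ''
      {A : Subgroup ↥(Cfsg.SU (n + 2) F q) | ∃ p : Fin (n + 2) → F, p ≠ 0 ∧ Cfsg.hermForm (n + 2) F q p p = 0 ∧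
          A = Subgroup.closure {g : ↥(Cfsg.SU (n + 2) F q) |
            (∀ v : Fin (n + 2) → F, ∃ c : F, ((g : Matrix.SpecialLinearGroup (Fin (n + 2)) F) : Matrix (Fin (n + 2)) (Fin (n + 2)) F) *ᵥ v = v + c • p) ∧
            ∀ v : Fin (n + 2) → F, Cfsg.hermForm (n + 2) F q v p = 0 →
              ((g : Matrix.SpecialLinearGroup (Fin (n + 2)) F) : Matrix (Fin (n + 2)) (Fin (n + 2)) F) *ᵥ v = v}})) ((fun A : Subgroup ↥(Cfsg.SU (n + 2) F q) => A.subgroupOf (⨆ B ∈ {A : Subgroup ↥(Cfsg.SU (n + 2) F q) | ∃ p : Fin (n + 2) → F, p ≠ 0 ∧ Cfsg.hermForm (n + 2) F q p p = 0 ∧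
          A = Subgroup.closure {g : ↥(Cfsg.SU (n + 2) F q) |
            (∀ v : Fin (n + 2) → F, ∃ c : F, ((g : Matrix.SpecialLinearGroup (Fin (n + 2)) F) : Matrix (Fin (n + 2)) (Fin (n + 2)) F) *ᵥ v = v + c • p) ∧
            ∀ v : Fin (n + 2) → F, Cfsg.hermForm (n + 2) F q v p = 0 →
              ((g : Matrix.SpecialLinearGroup (Fin (n + 2)) F) : Matrix (Fin (n + 2)) (Fin (n + 2)) F) *ᵥ v = v}}, B)) ''
      {A : Subgroup ↥(Cfsg.SU (n + 2) F q) | ∃ p : Fin (n + 2) → F, p ≠ 0 ∧ Cfsg.hermForm (n + 2) F q p p = 0 ∧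
          A = Subgroup.closure {g : ↥(Cfsg.SU (n + 2) F q) |
            (∀ v : Fin (n + 2) → F, ∃ c : F, ((g : Matrix.SpecialLinearGroup (Fin (n + 2)) F) : Matrix (Fin (n + 2)) (Fin (n + 2)) F) *ᵥ v = v + c • p) ∧
            ∀ v : Fin (n + 2) → F, Cfsg.hermForm (n + 2) F q v p = 0 →
              ((g : Matrix.SpecialLinearGroup (Fin (n + 2)) F) : Matrix (Fin (n + 2)) (Fin (n + 2)) F) *ᵥ v = v}}) := by
  open Cfsg.Agent.H23 Subgroup in
    open Cfsg.Agent.H23.RS Cfsg.Agent.H29 Cfsg.Agent.H12 Subgroup in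
    let K : Subfield F := RingHom.eqLocusField (frobq hF) (RingHom.id F)
    let ε : Shrink.{0} K ≃+* K := Shrink.ringEquiv.{0} K
    letI : Algebra (Shrink.{0} K) F := (K.subtype.comp ε.toRingHom).toAlgebra
    let ρ : SU (n + 2) F q →* Module.End F (Fin (n + 2) → F) :=
      (Matrix.toLinAlgEquiv' (R := F) (n := Fin (n + 2))).toMonoidHom.comp ((slρ F _).comp (SU (n + 2) F q).subtype)
    have hρ : ∀ g v, ρ g v = g.1.1 *ᵥ v := fun g v => Matrix.toLinAlgEquiv'_apply _ _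
    have D := sd_uB hF (n + 2)
    have h : TvSys (Shrink.{0} K) (uB hF (n + 2)) ρ := by
      refine ⟨D, fun c => ⟨fun hc => ⟨ε.symm ⟨c, hc⟩, ?_⟩, ?_⟩,
        fun a b e => Subtype.ext (Subtype.ext (mat_ext_mulVec fun v => ?_)),
        fun g x y => ?_, fun p c hp hc => ⟨(suEquiv hF _).symm ⟨tv _ p c, tv_mem_SUG D p c⟩, fun x => ?_⟩⟩
      · exact congrArg Subtype.val (ε.apply_symm_apply _)
      · rintro ⟨a, rfl⟩
        exact (ε a).2
      · rw [← hρ, ← hρ, e]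
      · rw [hρ, hρ, ← suEquiv_apply hF, ← suEquiv_apply hF, UG_map]
      · rw [hρ, ← suEquiv_apply hF, MulEquiv.apply_symm_apply, tv_apply D hp hc]
    have e : ∀ p : Fin (n + 2) → F, p ≠ 0 → uB hF _ p p = 0 → closure {g : SU (n + 2) F q |
        (∀ v, ∃ c : F, g.1.1 *ᵥ v = v + c • p) ∧ ∀ v, hermForm (n + 2) F q v p = 0 → g.1.1 *ᵥ v = v} =
          rt (Shrink.{0} K) ρ ((uB hF _ p).smulRight p) := fun p hp h0 => by
      unfold rt
      congr 1
      ext g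
      simp only [Set.mem_ofPred_eq, LinearMap.ext_iff, ← hρ, ← uB_eq_zero hF]
      refine ⟨fun ⟨h1, h2⟩ => ?_, fun ⟨c, hc⟩ => ⟨fun v => ⟨algebraMap _ F c * uB hF _ p v, by simp [hc, mul_smul]⟩,
        fun v hv => by simp [hc, hv]⟩⟩
      obtain ⟨y, hy⟩ := D.exists_ne hp
      obtain ⟨c, hc⟩ := h1 y
      have h3 : ∀ v, ρ g v = v + (c / uB hF _ p y * uB hF _ p v) • p := fun v => by
        have := h2 (v - (uB hF _ p v / uB hF _ p y) • y) (by simp [hy])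
        rw [map_sub, map_smul, hc, sub_eq_iff_eq_add] at this
        rw [this]
        module
      obtain ⟨a, ha⟩ := (h.fix _).1 (D.fix_of_isometry h0 hp fun x z => by rw [← h3, ← h3, h.iso])
      exact ⟨a, fun v => by rw [h3, ← ha]; simp [mul_smul]⟩
    have e' : {A : Subgroup (SU (n + 2) F q) | ∃ p : Fin (n + 2) → F, p ≠ 0 ∧ hermForm (n + 2) F q p p = 0 ∧
        A = closure {g : SU (n + 2) F q | (∀ v, ∃ c : F, g.1.1 *ᵥ v = v + c • p) ∧
          ∀ v, hermForm (n + 2) F q v p = 0 → g.1.1 *ᵥ v = v}} = fam (Shrink.{0} K) ρ (NB (uB hF (n + 2))) := by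
      ext A
      exact ⟨fun ⟨p, hp, h0, hA⟩ => ⟨_, ⟨p, hp, (uB_eq_zero hF).2 h0, rfl⟩, hA.trans (e p hp ((uB_eq_zero hF).2 h0))⟩,
        fun ⟨_, ⟨p, hp, h0, rfl⟩, hA⟩ => ⟨p, hp, (uB_eq_zero hF).1 h0, hA.trans (e p hp h0).symm⟩⟩
    have h1 := h.nilSys.restrict_sup
    have hg := h.nilSys.gen_sup
    obtain ⟨p, hp, h0⟩ := D.exists_iso D.ns (by simp)
    rw [e', h.nilSys.fam_subgroupOf]
    refine ⟨class_of_conn (h1.rootSet hg) ⟨_, _, ⟨p, hp, h0, rfl⟩, rfl⟩ (h1.conn h.common), h1.degenerate hg h.deg,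
      ⟨Shrink.{0} K, inferInstance, Fintype.ofFinite _, ?_, h1.kRootSet hg⟩, h1.conn h.common⟩
    rw [← @Nat.card_eq_fintype_card _ (Fintype.ofFinite _), Nat.card_congr ε.toEquiv]
    exact q0_frobq hF

end Cfsg.Agent.S5071
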