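import Cfsg.Statements.S5072
import Cfsg.Agent.H23.RS3
-- import your own Cfsg.Agent.* helpers here

set_option autoImplicit false
open Matrix
open Cfsg

namespace Cfsg.Agent.S5072

/-- Let F be a field, m a natural number and V = F^{2(m+3)} with the hyperbolic quadratic form q(x, y) = Σ xᵢ yᵢ (non-degenerate, Witt index m + 3 ≥ 3). For a singular line ℓ (a 2-dimensional subspace on which q vanishes) let T(ℓ) be the group of isometries of q fixing every vector of ℓ^⊥ (the Siegel transvection group of ℓ), let Σ be the set of these groups and G₀ the subgroup they generate. Then, viewed inside G₀, the members of Σ form a set of abstract F-root subgroups of G₀ (any two commute, or are the unipotent subgroups of a rank one group that is an image of SL₂(F) with central kernel, or satisfy the commutator case), and their graph of rank one pairs is connected. -/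
theorem result (F : Type*) [Field F] (m : ℕ) :
    Cfsg.IsKRootSubgroupSet F ((fun A : Subgroup ↥(Cfsg.isometryGroup F (Cfsg.quadFormPlus (m + 3) F)) => A.subgroupOf (⨆ B ∈ {A : Subgroup ↥(Cfsg.isometryGroup F (Cfsg.quadFormPlus (m + 3) F)) | ∃ p r : Fin (m + 3) ⊕ Fin (m + 3) → F, LinearIndependent F ![p, r] ∧
          Cfsg.quadFormPlus (m + 3) F p = 0 ∧ Cfsg.quadFormPlus (m + 3) F r = 0 ∧
          Cfsg.quadFormPlus (m + 3) F (p + r) = 0 ∧
          A = Subgroup.closure {σ : ↥(Cfsg.isometryGroup F (Cfsg.quadFormPlus (m + 3) F)) | ∀ v : Fin (m + 3) ⊕ Fin (m + 3) → F,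
            Cfsg.quadFormPlus (m + 3) F (v + p) - Cfsg.quadFormPlus (m + 3) F v - Cfsg.quadFormPlus (m + 3) F p = 0 →
            Cfsg.quadFormPlus (m + 3) F (v + r) - Cfsg.quadFormPlus (m + 3) F v - Cfsg.quadFormPlus (m + 3) F r = 0 →
              ((σ : Matrix.GeneralLinearGroup (Fin (m + 3) ⊕ Fin (m + 3)) F) : Matrix (Fin (m + 3) ⊕ Fin (m + 3)) (Fin (m + 3) ⊕ Fin (m + 3)) F) *ᵥ v = v}}, B)) ''
      {A : Subgroup ↥(Cfsg.isometryGroup F (Cfsg.quadFormPlus (m + 3) F)) | ∃ p r : Fin (m + 3) ⊕ Fin (m + 3) → F, LinearIndependent F ![p, r] ∧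
          Cfsg.quadFormPlus (m + 3) F p = 0 ∧ Cfsg.quadFormPlus (m + 3) F r = 0 ∧
          Cfsg.quadFormPlus (m + 3) F (p + r) = 0 ∧
          A = Subgroup.closure {σ : ↥(Cfsg.isometryGroup F (Cfsg.quadFormPlus (m + 3) F)) | ∀ v : Fin (m + 3) ⊕ Fin (m + 3) → F,
            Cfsg.quadFormPlus (m + 3) F (v + p) - Cfsg.quadFormPlus (m + 3) F v - Cfsg.quadFormPlus (m + 3) F p = 0 →
            Cfsg.quadFormPlus (m + 3) F (v + r) - Cfsg.quadFormPlus (m + 3) F v - Cfsg.quadFormPlus (m + 3) F r = 0 →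
              ((σ : Matrix.GeneralLinearGroup (Fin (m + 3) ⊕ Fin (m + 3)) F) : Matrix (Fin (m + 3) ⊕ Fin (m + 3)) (Fin (m + 3) ⊕ Fin (m + 3)) F) *ᵥ v = v}}) ∧
    Cfsg.IsConnectedFamily (Cfsg.FAdj {A : Subgroup ↥(Cfsg.isometryGroup F (Cfsg.quadFormPlus (m + 3) F)) | ∃ p r : Fin (m + 3) ⊕ Fin (m + 3) → F, LinearIndependent F ![p, r] ∧
          Cfsg.quadFormPlus (m + 3) F p = 0 ∧ Cfsg.quadFormPlus (m + 3) F r = 0 ∧
          Cfsg.quadFormPlus (m + 3) F (p + r) = 0 ∧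
          A = Subgroup.closure {σ : ↥(Cfsg.isometryGroup F (Cfsg.quadFormPlus (m + 3) F)) | ∀ v : Fin (m + 3) ⊕ Fin (m + 3) → F,
            Cfsg.quadFormPlus (m + 3) F (v + p) - Cfsg.quadFormPlus (m + 3) F v - Cfsg.quadFormPlus (m + 3) F p = 0 →
            Cfsg.quadFormPlus (m + 3) F (v + r) - Cfsg.quadFormPlus (m + 3) F v - Cfsg.quadFormPlus (m + 3) F r = 0 →
              ((σ : Matrix.GeneralLinearGroup (Fin (m + 3) ⊕ Fin (m + 3)) F) : Matrix (Fin (m + 3) ⊕ Fin (m + 3)) (Fin (m + 3) ⊕ Fin (m + 3)) F) *ᵥ v = v}})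
      {A : Subgroup ↥(Cfsg.isometryGroup F (Cfsg.quadFormPlus (m + 3) F)) | ∃ p r : Fin (m + 3) ⊕ Fin (m + 3) → F, LinearIndependent F ![p, r] ∧
          Cfsg.quadFormPlus (m + 3) F p = 0 ∧ Cfsg.quadFormPlus (m + 3) F r = 0 ∧
          Cfsg.quadFormPlus (m + 3) F (p + r) = 0 ∧
          A = Subgroup.closure {σ : ↥(Cfsg.isometryGroup F (Cfsg.quadFormPlus (m + 3) F)) | ∀ v : Fin (m + 3) ⊕ Fin (m + 3) → F,
            Cfsg.quadFormPlus (m + 3) F (v + p) - Cfsg.quadFormPlus (m + 3) F v - Cfsg.quadFormPlus (m + 3) F p = 0 →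
            Cfsg.quadFormPlus (m + 3) F (v + r) - Cfsg.quadFormPlus (m + 3) F v - Cfsg.quadFormPlus (m + 3) F r = 0 →
              ((σ : Matrix.GeneralLinearGroup (Fin (m + 3) ⊕ Fin (m + 3)) F) : Matrix (Fin (m + 3) ⊕ Fin (m + 3)) (Fin (m + 3) ⊕ Fin (m + 3)) F) *ᵥ v = v}} := by
  open Cfsg.Agent.H23 Subgroup in
    open Cfsg.Agent.H23.RS Cfsg.Agent.H29 Cfsg.Agent.H13 Subgroup QuadraticMap in
    rw [← coe_QPlus]
    have hQ : ND (QPlus (m + 3) F) := nd_QPlus
    let ρ : isometryGroup F (QPlus (m + 3) F) →* Module.End F (Fin (m + 3) ⊕ Fin (m + 3) → F) :=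
      (Matrix.toLinAlgEquiv' (R := F) (n := Fin (m + 3) ⊕ Fin (m + 3))).toMonoidHom.comp
        ((Units.coeHom _).comp (isometryGroup F (QPlus (m + 3) F)).subtype)
    have hρ : ∀ g v, ρ g v = g.1.1 *ᵥ v := fun g v => Matrix.toLinAlgEquiv'_apply _ _
    have iso : ∀ g x, QPlus (m + 3) F (ρ g x) = QPlus (m + 3) F x := fun g x => by rw [hρ, mem_isometryGroup.1 g.2]
    have h : NilSys F ρ (NS (QPlus (m + 3) F)) := nilSys_NS
      (fun a b e => mat_injective (matrix_ext_mulVec fun v => by rw [← hρ, ← hρ, e])) iso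
      fun g => ⟨(toOG _).symm g, fun v => by rw [hρ, mat_symm_mulVec]⟩
    have e : ∀ p r, TS (QPlus (m + 3) F) p r → LinearIndependent F ![p, r] →
        closure {σ : isometryGroup F (QPlus (m + 3) F) | ∀ v,
          QPlus (m + 3) F (v + p) - QPlus (m + 3) F v - QPlus (m + 3) F p = 0 →
          QPlus (m + 3) F (v + r) - QPlus (m + 3) F v - QPlus (m + 3) F r = 0 → σ.1.1 *ᵥ v = v} =
        rt F ρ (nS (QPlus (m + 3) F) p r) := fun p r t l => by
      unfold rt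
      congr 1
      ext g
      simp only [Set.mem_ofPred_eq, ← hρ]
      exact fix_iff hQ t l (iso g)
    have e' : {A : Subgroup (isometryGroup F (QPlus (m + 3) F)) | ∃ p r, LinearIndependent F ![p, r] ∧
        QPlus (m + 3) F p = 0 ∧ QPlus (m + 3) F r = 0 ∧ QPlus (m + 3) F (p + r) = 0 ∧
        A = closure {σ : isometryGroup F (QPlus (m + 3) F) | ∀ v,
          QPlus (m + 3) F (v + p) - QPlus (m + 3) F v - QPlus (m + 3) F p = 0 →
          QPlus (m + 3) F (v + r) - QPlus (m + 3) F v - QPlus (m + 3) F r = 0 → σ.1.1 *ᵥ v = v}} =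
        fam F ρ (NS (QPlus (m + 3) F)) := by
      ext A
      constructor
      · rintro ⟨p, r, l, h1, h2, h3, rfl⟩
        have t : TS (QPlus (m + 3) F) p r := ⟨h1, h2, by rw [polar, h1, h2, h3]; simp⟩
        exact ⟨_, ⟨(nS_ne hQ).2 l, p, r, t, rfl⟩, e p r t l⟩
      · rintro ⟨_, ⟨n, p, r, t, rfl⟩, rfl⟩
        exact ⟨p, r, (nS_ne hQ).1 n, t.1, t.2.1, by simpa using t.comb 1 1, (e p r t ((nS_ne hQ).1 n)).symm⟩
    have h0 : ∀ i : Fin (m + 3), QPlus (m + 3) F (Pi.single (.inl i) 1) = 0 := fun i => by simp [QPlus_apply]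
    have h1 : ∀ i j : Fin (m + 3), polar (QPlus (m + 3) F) (Pi.single (.inl i) 1) (Pi.single (.inl j) 1) = 0 :=
      fun i j => by simp [polar_QPlus]
    rw [e', h.fam_subgroupOf]
    refine ⟨h.restrict_sup.kRootSet h.gen_sup, conn_NS hQ h (e₀ := Pi.single (.inl 0) 1) (e₁ := Pi.single (.inl 1) 1)
      (e₂ := Pi.single (.inl 2) 1) (Fintype.linearIndependent_iff.2 fun g hg i => ?_) ⟨h0 _, h0 _, h1 _ _⟩
      ⟨h0 _, h0 _, h1 _ _⟩ (h1 _ _)⟩
    have h01 : (0 : Fin (m + 3)) ≠ 1 := by simp [Fin.ext_iff]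
    have h02 : (0 : Fin (m + 3)) ≠ 2 := by simp [Fin.ext_iff, Nat.mod_eq_of_lt]
    have h12 : (1 : Fin (m + 3)) ≠ 2 := by simp [Fin.ext_iff, Nat.mod_eq_of_lt]
    have a0 := congrFun hg (.inl 0)
    have a1 := congrFun hg (.inl 1)
    have a2 := congrFun hg (.inl 2)
    simp [Fin.sum_univ_three, h01, h02, h12, h01.symm, h02.symm, h12.symm] at a0 a1 a2
    fin_cases i <;> assumption

end Cfsg.Agent.S5072
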