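import Cfsg.Statements.S5079
import Cfsg.Agent.H23.Sat
-- import your own Cfsg.Agent.* helpers here

set_option autoImplicit false
open Cfsg

namespace Cfsg.Agent.S5079

/-- In any fusion system over a finite p-group S: if P is fully automized and receptive and Q is conjugate to P in the system, then there is a map of the system with source N_S(Q) and values in N_S(P) carrying Q onto P. -/
theorem result {Ω : Type*} [Group Ω] {S : Subgroup Ω} [Finite S] (p : ℕ) [Fact p.Prime] (hS : IsPGroup p S) (F : Cfsg.FusionSystem S) (P Q : Subgroup Ω) (h₁ : F.IsFullyAutomized p P) (h₂ : F.IsReceptive P) (hQ : F.IsConj Q P) : ∃ φ ∈ F.Hom (Cfsg.FusionSystem.normalizerIn S Q), (∀ x, φ x ∈ Cfsg.FusionSystem.normalizerIn S P) ∧ (Q.subgroupOf (Cfsg.FusionSystem.normalizerIn S Q)).map φ = P := by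
  open Cfsg.Agent.H23 Cfsg.FusionSystem Subgroup in
  obtain ⟨σ, hσ, rfl⟩ := isConj_iff.1 hQ
  obtain ⟨τ, hτ, -, e⟩ := hσ.exists_ext_nIn hS h₁ h₂
  obtain ⟨φ, hφ, e'⟩ := hτ
  refine ⟨φ, hφ, fun x => ?_, ?_⟩
  · rw [e', ← e]
    exact Mor.mem_nIn ⟨φ, hφ, e'⟩ (le_nIn hσ.le) x.2 x.2.2
  · rw [map_subgroupOf_eq_im (le_nIn hσ.le) e', e]

end Cfsg.Agent.S5079
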