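import Cfsg.Statements.S5080
import Cfsg.Agent.H23.Sat
-- import your own Cfsg.Agent.* helpers here

set_option autoImplicit false
open Cfsg

namespace Cfsg.Agent.S5080

/-- In a saturated fusion system over a finite p-group, every essential subgroup is radical (it is centric and fully normalized by definition, so it is centric-radical and fully normalized). -/
theorem result {Ω : Type*} [Group Ω] {S : Subgroup Ω} [Finite S] (p : ℕ) [Fact p.Prime] (hS : IsPGroup p S) (F : Cfsg.FusionSystem S) (hF : F.IsSaturated p) (P : Subgroup Ω) (hP : F.IsEssential p P) : F.IsRadical p P := by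
  open Cfsg.Agent.H23 Cfsg.FusionSystem Subgroup in
  obtain ⟨hc, -, Y, hY⟩ := essential_iff.1 hP
  have := finite_of_le hc.1
  have h1 : AutS P P ≤ AutF F P := autS_le_autF F hc.1 hc.1
  refine radical_iff.2 ⟨hc.1, ?_⟩
  rw [← Op_change_base (nfin_autF F P) (fix_le_autS P P) h1
    ((autF_le_stab F P).trans stab_le_normalizer_inn) (pmod_autS (hS.to_le hc.1) P)]
  exact hY.Op_eq (nfin_inn h1 (autF_le_stab F P))

end Cfsg.Agent.S5080
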