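import Cfsg.Statements.S5081
import Cfsg.Agent.H23.Alperin
-- import your own Cfsg.Agent.* helpers here

set_option autoImplicit false
open Cfsg

namespace Cfsg.Agent.S5081

/-- Let F be a saturated fusion system over a finite p-group S, P a proper subgroup of S that is fully normalized, and H the subgroup of Aut_F(P) generated by the automorphisms that extend to maps of the system defined on strictly larger subgroups of S. Then either P is not essential and H is all of Aut_F(P), or P is essential and the image of H in Out_F(P) = Aut_F(P)/Inn(P) is strongly p-embedded there. -/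
theorem result {Ω : Type*} [Group Ω] {S : Subgroup Ω} [Finite S] (p : ℕ) [Fact p.Prime] (hS : IsPGroup p S) (F : Cfsg.FusionSystem S) (hF : F.IsSaturated p) (P : Subgroup Ω) (hPS : P < S) (hPn : F.IsFullyNormalized P) (H : Subgroup (MulAut P)) (hH : H = Subgroup.closure {α : MulAut P | ∃ (Q : Subgroup Ω) (hPQ : P < Q) (φ : Q →* Ω), φ ∈ F.Hom Q ∧ ∀ x : P, φ (Subgroup.inclusion hPQ.le x) = α x}) : (¬ F.IsEssential p P ∧ H = F.autGroup P) ∨ (F.IsEssential p P ∧ ∃ _ : ((Cfsg.Inn P).subgroupOf (F.autGroup P)).Normal, Cfsg.IsStronglyPEmbedded p ((H.subgroupOf (F.autGroup P)).map (QuotientGroup.mk' ((Cfsg.Inn P).subgroupOf (F.autGroup P))))) := by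
  open Cfsg.Agent.H23 Cfsg.FusionSystem Subgroup in
  have hF' : Sat p F := ⟨hS, hF⟩
  have := finite_of_le hPS.le
  have h1 : H23.lift H = HExt F P := by
    refine le_antisymm ?_ ((hExt_le_iff (fix_le_lift H)).2 fun Q σ h1 ⟨φ, hφ, e⟩ h3 => ?_)
    · rw [hH, ← stabPres_up, Pres.up_closure]
      refine sup_le fix_le_hExt ((closure_le _).2 ?_)
      rintro σ ⟨h, Q, hPQ, φ, hφ, e⟩
      obtain ⟨τ, hτ, e'⟩ := exists_perm_of_mem_hom hφ
      have e2 : ∀ x ∈ P, σ x = τ x := fun x hx => by
        rw [← stabPres_apply ⟨σ, h⟩ ⟨x, hx⟩, ← e, e']; rfl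
      exact mem_of_eq_on fix_le_hExt (hτ.mem_hExt hPQ
        (mem_of_eq_on fix_le_stab h fun x hx => (e2 x hx).symm)) e2
    · obtain ⟨α, hα⟩ := exists_mulAut (stab_homOn h3) (stab_im h3)
      rw [mem_lift_iff_of_eq hα, hH]
      exact subset_closure ⟨Q, h1, φ, hφ, fun x => by rw [e, ← hα]; rfl⟩
  rcases hF'.hExt_dichotomy hPS hPn with h | h
  · exact Or.inl ⟨h.1, lift_inj.1 (h1.trans h.2)⟩
  refine Or.inr ⟨h.1, inferInstance, ?_⟩
  have h3 : Inn P ≤ F.autGroup P := by
    rw [← lift_le_lift_iff, ← autS_self_eq_lift_inn]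
    exact autS_le_autF F hPS.le hPS.le
  have h2 : (liftPres (F.autGroup P)).up ((Inn P).subgroupOf (F.autGroup P)) = AutS P P := by
    rw [liftPres_up_subgroupOf h3, autS_self_eq_lift_inn]
  have h4 : H ≤ F.autGroup P := by
    rw [← lift_le_lift_iff, h1]; exact hExt_le_autF
  rw [← Pres.spe_up_iff ((liftPres (F.autGroup P)).quot _), Pres.quot_up, comap_map_eq,
    QuotientGroup.ker_mk', Pres.up_sup, h2, liftPres_up_subgroupOf h4, h1, sup_eq_left.2 h.2.1]
  exact h.2

end Cfsg.Agent.S5081
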