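import Cfsg.Statements.S5085
import Cfsg.Agent.H23.Defs
-- import your own Cfsg.Agent.* helpers here

set_option autoImplicit false
open Cfsg

namespace Cfsg.Agent.S5085

/-- In any fusion system, a characteristic subgroup of a subgroup that is normal in the system is itself normal in the system. -/
theorem result {Ω : Type*} [Group Ω] {S : Subgroup Ω} (F : Cfsg.FusionSystem S) (Q U : Subgroup Ω) (hQ : F.IsNormal Q) (hUQ : U ≤ Q) (hU : (U.subgroupOf Q).Characteristic) : F.IsNormal U := by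
  open Cfsg.Agent.H23 Cfsg.FusionSystem Subgroup in
  refine ⟨hUQ.trans hQ.1, fun P φ hφ => ?_⟩
  obtain ⟨ψ, hψ, h1, h2⟩ := hQ.2 P φ hφ
  have h3 := mor_ext hψ
  rw [map_subgroupOf_eq_im le_sup_right fun x => (ext_coe ψ x).symm] at h2
  obtain ⟨χ, hχ, e⟩ := h3.mono (sup_le_sup_left hUQ P)
  refine ⟨χ, hχ, fun x => ?_, ?_⟩
  · rw [e, ← h1]; exact ext_of_mem ψ _
  rw [map_subgroupOf_eq_im le_sup_right e]
  have h4 := h3.mono (le_sup_right : Q ≤ P ⊔ Q)
  let a : Q →* Q := h4.homOn.hom.codRestrict Q fun x => h2.le (mem_im_of_mem (H23.ext ψ) x.2)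
  have ha : Function.Bijective a := by
    refine ⟨fun x y h => Subtype.ext (h4.inj x x.2 y y.2 (congrArg Subtype.val h)), fun y => ?_⟩
    obtain ⟨x, hx, e'⟩ := h4.mem_im.1 (h2.ge y.2)
    exact ⟨⟨x, hx⟩, Subtype.ext e'⟩
  have h5 := characteristic_iff_map_eq.1 hU (MulEquiv.ofBijective a ha)
  refine le_antisymm (im_le_iff.2 fun x hx => ?_) fun y hy => ?_
  · have : a ⟨x, hUQ hx⟩ ∈ U.subgroupOf Q := by
      rw [← h5]; exact mem_map_of_mem _ hx
    exact this
  · have : (⟨y, hUQ hy⟩ : Q) ∈ U.subgroupOf Q := hy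
    rw [← h5] at this
    obtain ⟨x, hx, e'⟩ := this
    have h6 : H23.ext ψ x = y := congrArg Subtype.val e'
    exact h6 ▸ mem_im_of_mem _ hx

end Cfsg.Agent.S5085
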