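import Cfsg.Statements.S5087
import Cfsg.Agent.H23.Normal
-- import your own Cfsg.Agent.* helpers here

set_option autoImplicit false
open Cfsg

namespace Cfsg.Agent.S5087

/-- In a saturated fusion system over a finite p-group S, a subgroup Q is normal in the system if and only if every subgroup P that equals S or is essential contains Q and every element of Aut_F(P) maps Q onto itself. -/
theorem result {Ω : Type*} [Group Ω] {S : Subgroup Ω} [Finite S] (p : ℕ) [Fact p.Prime] (hS : IsPGroup p S) (F : Cfsg.FusionSystem S) (hF : F.IsSaturated p) (Q : Subgroup Ω) : F.IsNormal Q ↔ ∀ P : Subgroup Ω, (P = S ∨ F.IsEssential p P) → (Q ≤ P ∧ ∀ α ∈ F.autGroup P, (Q.subgroupOf P).map α.toMonoidHom = Q.subgroupOf P) := by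
  open Cfsg.Agent.H23 Cfsg.FusionSystem Subgroup in
  have hF' : Sat p F := ⟨hS, hF⟩
  have key : ∀ P : Subgroup Ω, Q ≤ P → ∀ (α : MulAut P) (σ : Equiv.Perm Ω), (∀ x : P, σ x = α x) →
      ((Q.subgroupOf P).map α.toMonoidHom = Q.subgroupOf P ↔ im σ Q = Q) := fun P hQ α σ e => by
    rw [← map_subgroupOf_eq_im hQ (φ := P.subtype.comp α.toMonoidHom) fun x => (e x).symm, ← map_map]
    refine ⟨fun h => by rw [h, map_subgroupOf_eq_of_le hQ], fun h => ?_⟩
    refine map_injective P.subtype_injective ?_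
    rw [h, map_subgroupOf_eq_of_le hQ]
  refine ⟨fun h P hP => ?_, fun h => hF'.normal_of_essential fun P hP => ⟨(h P hP).1, ?_⟩⟩
  · obtain ⟨a, b, c⟩ := hF'.cr_of hP
    have h1 := normal_le_cr hS h b c
    refine ⟨h1, fun α hα => ?_⟩
    obtain ⟨σ, e⟩ := exists_perm_of_mulAut α
    exact (key P h1 α σ e).2
      (stab_im (autF_le_stab_of_wc h1 a.1 (sc_weaklyClosed (normal_sc h)) ⟨α, hα, e⟩))
  · rintro σ ⟨α, hα, e⟩
    exact mem_stab.2 ⟨(autF_homOn ⟨α, hα, e⟩).mono (h P hP).1,
      (key P (h P hP).1 α σ e).1 ((h P hP).2 α hα)⟩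

end Cfsg.Agent.S5087
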