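import Cfsg.Statements.S5088
import Cfsg.Agent.H23.Normal
-- import your own Cfsg.Agent.* helpers here

set_option autoImplicit false
open Cfsg

namespace Cfsg.Agent.S5088

/-- In a saturated fusion system over a finite p-group, a subgroup Q is normal in the system if and only if there is a chain of subgroups 1 = Q₀ ≤ Q₁ ≤ ⋯ ≤ Qₙ = Q such that each Qᵢ with i ≥ 1 is strongly closed in the system and [Q, Qᵢ] ≤ Qᵢ₋₁. -/
theorem result {Ω : Type*} [Group Ω] {S : Subgroup Ω} [Finite S] (p : ℕ) [Fact p.Prime] (hS : IsPGroup p S) (F : Cfsg.FusionSystem S) (hF : F.IsSaturated p) (Q : Subgroup Ω) : F.IsNormal Q ↔ ∃ (n : ℕ) (Qs : Fin (n + 1) → Subgroup Ω), Qs 0 = ⊥ ∧ Qs (Fin.last n) = Q ∧ Monotone Qs ∧ ∀ i : Fin n, F.StronglyClosed (Qs i.succ) ∧ ⁅Q, Qs i.succ⁆ ≤ Qs (Fin.castSucc i) := by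
  open Cfsg.Agent.H23 Cfsg.FusionSystem Subgroup in
  have hF' : Sat p F := ⟨hS, hF⟩
  constructor
  · intro h
    have := finite_of_le h.1
    obtain ⟨n, hn⟩ := exists_ucs_eq (hS.to_le h.1)
    refine ⟨n, fun i => ucs Q i, ucs_zero, hn, fun i j hij => ucs_mono hij, fun i =>
      ⟨normal_sc (normal_ucs h _), ?_⟩⟩
    rw [commutator_comm]
    exact commutator_ucs_le _
  · rintro ⟨n, C, h0, hn, hm, h⟩
    have hsc : ∀ i, F.StronglyClosed (C i) := fun i => by
      rcases Fin.eq_zero_or_eq_succ i with rfl | ⟨j, rfl⟩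
      · rw [h0]; exact sc_bot
      · exact (h j).1
    refine hF'.normal_of_wc_chain (hn ▸ hsc _) n (finExt C) ((finExt_zero C).trans h0)
      ((finExt_last C).trans hn) (fun i _ => finExt_mono hm i.le_succ)
      (fun i _ => hn ▸ hm (Fin.le_last _)) (fun i hi => ?_) fun i _ => sc_weaklyClosed (hsc _)
    rw [finExt_succ C hi, finExt_castSucc C hi, commutator_comm]
    exact (h _).2

end Cfsg.Agent.S5088
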