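import Cfsg.Statements.S5089
import Cfsg.Agent.H23.Normal
-- import your own Cfsg.Agent.* helpers here

set_option autoImplicit false
open Cfsg

namespace Cfsg.Agent.S5089

/-- A saturated fusion system over a finite p-group has a nontrivial subgroup that is normal in the system (O_p(F) ≠ 1) if and only if some nontrivial abelian subgroup is strongly closed in the system. -/
theorem result {Ω : Type*} [Group Ω] {S : Subgroup Ω} [Finite S] (p : ℕ) [Fact p.Prime] (hS : IsPGroup p S) (F : Cfsg.FusionSystem S) (hF : F.IsSaturated p) : F.core ≠ ⊥ ↔ ∃ Q : Subgroup Ω, Q ≠ ⊥ ∧ IsMulCommutative Q ∧ F.StronglyClosed Q := by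
  open Cfsg.Agent.H23 Cfsg.FusionSystem Subgroup in
  have hF' : Sat p F := ⟨hS, hF⟩
  constructor
  · intro h
    have := finite_of_le (core_le (F := F))
    refine ⟨_, cIn_self_ne_bot (hS.to_le core_le) h, ⟨⟨fun a b => Subtype.ext ?_⟩⟩,
      normal_sc (normal_cIn (core_normal F))⟩
    exact b.2.2 a a.2.1
  · rintro ⟨Q, h1, h2, h3⟩ h
    have := le_core (hF'.normal_of_sc_abelian h3 fun x hx y hy =>
      congrArg Subtype.val (h2.is_comm.comm (⟨y, hy⟩ : Q) ⟨x, hx⟩))
    exact h1 (le_bot_iff.1 (h ▸ this))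

end Cfsg.Agent.S5089
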