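import Cfsg.Statements.S5094
import Cfsg.Agent.H6.ZStar2
-- import your own Cfsg.Agent.* helpers here

set_option autoImplicit false
open Cfsg

namespace Cfsg.Agent.S5094

open Cfsg.Agent.H4 Cfsg.Agent.H6


/-- Glauberman's Z*-Theorem in fusion language: for a finite group G with Sylow 2-subgroup S, the centre of the fusion system of G on S is the set of elements of S whose image in G/O(G) is central, O(G) being the largest normal subgroup of odd order. -/
theorem result {G : Type*} [Group G] [Finite G] (S : Sylow 2 G) : (Cfsg.groupFusionSystem (S : Subgroup G)).center = (S : Subgroup G) ⊓ (Subgroup.center (G ⧸ Cfsg.oddCore G)).comap (QuotientGroup.mk' (Cfsg.oddCore G)) := by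
  apply le_antisymm
  · refine sSup_le fun Q hQ x hx => ⟨hQ.1 hx, ?_⟩
    refine mk_mem_center_of_closed S (hQ.1 hx) fun g hg => ?_
    obtain ⟨ψ, -, h1, h2⟩ := hQ.2 (Subgroup.zpowers x)
      ((MulAut.conj g).toMonoidHom.comp (Subgroup.zpowers x).subtype)
      ⟨Subgroup.zpowers_le.2 (hQ.1 hx), fun y => by
        obtain ⟨k, hk⟩ := Subgroup.mem_zpowers_iff.1 y.2
        show g * (y : G) * g⁻¹ ∈ _
        rw [← hk, ← conj_zpow]
        exact zpow_mem hg k, g, fun y => rfl⟩
    exact (h1 ⟨x, Subgroup.mem_zpowers x⟩).symm.trans (h2 ⟨x, hx⟩)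
  · set Q := (S : Subgroup G) ⊓ (Subgroup.center (G ⧸ Cfsg.oddCore G)).comap
      (QuotientGroup.mk' (Cfsg.oddCore G)) with hQ
    refine le_sSup ⟨inf_le_left, ?_⟩
    rintro P φ ⟨hP, hφ, g, hg⟩
    have hPQ : P ⊔ Q ≤ S := sup_le hP inf_le_left
    have hq : ∀ x ∈ Q, (QuotientGroup.mk' (Cfsg.oddCore G)) (g * x * g⁻¹) =
        QuotientGroup.mk' (Cfsg.oddCore G) x := fun x hx => by
      rw [map_mul, map_mul, Subgroup.mem_center_iff.1 hx.2, map_inv, mul_inv_cancel_right]
    obtain ⟨n, hn, h1⟩ := exists_conj_le_of_le_sup S (Cfsg.oddCore G)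
      (R := (P ⊔ Q).map (MulAut.conj g).toMonoidHom) ((S.isPGroup'.to_le hPQ).map _) (by
        rw [Subgroup.map_sup, sup_le_iff, Subgroup.map_le_iff_le_comap,
          Subgroup.map_le_iff_le_comap]
        refine ⟨fun x hx => Subgroup.mem_sup_right ?_, fun x hx => ?_⟩
        · have := hφ ⟨x, hx⟩
          rwa [hg] at this
        · have h2 := QuotientGroup.eq.1 (hq x hx).symm
          have := Subgroup.mul_mem _ (Subgroup.mem_sup_right (S := Cfsg.oddCore G) hx.1)
            (Subgroup.mem_sup_left h2)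
          simpa using this)
    have h2 : ∀ x ∈ P ⊔ Q, n * g * x * (n * g)⁻¹ ∈ (S : Subgroup G) := fun x hx => by
      convert h1 _ (H11.conj_mem_map_conj g hx) using 1; group
    have h3 : ∀ x ∈ P ⊔ Q, ∀ y ∈ (S : Subgroup G), (QuotientGroup.mk' (Cfsg.oddCore G))
        (g * x * g⁻¹) = QuotientGroup.mk' (Cfsg.oddCore G) y → n * g * x * (n * g)⁻¹ = y :=
      fun x hx y hy h => by
        have h4 : (n * g * x * (n * g)⁻¹)⁻¹ * y ∈ (S : Subgroup G) ⊓ pPrimeCore 2 G := by
          refine ⟨(S : Subgroup G).mul_mem (Subgroup.inv_mem _ (h2 x hx)) hy, QuotientGroup.eq.1 ?_⟩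
          have h5 : (QuotientGroup.mk' (Cfsg.oddCore G)) n = 1 :=
            (QuotientGroup.eq_one_iff _).2 hn
          change QuotientGroup.mk' (Cfsg.oddCore G) _ = QuotientGroup.mk' (Cfsg.oddCore G) y
          rw [← h]
          simp only [map_mul, map_inv, h5, one_mul]
        rw [H1.inf_pPrimeCore_eq_bot S.isPGroup', Subgroup.mem_bot] at h4
        exact inv_mul_eq_one.1 h4
    refine ⟨(MulAut.conj (n * g)).toMonoidHom.comp (P ⊔ Q).subtype,
      ⟨hPQ, fun x => h2 x x.2, n * g, fun x => rfl⟩, fun x => ?_, fun x => ?_⟩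
    · exact h3 x (Subgroup.mem_sup_left x.2) _ (hφ x) (by rw [hg])
    · exact h3 x (Subgroup.mem_sup_right x.2) _ x.2.1 (hq x x.2)

end Cfsg.Agent.S5094
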