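import Cfsg.Statements.S5097
import Cfsg.Agent.H23.Defs
-- import your own Cfsg.Agent.* helpers here

set_option autoImplicit false
open Cfsg

namespace Cfsg.Agent.S5097

/-- For any fusion system over a subgroup S and any Q ≤ S, the maps of the centralizer system C_F(Q) — those maps between subgroups of C_S(Q) that extend to the subgroup generated with Q fixing Q elementwise — form a fusion system over C_S(Q). -/
theorem result {Ω : Type*} [Group Ω] {S : Subgroup Ω} (F : Cfsg.FusionSystem S) (Q : Subgroup Ω) (hQ : Q ≤ S) : ∃ E : Cfsg.FusionSystem (Cfsg.FusionSystem.centralizerIn S Q), F.IsCentralizerSystem Q E := by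
  open Cfsg.Agent.H23 Cfsg.FusionSystem Subgroup in
  let A : PreF (centralizerIn S Q) :=
    { M := fun P f => Mor F P f ∧ P ≤ centralizerIn S Q ∧ (∀ x ∈ P, f x ∈ centralizerIn S Q) ∧
        ∃ g, Mor F (P ⊔ Q) g ∧ (∀ x ∈ P, g x = f x) ∧ ∀ x ∈ Q, g x = x
      le := fun h => h.2.1
      mem := fun h => h.2.2.1
      inj := fun h => h.1.inj
      hom := fun h => h.1.homOn
      congr := fun ⟨h1, h2, h3, g, h4, h5, h6⟩ e => ⟨h1.congr e, h2, fun x hx => e x hx ▸ h3 x hx,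
        g, h4, fun x hx => (h5 x hx).trans (e x hx), h6⟩
      conj := fun {P s} hP hs => ⟨mor_cj F (hP.trans cIn_le) hs.1, hP,
        fun x hx => mul_mem (mul_mem hs (hP hx)) (Subgroup.inv_mem _ hs), cj s,
        mor_cj F (sup_le (hP.trans cIn_le) hQ) hs.1, fun _ _ => rfl, mem_fix.1 (cj_mem_fix.2 hs.2)⟩
      comp := fun {P R f k} ⟨h1, h2, h3, g, h4, h5, h6⟩ ⟨h1', h2', h3', g', h4', h5', h6'⟩ hm =>
        ⟨h1.comp h1' hm, h2, fun x hx => h3' _ (hm x hx), fun x => g' (g x),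
          h4.comp h4' (h4.homOn.mem_of_sup (fun x hx => h5 x hx ▸ mem_sup_left (hm x hx))
            fun x hx => mem_sup_right ((h6 x hx).symm ▸ hx)),
          fun x hx => by simp only; rw [h5 x hx, h5' _ (hm x hx)],
          fun x hx => by simp only; rw [h6 x hx, h6' x hx]⟩
      inv := fun {P f} ⟨h1, h2, h3, g, h4, h5, h6⟩ => by
        obtain ⟨k, hk, e⟩ := h4.exists_inv
        rw [h4.homOn.im_sup, im_congr h5, im_eq_self_of_fix h6] at hk
        refine ⟨k, ⟨hk.mono le_sup_left, im_le_iff.2 h3, fun y hy => ?_, k, hk, fun _ _ => rfl,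
          fun x hx => ?_⟩, fun x hx => by rw [← h5 x hx, e x (mem_sup_left hx)]⟩
        · obtain ⟨x, hx, rfl⟩ := h1.mem_im.1 hy
          rw [← h5 x hx, e x (mem_sup_left hx)]
          exact h2 hx
        · conv_lhs => rw [← h6 x hx]
          exact e x (mem_sup_right hx) }
  refine ⟨A.toFS, fun P => Set.ext fun φ => ?_⟩
  rw [mem_hom_iff, A.mor_iff]
  constructor
  · rintro ⟨h1, h2, h3, g, ⟨ψ, hψ, e⟩, h5, h6⟩
    refine ⟨mem_hom_iff.2 h1, h2, fun x => ext_coe φ x ▸ h3 x x.2, ψ, hψ, fun x => ?_, fun x => ?_⟩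
    · rw [e, ← ext_coe φ x]; exact h5 x x.2
    · rw [e]; exact h6 x x.2
  · rintro ⟨h1, h2, h3, ψ, hψ, h5, h6⟩
    refine ⟨mem_hom_iff.1 h1, h2, fun x hx => ext_of_mem φ hx ▸ h3 _, H23.ext ψ, mor_ext hψ,
      fun x hx => ?_, fun x hx => ?_⟩
    · rw [ext_of_mem φ hx, ← h5, ext_of_mem ψ (mem_sup_left hx)]; rfl
    · rw [ext_of_mem ψ (mem_sup_right hx)]; exact h6 ⟨x, hx⟩

end Cfsg.Agent.S5097
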