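import Cfsg.Statements.S5105
import Cfsg.Agent.L0.FModel2

set_option autoImplicit false
open Cfsg

namespace Cfsg.Agent.S5105

open Subgroup Cfsg.Agent.H23 Cfsg.Agent.H23.LF


/-- Model Theorem, rigidity: if G is a model of a constrained fusion system over a finite p-group S (through ι : S → G), then every automorphism of G fixing ι(S) elementwise is conjugation by ι(z) for some z in the centre of S. -/
theorem result {Ω : Type*} [Group Ω] {S : Subgroup Ω} [Finite S] (p : ℕ) [Fact p.Prime] (hS : IsPGroup p S) (F : Cfsg.FusionSystem S) (hF : F.IsConstrained p) {G : Type*} [Group G] (ι : S →* G) (hG : F.IsModel p G ι) (ψ : G ≃* G) (hψ : ∀ x : S, ψ (ι x) = ι x) : ∃ z : S, z ∈ Subgroup.center S ∧ ∀ g : G, ψ g = ι z * g * (ι z)⁻¹ := by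
  have h := mdl_iff.1 hG
  haveI := h.fin
  haveI : (pCore p G).Normal := sSup_normal _ fun _ a => a.1
  obtain ⟨z, hz, e⟩ := exists_conj_of_fix (p := p) (S := im (ext ι) S) (Q := pCore p G)
    (by rw [← relIndex_top_right]; exact h.syl.ndvd) h.pCore_le (isPGroup_pCore p G) h.con
    ψ.toMonoidHom (fun x hx => by
      obtain ⟨y, hy, rfl⟩ := (h.mem_im le_rfl).1 hx
      rw [ext_of_mem ι hy]; exact hψ _)
  obtain ⟨y, hy, rfl⟩ := (h.mem_im le_rfl).1 (h.pCore_le hz.1)
  refine ⟨⟨y, hy⟩, mem_center_iff.2 fun g => Subtype.ext ?_, fun g => ?_⟩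
  · exact (h.mem_centralizer_iff le_rfl hy).1 hz.2 g g.2
  · rw [← ext_of_mem ι hy]; exact e g

end Cfsg.Agent.S5105
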