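import Cfsg.Statements.S5106
import Cfsg.Agent.H23.Normal
-- import your own Cfsg.Agent.* helpers here

set_option autoImplicit false
open Cfsg

namespace Cfsg.Agent.S5106

/-- In a saturated fusion system over a finite p-group S, a subgroup R ≤ S is normal in the system if and only if every map of the system whose source is a subgroup of R is the restriction of an element of Aut_F(R). -/
theorem result {Ω : Type*} [Group Ω] {S : Subgroup Ω} [Finite S] (p : ℕ) [Fact p.Prime] (hS : IsPGroup p S) (F : Cfsg.FusionSystem S) (hF : F.IsSaturated p) (R : Subgroup Ω) (hRS : R ≤ S) : F.IsNormal R ↔ ∀ (P : Subgroup Ω) (hPR : P ≤ R) (φ : P →* Ω), φ ∈ F.Hom P → ∃ α ∈ F.autGroup R, ∀ x : P, ((α (Subgroup.inclusion hPR x) : R) : Ω) = φ x := by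
  open Cfsg.Agent.H23 Cfsg.FusionSystem Subgroup in
  have hF' : Sat p F := ⟨hS, hF⟩
  refine ⟨fun h P hPR φ hφ => ?_, fun h => hF'.normal_of_ext_stab hRS fun P σ hP ⟨φ, hφ, e⟩ => ?_⟩
  · obtain ⟨σ, hσ, e⟩ := exists_perm_of_mem_hom hφ
    obtain ⟨τ, h1, h2, e'⟩ := normal_kext h hσ
    obtain ⟨α, hα, e''⟩ := (h2.mono le_sup_right).mem_autF_of_stab h1
    exact ⟨α, hα, fun x => by rw [← e'', e]; exact e' x x.2⟩
  · obtain ⟨α, hα, e'⟩ := h P hP φ hφ
    obtain ⟨τ, e''⟩ := exists_perm_of_mulAut α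
    refine ⟨τ, lift_le_stab ⊤ ⟨α, mem_top α, e''⟩, fun x hx => ?_⟩
    rw [← e ⟨x, hx⟩, ← e', ← e'']
    rfl

end Cfsg.Agent.S5106
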