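import Cfsg.Statements.S5107
import Cfsg.Agent.H23.Normal
-- import your own Cfsg.Agent.* helpers here

set_option autoImplicit false
open Cfsg

namespace Cfsg.Agent.S5107

/-- If a Sylow p-subgroup S of a finite group G has nilpotency class at most two and its centre is strongly closed in S with respect to G, then every map of the fusion system of G on S is conjugation by an element of N_G(S), and S is the largest subgroup normal in that fusion system. -/
theorem result {G : Type*} [Group G] [Finite G] (p : ℕ) [Fact p.Prime] (S : Sylow p G) (hcl : ⁅(S : Subgroup G), (S : Subgroup G)⁆ ≤ (S : Subgroup G) ⊓ Subgroup.centralizer ((S : Subgroup G) : Set G)) (hZ : Cfsg.IsStronglyClosed ((S : Subgroup G) ⊓ Subgroup.centralizer ((S : Subgroup G) : Set G)) (S : Subgroup G)) : (∀ (P : Subgroup G) (φ : P →* G), φ ∈ (Cfsg.groupFusionSystem (S : Subgroup G)).Hom P → ∃ g ∈ Subgroup.normalizer ((S : Subgroup G) : Set G), ∀ x : P, φ x = g * (x : G) * g⁻¹) ∧ (Cfsg.groupFusionSystem (S : Subgroup G)).core = S :=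 by
  open Cfsg.Agent.H23 Cfsg.FusionSystem Subgroup in
  have hF := sat_group S
  have h1 : (groupFusionSystem (S : Subgroup G)).StronglyClosed (centralizerIn S S) :=
    stronglyClosed_iff.2 ⟨cIn_le, fun P σ hσ x hx hx' => by
      obtain ⟨g, e⟩ := hσ.exists_cj'
      have := hσ.mem hx
      rw [e x hx] at this ⊢
      exact hZ.2 x hx' g this⟩
  have h2 := hF.normal_of_pmod_over sc_top cIn_le
    (hF.normal_of_sc_abelian h1 fun x hx y hy => hx.2 y hy.1) hcl (by
      rw [autS_eq_fix_iff.2 fun x hx y hy => (hy.2 x hx.1).symm]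
      exact fix_le_Op_autF cIn_le)
  refine ⟨fun P φ hφ => ?_, le_antisymm core_le (le_core h2)⟩
  obtain ⟨σ, hσ, e⟩ := exists_perm_of_mem_hom hφ
  obtain ⟨τ, hτ, e'⟩ := normal_top_iff.1 h2 P σ hσ
  have h3 := hτ.mem_autF_top
  rw [autF_group le_rfl] at h3
  obtain ⟨g, -, hg, e''⟩ := mem_autS.1 h3
  exact ⟨g, hg, fun x => by rw [e, ← e' x x.2, e'' x (hσ.le x.2)]⟩

end Cfsg.Agent.S5107
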