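import Cfsg.Statements.S5110
import Cfsg.Agent.H23.BCG
-- import your own Cfsg.Agent.* helpers here

set_option autoImplicit false
open Cfsg

namespace Cfsg.Agent.S5110

/-- Saturation criterion: let F be a fusion system over a finite p-group S and H a family of subgroups of S closed under conjugacy in F, such that every conjugacy class inside H contains a fully automized receptive member, F is the smallest fusion system over S containing all its maps with source in H, and every centric subgroup outside H is conjugate in F to some P for which Aut_S(P) ∩ O_p(Aut_F(P)) is not contained in Inn(P). Then F is saturated. -/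
theorem result {Ω : Type*} [Group Ω] {S : Subgroup Ω} [Finite S] (p : ℕ) [Fact p.Prime] (hS : IsPGroup p S) (F : Cfsg.FusionSystem S) (ℋ : Set (Subgroup Ω)) (hℋS : ∀ P ∈ ℋ, P ≤ S) (hℋconj : ∀ P ∈ ℋ, ∀ Q, F.IsConj P Q → Q ∈ ℋ) (hsat : ∀ P ∈ ℋ, ∃ Q, F.IsConj P Q ∧ F.IsFullyAutomized p Q ∧ F.IsReceptive Q) (hgen : ∀ E : Cfsg.FusionSystem S, (∀ P ∈ ℋ, F.Hom P ⊆ E.Hom P) → F ≤ E) (hstar : ∀ P : Subgroup Ω, F.IsCentric P → P ∉ ℋ → ∃ Q, F.IsConj P Q ∧ ¬ (Cfsg.autInducedBy S Q ⊓ (Cfsg.pCore p ↥(F.autGroup Q)).map (F.autGroup Q).subtype ≤ Cfsg.Inn Q)) : F.IsSaturated p := by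
  open Cfsg.Agent.H23 Cfsg.FusionSystem Subgroup in
  refine (bcglo hS (fun P => P ∈ ℋ) (fun P σ h hσ => hℋconj P h _ hσ.isConj)
    (fun P _ h _ => good_iff.2 (hsat P h)) (fun E h => ?_) (fun P h1 h2 => ?_)).sat
  · have := hgen E fun P hP => hom_subset_iff_perm.2 fun σ hσ => h P σ hP hσ
    exact isSubsystemOf_iff.2 (le_iff.1 this)
  · obtain ⟨Q, h3, h4⟩ := hstar P h1 h2
    obtain ⟨σ, h5, rfl⟩ := isConj_iff.1 h3
    refine ⟨σ, h5, fun h => h4 ?_⟩
    rw [← lift_le_lift_iff, lift_inf, lift_pCore, ← autS_self_eq_lift_inn]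
    exact h

end Cfsg.Agent.S5110
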