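import Cfsg.Statements.S5112
import Cfsg.Agent.L0.FSup

set_option autoImplicit false
open Cfsg

namespace Cfsg.Agent.S5112

open Subgroup Cfsg.Agent.H23 Cfsg.Agent.H23.LF


/-- If S is a dihedral or generalized quaternion 2-group of order at least 16, then in every saturated fusion system over S (at the prime 2) the automorphism group Aut_F(S) consists of the inner automorphisms of S. -/
theorem result {Ω : Type*} [Group Ω] {S : Subgroup Ω} [Finite S] (n : ℕ) (hn : 4 ≤ n) (hshape : Nonempty (S ≃* DihedralGroup (2 ^ (n - 1))) ∨ Nonempty (S ≃* QuaternionGroup (2 ^ (n - 2)))) (F : Cfsg.FusionSystem S) (hF : F.IsSaturated 2) : F.autGroup S = Cfsg.Inn S := by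
  have key : ∀ {m e f X Y}, H11.MC (⊤ : Subgroup S) m e f X Y → 3 ≤ m → F.autGroup S = Cfsg.Inn S :=
    fun {m e f X Y} h hm => by
      have := (Sat.rsyl_top ⟨.of_card (H26.MC_card h), hF⟩).eq_top_of_pmod (nfin_autF F S)
        (pmod_autF (H26.MC_isPGroup_mulAut h (.inr hm)))
      rw [autS_self_eq_lift_inn] at this
      exact le_antisymm (lift_le_lift_iff.1 this.ge) (lift_le_lift_iff.1 this.le)
  rcases hshape with ⟨⟨e⟩⟩ | ⟨⟨e⟩⟩
  · obtain ⟨X, Y, h⟩ := H11.exists_MC_of_dihedral (by omega) (topEquiv.trans e)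
    exact key h (by omega)
  · obtain ⟨X, Y, h⟩ := H11.exists_MC_of_quaternion (by omega) (topEquiv.trans e)
    exact key h (by omega)

end Cfsg.Agent.S5112
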