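import Cfsg.Statements.S5119
import Cfsg.Agent.H23.Sub
-- import your own Cfsg.Agent.* helpers here

set_option autoImplicit false
open Cfsg

namespace Cfsg.Agent.S5119

/-- Let F be a saturated fusion system over a finite p-group S and E a subsystem of F over a subgroup T that is strongly closed in F. Then E is invariant in F (invariance under Aut_F(T) plus the Frattini condition) if and only if the strong invariance condition holds: for P ≤ Q ≤ T, every map φ of E from P into Q and every map ψ of F with source Q, the transported map ψ φ ψ⁻¹ on ψ(P) is a map of E. -/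
theorem result {Ω : Type*} [Group Ω] {S : Subgroup Ω} [Finite S] (p : ℕ) [Fact p.Prime] (hS : IsPGroup p S) (F : Cfsg.FusionSystem S) (hF : F.IsSaturated p) {T : Subgroup Ω} (E : Cfsg.FusionSystem T) (hE : E.IsSubsystemOf F) (hT : F.StronglyClosed T) : E.IsInvariantIn F ↔ ∀ (P Q : Subgroup Ω) (hPQ : P ≤ Q) (_ : Q ≤ T) (φ : P →* Ω) (_ : φ ∈ E.Hom P) (hφQ : ∀ x : P, φ x ∈ Q) (ψ : Q →* Ω) (_ : ψ ∈ F.Hom Q), ∃ χ ∈ E.Hom ((P.subgroupOf Q).map ψ), ∀ (x : P) (hx : ψ (Subgroup.inclusion hPQ x) ∈ (P.subgroupOf Q).map ψ), χ ⟨ψ (Subgroup.inclusion hPQ x), hx⟩ = ψ ⟨φ x, hφQ x⟩ := by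
  open Cfsg.Agent.H23 Cfsg.FusionSystem Subgroup in
  have := finite_of_le hT.1
  rw [isInvariantIn_iff]
  constructor
  · intro h P Q hPQ hQ φ hφ hφQ ψ hψ
    obtain ⟨σ, hσ, e⟩ := exists_perm_of_mem_hom hφ
    obtain ⟨τ, hτ, e'⟩ := exists_perm_of_mem_hom hψ
    have h1 := h.conj hτ hQ hσ hPQ (im_le_iff.2 fun x hx => e ⟨x, hx⟩ ▸ hφQ ⟨x, hx⟩)
    rw [← map_subgroupOf_eq_im hPQ e'] at h1
    obtain ⟨χ, hχ, e''⟩ := h1
    refine ⟨χ, hχ, fun x hx => ?_⟩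
    rw [e'']
    show (τ * σ * τ⁻¹) (ψ _) = _
    rw [e', e']
    simp [e]
  · intro h
    refine Sat.inv_of_strong ⟨hS, hF⟩ hE hT fun Q P τ σ ⟨ψ, hψ, e'⟩ hQ ⟨φ, hφ, e⟩ hPQ h1 => ?_
    have h2 : ∀ x : P, φ x ∈ Q := fun x => e x ▸ h1 (mem_im_of_mem σ x.2)
    obtain ⟨χ, hχ, e''⟩ := h P Q hPQ hQ φ hφ h2 ψ hψ
    rw [← map_subgroupOf_eq_im hPQ e']
    refine ⟨χ, hχ, ?_⟩
    rintro ⟨_, x, hx, rfl⟩
    refine (e'' ⟨x, hx⟩ _).trans ?_
    show _ = (τ * σ * τ⁻¹) (ψ _)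
    rw [e', e', Equiv.Perm.mul_apply, pinv_apply]
    exact congrArg τ (e ⟨x, hx⟩)

end Cfsg.Agent.S5119
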