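import Cfsg.Statements.S5122
import Cfsg.Agent.H23.Group
-- import your own Cfsg.Agent.* helpers here

set_option autoImplicit false
open Cfsg

namespace Cfsg.Agent.S5122

/-- Let G be a finite group with Sylow p-subgroup S. Every subgroup P of S has a G-conjugate Q ≤ S such that N_S(Q) is a Sylow p-subgroup of N_G(Q); and for any Q ≤ S with that property, C_S(Q) is a Sylow p-subgroup of C_G(Q) and the automorphisms of Q induced by N_S(Q) form a Sylow p-subgroup of those induced by N_G(Q). -/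
theorem result {G : Type*} [Group G] [Finite G] (p : ℕ) [Fact p.Prime] (S : Sylow p G) : (∀ P : Subgroup G, P ≤ S → ∃ g : G, P.map (MulAut.conj g).toMonoidHom ≤ S ∧ (∃ R : Sylow p ↥(Subgroup.normalizer ((P.map (MulAut.conj g).toMonoidHom : Subgroup G) : Set G)), (R : Subgroup ↥(Subgroup.normalizer ((P.map (MulAut.conj g).toMonoidHom : Subgroup G) : Set G))) = (Cfsg.FusionSystem.normalizerIn (S : Subgroup G) (P.map (MulAut.conj g).toMonoidHom)).subgroupOf (Subgroup.normalizer ((P.map (MulAut.conj g).toMonoidHom : Subgroup G) : Set G)))) ∧ ∀ Q : Subgroup G, Q ≤ S → (∃ R : Sylow p ↥(Subgroup.normalizer (Q : Set G)), (R : Subgroup ↥(Subgroup.normalizer (Q : Set G))) = (Cfsg.FusionSystem.normalizerIn (S : Subgroup G) Q).subgroupOf (Subgroup.normalizer (Q : Set G))) → (∃ R : Sylow p ↥(Subgroup.centralizer (Q : Set G)), (R : Subgroup ↥(Subgroup.centralizer (Q : Set G))) = (Cfsg.FusionSystem.centralizerIn (S : Subgroup G) Q).subgroupOf (Subgroup.centralizer (Q :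 Set G))) ∧ (∃ R : Sylow p ↥(Cfsg.autInducedBy ⊤ Q), (R : Subgroup ↥(Cfsg.autInducedBy ⊤ Q)) = (Cfsg.autInducedBy (S : Subgroup G) Q).subgroupOf (Cfsg.autInducedBy ⊤ Q)) := by
  open Cfsg.Agent.H23 Cfsg.FusionSystem Subgroup in
  refine ⟨fun P hP => ?_, fun Q hQ hN => ?_⟩
  · obtain ⟨σ, hσ, hn⟩ := exists_fn (groupFusionSystem (S : Subgroup G)) hP
    obtain ⟨g, e⟩ := hσ.exists_cj'
    have h1 : im σ P = P.map (MulAut.conj g).toMonoidHom := by rw [im_congr e, im_cj]
    rw [fn_group_iff S hσ.im_le, rsyl_bot_iff nIn_le_norm, h1] at hn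
    exact ⟨g, h1 ▸ hσ.im_le, hn⟩
  · rw [← rsyl_bot_iff nIn_le_norm, ← fn_group_iff S hQ] at hN
    refine ⟨?_, ?_⟩
    · rw [← rsyl_bot_iff cIn_le_cent, ← fc_group_iff S hQ]
      exact (sat_group S).fc_of_fn hN
    · have h1 := ((sat_group S).fa_of_fn hN).2
      have h2 : (groupFusionSystem (S : Subgroup G)).autGroup Q = autInducedBy ⊤ Q :=
        lift_inj.1 (autF_group hQ)
      rwa [h2] at h1

end Cfsg.Agent.S5122
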