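import Cfsg.Statements.S5130
import Cfsg.Agent.H23.Mod
-- import your own Cfsg.Agent.* helpers here

set_option autoImplicit false
open Cfsg

namespace Cfsg.Agent.S5130

section
open Cfsg Cfsg.FusionSystem Subgroup Cfsg.Agent.H23
open Equiv (Perm)

variable {Ω : Type*} [Group Ω] {S T₁ T₂ : Subgroup Ω} [Finite S] {p : ℕ} [Fact p.Prime] {F : FusionSystem S}

theorem sat_full (hF : Sat p F) (h₁ : F.StronglyClosed T₁) (h₂ : F.StronglyClosed T₂)
    (hc : T₁ ≤ centralizer (T₂ : Set Ω)) (h0 : T₁ ⊓ T₂ = ⊥) (h1 : T₁ ⊔ T₂ = S) {R : FusionSystem T₁}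
    (hR : ∀ (P : Subgroup Ω) (σ : Perm Ω), P ≤ T₁ → (Mor R P σ ↔ Mor F P σ)) : Sat p R := by
  have := finite_of_le h₁.1
  have dec : ∀ x ∈ S, ∃ a ∈ T₁, a⁻¹ * x ∈ T₂ := fun x hx => by
    obtain ⟨a, ha, b, hb, rfl⟩ := (mem_sup_of_le_normalizer_right (hc.trans (centralizer_le_normalizer _))).1 (h1.ge hx)
    exact ⟨a, ha, by simpa using hb⟩
  choose! θ t1 t2 using dec
  have u : ∀ x ∈ S, ∀ a ∈ T₁, a⁻¹ * x ∈ T₂ → θ x = a := fun x hx a ha h => by
    have : a⁻¹ * θ x ∈ T₁ ⊓ T₂ := ⟨T₁.mul_mem (T₁.inv_mem ha) (t1 x hx), by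
      simpa [mul_assoc] using T₂.mul_mem h (T₂.inv_mem (t2 x hx))⟩
    rw [h0, mem_bot, inv_mul_eq_one] at this
    exact this.symm
  have v : ∀ x ∈ T₁, θ x = x := fun x hx => u x (h₁.1 hx) x hx (by simp)
  have a : HomOn S θ := fun x hx y hy => u _ (S.mul_mem hx hy) _ (T₁.mul_mem (t1 x hx) (t1 y hy)) (by
    have := T₂.mul_mem (t2 x hx) (t2 y hy)
    rw [← mul_assoc, hc (T₁.inv_mem (t1 y hy)) _ (t2 x hx)] at this
    simpa [mul_assoc] using this)
  obtain ⟨F', b⟩ := exists_fac F a h₂ (fun x hx => ⟨fun h => by simpa [h] using t2 x hx,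
    fun h => u x hx 1 (one_mem _) (by simpa using h)⟩)
    (le_antisymm (im_le_iff.2 t1) fun x hx => v x hx ▸ mem_im_of_mem θ (h₁.1 hx))
  rw [fs_eq_of_sub (F := R) (E := F') (isSubsystemOf_iff.2 fun P σ m => ?_) (isSubsystemOf_iff.2 fun P σ m => ?_)]
  · exact b.sat hF
  · obtain ⟨τ, c, d⟩ := (b.fhom hF).map P σ ((hR P σ m.le).1 m)
    rw [im_eq_self_of_fix fun x hx => v x (m.le hx)] at c
    exact c.congr fun x hx => by rw [← v _ (m.mem hx), ← d x hx, v x (m.le hx)]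
  · obtain ⟨τ, c, d⟩ := b.lift m
    have e : P ≤ pre S θ P := fun x hx => b.mem_pre.2 ⟨h₁.1 (m.le hx), by rwa [v x (m.le hx)]⟩
    exact (hR P σ m.le).2 ((c.mono e).congr fun x hx => by
      rw [← v _ (c.mem_of_sc h₁ (e hx) (m.le hx)), ← d x (e hx), v x (m.le hx)])

end


/-- Let F be a saturated fusion system over a finite p-group S that is the direct product of two subgroups S₁ and S₂, each strongly closed in F. Let R be the full subsystem of F over S₁ (all maps of F between subgroups of S₁) and R′ the subsystem over S₁ of those maps that extend to the subgroup generated with S₂ fixing S₂ elementwise. Then R and R′ are saturated, R′ is normal in F and in R, and R is weakly normal in F. -/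
theorem result {Ω : Type*} [Group Ω] {S : Subgroup Ω} [Finite S] (p : ℕ) [Fact p.Prime] (hS : IsPGroup p S) (F : Cfsg.FusionSystem S) (hF : F.IsSaturated p) (S₁ S₂ : Subgroup Ω) (hprod : Cfsg.IsInternalDirectProduct S₁ S₂ S) (h₁ : F.StronglyClosed S₁) (h₂ : F.StronglyClosed S₂) (R R' : Cfsg.FusionSystem S₁) (hR : ∀ P : Subgroup Ω, P ≤ S₁ → R.Hom P = F.Hom P) (hR' : ∀ P : Subgroup Ω, P ≤ S₁ → R'.Hom P = F.centralizerHom S₂ P) : R.IsSaturated p ∧ R'.IsSaturated p ∧ R'.IsNormalIn F p ∧ R'.IsNormalIn R p ∧ R.IsWeaklyNormalIn F p := by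
  open Cfsg.Agent.H23 Cfsg.FusionSystem Subgroup in
  obtain ⟨l₁, l₂, hc, h0, h1⟩ := hprod
  have s : Sat p F := ⟨hS, hF⟩
  have := finite_of_le l₁
  have c : S₁ ≤ centralizer (S₂ : Set Ω) := fun a ha b hb => (hc a ha b hb).symm
  have r : ∀ (P : Subgroup Ω) (σ : Equiv.Perm Ω), P ≤ S₁ → (Mor R P σ ↔ Mor F P σ) := fun P σ a => by
    simp only [Mor, hR P a]
  obtain ⟨C, d⟩ := exists_centSys F l₂
  obtain ⟨N, n⟩ := exists_normSys F l₂
  have r' : ∀ (P : Subgroup Ω) (σ : Equiv.Perm Ω), P ≤ S₁ → (Mor R' P σ ↔ Mor C P σ) := fun P σ a => by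
    simp only [Mor, hR' P a, isCentralizerSystem_iff.2 d P]
  have f := wc_fn (sc_weaklyClosed h₂)
  have s₁ := sat_full s h₁ h₂ c h0 h1 r
  have s₂ := sat_full (T₂ := centralizerIn S S₂ ⊓ S₂) (d.sat s (fkn_fix_iff.2 (s.fc_of_fn f)))
    (sc_of_sub' d.sub h₁ (le_inf l₁ c)) (sc_of_sub d.sub h₂) (c.trans (centralizer_le inf_le_right))
    (eq_bot_iff.2 ((inf_le_inf_left _ inf_le_right).trans h0.le)) (le_antisymm (sup_le (le_inf l₁ c) inf_le_left) fun x hx => by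
      obtain ⟨a, ha, b, hb, rfl⟩ := (mem_sup_of_le_normalizer_right (c.trans (centralizer_le_normalizer _))).1 (h1.ge hx.1)
      exact Subgroup.mul_mem _ (mem_sup_left ha) (mem_sup_right
        ⟨⟨l₂ hb, (Subgroup.mul_mem_cancel_left _ (c ha)).1 hx.2⟩, hb⟩)) r'
  have u : R.IsSubsystemOf F := isSubsystemOf_iff.2 fun P σ m => (r P σ m.le).1 m
  have u' : R'.IsSubsystemOf F := isSubsystemOf_iff.2 fun P σ m => ((r' P σ m.le).1 m).sub d.sub
  have w : WN p R' F := ⟨s.inv_of_strong u' h₁ fun Q P ψ σ a b m e g => by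
    refine (r' _ _ (a.im_le_of_sc h₁ e m.le)).2 (n.cjS_fix_inv d ((autF_le_stab _ _).trans stab_le_normalizer_fix) ?_
      ((r' P σ m.le).1 m) e g)
    obtain ⟨τ, i, j⟩ := s.exists_ext_mod h₂ a
    refine (n.mor_of (le_inf a.le (a.le.trans (sc_le_normalizer h₂))) i
      (autF_le_stab _ _ (i.mem_autF_of_sc h₂ le_sup_right))).congr fun x hx => ?_
    have : (ψ x)⁻¹ * τ x ∈ S₁ ⊓ S₂ := ⟨S₁.mul_mem (S₁.inv_mem (a.mem_of_sc h₁ hx (b hx)))
      (i.mem_of_sc h₁ (mem_sup_left hx) (b hx)), j x hx⟩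
    rw [h0, mem_bot, inv_mul_eq_one] at this
    exact this.symm, s₂, s⟩
  refine ⟨s₁.sat, s₂.sat, (isNormalIn_iff hS).2 ⟨w, fun α a => ?_⟩, (isNormalIn_iff s₁.pg).2 (w.of_le s₁
    (isSubsystemOf_iff.2 fun P σ m => (r P σ m.le).2 (m.sub u')) u).nrm_top, (isWeaklyNormalIn_iff hS).2
    ⟨s.inv_of_strong u h₁ fun Q P ψ σ a b m e g => (r _ _ (a.im_le_of_sc h₁ e m.le)).2
      ((Inv.refl F).conj a a.le (m.sub u) e g), s₁, s⟩⟩
  obtain ⟨τ, a1, a2, a3⟩ := d.exists_ext ((r' _ _ le_rfl).1 (autF_mor le_rfl a))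
  exact ⟨τ, a2.mono ((sup_le l₁ cIn_le).trans h1.ge), a3, fun x hx => a2.homOn.triv_sup (h1.le.trans (sc_le_normalizer h₁))
    (fun y hy => S₁.mul_mem (S₁.inv_mem hy) (a2.mem_of_sc h₁ (mem_sup_left hy) hy))
    (fun y hy => by rw [mem_fix.1 a1 y hy]; simp) x (h1.ge hx.1)⟩

end Cfsg.Agent.S5130
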