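import Cfsg.Statements.S5143
import Cfsg.Agent.H23.Prod
-- import your own Cfsg.Agent.* helpers here

set_option autoImplicit false
open Cfsg

namespace Cfsg.Agent.S5143

/-- Let F be a saturated fusion system over a finite p-group S, E a normal subsystem over T, and R a subgroup with T ≤ R ≤ S. Then there is exactly one saturated subsystem D of F over R (exactly one family of map sets) whose p-residual subsystem is that of E: the hyperfocal subgroups of D and E coincide and the p-residual subsystems of D and of E have the same maps. -/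
theorem result {Ω : Type*} [Group Ω] {S : Subgroup Ω} [Finite S] (p : ℕ) [Fact p.Prime] (hS : IsPGroup p S) (F : Cfsg.FusionSystem S) (hF : F.IsSaturated p) {T : Subgroup Ω} (E : Cfsg.FusionSystem T) (hE : E.IsNormalIn F p) (R : Subgroup Ω) (hTR : T ≤ R) (hRS : R ≤ S) : ∃ D : Cfsg.FusionSystem R, (D.IsSaturated p ∧ D.IsSubsystemOf F ∧ D.hyperfocalSubgroup p = E.hyperfocalSubgroup p ∧ ∀ (D₁ : Cfsg.FusionSystem (D.hyperfocalSubgroup p)) (E₁ : Cfsg.FusionSystem (E.hyperfocalSubgroup p)), D.IsPResidual p D₁ → E.IsPResidual p E₁ → ∀ P : Subgroup Ω, D₁.Hom P = E₁.Hom P) ∧ ∀ D' : Cfsg.FusionSystem R, D'.IsSaturated p → D'.IsSubsystemOf F → D'.hyperfocalSubgroup p = E.hyperfocalSubgroup p → (∀ (D₁ : Cfsg.FusionSystem (D'.hyperfocalSubgroup p)) (E₁ : Cfsg.FusionSystem (E.hyperfocalSubgroup p)), D'.IsPResidual p D₁ → E.IsPResidual p E₁ → ∀ P : Subgroup Ω, D₁.Hom P = E₁.Hom P) → ∀ P : Subgroup Ω, D'.Hom P = D.Hom P := by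
  open Cfsg.Agent.H23 Cfsg.FusionSystem Subgroup in
  have h := (isNormalIn_iff hS).1 hE
  have := h.finite
  have := finite_of_le hRS
  obtain ⟨D, hD⟩ := h.exists_prod hTR hRS
  have e := hD.pi.hyper_eq hD.sat
  obtain ⟨L, l1, l2⟩ := h.satE.exists_pres
  refine ⟨D, ⟨hD.sat.sat, hD.sub, e.symm, fun D₁ E₁ a b => ?_⟩, fun D' a b c d => ?_⟩
  · obtain ⟨a1, a2⟩ := (isPResidual_iff hD.sat.pg).1 a
    obtain ⟨b1, b2⟩ := (isPResidual_iff h.satE.pg).1 b
    have := finite_of_le (hyper_le (p := p) (F := D))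
    have := finite_of_le (hyper_le (p := p) (F := E))
    exact hom_eq_iff.2 ⟨(b2.trans hD.pi hD.sat).sub_of a1 a2.sub e.ge, a2.sub_of b1 (sub_trans b2.sub hD.pi.sub) e.le⟩
  · have s : Sat p D' := ⟨hD.sat.pg, a⟩
    obtain ⟨D₁, d1, d2⟩ := s.exists_pres
    have f := hom_eq_iff.1 (d D₁ L ((isPResidual_iff s.pg).2 ⟨d1, d2⟩) ((isPResidual_iff h.satE.pg).2 ⟨l1, l2⟩))
    rw [IsProd.unique ⟨s, b, d2.congr f.1 f.2⟩ ⟨hD.sat, hD.sub, l2.trans hD.pi hD.sat⟩ (h.pres_nrm l2 l1)]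
    exact fun _ => rfl

end Cfsg.Agent.S5143
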