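import Cfsg.Statements.S5147
import Cfsg.Agent.H23.Mod
-- import your own Cfsg.Agent.* helpers here

set_option autoImplicit false
open Cfsg

namespace Cfsg.Agent.S5147

/-- Let G be a finite group with Sylow 2-subgroup S whose 2-fusion system on S is constrained, and L a component of G (a subnormal quasisimple subgroup). Then the 2-fusion system of L/Z(L) on the image of S ∩ L is constrained. -/
theorem result {G : Type*} [Group G] [Finite G] (S : Sylow 2 G) (hF : (Cfsg.groupFusionSystem (S : Subgroup G)).IsConstrained 2) (L : Subgroup G) (hL : Cfsg.IsComponent L) : (Cfsg.groupFusionSystem (((S : Subgroup G).subgroupOf L).map (QuotientGroup.mk' (Subgroup.center L)))).IsConstrained 2 := by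
  open Cfsg.Agent.H23 Cfsg.FusionSystem Subgroup in
  obtain ⟨a, -⟩ := subnormal_group (S := S) hL.1
  have b := (rsyl_bot_iff a.le2).1 a
  rw [inf_subgroupOf_right] at b
  obtain ⟨T, c⟩ := b
  have d := subnormal_group_constrained hL.1 hF
  rw [← c] at d ⊢
  refine (fac_group_map (rsyl_sylow T) _ (QuotientGroup.mk'_surjective _)).constrained_of_central (sat_group T) ?_ d
  rw [group_eq_subgroup_top, QuotientGroup.ker_mk']
  exact isCentral_sub_of_central _ inf_le_left fun g _ x hx => (mem_center_iff.1 hx.2 g).symm

end Cfsg.Agent.S5147
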