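import Cfsg.Statements.S5156
import Cfsg.Agent.H23.Mod
-- import your own Cfsg.Agent.* helpers here

set_option autoImplicit false
universe u
open Cfsg

namespace Cfsg.Agent.S5156

/-- A saturated fusion system over a finite p-group has a terminating alternating chain of p'-residual and p-residual subsystems (the chain reaches the trivial system — the notion of solvability adapted to fusion systems of p-solvable groups) if and only if it is constrained and its models are p-solvable (a model is a finite group realizing the system on a Sylow p-subgroup with self-centralizing largest normal p-subgroup; it exists and is unique up to isomorphism for constrained systems). -/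
theorem result {Ω : Type u} [Group Ω] {S : Subgroup Ω} [Finite S] (p : ℕ) [Fact p.Prime] (hS : IsPGroup p S) (F : Cfsg.FusionSystem S) (hF : F.IsSaturated p) : F.HasTerminatingResidualSeries p ↔ (F.IsConstrained p ∧ ∀ (G : Type u) [Group G] (ι : S →* G), F.IsModel p G ι → Cfsg.IsPSolvable p G) := by
  open Cfsg.Agent.H23 Cfsg.FusionSystem Subgroup in
  have s : Sat p F := ⟨hS, hF⟩
  rw [s.terminating_iff]
  constructor
  · refine fun h => ⟨h.1, fun G _ ι a => ?_⟩
    obtain ⟨_, T, -, b, c⟩ := isModel_iff.1 a
    exact (b.psa_iff c).1 h
  · rintro ⟨a, b⟩
    obtain ⟨G, _, _, T, θ, c, d⟩ := s.exists_model a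
    exact (c.psa_iff d).2 (b G _ (model_of_fac c d))

end Cfsg.Agent.S5156
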