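import Cfsg.Statements.S5160
import Cfsg.Agent.H23.PPrime
-- import your own Cfsg.Agent.* helpers here

set_option autoImplicit false
open Cfsg

namespace Cfsg.Agent.S5160

/-- Let G be a finite group with nontrivial Sylow p-subgroup S and F its fusion system on S. Suppose (a) no nontrivial proper subgroup of S is strongly closed in F, and (b) the automorphisms of S induced by G are generated by those induced, for R running over the fully normalized radical centric subgroups of F, by the subgroup of N_G(R) generated by its elements of p-power order. Then F is simple. -/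
theorem result {G : Type*} [Group G] [Finite G] (p : ℕ) [Fact p.Prime] (S : Sylow p G) (hS1 : (S : Subgroup G) ≠ ⊥) (ha : ∀ T : Subgroup G, (Cfsg.groupFusionSystem (S : Subgroup G)).StronglyClosed T → T = ⊥ ∨ T = (S : Subgroup G)) (hb : Cfsg.autInducedBy ⊤ (S : Subgroup G) = ⨆ (R : Subgroup G) (_ : (Cfsg.groupFusionSystem (S : Subgroup G)).IsFullyNormalized R ∧ (Cfsg.groupFusionSystem (S : Subgroup G)).IsRadical p R ∧ (Cfsg.groupFusionSystem (S : Subgroup G)).IsCentric R), Cfsg.autInducedBy (Subgroup.closure {g : G | g ∈ Subgroup.normalizer (R : Set G) ∧ ∃ k : ℕ, orderOf g = p ^ k}) (S : Subgroup G)) : (Cfsg.groupFusionSystem (S : Subgroup G)).IsSimple p := by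
  open Cfsg.Agent.H23 Cfsg.FusionSystem Subgroup in
  have hF := sat_group S
  refine hF.simple_of_sc hS1 ha fun E hE => ?_
  have h1 := hE.toInv.pp hF
  rw [autF_group le_rfl, AutS, hb, AutF, lift_le_lift_iff]
  refine iSup_le fun R => iSup_le fun ⟨a, b, c⟩ => ?_
  rw [← lift_le_lift_iff]
  refine (autS_le_iff (fix_le_autF _ _)).2 fun g hg hn => ?_
  have h2 : closure {g : G | g ∈ normalizer (R : Set G) ∧ ∃ k : ℕ, orderOf g = p ^ k} ≤ (AutF E R).comap cj := by
    refine (closure_le _).2 fun g ⟨d, k, e⟩ => h1.le a.1 (mem_Ores' (j := k) ?_ ?_)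
    · rw [autF_group a.1]; exact cj_mem_autS (mem_top g) d
    · rw [← map_pow, ← e, pow_orderOf_eq_one, map_one]; exact one_mem _
  exact (hF.mor_of_centric hE.satE hE.sub c c.1
    (mor_group_cj g le_rfl fun x hx => conj_mem_of_mem_normalizer hn hx) (autF_mor a.1 (h2 hg))).mem_autF_top

end Cfsg.Agent.S5160
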