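import Cfsg.Statements.S5165
import Cfsg.Agent.H23.AltF
-- import your own Cfsg.Agent.* helpers here

set_option autoImplicit false
open Cfsg

namespace Cfsg.Agent.S5165

/-- For n ≥ 6, a prime p with p² ≤ n, and n congruent to 0 or 1 modulo p, the p-fusion system of the alternating group of degree n on a Sylow p-subgroup is simple. -/
theorem result (n p : ℕ) (hn : 6 ≤ n) [Fact p.Prime] (hnp : p ^ 2 ≤ n) (hb : n % p ≤ 1) (S : Sylow p (alternatingGroup (Fin n))) : (Cfsg.groupFusionSystem (S : Subgroup (alternatingGroup (Fin n)))).IsSimple p := by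
  open Cfsg.Agent.H23 Cfsg.FusionSystem Subgroup in
    have hp := (Fact.out : p.Prime)
    have h1 : p ≤ n / p := (Nat.le_div_iff_mul_le hp.pos).2 (by rwa [← pow_two])
    haveI : Subsingleton (Fin (n % p)) := Fin.subsingleton_iff_le_one.2 hb
    have h2 : Fintype.card (ZMod p ⊕ Fin (n / p - p)) = n / p := by simp; omega
    obtain ⟨e⟩ := H23.nonempty_equiv_WP (p := p) (I := ZMod p ⊕ Fin (n / p - p)) (R := Fin (n % p)) (α := Fin n)
      (by rw [h2]; simp [Nat.div_add_mod])
    refine H23.simple_alt ?_ e.symm.altCongrHom S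
    rw [h2]
    by_cases h : p = 2
    · subst h; omega
    · exact (lt_of_le_of_ne hp.two_le (Ne.symm h)).trans_le h1

end Cfsg.Agent.S5165
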