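import Cfsg.Statements.S5171
import Cfsg.Agent.H23.SpU
-- import your own Cfsg.Agent.* helpers here

set_option autoImplicit false
open Cfsg

namespace Cfsg.Agent.S5171

/-- For a finite field K of characteristic p and m ≥ 2, excluding the case m = 2 with K of two elements, the p-fusion system of the projective symplectic group PSp_{2m}(K) on a Sylow p-subgroup is simple. -/
theorem result {K : Type*} [Field K] [Fintype K] (p : ℕ) [Fact p.Prime] [CharP K p] (m : ℕ) (hm : 2 ≤ m) (hex : m = 2 → 3 ≤ Fintype.card K) (S : Sylow p (Cfsg.PSp m K)) : (Cfsg.groupFusionSystem (S : Subgroup (Cfsg.PSp m K))).IsSimple p := by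
  open Cfsg.Agent.H23 Cfsg.FusionSystem Subgroup in
    obtain ⟨a, b⟩ := H23.simple_quot_of_equiv (H12.spEquivS (Fin m) K)
    haveI : Finite (Cfsg.PSp m K) := Finite.of_surjective _ a
    have h := H12.finrank_sp (F := K) (l := Fin m)
    rw [Fintype.card_fin] at h
    refine H23.simple_SUG H12.sd_spB (by omega) (fun _ => ?_) _ a b S
    rw [Nat.card_eq_fintype_card]
    by_cases h2 : m = 2
    · exact .inl (hex h2)
    · exact .inr (by omega)

end Cfsg.Agent.S5171
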