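import Cfsg.Statements.S5311
import Cfsg.Agent.H23.Comp
-- import your own Cfsg.Agent.* helpers here

set_option autoImplicit false
open Cfsg

namespace Cfsg.Agent.S5311

/-- The layer of a saturated fusion system F over a finite p-group S is characteristic in F: for every automorphism α of S that is an automorphism of F (α and its inverse are morphisms from F to F) and every layer E of F over T, α carries T onto T and, for every map φ of E with source P, the map induced by α on α(P) (that is, α ∘ φ ∘ α⁻¹) is a map of E. -/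
theorem result {Ω : Type*} [Group Ω] {S : Subgroup Ω} [Finite S] (p : ℕ) [Fact p.Prime] (hS : IsPGroup p S) (F : Cfsg.FusionSystem S) (hF : F.IsSaturated p)
    (α : ↥S ≃* ↥S) (hα : F.IsMorphism F (S.subtype.comp α.toMonoidHom))
    (hα' : F.IsMorphism F (S.subtype.comp α.symm.toMonoidHom))
    {T : Subgroup Ω} (E : Cfsg.FusionSystem T) (hE : E.IsLayerOf F p) :
    Cfsg.FusionSystem.imageAlong (S.subtype.comp α.toMonoidHom) T = T ∧
      ∀ (P : Subgroup Ω) (φ : ↥P →* Ω), φ ∈ E.Hom P →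
        ∀ φ' : ↥(Cfsg.FusionSystem.imageAlong (S.subtype.comp α.toMonoidHom) P) →* Ω,
          Cfsg.FusionSystem.InducedAlong (S.subtype.comp α.toMonoidHom) φ φ' →
            φ' ∈ E.Hom (Cfsg.FusionSystem.imageAlong (S.subtype.comp α.toMonoidHom) P) := by
  open Cfsg.Agent.H23 Cfsg.FusionSystem Subgroup in
  have a := (isLayerOf_iff hS).1 hE
  have := a.nrm.finite
  obtain ⟨σ, b⟩ := exists_perm_of_mulAut (P := S) α
  have c : σ ∈ Stab S := mem_lift.2 ⟨α, mem_top _, b⟩
  have d : ∀ x ∈ S, ext (S.subtype.comp α.toMonoidHom) x = σ x := fun x hx => by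
    rw [ext_of_mem _ hx]
    exact (b ⟨x, hx⟩).symm
  have d' : ∀ x ∈ S, ext (S.subtype.comp α.symm.toMonoidHom) x = σ⁻¹ x := fun x hx => by
    rw [ext_of_mem _ hx, Equiv.Perm.eq_inv_iff_eq]
    exact (b _).trans (by simp)
  have key : ∀ {θ : Ω → Ω} {σ : Equiv.Perm Ω}, FHom F F θ → (∀ x ∈ S, θ x = σ x) → ∀ (P : Subgroup Ω) (τ : Equiv.Perm Ω),
      Mor F P τ → Mor F (im σ P) ⇑(σ * τ * σ⁻¹) := fun {θ σ} h e P τ m => by
    obtain ⟨τ', m', f⟩ := h.map P τ m
    rw [im_congr fun x hx => e x (m.le hx)] at m'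
    refine m'.congr fun y hy => ?_
    obtain ⟨x, hx, rfl⟩ := ((h.hom.congr e).mem_im_of_le m.le).1 hy
    rw [conj_apply_im, ← e x (m.le hx), f x hx, e _ (m.mem hx)]
  have f := a.fac_aut (fac_aut_of c (key (isMorphism_iff.1 hα) d) (key (isMorphism_iff.1 hα') d'))
  have g : ∀ P, P ≤ T → imageAlong (S.subtype.comp α.toMonoidHom) P = im σ P := fun P hP => by
    rw [imageAlong_eq _ (hP.trans a.nrm.leS), im_congr fun x hx => d x (a.nrm.leS (hP hx))]
  refine ⟨(g T le_rfl).trans f.surj, fun P φ hφ φ' h => ?_⟩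
  obtain ⟨τ, m, e⟩ := exists_perm_of_mem_hom hφ
  obtain ⟨-, -, -, i⟩ := (inducedAlong_iff _ e (fun x => (ext_coe φ' x).symm)).1 h
  rw [mem_hom_iff]
  generalize ext φ' = k at i ⊢
  rw [g P m.le]
  refine (f.mor_conj m).congr fun y hy => ?_
  obtain ⟨x, hx, rfl⟩ := (f.hom.mem_im_of_le m.le).1 hy
  rw [conj_apply_im, ← d _ (a.nrm.leS (m.mem hx)), ← i x hx, d x (a.nrm.leS (m.le hx))]

end Cfsg.Agent.S5311
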