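import Cfsg.Statements.S5346
import Cfsg.Agent.H29.TT6

set_option autoImplicit false
open Cfsg

namespace Cfsg.Agent.S5346
open Cfsg.Agent.H29


/-- Let D be a conjugation-invariant generating set of 3-transpositions of a finite group G and d a member of D. Then D has width 1 (no two different members of D commute) if and only if G is the product of the subgroup generated by d with the largest normal 3-subgroup of G. -/
theorem result {G : Type*} [Group G] [Finite G] {D : Set G} (hD : Cfsg.IsThreeTranspositionGroup D) {d : G} (hd : d ∈ D) : Cfsg.commutingWidth D = 1 ↔ Subgroup.zpowers d ⊔ Cfsg.pCore 3 G = ⊤ := by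
  rw [width_eq_one_iff hd]
  refine ⟨fun h => eq_top_iff.2 (hD.2.2 ▸ (Subgroup.closure_le _).2 fun a ha => ?_), fun h => ?_⟩
  · have := Subgroup.mul_mem_sup (Subgroup.mem_zpowers d) (mul_mem_of_width1 (.ofGroup hD) h hd ha)
    rwa [T3sq' hD.1 hd] at this
  · have key : ∀ a ∈ D, d * a ∈ pCore 3 G := fun a ha => by
      obtain ⟨_, ⟨k, rfl⟩, u, hu, e⟩ := (H10.mem_sup_iff_of_left_le_normalizer (by rw [Subgroup.normalizer_eq_top]; exact le_top)).1
        (h ▸ Subgroup.mem_top a : a ∈ Subgroup.zpowers d ⊔ pCore 3 G)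
      have h2 : d ^ (2 : ℤ) = 1 := by rw [zpow_two, T3sq hD.1 hd]
      obtain ⟨m, rfl | rfl⟩ := Int.even_or_odd' k
      · simp only [zpow_mul, h2, one_zpow, one_mul] at e
        exact absurd (pCore3_two (e ▸ hu) (by rw [sq, T3sq hD.1 ha])) (T3ne hD.1 ha)
      · simp only [zpow_add, zpow_mul, h2, one_zpow, one_mul, zpow_one] at e
        rwa [← e, T3sq' hD.1 hd]
    intro a ha b hb c
    refine (T3mul_mem hD.1 (H1.isPGroup_pCore 3 G) ha hb ?_).2 (by decide) c
    have := mul_mem (mul_mem_symm (.ofGroup hD) hd ha (key a ha)) (key b hb)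
    rwa [mul_assoc, T3sq' hD.1 hd] at this

end Cfsg.Agent.S5346
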