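import Cfsg.Statements.S5351
import Cfsg.Agent.H29.TT6

set_option autoImplicit false
open Cfsg

namespace Cfsg.Agent.S5351
open Cfsg.Agent.H29


/-- Let D be a conjugacy class of 3-transpositions generating the finite group G, with at least two members. Then for every prime p > 3 the largest normal p-subgroup of G is central, and exactly one of the following holds: the largest normal 2-subgroup of G is not central; the largest normal 3-subgroup of G is not central; the layer of G (the product of its components) is non-trivial. -/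
theorem result {G : Type*} [Group G] [Finite G] {D : Set G} (hD : Cfsg.IsThreeTranspositionClass D) (hD2 : ∃ a ∈ D, ∃ b ∈ D, a ≠ b) : (∀ p : ℕ, p.Prime → 3 < p → Cfsg.pCore p G ≤ Subgroup.center G) ∧ ((¬ Cfsg.pCore 2 G ≤ Subgroup.center G ∧ Cfsg.pCore 3 G ≤ Subgroup.center G ∧ Cfsg.layer G = ⊥) ∨ (Cfsg.pCore 2 G ≤ Subgroup.center G ∧ ¬ Cfsg.pCore 3 G ≤ Subgroup.center G ∧ Cfsg.layer G = ⊥) ∨ (Cfsg.pCore 2 G ≤ Subgroup.center G ∧ Cfsg.pCore 3 G ≤ Subgroup.center G ∧ Cfsg.layer G ≠ ⊥)) := by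
  have h : Cl D := ⟨hD, hD2⟩
  refine ⟨fun p hp h3 => pCore_le_center h.grp hp h3, ?_⟩
  haveI := Fact.mk Nat.prime_three
  have key : ∀ p : ℕ, [Fact p.Prime] → ⁅layer G, pCore p G⁆ = ⊥ := fun p _ =>
    H10.commutator_eq_bot_mono H10.commutator_layer_fitting le_rfl (H1.pCore_le_fittingSubgroup p)
  obtain ⟨d, hd, -⟩ := hD2
  by_cases h2 : pCore 2 G ≤ Subgroup.center G
  · by_cases h3 : pCore 3 G ≤ Subgroup.center G
    · exact .inr (.inr ⟨h2, h3, h.layer_ne_bot h2 h3⟩)
    · exact .inr (.inl ⟨h2, h3, h.layer_eq_bot 3 (h.comm_le_pCore3 h3 (key 3))⟩)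
  · exact .inl ⟨h2, (h.pCore3_le_iff hd).2 ((Vc_or_Wc hd).resolve_left fun e => h2 ((h.pCore2_le_iff hd).2 e)),
      h.layer_eq_bot 2 (h.comm_le_pCore2 h2 (key 2))⟩

end Cfsg.Agent.S5351
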