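import Cfsg.Statements.S5354
import Cfsg.Agent.H29.TT6

set_option autoImplicit false
open Cfsg

namespace Cfsg.Agent.S5354
open Cfsg.Agent.H29


/-- Let D be a conjugation-invariant generating set of 3-transpositions of the finite group G on which G acts primitively by conjugation, and suppose two different members of D commute (width at least 2). Then G has a quasisimple normal subgroup L of index at most 2 with the generalized Fitting subgroup of G equal to L times the centre, the commuting graph of D is connected, and for d in D the subgroup generated by the members of D commuting with d is a maximal D-subgroup: it is proper, and every subgroup generated by members of D that contains it is either it or G. -/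
theorem result {G : Type*} [Group G] [Finite G] {D : Set G} (hD : Cfsg.IsThreeTranspositionGroup D) (hprim : Cfsg.IsPrimitiveUnderConj D) (hw : ∃ a ∈ D, ∃ b ∈ D, a ≠ b ∧ Commute a b) : (∃ L : Subgroup G, L.Normal ∧ Cfsg.IsQuasisimple L ∧ L.index ≤ 2 ∧ Cfsg.generalizedFittingSubgroup G = L ⊔ Subgroup.center G) ∧ (Cfsg.commutingGraph D).Connected ∧ ∀ d ∈ D, Subgroup.closure {y : G | y ∈ D ∧ Commute d y} ≠ ⊤ ∧ ∀ H : Subgroup G, Cfsg.IsDSubgroup D H → Subgroup.closure {y : G | y ∈ D ∧ Commute d y} ≤ H → H = Subgroup.closure {y : G | y ∈ D ∧ Commute d y} ∨ H = ⊤ := by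
  have h : PW D := ⟨hD, hprim, hw⟩
  refine ⟨h.exists_qs, h.connected, fun d hd => ⟨fun e => h.cl.not_center hd (mem_center_of_gen e fun s hs => hs.2),
    fun H hH hle => or_iff_not_imp_left.2 fun hne => ?_⟩⟩
  obtain ⟨a, ha, hn⟩ : ∃ a ∈ {d : G | d ∈ D ∧ d ∈ H}, a ∉ Subgroup.closure {y : G | y ∈ D ∧ Commute d y} := by
    by_contra! h'
    exact hne (le_antisymm (hH.ge.trans ((Subgroup.closure_le _).2 h')) hle)
  exact h.max hd (fun y hy c => hle (Subgroup.subset_closure ⟨hy, c⟩)) ha.1 ha.2
    fun c => hn (Subgroup.subset_closure ⟨ha.1, c⟩)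

end Cfsg.Agent.S5354
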