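import Cfsg.Statements.S5358
import Cfsg.Agent.H13.Refl3

set_option autoImplicit false
open scoped MatrixGroups
open Cfsg

namespace Cfsg.Agent.S5358

/-- Let Q be a non-degenerate quadratic form on the n-dimensional coordinate space over the field with three elements and u, v vectors of the same non-zero norm Q(u) = Q(v) spanning different lines (v ≠ u and v ≠ −u). Then the reflection matrices of u and v commute if and only if u and v are orthogonal for the polar form of Q. -/
theorem result (n : ℕ) (Q : QuadraticForm (ZMod 3) (Fin n → ZMod 3)) (hQ : (QuadraticMap.polarBilin Q).Nondegenerate) (u v : Fin n → ZMod 3) (hu : Q u ≠ 0) (huv : Q u = Q v) (h1 : v ≠ u) (h2 : v ≠ -u) : Commute (Cfsg.reflectionMatrix (⇑Q) u) (Cfsg.reflectionMatrix (⇑Q) v) ↔ QuadraticMap.polar (⇑Q) u v = 0 := by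
  have hQ' := H13.nd_iff.mpr hQ
  rw [← hQ'.commute_refl_three hu huv.symm fun h => ((hQ'.refl_eq_refl_three hu (huv ▸ hu)).mp h).elim
    h1 h2, ← H13.mat_symm_refl, ← H13.mat_symm_refl]
  exact ⟨fun h => Commute.of_map (H13.toOG Q).symm.injective (H13.mat_injective h),
    fun h => congrArg H13.mat (h.map (H13.toOG Q).symm).eq⟩

end Cfsg.Agent.S5358
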