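import Cfsg.Statements.S5359
import Cfsg.Agent.H13.Refl

set_option autoImplicit false
open scoped MatrixGroups
open Cfsg

namespace Cfsg.Agent.S5359

/-- Let Q be a non-degenerate quadratic form on the n-dimensional coordinate space over the field with three elements, n odd and at least 5, and c a non-zero scalar. Then the subgroup of the isometry group of Q generated by the reflections in vectors of norm c has index 2 in the isometry group. -/
theorem result (n : ℕ) (hn : 5 ≤ n) (hodd : Odd n) (Q : QuadraticForm (ZMod 3) (Fin n → ZMod 3)) (hQ : (QuadraticMap.polarBilin Q).Nondegenerate) (c : ZMod 3) (hc : c ≠ 0) : (Cfsg.reflectionSubgroup (⇑Q) c).index = 2 := by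
  rw [H13.reflectionSubgroup_eq, Subgroup.index_comap_of_surjective _ (H13.toOG Q).surjective]
  exact (H13.nd_iff.mpr hQ).index_closure_RefN (by decide)
    (.inr ⟨by simp; omega, .inr (by simpa)⟩) hc

end Cfsg.Agent.S5359
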