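import Cfsg.Statements.S5361
import Cfsg.Agent.H29.TT6

set_option autoImplicit false
open Cfsg

namespace Cfsg.Agent.S5361
open Cfsg.Agent.H29


/-- Let D be a conjugacy class of 3-transpositions generating the finite group G, and suppose the centre of G is trivial and some two different members of D commute. Then the following are equivalent: (1) the commutator subgroup of G is simple (possibly of prime order); (2) G acts primitively on D by conjugation; (3) the largest normal 2-subgroup and the largest normal 3-subgroup of G are trivial and the commuting graph of D is connected. -/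
theorem result {G : Type*} [Group G] [Finite G] {D : Set G} (hD : Cfsg.IsThreeTranspositionClass D) (hZ : Subgroup.center G = ⊥) (hw : ∃ a ∈ D, ∃ b ∈ D, a ≠ b ∧ Commute a b) : (IsSimpleGroup (commutator G) ↔ Cfsg.IsPrimitiveUnderConj D) ∧ (Cfsg.IsPrimitiveUnderConj D ↔ (Cfsg.pCore 2 G = ⊥ ∧ Cfsg.pCore 3 G = ⊥ ∧ (Cfsg.commutingGraph D).Connected)) := by
  have h := cl_of_center_bot hD hZ
  refine ⟨⟨fun hs => (h.pw_of_simple hs fun e => ?_).prim, fun hp => ?_⟩, fun hp => ?_, fun ⟨h2, h3, hc⟩ => ?_⟩
  · obtain ⟨a, ha, b, hb, hne, c⟩ := hw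
    exact hne ((T3mul_mem hD.1 (H1.isPGroup_pCore 3 G) ha hb (e (h.mul_mem_comm ha hb))).2 (by decide) c)
  · have h' : PW D := ⟨h.grp, hp, hw⟩
    obtain ⟨L, hn, hL, hi, -⟩ := h'.exists_qs
    have e : commutator G = L := le_antisymm (commutator_top_le h.grp fun d hd x _ =>
      h.mul_mem_of_index hi hd (h.tr.conj x d hd)) ((H10.QS.perfect hL).ge.trans (Subgroup.commutator_mono le_top le_top))
    rw [e]
    haveI : Nontrivial L := (Subgroup.nontrivial_iff_ne_bot L).2 (H10.QS.ne_bot hL)
    have hc : Subgroup.centralizer (L : Set G) ≤ Subgroup.center G := by_contra fun hC => h.not_comm h'.h2 h'.h3 hC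
      (Cl.qs_not_le hL) (Subgroup.commutator_eq_bot_iff_le_centralizer.2 le_rfl)
    refine ⟨fun N hN => ((H10.isQuasisimple_iff.1 hL).2.2 N hN).imp_left fun e => eq_bot_iff.2 fun x hx => ?_⟩
    have : (x : G) ∈ Subgroup.center G := hc fun y hy => congrArg Subtype.val (Subgroup.mem_center_iff.1 (e hx) ⟨y, hy⟩)
    rw [hZ] at this; exact Subtype.ext this
  · have h' : PW D := ⟨h.grp, hp, hw⟩
    exact ⟨eq_bot_iff.2 (hZ ▸ h'.h2), eq_bot_iff.2 (hZ ▸ h'.h3), h'.connected⟩
  · have h2' := h2.le.trans (bot_le (a := Subgroup.center G))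
    have h3' := h3.le.trans (bot_le (a := Subgroup.center G))
    obtain ⟨L, hn, hL, -⟩ := h.exists_qs h2' h3'
    exact h.prim_of_index h2' h3' hL (h.index_of_conn h2' h3' hL hc)

end Cfsg.Agent.S5361
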