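import Cfsg.Statements.S5363
import Cfsg.Agent.H29.TT7

set_option autoImplicit false
open Cfsg

namespace Cfsg.Agent.S5363
open Cfsg.Agent.H29


/-- Let D be a conjugation-invariant set of involutions of a finite group G. Then every product of two members of D has odd order or order 2 if and only if, for every a in D and every b in D different from a and commuting with a, the members of D commuting with a b are exactly those commuting with both a and b. -/
theorem result {G : Type*} [Group G] [Finite G] {D : Set G} (hinv : ∀ d ∈ D, orderOf d = 2) (hconj : ∀ g : G, ∀ d ∈ D, g * d * g⁻¹ ∈ D) : (∀ a ∈ D, ∀ b ∈ D, Odd (orderOf (a * b)) ∨ orderOf (a * b) = 2) ↔ ∀ a ∈ D, ∀ b ∈ D, b ≠ a → Commute a b → {y : G | y ∈ D ∧ Commute (a * b) y} = {y : G | y ∈ D ∧ Commute a y} ∩ {y : G | y ∈ D ∧ Commute b y} := by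
  have sq : ∀ a ∈ D, a * a = 1 := fun a ha => mul_self_of_two (hinv a ha)
  constructor
  · intro h a ha b hb hne c
    refine Set.ext fun y => ⟨fun ⟨hy, c'⟩ => ?_, fun ⟨h1, h2⟩ => ⟨h1.1, h1.2.mul_left h2.2⟩⟩
    have key : Commute a y := by
      rcases h a ha y hy with h1 | h1
      · have h0 : Commute (a * b) (a * y) := ((Commute.refl a).mul_left c.symm).mul_right c'
        have e : b * y = a * b * (a * y) := by rw [c.eq, mul_assoc, ← mul_assoc a, sq a ha, one_mul]
        have o2 : orderOf (a * b) = 2 := orderOf_eq_prime (by rw [c.mul_pow, pow_two, pow_two, sq a ha, sq b hb, one_mul])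
          fun e => hne (by rw [← inv_eq_of_mul_eq_one_right e, inv_of_two (hinv a ha)])
        have := h0.orderOf_mul_eq_mul_orderOf_of_coprime (by rw [o2]; exact Nat.coprime_two_left.2 h1)
        rw [← e, o2] at this
        rcases h b hb y hy with h2 | h2
        · rw [this] at h2; exact absurd h2 (Nat.not_odd_iff_even.2 (even_two_mul _))
        · have : orderOf (a * y) = 1 := by omega
          rw [orderOf_eq_one_iff] at this
          rw [← inv_eq_of_mul_eq_one_right this]; exact (Commute.refl a).inv_right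
      · have := mul_self_of_two h1
        rw [mul_eq_one_iff_eq_inv, mul_inv_rev, inv_of_two (hinv a ha), inv_of_two (hinv y hy)] at this
        exact this
    exact ⟨⟨hy, key⟩, hy, by simpa [← mul_assoc, sq a ha] using key.mul_left c'⟩
  · intro h a ha b hb
    refine or_iff_not_imp_left.2 fun hodd => ?_
    obtain ⟨m, hm⟩ := Nat.not_odd_iff_even.1 hodd
    have hpos := orderOf_pos (a * b)
    have ia : ∀ k : ℕ, a * (a * b) ^ k = ((a * b) ^ k)⁻¹ * a := fun k => by
      rw [← inv_pow, ← mul_inv_eq_iff_eq_mul, ← conj_pow]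
      congr 1
      rw [← mul_assoc, sq a ha, one_mul, mul_inv_rev, inv_of_two (hinv b hb)]
    have ib : ∀ k : ℕ, b * (a * b) ^ k = ((a * b) ^ k)⁻¹ * b := fun k => by
      rw [← inv_pow, ← mul_inv_eq_iff_eq_mul, ← conj_pow]
      congr 1
      rw [← mul_assoc, mul_inv_cancel_right, mul_inv_rev, inv_of_two (hinv b hb), inv_of_two (hinv a ha)]
    have z2 : ((a * b) ^ m)⁻¹ = (a * b) ^ m := inv_eq_of_mul_eq_one_right (by rw [← pow_add, ← hm, pow_orderOf_eq_one])
    have hc : a * (a * b) ^ m ∈ D := by
      obtain ⟨k, rfl | rfl⟩ := Nat.even_or_odd' m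
      · convert hconj ((a * b) ^ k)⁻¹ a ha using 1
        rw [inv_inv, two_mul, pow_add, ← mul_assoc, ia]
      · convert hconj ((a * b) ^ k)⁻¹ b hb using 1
        rw [inv_inv, pow_succ', ← mul_assoc, ← mul_assoc, sq a ha, one_mul, two_mul, pow_add, ← mul_assoc, ib]
    have hz : (a * b) ^ m ≠ 1 := pow_ne_one_of_lt_orderOf (by omega) (by omega)
    have ca : Commute a ((a * b) ^ m) := by rw [Commute, SemiconjBy, ia, z2]
    have := (h a ha _ hc (by simpa using hz) ((Commute.refl a).mul_right ca)).le ⟨hb, by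
      rw [← mul_assoc, sq a ha, one_mul, Commute, SemiconjBy, ib, z2]⟩
    have h2 : (a * b) ^ 2 = 1 := by rw [this.1.2.mul_pow, pow_two, pow_two, sq a ha, sq b hb, one_mul]
    have := Nat.le_of_dvd two_pos (orderOf_dvd_of_pow_eq_one h2)
    omega

end Cfsg.Agent.S5363
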