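import Cfsg.Statements.S5364
import Cfsg.Agent.H29.TT7

set_option autoImplicit false
open Cfsg

namespace Cfsg.Agent.S5364
open Cfsg.Agent.H29


/-- Let D be a conjugation-invariant set of involutions of a finite group G and t an involution in the centre of G such that d t does not lie in D for any d in D. If the images of the members of D in G modulo the subgroup generated by t satisfy the 3-transposition order conditions (each has order 2 and any two have product of order at most 3), then so do the members of D. -/
theorem result {G : Type*} [Group G] [Finite G] {D : Set G} (hinv : ∀ d ∈ D, orderOf d = 2) (hconj : ∀ g : G, ∀ d ∈ D, g * d * g⁻¹ ∈ D) (t : G) (ht : orderOf t = 2) (htZ : t ∈ Subgroup.center G) (hDt : ∀ d ∈ D, d * t ∉ D) [(Subgroup.zpowers t).Normal] (himg : Cfsg.IsThreeTranspositionSet ((QuotientGroup.mk : G → G ⧸ Subgroup.zpowers t) '' D)) : Cfsg.IsThreeTranspositionSet D := by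
  refine ⟨hinv, fun d hd e he => ?_⟩
  have key : ∀ x : G, (x : G ⧸ Subgroup.zpowers t) = 1 → x = 1 ∨ x = t := fun x hx => by
    obtain ⟨k, rfl⟩ := (QuotientGroup.eq_one_iff x).1 hx
    have h2 : t ^ (2 : ℤ) = 1 := by rw [zpow_two, mul_self_of_two ht]
    obtain ⟨m, rfl | rfl⟩ := Int.even_or_odd' k <;> simp [zpow_add, zpow_mul, h2]
  have id := inv_of_two (hinv d hd)
  have ie := inv_of_two (hinv e he)
  refine (himg.2 _ ⟨d, hd, rfl⟩ _ ⟨e, he, rfl⟩).imp (fun h => (key _ h).resolve_right fun h' => hDt e he ?_)
    fun h => (key _ h).resolve_right fun h' => hDt _ (hconj d e he) ?_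
  · convert hconj d e he using 1
    rw [Subgroup.mem_center_iff.1 htZ e, ← h', id, sq]
    simp only [mul_assoc, mul_self_of_two (hinv e he), mul_one]
  · convert hconj e d hd using 1
    rw [← h', id, ie]
    simp only [pow_succ, pow_zero, one_mul, mul_assoc, ← mul_assoc d d, ← mul_assoc e e, mul_self_of_two (hinv e he),
      mul_self_of_two (hinv d hd)]

end Cfsg.Agent.S5364
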