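import Cfsg.Statements.S5366
import Cfsg.Agent.H29.FS

set_option autoImplicit false
open Cfsg

namespace Cfsg.Agent.S5366
open Cfsg.Agent.H29


/-- Let L be a nondegenerate Fischer space on the point type X (every point on a line). Then for every point x the map t(x) — sending a point collinear with x to the third point of their common line and fixing every other point — is a permutation of X of order 2 and an automorphism of the line system; and the set of all t(x) satisfies the 3-transposition order conditions in the permutation group of X (any two have product of order at most 3). -/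
theorem result {X : Type*} (L : Set (Set X)) (hL : Cfsg.IsFischerSpace L) (hnd : Cfsg.LineSystem.IsNondegenerate L) : (∀ x : X, ∃ σ : Equiv.Perm X, ⇑σ = Cfsg.LineSystem.lineMap L x ∧ orderOf σ = 2 ∧ Cfsg.LineSystem.IsIso L L σ) ∧ Cfsg.IsThreeTranspositionSet {σ : Equiv.Perm X | ∃ x : X, ⇑σ = Cfsg.LineSystem.lineMap L x} := by
  have k : ∀ x, orderOf (H29.lm_inv hL x).toPerm = 2 := fun x => by
    refine orderOf_eq_prime (Equiv.ext fun y => H29.lm_inv hL x y) fun e => ?_
    obtain ⟨l, hl, hx⟩ := hnd x
    obtain ⟨y, hy, hne⟩ := Set.exists_ne_of_one_lt_ncard (s := l) (by rw [hL.2.1 l hl]; omega) x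
    obtain ⟨r, h1, h2, rfl⟩ := H29.fs_third hL hl hx hy hne.symm
    exact h2 ((H29.lm_eq hL hl hne.symm h1 h2).symm.trans (Equiv.congr_fun e y))
  have k2 : ∀ {σ : Equiv.Perm X} {x}, ⇑σ = Cfsg.LineSystem.lineMap L x → σ = (H29.lm_inv hL x).toPerm :=
    fun h => Equiv.ext (congrFun h)
  have k3 : ∀ x y, (H29.lm_inv hL x).toPerm * (H29.lm_inv hL y).toPerm * (H29.lm_inv hL x).toPerm =
      (H29.lm_inv hL (Cfsg.LineSystem.lineMap L x y)).toPerm := fun x y => Equiv.ext fun z => by
    have := H29.lm_iso hL (H29.lm_isIso hL x) y (Cfsg.LineSystem.lineMap L x z)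
    simp only [Function.Involutive.coe_toPerm, H29.lm_inv hL x z] at this
    exact this.symm
  refine ⟨fun x => ⟨_, rfl, k x, H29.lm_isIso hL x⟩, ?_, ?_⟩
  · rintro _ ⟨x, hx⟩; rw [k2 hx]; exact k x
  · rintro _ ⟨x, hx⟩ _ ⟨y, hy⟩
    rw [k2 hx, k2 hy]
    have sx := H29.mul_self_of_two (k x)
    have sy := H29.mul_self_of_two (k y)
    by_cases c : Cfsg.LineSystem.lineMap L x y = y
    · left; rw [pow_two, ← mul_assoc, k3, c, sy]
    · right
      have := k3 x y
      rw [← H29.lm_symm hL c, ← k3] at this
      generalize (H29.lm_inv hL x).toPerm = s at *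
      generalize (H29.lm_inv hL y).toPerm = t at *
      calc (s * t) ^ 3 = s * t * s * (t * s * t) := by simp [pow_succ, mul_assoc]
        _ = 1 := by rw [← this, mul_assoc, mul_assoc, mul_assoc s t s, ← mul_assoc s s, sx, one_mul, ← mul_assoc t t, sy, one_mul, sx]

end Cfsg.Agent.S5366
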