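import Cfsg.Agent.H17.I24
import Cfsg.Agent.H29.F24
import Cfsg.Agent.H10.Comp
import Cfsg.Statements.S5375

set_option autoImplicit false
open Cfsg

namespace Cfsg.Agent.S5375

open Subgroup Cfsg.Agent.H17

theorem width_succ {G : Type*} [Group G] [Finite G] {D : Set G} (hD : D.Nonempty) {w : ℕ}
    (h : ∀ d ∈ D, commutingWidth (H29.Nb D d) = w) : commutingWidth D = w + 1 := by
  have bd : ∀ E : Set G, BddAbove {n : ℕ | ∃ C : Set G, C ⊆ E ∧ C.Finite ∧ (∀ a ∈ C, ∀ b ∈ C, Commute a b) ∧
      C.ncard = n} := fun E => ⟨Nat.card G, by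
    rintro _ ⟨C, -, -, -, rfl⟩
    exact Set.ncard_le_card C⟩
  refine H29.width_eq ⟨?_, ?_⟩
  · obtain ⟨d, hd⟩ := hD
    obtain ⟨C, h1, h2, h3, h4⟩ := Nat.sSup_mem (by exact ⟨0, ∅, by simp⟩) (bd (H29.Nb D d))
    refine ⟨insert d C, Set.insert_subset hd fun y hy => (h1 hy).1, h2.insert d, ?_, ?_⟩
    · rintro a (rfl | ha) b (rfl | hb)
      exacts [Commute.refl _, (h1 hb).2.2, (h1 ha).2.2.symm, h3 a ha b hb]
    · rw [Set.ncard_insert_of_notMem (fun e => (h1 e).2.1 rfl), h4, ← h d hd]; rfl
  · rintro _ ⟨C, h1, h2, h3, rfl⟩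
    rcases C.eq_empty_or_nonempty with rfl | ⟨d, hd⟩
    · simp
    · rw [← Set.ncard_sdiff_singleton_add_one hd, ← h d (h1 hd)]
      exact Nat.succ_le_succ (le_csSup (bd _) ⟨C \ {d}, fun y hy => ⟨h1 hy.1, hy.2, h3 d hd y hy.1⟩, h2.sdiff,
        fun a ha b hb => h3 a ha.1 b hb.1, rfl⟩)

/-- Let G be a finite group with trivial centre generated by a conjugation-invariant set D of 3-transpositions on which it acts primitively, of type M(24). Then the layer of G (its largest semisimple normal subgroup) has index 2, D has exactly 306936 members, G has order 2^22 · 3^16 · 5^2 · 7^3 · 11 · 13 · 17 · 23 · 29, the width of D is 24, and for every d in D the subgroup generated by the members of D other than d commuting with d is the centralizer of d. -/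
theorem result {G : Type*} [Group G] [Finite G] {D : Set G} (hD : Cfsg.IsThreeTranspositionGroup D) (hprim : Cfsg.IsPrimitiveUnderConj D) (ht : Cfsg.IsOfTypeM24 G D) : (Cfsg.layer G).index = 2 ∧ D.ncard = 306936 ∧ Nat.card G = 2 ^ 22 * 3 ^ 16 * 5 ^ 2 * 7 ^ 3 * 11 * 13 * 17 * 23 * 29 ∧ Cfsg.commutingWidth D = 24 ∧ ∀ d ∈ D, Subgroup.closure {y : G | y ∈ D ∧ y ≠ d ∧ Commute d y} = Subgroup.centralizer ({d} : Set G) := by
  have W := H29.M24.wh hD hprim ht
  obtain ⟨β, γ, h⟩ := W.ch
  obtain ⟨h1, h2⟩ := comm24 hD hprim ht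
  refine ⟨?_, h.ncard, W.card, width_succ ⟨_, h.mem_S h.tb.lt⟩ fun d hd => ?_, fun d hd => (H29.M24.cent W d hd).1⟩
  · have hq : IsQuasisimple (commutator G) := H10.isQuasisimple_of_simple fun hc => by
      have h3 := (commutator G).card_mul_index
      let _ : CommGroup (commutator G) := { mul_comm := hc.is_comm.comm }
      have h4 := IsSimpleGroup.prime_card (α := commutator G)
      rw [h1, W.card] at h3
      rw [show Nat.card (commutator G) = 1255205709190661721292800 by simp only [H29.M24.ord] at h3; omega] at h4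
      exact absurd (h4.eq_one_or_self_of_dvd 2 (by norm_num)) (by norm_num)
    rw [← h1]; congr 1
    refine le_antisymm (H10.layer_le_iff.2 fun K hK => ?_) (H10.le_layer ⟨Normal.isSubnormal inferInstance, hq⟩)
    rw [← (H10.compOf_top.2 hK).perfect]
    exact commutator_mono le_top le_top
  · obtain ⟨_, _, c⟩ := H29.M24.locW W d hd
    exact H29.M23.width c

end Cfsg.Agent.S5375
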