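import Cfsg.Statements.S5387
import Cfsg.Agent.H16.Stem
import Cfsg.Agent.S2088

set_option autoImplicit false
open Cfsg

namespace Cfsg.Agent.S5387

/-- Up to isomorphism there is at most one quasisimple group whose centre is elementary abelian of order 4 and whose central quotient is isomorphic to the projective special linear group of dimension 3 over the field with four elements: any two such groups are isomorphic. -/
theorem result {L₁ L₂ : Type*} [Group L₁] [Finite L₁] [Group L₂] [Finite L₂] (F : Type) [Field F] [Fintype F] (hF : Fintype.card F = 4) (h₁ : Cfsg.IsQuasisimple L₁) (h₂ : Cfsg.IsQuasisimple L₂) (hc₁ : Nat.card (Subgroup.center L₁) = 4) (hc₂ : Nat.card (Subgroup.center L₂) = 4) (he₁ : ∀ x ∈ Subgroup.center L₁, x * x = 1) (he₂ : ∀ x ∈ Subgroup.center L₂, x * x = 1) (e₁ : L₁ ⧸ Subgroup.center L₁ ≃* Matrix.ProjectiveSpecialLinearGroup (Fin 3) F) (e₂ : L₂ ⧸ Subgroup.center L₂ ≃* Matrix.ProjectiveSpecialLinearGroup (Fin 3) F) : Nonempty (L₁ ≃* L₂) := by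
  refine H16.stem_unique (S2088.result hF) (π₁ := e₁.toMonoidHom.comp (QuotientGroup.mk' _))
    (π₂ := e₂.toMonoidHom.comp (QuotientGroup.mk' _)) (e₁.surjective.comp (QuotientGroup.mk'_surjective _))
    (e₂.surjective.comp (QuotientGroup.mk'_surjective _)) (H16.ker_quot e₁).le (H16.ker_quot e₂).le h₁.1.commutator_eq_top
    h₂.1.commutator_eq_top (m := 2) (fun x h => by rw [pow_two, he₁ x (H16.ker_quot e₁ ▸ h)])
    (fun x h => by rw [pow_two, he₂ x (H16.ker_quot e₂ ▸ h)]) (R := Bool × Bool)
    (fun r => Multiplicative.ofAdd (0, if r.1 then 1 else 0, if r.2 then 1 else 0)) (by decide +kernel)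
    (by rw [H16.ker_quot, hc₁]; simp) (by rw [H16.ker_quot, hc₂]; simp)

end Cfsg.Agent.S5387
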