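import Cfsg.Statements.S5392
import Cfsg.Agent.H21.Leech11

set_option autoImplicit false
set_option linter.style.haveILetI false
open Cfsg

namespace Cfsg.Agent.S5392

open Cfsg.Agent.LL Cfsg.Agent.H16

/-- The Leech lattice modulo twice itself is a faithful irreducible module for the first Conway group: an automorphism of the rank-24 lattice built from the length-24 code that moves every lattice vector only by twice a lattice vector lies in the centre of the automorphism group (the centre consists of ±1, which act trivially there, so the kernel is exactly the centre), and an additive subgroup lying between twice the lattice and the lattice that is invariant under all lattice automorphisms is one of the two. -/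
theorem result : (∀ g : ↥Cfsg.Co0, (∀ v : ↥Cfsg.leechLattice, ∃ w : ↥Cfsg.leechLattice, ((g • v : ↥Cfsg.leechLattice) : Cfsg.GolayPt → ℤ) - (v : Cfsg.GolayPt → ℤ) = 2 • (w : Cfsg.GolayPt → ℤ)) → g ∈ Subgroup.center ↥Cfsg.Co0) ∧ ∀ M : AddSubgroup (Cfsg.GolayPt → ℤ), (∀ v ∈ Cfsg.leechLattice, (2 : ℤ) • v ∈ M) → M ≤ Cfsg.leechLattice → (∀ g : ↥Cfsg.Co0, ∀ v : ↥Cfsg.leechLattice, (v : Cfsg.GolayPt → ℤ) ∈ M → ((g • v : ↥Cfsg.leechLattice) : Cfsg.GolayPt → ℤ) ∈ M) → (∀ x ∈ M, ∃ w ∈ Cfsg.leechLattice, x = (2 : ℤ) • w) ∨ M = Cfsg.leechLattice := by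
  constructor
  · let N : Subgroup Co0 :=
      { carrier := {g | ∀ v : L, ∃ w : L, g • v - v = 2 • w}
        one_mem' := fun v => ⟨0, by simp⟩
        mul_mem' := fun {g h} hg hh v => by
          obtain ⟨w, e⟩ := hg (h • v)
          obtain ⟨z, e'⟩ := hh v
          exact ⟨w + z, by rw [smul_add, ← e, ← e', mul_smul]; abel⟩
        inv_mem' := fun {g} hg v => by
          obtain ⟨w, e⟩ := hg (g⁻¹ • v)
          exact ⟨-w, by rw [smul_neg, ← e, smul_inv_smul]; abel⟩ }
    have : N.Normal := ⟨fun g hg k v => by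
      obtain ⟨w, e⟩ := hg (k⁻¹ • v)
      exact ⟨k • w, by rw [← co_nsmul, ← e, smul_sub, smul_inv_smul, mul_smul, mul_smul]⟩⟩
    intro g hg
    refine (normal_Co0 N).resolve_right (fun e => ?_) fun v => (hg v).imp fun w h => Subtype.ext h
    obtain ⟨k, hk⟩ := from_U norm_U'
    obtain ⟨w, hw⟩ := e.ge (Subgroup.mem_top k) U
    rw [hk] at hw
    have := (leech_cong U'.2 U.2 (by decide +kernel) (by decide +kernel) (by rw [norm_U']; norm_num)
      (by rw [norm_U]; norm_num) ⟨_, w.2, congrArg Subtype.val hw⟩).1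
    rw [norm_U'] at this
    omega
  · intro M h2 hM hinv
    refine or_iff_not_imp_left.mpr fun h => le_antisymm hM ?_
    push Not at h
    obtain ⟨x, hx, hx'⟩ := h
    obtain ⟨y, hy, hn, z, hz, e⟩ := exists_short (hM hx)
    have e' : x - y = (2 : ℤ) • z := by rw [e, two_smul, two_smul]
    have hyM : y ∈ M := by
      have := M.sub_mem hx (h2 z hz)
      rwa [← e', sub_sub_cancel] at this
    have h0 : y ≠ 0 := fun a => hx' z hz (by rw [← e', a, sub_zero])
    have key : ∀ u : L, sqNorm (u : V) = 32 → (u : V) ∈ M → leechLattice ≤ M := fun u hu huM =>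
      leech_le_min fun w hw hn => by
        obtain ⟨g, e⟩ := trans_of_to (to_U hu) (to_U (x := ⟨w, hw⟩) hn)
        have := hinv g u huM
        rwa [e] at this
    have h1 := min_norm hy h0
    have h3 := sixteen_dvd hy
    obtain a | a | a : sqNorm y = 32 ∨ sqNorm y = 48 ∨ sqNorm y = 64 := by omega
    · exact key ⟨y, hy⟩ a hyM
    · have k : ∀ u : L, sqNorm (u : V) = 48 → (u : V) ∈ M := fun u hu => by
        obtain ⟨g, e⟩ := trans_of_to (to_V (x := ⟨y, hy⟩) a) (to_V hu)
        exact e ▸ hinv g _ hyM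
      refine key U' norm_U' ?_
      have := M.sub_mem (k (Vv + U') (by decide +kernel)) (k Vv norm_V)
      simpa using this
    · have k : ∀ u : L, sqNorm (u : V) = 64 → (u : V) ∈ M := fun u hu => by
        obtain ⟨g, e⟩ := trans_of_to (to_e8 (x := ⟨y, hy⟩) a) (to_e8 hu)
        exact e ▸ hinv g _ hyM
      have ha := repO_isL aW2 (by simp [repO])
      refine key (U + vL aW2 - (U + U')) (by rw [AddSubgroup.coe_sub, AddSubgroup.coe_add, ha]; decide +kernel) ?_
      exact M.sub_mem (k (U + vL aW2) (by rw [AddSubgroup.coe_add, ha]; decide +kernel)) (k (U + U') (by decide +kernel))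

end Cfsg.Agent.S5392
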