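import Cfsg.Statements.S5395
import Cfsg.Agent.H26.ES3

set_option autoImplicit false
open Cfsg

namespace Cfsg.Agent.S5395


/-- For a finite extraspecial 2-group E, an automorphism of E that induces the identity on E modulo its centre is inner (so these automorphisms form exactly the inner automorphism group, an elementary abelian 2-group of order |E|/2). -/
theorem result {E : Type*} [Group E] [Finite E] (hE : Cfsg.IsExtraspecial 2 E) (φ : E ≃* E) (hφ : ∀ x : E, φ x * x⁻¹ ∈ Subgroup.center E) : ∃ g : E, ∀ x : E, φ x = g * x * g⁻¹ := by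
  obtain ⟨n, c, hc⟩ := H26.exists_ES_of_isExtraspecial hE
  have := c.nontrivial_of_isExtraspecial hE
  have h1 : ∀ x, c.π (φ.toMonoidHom x) = c.π x := fun x => by
    have h2 := hφ x
    rw [c.nd_iff.mp hc, c.mem_Z, c.π_mul, c.π_inv, add_neg_eq_zero] at h2
    exact h2
  exact hc.exists_conj _ h1 (hc.map_ζ_of_π _ fun x y => by rw [h1, h1])

end Cfsg.Agent.S5395
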