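import Cfsg.Statements.S5396
import Cfsg.Agent.H26.ES3

set_option autoImplicit false
open Cfsg

namespace Cfsg.Agent.S5396

theorem aux {V : Type} [AddCommGroup V] [Module (ZMod 2) V] [Finite V] (Q : QuadraticForm (ZMod 2) V)
    (hQ : H13.ND Q) {n r : ℕ} (hn : 1 ≤ n) (hV : Module.finrank (ZMod 2) V = 2 * n)
    (h1 : ∀ W : Submodule (ZMod 2) V, (∀ w ∈ W, Q w = 0) → Module.finrank (ZMod 2) W ≤ r)
    (h2 : ∃ W : Submodule (ZMod 2) V, r ≤ Module.finrank (ZMod 2) W ∧ ∀ w ∈ W, Q w = 0) :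
    ∃ (E : Type) (_ : Group E) (_ : Finite E), Cfsg.IsExtraspecial 2 E ∧ Nat.card E = 2 ^ (2 * n + 1) ∧
      sSup {k : ℕ | ∃ A : Subgroup E, Cfsg.IsElementaryAbelian 2 A ∧ Nat.card A = 2 ^ k} = r + 1 := by
  obtain ⟨β, rfl⟩ := H26.exists_heis_of_quadraticForm Q
  set c := H26.Heis.es β
  have : Nontrivial V := Module.nontrivial_of_finrank_pos (R := ZMod 2) (by omega)
  refine ⟨H26.Heis β, inferInstance, inferInstance, c.isExtraspecial (c.nd_Q_iff.mp hQ),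
    by rw [c.card_eq_pow, hV], IsGreatest.csSup_eq ⟨?_, ?_⟩⟩
  · obtain ⟨W, h3, h4⟩ := h2
    exact ⟨c.up W, c.isElementaryAbelian_up.mpr h4, by
      rw [c.card_up_eq_pow, le_antisymm (h1 W h4) h3]⟩
  · rintro k ⟨A, h3, h4⟩
    have := c.pRankLE_iff.mpr (fun W hW => Nat.succ_le_succ (h1 W hW)) A h3.1 h3.2
    rwa [h4, Nat.pow_le_pow_iff_right one_lt_two] at this

/-- For every n ≥ 1 there exist finite extraspecial 2-groups of order 2^(2n+1) whose 2-rank (the largest rank of an elementary abelian subgroup) is n, and ones whose 2-rank is n + 1 (so for each such order there are two non-isomorphic extraspecial 2-groups, told apart by their 2-rank). -/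
theorem result (n : ℕ) (hn : 1 ≤ n) : ∀ r ∈ ({n, n + 1} : Set ℕ), ∃ (E : Type) (_ : Group E) (_ : Finite E), Cfsg.IsExtraspecial 2 E ∧ Nat.card E = 2 ^ (2 * n + 1) ∧ sSup {k : ℕ | ∃ A : Subgroup E, Cfsg.IsElementaryAbelian 2 A ∧ Nat.card A = 2 ^ k} = r := by
  rintro r (rfl | rfl)
  · obtain ⟨m, rfl⟩ : ∃ m, r = m + 1 := ⟨r - 1, by omega⟩
    have hab : ∀ z₁ z₂ : ZMod 2, z₁ ^ 2 + 1 * z₁ * z₂ + 1 * z₂ ^ 2 = 0 → z₁ = 0 ∧ z₂ = 0 := by decide
    have h1 := H13.hypFam_QMinus (F := ZMod 2) m 1 1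
    refine aux (H13.QMinus m (ZMod 2) 1 1) (H13.nd_QMinus hab) hn (by simp; omega)
      (fun W hW => H13.finrank_le_of_singular_QMinus hab hW)
      ⟨Submodule.span _ (Set.range fun i : Fin m => Pi.single (.inl (.inl i)) 1), ?_,
        fun w hw => H13.Q_eq_zero_of_mem_span ?_ ?_ hw⟩
    · rw [finrank_span_eq_card h1.li, Fintype.card_fin]
    · rintro _ ⟨i, rfl⟩
      exact h1.Qe i
    · rintro _ ⟨i, rfl⟩ _ ⟨j, rfl⟩
      exact h1.ee i j
  · have h1 : Module.finrank (ZMod 2) (Fin n ⊕ Fin n → ZMod 2) = 2 * n := by simp; omega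
    refine aux (H13.QPlus n (ZMod 2)) H13.nd_QPlus hn h1 (fun W hW => ?_) ?_
    · have := H13.nd_QPlus.two_mul_finrank_le hW
      omega
    · obtain ⟨W, h2, h3⟩ := H13.isPlus_QPlus (F := ZMod 2) n
      exact ⟨W, by omega, h3⟩

end Cfsg.Agent.S5396
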