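import Cfsg.Statements.S5401
import Cfsg.Agent.H29.Rf3

set_option autoImplicit false
open Cfsg

namespace Cfsg.Agent.S5401
open Cfsg.Agent.H29


/-- Existence of the Fischer 3-transposition groups: there exist finite groups generated by a conjugacy class of 3-transpositions on which they act primitively that are of type M(22), of type M(23), and of type M(24) respectively. -/
theorem result : (∃ (X : Type) (_ : Group X) (_ : Finite X) (E : Set X), Cfsg.IsThreeTranspositionClass E ∧ Cfsg.IsPrimitiveUnderConj E ∧ Cfsg.IsOfTypeM22 X E) ∧ (∃ (X : Type) (_ : Group X) (_ : Finite X) (E : Set X), Cfsg.IsThreeTranspositionClass E ∧ Cfsg.IsPrimitiveUnderConj E ∧ Cfsg.IsOfTypeM23 X E) ∧ (∃ (X : Type) (_ : Group X) (_ : Finite X) (E : Set X), Cfsg.IsThreeTranspositionClass E ∧ Cfsg.IsPrimitiveUnderConj E ∧ Cfsg.IsOfTypeM24 X E) := by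
  have f : ∀ {X : Type} [Group X] {B : H29.TB} {N : ℕ} {E : Set X}, H29.Wh B N E → N ≠ 0 → Finite X :=
    fun W h => Nat.finite_of_card_ne_zero (W.card ▸ h)
  have f24 := f H29.M24.wh0 (by decide)
  exact ⟨⟨_, _, f H29.M22.wh0 (by decide), _, H29.M22.wh0.cls H29.M22.r3, H29.M22.prim H29.M22.wh0, H29.M22.type H29.M22.wh0⟩,
    ⟨_, _, f H29.M23.wh0 (by decide), _, H29.M23.wh0.cls H29.M23.r3, H29.M23.prim H29.M23.wh0, H29.M23.type H29.M23.wh0⟩,
    ⟨_, _, f24, _, H29.M24.wh0.cls H29.M24.r3, H29.M24.prim H29.M24.wh0, H29.M24.type H29.M24.wh0⟩⟩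

end Cfsg.Agent.S5401
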