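import Cfsg.Statements.S5408
import Cfsg.Agent.H21.Monster

set_option autoImplicit false
set_option linter.style.haveILetI false
open Cfsg

namespace Cfsg.Agent.S5408

open Cfsg.Agent.LL Cfsg.Agent.H10 Subgroup

/-- Let G be a finite group of Monster type at the involution z with Q the extraspecial normal subgroup of order 2^25 of C = C_G(z) (so C/Q is identified with the first Conway group with Q modulo its centre the Leech lattice modulo 2, and z is not weakly closed in Q). Then Q is of plus type: it contains an elementary abelian subgroup of order 2^13. -/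
theorem result {G : Type*} [Group G] [Finite G] (z : G) (Q : Subgroup (Subgroup.centralizer ({z} : Set G))) [Q.Normal] (hM : Cfsg.IsOfMonsterType z Q) : ∃ E : Subgroup Q, Cfsg.IsElementaryAbelian 2 E ∧ Nat.card E = 2 ^ 13 := by
  obtain ⟨hS, e, ψ, hψ⟩ := hM
  have m := exists_MT hS hψ
  obtain ⟨g, h1, h2⟩ := setting_nwc hS
  have hp := m.lx.lpr h1 h2
  have hc := m.card_inf hp (m.card_conj g)
  have hs := MT.sq_inf hp
  have hl : map (centralizer {z}).subtype Q ⊓ map (MulAut.conj g).toMonoidHom
    (map (centralizer {z}).subtype Q) ≤ _ := inf_le_left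
  generalize map (centralizer {z}).subtype Q ⊓ map (MulAut.conj g).toMonoidHom
    (map (centralizer {z}).subtype Q) = F at hc hs hl
  let f : Q →* G := (centralizer ({z} : Set G)).subtype.comp Q.subtype
  have hf : Function.Injective f := (centralizer ({z} : Set G)).subtype_injective.comp Q.subtype_injective
  refine ⟨F.comap f, ⟨⟨⟨fun a b => Subtype.ext (hf ?_)⟩⟩, fun a ha => hf ?_⟩, ?_⟩
  · simpa using H11.comm_of_sq_eq_one hs a.2 b.2
  · rw [pow_two, map_mul, map_one]; exact hs _ ha
  · rw [← hc, Nat.card_congr ((F.comap f).equivMapOfInjective f hf).toEquiv, map_comap_eq_self]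
    rintro _ h
    obtain ⟨q, hq, rfl⟩ := hl h
    exact ⟨⟨q, hq⟩, rfl⟩

end Cfsg.Agent.S5408
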