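import Cfsg.Statements.S5411
import Cfsg.Agent.H21.Monster

set_option autoImplicit false
set_option linter.style.haveILetI false
open Cfsg

namespace Cfsg.Agent.S5411

open Cfsg.Agent.LL Cfsg.Agent.H10 Subgroup

/-- Let G be a finite group of Monster type at the involution z with Q the extraspecial normal subgroup of order 2^25 of C = C_G(z) (so C/Q is identified with the first Conway group with Q modulo its centre the Leech lattice modulo 2, and z is not weakly closed in Q). Then C acts transitively by conjugation on the involutions of Q that are not conjugate to z in G. -/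
theorem result {G : Type*} [Group G] [Finite G] (z : G) (Q : Subgroup (Subgroup.centralizer ({z} : Set G))) [Q.Normal] (hM : Cfsg.IsOfMonsterType z Q) (s t : G) (hsQ : ∃ hsc : s ∈ Subgroup.centralizer ({z} : Set G), (⟨s, hsc⟩ : Subgroup.centralizer ({z} : Set G)) ∈ Q) (htQ : ∃ htc : t ∈ Subgroup.centralizer ({z} : Set G), (⟨t, htc⟩ : Subgroup.centralizer ({z} : Set G)) ∈ Q) (hs2 : orderOf s = 2) (ht2 : orderOf t = 2) (hs : ¬ IsConj z s) (ht : ¬ IsConj z t) : ∃ h ∈ Subgroup.centralizer ({z} : Set G), h * s * h⁻¹ = t := by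
  obtain ⟨hS, e, ψ, hψ⟩ := hM
  have m := exists_MT hS hψ
  have key : ∀ s : G, s ∈ Q.map (centralizer ({z} : Set G)).subtype → orderOf s = 2 → ¬ IsConj z s →
      ∃ v, (∃ q : Q, ((q : centralizer ({z} : Set G)) : G) = s ∧ ψ v = QuotientGroup.mk q) ∧
        sqNorm (v : V) = 32 := by
    intro s h h2 hc
    obtain ⟨v, hv, e | e⟩ := m.invol h (by rw [← pow_two, ← h2, pow_orderOf_eq_one]) (fun e => by
      rcases m.lx.mem_z.mp e with e | e
      · rw [e, orderOf_one] at h2; omega
      · exact hc (e ▸ IsConj.refl _))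
    · exact ⟨v, hv, e⟩
    · exact (hc (m.isConj_of_type4 (setting_nwc hS) hv e).1).elim
  obtain ⟨v, hv, h1⟩ := key s (mem_map_cent.mpr hsQ) hs2 hs
  obtain ⟨w, hw, h2⟩ := key t (mem_map_cent.mpr htQ) ht2 ht
  exact m.conj_of_norm hv hw (Or.inl ⟨h1, h2⟩)

end Cfsg.Agent.S5411
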