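import Cfsg.Statements.S5415
import Cfsg.Agent.H21.Cent3A

set_option autoImplicit false
set_option linter.style.haveILetI false
open Cfsg

namespace Cfsg.Agent.S5415

open Cfsg.Agent.LL Cfsg.Agent.H10 Cfsg.Agent.H16 Subgroup
open scoped Pointwise

/-- Let G be a finite group of Monster type at the involution z with Q the extraspecial normal subgroup of order 2^25 of C = C_G(z) (so C/Q is identified with the first Conway group with Q modulo its centre the Leech lattice modulo 2, and z is not weakly closed in Q). Let s be a conjugate of z in Q other than z and let Y be a subgroup of order 3 of the joint centralizer L of z and s that is 3-central in L (Y lies in the centre of some Sylow 3-subgroup of L). Then the centralizer of Y modulo Y is a group of large Fischer type (an involution whose centralizer D has generalized Fitting subgroup R extraspecial of order 2^13 and normal subgroups R ≤ N ≤ M with N/R of order 3, M/N the projective special unitary group of dimension 4 over the field with nine elements and M of index 2 in D; the involution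 not weakly closed in R). -/
theorem result {G : Type*} [Group G] [Finite G] (z : G) (Q : Subgroup (Subgroup.centralizer ({z} : Set G))) [Q.Normal] (hM : Cfsg.IsOfMonsterType z Q) (s : G) (hsQ : ∃ hsc : s ∈ Subgroup.centralizer ({z} : Set G), (⟨s, hsc⟩ : Subgroup.centralizer ({z} : Set G)) ∈ Q) (hs : IsConj z s) (hs1 : s ≠ z) (Y : Subgroup G) (hY : Y ≤ Subgroup.centralizer ({z, s} : Set G)) (hY3 : Nat.card Y = 3) (hc : ∃ P : Sylow 3 ↥(Subgroup.centralizer ({z, s} : Set G)), Y.subgroupOf (Subgroup.centralizer ({z, s} : Set G)) ≤ (Subgroup.center ↥(P : Subgroup ↥(Subgroup.centralizer ({z, s} : Set G)))).map (P : Subgroup ↥(Subgroup.centralizer ({z, s} : Set G))).subtype) [hn : (Y.subgroupOf (Subgroup.centralizer (Y : Set G))).Normal] : Cfsg.IsOfLargeFischerType (↥(Subgroup.centralizer (Y : Set G)) ⧸ Y.subgroupOf (Subgroup.centralizer (Y : Set G))) := by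
  obtain ⟨hS, e, ψ, hψ⟩ := hM
  have m := exists_MT hS hψ
  have h1 := mem_map_cent.mpr hsQ
  obtain ⟨π, R, h, β, m', h0, h2, h3, h4, rfl | rfl, h5⟩ := m.setup h1 hs hs1 Nat.prime_three (by norm_num) hY hY3 hT_three
  · obtain ⟨P, φ, P', α, M, hφ, a1, a2, a3, ⟨f⟩⟩ := fischer
    obtain ⟨z', -, Q', hn, h6, ⟨e⟩, -⟩ := m'.odd_section hφ (by rw [h3]; decide) h5 h1 hs hs1 h4 h2
    obtain ⟨N, M, hN, hM, b1, b2, b3, b4, b5⟩ := lf_of e a1 a2 a3 f
    exact ⟨_, Q', hn, h6, N, M, hN, hM, b1, b2, b3, ⟨_, _, _, card_FQ 3 2, b4⟩, b5⟩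
  have := (m'.central3 h0 hs hs1 orderOf_3B h3 h5 h4).mp (h2 ▸ hc)
  rw [tabCode.ncard_fixed rep3B (c := 16) (by decide +kernel), C3B_facts.1] at this
  omega

end Cfsg.Agent.S5415
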