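import Cfsg.Statements.S5418
import Cfsg.Agent.H21.Cent7
import Cfsg.Agent.H21.Monster7

set_option autoImplicit false
set_option linter.style.haveILetI false
open Cfsg

namespace Cfsg.Agent.S5418

open Cfsg.Agent.LL Cfsg.Agent.H10 Subgroup

/-- Let G be a finite group of Monster type at the involution z with Q the extraspecial normal subgroup of order 2^25 of C = C_G(z) (so C/Q is identified with the first Conway group with Q modulo its centre the Leech lattice modulo 2, and z is not weakly closed in Q). Let s be a conjugate of z in Q other than z and let B be a Sylow 7-subgroup of the joint centralizer of z and s. Then the centralizer of B has index 6 in the normalizer of B; and some involution inverting B induces, by conjugation, a non-inner automorphism of the layer of the centralizer of B. -/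
theorem result {G : Type*} [Group G] [Finite G] (z : G) (Q : Subgroup (Subgroup.centralizer ({z} : Set G))) [Q.Normal] (hM : Cfsg.IsOfMonsterType z Q) (s : G) (hsQ : ∃ hsc : s ∈ Subgroup.centralizer ({z} : Set G), (⟨s, hsc⟩ : Subgroup.centralizer ({z} : Set G)) ∈ Q) (hs : IsConj z s) (hs1 : s ≠ z) (B : Subgroup G) (hB : B ≤ Subgroup.centralizer ({z, s} : Set G)) (hBp : Nat.card B = 7 ^ (Nat.card ↥(Subgroup.centralizer ({z, s} : Set G))).factorization 7) : (Subgroup.centralizer (B : Set G)).relIndex (Subgroup.normalizer (B : Set G)) = 6 ∧ ∃ t : G, orderOf t = 2 ∧ (∀ b ∈ B, t * b * t⁻¹ = b⁻¹) ∧ (∀ x ∈ (Cfsg.layer ↥(Subgroup.centralizer (B : Set G))).map (Subgroup.centralizer (B : Set G)).subtype, t * x * t⁻¹ ∈ (Cfsg.layer ↥(Subgroup.centralizer (B : Set G))).map (Subgroup.centralizer (B : Set G)).subtype) ∧ ¬ ∃ l ∈ (Cfsg.layer ↥(Subgroup.centralizer (B : Set G))).map (Subgroup.centralizer (B : Set G)).subtype, ∀ x ∈ (Cfsg.layer ↥(Subgroup.centralizer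 (B : Set G))).map (Subgroup.centralizer (B : Set G)).subtype, t * x * t⁻¹ = l * x * l⁻¹ := by
  obtain ⟨hS, e, ψ, hψ⟩ := hM
  have m := exists_MT hS hψ
  have h1 := mem_map_cent.mpr hsQ
  have hw := setting_nwc hS
  rw [m.fact_pair h1 hs hs1 (by norm_num) (by norm_num), fact_eq (k := 1) (by norm_num) (by norm_num) (by norm_num), pow_one] at hBp
  obtain ⟨π, R, h, β, m, h0, h2, h3, h4, rfl, h5⟩ := m.setup h1 hs hs1 (p := 7) (by norm_num) (by norm_num) hB hBp
    (hT_prime (m := 34974720) (by norm_num) (by norm_num) (by norm_num) orderOf_7)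
  have h7 : h ^ 7 = 1 := Subtype.ext (orderOf_dvd_iff_pow_eq_one.mp h3.dvd)
  have ho : Odd (orderOf (h : G)) := by rw [h3]; decide
  have hBo : Odd (Nat.card B) := by rw [hBp]; decide
  obtain ⟨k, e, he, -, h6⟩ := inv7
  obtain ⟨t, h8, h9⟩ := m.invol_over hw k he
  obtain ⟨u, hu, hi⟩ := m.invol_inv (p := 7) (by norm_num) (by norm_num) h8 h7 (by rw [← h9, ← h5, ← map_inv π, ← map_mul, ← map_mul, h6, map_inv])
  have hi' : (u : G) * h * (u : G)⁻¹ = (h : G)⁻¹ := congrArg Subtype.val hi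
  have hb : ∀ b ∈ B, u * b * (u : G)⁻¹ = b⁻¹ := by
    rw [h2]; rintro _ ⟨i, rfl⟩; rw [← conj_zpow, hi', inv_zpow]
  refine ⟨?_, u, H11.orderOf_two_of (fun e => ?_) (congrArg Subtype.val hu), hb, fun x hx => ?_, fun ⟨l, hl, H⟩ => ?_⟩
  · obtain ⟨σ, hσ⟩ := pow7
    obtain ⟨c, hc⟩ := m.exists_ρ (permHom σ)
    obtain ⟨q, -, hq⟩ := conj_of_ker _ m.ker_two (p := 7) (by norm_num) (by norm_num) (x := c * h * c⁻¹) (y := h ^ 4)
      (by rw [conj_pow, h7]; simp) (by rw [← pow_mul, mul_comm, pow_mul, h7, one_pow])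
      (by simpa [hc, h5] using congrArg (π.comp permHom) hσ)
    refine h2 ▸ relIndex_six h3 (d := ↑(u * q * c)) (congrArg Subtype.val (show u * q * c * h * (u * q * c)⁻¹ = h ^ 3 from ?_))
    rw [show u * q * c * h * (u * q * c)⁻¹ = u * (q * (c * h * c⁻¹) * q⁻¹) * u⁻¹ by group, hq, ← conj_pow, hi, inv_pow,
      inv_eq_iff_mul_eq_one, ← pow_add, h7]
  · rw [e, one_mul, inv_one, mul_one, eq_inv_iff_mul_eq_one, ← pow_two, ← orderOf_dvd_iff_pow_eq_one, h3] at hi'
    omega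
  · exact (mem_normalizer_iff.mp (normalizer_le_normalizer_LayOf (normalizer_le_normalizer_centralizer B
      (mem_normalizer_fintype fun b h => hb b h ▸ inv_mem h))) x).mp hx
  have hZ : B.subgroupOf (centralizer (B : Set G)) ≤ center _ := fun b hb =>
    Subgroup.mem_center_iff.mpr fun g => Subtype.ext (g.2 _ hb).symm
  have hn := H26.normal_of_le_center hZ
  obtain ⟨φ, hφ⟩ := held
  obtain ⟨z', rfl, Q', -, hS', -⟩ := m.odd_section hφ ho h5 h1 hs hs1 h4 h2
  have hc : ∀ {v x}, R v x → Cg (permHom t7 • v) v → sqNorm (v : V) = 64 →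
      ∃ y : centralizer (B : Set G), y = x ∧ IsConj z' y := fun {v x} hx hv hn => by
    have h2 : x ∈ centralizer (B : Set G) := by
      rw [h2, H16.centralizer_zpowers]; exact mem_centralizer_singleton_iff.mpr ((m.cent_iff ho h5 hx).mpr hv).symm
    obtain ⟨h3, h4⟩ := m.isConj_of_type4 hw hx hn
    obtain ⟨y, hy, e⟩ := LX_conj_in_cent m.lx (hB.trans (centralizer_le (by simp))) hBo ⟨m.mem hx, h2⟩ h3 h4
    exact ⟨⟨x, h2⟩, rfl, isConj_iff.mpr ⟨⟨y, hy⟩, Subtype.ext e⟩⟩
  obtain ⟨v, a1, a2, a3⟩ := odd7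
  obtain ⟨x, hx⟩ := m.ex v
  obtain ⟨x, rfl, b1⟩ := hc hx a1 a2
  obtain ⟨s, rfl, b2⟩ := hc h0 (cg_e8_iff.mpr (perm_mem_NN _)) (sqNorm_e8 _)
  have hz := mem_layer hZ
    (by rwa [Nat.card_congr (subgroupOfEquivOfLe (h2 ▸ le_centralizer _)).toEquiv]) (Subtype.ext m.lx.zz) hS' b2 b1
    fun e => a3 ((m.comm_iff h0 hx).mp (inv_mul_eq_one.mp (m.eq_one_of hBo e
      (mul_mem (inv_mem (mul_mem h1 (m.mem hx))) (mul_mem (m.mem hx) h1)))))
  have hl' : ∀ y : centralizer (B : Set G), IsConj z' y → l⁻¹ * u ∈ centralizer {(y : G)} := fun y hy => by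
    obtain ⟨c, rfl⟩ := isConj_iff.mp hy
    have := H _ ⟨_, (inferInstance : (layer _).Normal).conj_mem _ hz c, rfl⟩
    rw [mem_centralizer_singleton_iff, mul_assoc, inv_mul_eq_iff_eq_mul, ← mul_inv_eq_iff_eq_mul]
    rw [mul_inv_eq_iff_eq_mul] at this ⊢
    exact this.trans (by simp only [mul_assoc]; rfl)
  obtain ⟨g, hg⟩ := m.exists_π ⟨_, hl' z' (IsConj.refl _)⟩
  have h10 : π (g * permHom t7 * g⁻¹ * permHom t7) = 1 := by
    simp only [map_mul, map_inv, hg, h5]
    rw [← map_inv, ← map_mul, ← map_mul, ← map_mul, ← map_one (QuotientGroup.mk' Q)]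
    refine congrArg _ (Subtype.ext ?_)
    have := map_subtype_le _ hl _ (h2.ge (mem_zpowers _))
    change l⁻¹ * u * h * (l⁻¹ * u)⁻¹ * h = 1
    rw [show l⁻¹ * u * h * (l⁻¹ * u)⁻¹ * h = l⁻¹ * (u * h * (u : G)⁻¹) * (l * h) by group, hi', ← this]; group
  refine noinv7 g (cg_e8_iff.mp ((m.mem_bar_cent h0 (m.e8_not h0)).mp
    ⟨_, ⟨hl' z' (IsConj.refl _), hl' s b2⟩, hg.symm⟩)) _ ?_ (eq_mul_inv_of_mul_eq rfl)
  rcases (m.π_ker _).mp h10 with e | e <;> rw [e]
  exacts [one_mem _, neg1_mem_Eps]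

end Cfsg.Agent.S5418
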