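import Cfsg.Statements.S5420
import Cfsg.Agent.H10.Xsp4

set_option autoImplicit false
open Cfsg

namespace Cfsg.Agent.S5420

/-- Let Q be an extraspecial 2-subgroup of the finite group G whose centralizer in G is its centre Z and which is normal in the centralizer of Z. If Z lies in the largest normal 2-subgroup of G, then Q is a large extraspecial 2-subgroup of G: it normalizes no non-trivial subgroup of G of odd order. -/
theorem result {G : Type*} [Group G] [Finite G] (Q : Subgroup G) (hL1 : Cfsg.IsExtraspecial 2 ↥Q) (hL2 : Subgroup.centralizer (Q : Set G) = ((Subgroup.center ↥Q).map Q.subtype)) (hL3 : Subgroup.centralizer (((Subgroup.center ↥Q).map Q.subtype) : Set G) ≤ Subgroup.normalizer (Q : Set G)) (hZ : ((Subgroup.center ↥Q).map Q.subtype) ≤ Cfsg.pCore 2 G) : Cfsg.IsLargeExtraspecial Q := by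
  open Subgroup Cfsg.Agent.H10 in
  have : Fact (Nat.Prime 2) := ⟨Nat.prime_two⟩
  obtain ⟨z, h, hz⟩ := exists_lx hL1 hL2 hL3
  refine h.large_of_le_centralizer fun K hK hQ k hk => mem_centralizer_singleton_iff.mpr ?_
  have hz' : z ∈ pCore 2 G := hZ (hz ▸ mem_zpowers z)
  have e1 : k * z * k⁻¹ * z⁻¹ ∈ pCore 2 G ⊓ K := by
    refine mem_inf.mpr ⟨mul_mem (Subgroup.Normal.conj_mem inferInstance z hz' k) (inv_mem hz'), ?_⟩
    have := K.mul_mem hk ((mem_normalizer_iff.mp (hQ h.mem) k⁻¹).mp (inv_mem hk))
    simpa only [mul_assoc] using this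
  rw [disjoint_of_isPGroup_of_coprime (pCore_isPGroup' 2 G) hK.coprime_two_right] at e1
  exact commutatorElement_eq_one_iff_mul_comm.mp e1

end Cfsg.Agent.S5420
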