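import Cfsg.Statements.S5422
import Cfsg.Agent.H10.Xsp4

set_option autoImplicit false
open Cfsg

namespace Cfsg.Agent.S5422

/-- Let Q be an extraspecial 2-subgroup of the finite group G whose centralizer in G is its centre Z and which is normal in the centralizer of Z; suppose Q has width at least 2 (order 2^(2w+1) with w ≥ 2) and g is an element of G not normalizing Z with g Z g⁻¹ inside Q. Then Z lies inside g Q g⁻¹; writing V for the subgroup generated by Z and g Z g⁻¹ (a four-group), the normalizer of V induces on V its full automorphism group, that is, the centralizer of V has index 6 in the normalizer of V; and Q is a large extraspecial 2-subgroup of G. -/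
theorem result {G : Type*} [Group G] [Finite G] (Q : Subgroup G) (hL1 : Cfsg.IsExtraspecial 2 ↥Q) (hL2 : Subgroup.centralizer (Q : Set G) = ((Subgroup.center ↥Q).map Q.subtype)) (hL3 : Subgroup.centralizer (((Subgroup.center ↥Q).map Q.subtype) : Set G) ≤ Subgroup.normalizer (Q : Set G)) (w : ℕ) (hw : 2 ≤ w) (hcard : Nat.card ↥Q = 2 ^ (2 * w + 1)) (g : G) (hg : g ∉ Subgroup.normalizer (((Subgroup.center ↥Q).map Q.subtype) : Set G)) (hZg : (((Subgroup.center ↥Q).map Q.subtype)).map (MulAut.conj g).toMonoidHom ≤ Q) : ((Subgroup.center ↥Q).map Q.subtype) ≤ (Q).map (MulAut.conj g).toMonoidHom ∧ (Subgroup.centralizer ((((Subgroup.center ↥Q).map Q.subtype) ⊔ (((Subgroup.center ↥Q).map Q.subtype)).map (MulAut.conj g).toMonoidHom : Subgroup G) : Set G)).relIndex (Subgroup.normalizer ((((Subgroup.center ↥Q).map Q.subtype) ⊔ (((Subgroup.center ↥Q).map Q.subtype)).map (MulAut.conj g).toMonoidHom : Subgroup G) : Set G)) = 6 ∧ Cfsg.IsLargeExtraspecial Q := by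
  open Subgroup Cfsg.Agent.H10 in
  obtain ⟨z, h, hz⟩ := exists_lx hL1 hL2 hL3
  have e : (zpowers z).map (MulAut.conj g).toMonoidHom = zpowers (g * z * g⁻¹) :=
    MonoidHom.map_zpowers _ _
  rw [hz] at hg hZg ⊢
  rw [e] at hZg ⊢
  have hne : g * z * g⁻¹ ≠ z := fun e' => hg (mem_normalizer_iff_conj_eq.mpr (by rw [e, e']))
  have ht := hZg (mem_zpowers _)
  have hp := h.pr ht hne
  refine ⟨Subgroup.zpowers_le.mpr hp.zP, ?_, h.large_of_conj ht hne⟩
  rw [← Pr.V_eq]
  exact hp.relIndex_eq hp.sup_le_norm le_rfl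

end Cfsg.Agent.S5422
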