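import Cfsg.Statements.S5423
import Cfsg.Agent.H29.LXm

set_option autoImplicit false
open Cfsg

namespace Cfsg.Agent.S5423
open Cfsg.Agent.H29

open Cfsg.Agent.H29 Cfsg.Agent.H29.HM Subgroup
open scoped IsMulCommutative

/-- Let G be a finite group that is the split extension of an elementary abelian normal subgroup U of order 2^(n+1), n ≥ 1, by its full automorphism group: U has a complement M in G whose conjugation action on U is faithful and realizes every automorphism of U. Let Z be a subgroup of U of order 2 and Q the largest normal 2-subgroup of the centralizer C of Z. Then Q is extraspecial of order 2^(2n+1) with an elementary abelian subgroup of order 2^(n+1) (plus type), Q is a large extraspecial 2-subgroup of G, and C is the split extension of Q by the general linear group of degree n over the field with two elements. -/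
theorem result {G : Type*} [Group G] [Finite G] (n : ℕ) (hn : 1 ≤ n) (U M : Subgroup G) [U.Normal] (hU : Cfsg.IsElementaryAbelian 2 U) (hUcard : Nat.card ↥U = 2 ^ (n + 1)) (hUM : U ⊓ M = ⊥) (hUM' : U ⊔ M = ⊤) (hfaith : ∀ m ∈ M, (∀ u ∈ U, m * u * m⁻¹ = u) → m = 1) (hfull : ∀ φ : ↥U ≃* ↥U, ∃ m ∈ M, ∀ u : ↥U, ((φ u : ↥U) : G) = m * u * m⁻¹) (Z : Subgroup G) (hZU : Z ≤ U) (hZ : Nat.card ↥Z = 2) (Q : Subgroup G) (hQ : Q = (Cfsg.pCore 2 ↥(Subgroup.centralizer (Z : Set G))).map (Subgroup.centralizer (Z : Set G)).subtype) : Cfsg.IsExtraspecial 2 ↥Q ∧ Nat.card ↥Q = 2 ^ (2 * n + 1) ∧ (∃ E : Subgroup G, E ≤ Q ∧ Cfsg.IsElementaryAbelian 2 E ∧ Nat.card ↥E = 2 ^ (n + 1)) ∧ Cfsg.IsLargeExtraspecial Q ∧ ∃ K : Subgroup G, K ≤ Subgroup.centralizer (Z : Set G) ∧ Q ⊓ K = ⊥ ∧ Q ⊔ K = Subgroup.centralizer (Z : Set G) ∧ Nonempty (↥K ≃* Matrix.GeneralLinearGroup (Fin n) (ZMod 2)) := by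
  obtain ⟨z, hz⟩ : ∃ z : G, Z = zpowers z := by
    have := isCyclic_of_prime_card (p := 2) hZ
    obtain ⟨z, hz⟩ := (Subgroup.isCyclic_iff_exists_zpowers_eq_top Z).1 this
    exact ⟨z, hz.symm⟩
  subst hz
  have hzU : z ∈ U := hZU (mem_zpowers z)
  have hz1 : z ≠ 1 := by rintro rfl; simp at hZ
  obtain ⟨e, he⟩ : ∃ e : Multiplicative (ZMod 2 × (Fin n → ZMod 2)) ≃* U, e (.ofAdd (1, 0)) = ⟨z, hzU⟩ := by
    have := hU.1
    obtain ⟨m, ⟨e⟩⟩ := H26.exists_hom_pi (p := 2) U fun x => Subtype.ext (hU.2 x x.2)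
    obtain rfl : m = n + 1 := by
      have h := Nat.card_congr e.toEquiv
      rw [hUcard, Nat.card_congr Multiplicative.toAdd, Nat.card_fun] at h
      simpa using h.symm
    obtain ⟨g, hg⟩ := gl2_trans (v := Fin.cons 1 0) (w := (e ⟨z, hzU⟩).toAdd)
      (fun h => by simpa using congrFun h 0) (fun h => hz1 (congrArg Subtype.val ((map_eq_one_iff e e.injective).1 h)))
    refine ⟨(AddEquiv.toMultiplicative ((Fin.consLinearEquiv (ZMod 2) fun _ : Fin (n + 1) => ZMod 2).toAddEquiv.trans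
      (DistribMulAction.toAddEquiv _ g))).trans e.symm, e.symm_apply_eq.2 hg⟩
  let ι (v : ZMod 2 × (Fin n → ZMod 2)) : G := e (.ofAdd v)
  have ι_add (v w) : ι (v + w) = ι v * ι w := congrArg Subtype.val (map_mul e (.ofAdd v) (.ofAdd w))
  have ι_inj {v w} (h : ι v = ι w) : v = w := e.injective (Subtype.ext h)
  have ι_U (v) : ι v ∈ U := (e _).2
  have ι_sur {u} (h : u ∈ U) : ∃ v, ι v = u := ⟨(e.symm ⟨u, h⟩).toAdd, by simp [ι]⟩
  have ι_z : ι (1, 0) = z := congrArg Subtype.val he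
  have ι_0 : ι 0 = 1 := congrArg Subtype.val (map_one e)
  have full (φ : ZMod 2 × (Fin n → ZMod 2) ≃+ ZMod 2 × (Fin n → ZMod 2)) : ∃ m ∈ M, ∀ v, m * ι v * m⁻¹ = ι (φ v) := by
    obtain ⟨m, hm, h⟩ := hfull ((e.symm.trans (AddEquiv.toMultiplicative φ)).trans e)
    exact ⟨m, hm, fun v => by simpa [ι] using (h (e (.ofAdd v))).symm⟩
  have uq {m m' : G} (hm : m ∈ M) (hm' : m' ∈ M) (h : ∀ v, m * ι v * m⁻¹ = m' * ι v * m'⁻¹) : m = m' := by
    refine (inv_mul_eq_one.1 (hfaith _ (mul_mem (inv_mem hm') hm) fun u hu => ?_)).symm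
    obtain ⟨v, rfl⟩ := ι_sur hu
    calc _ = m'⁻¹ * (m * ι v * m⁻¹) * m' := by group
      _ = _ := by rw [h]; group
  choose μ hμ hμ' using fun x : HM n => full ⟨⟨act x, act x⁻¹, fun v => by rw [← act_mul, inv_mul_cancel, act_one],
    fun v => by rw [← act_mul, mul_inv_cancel, act_one]⟩, act_add x⟩
  replace hμ' : ∀ x v, μ x * ι v * (μ x)⁻¹ = ι (act x v) := hμ'
  have μ_mul (x y) : μ (x * y) = μ x * μ y := uq (hμ _) (mul_mem (hμ _) (hμ _)) fun v => by
    rw [hμ', act_mul, ← hμ', ← hμ']; group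
  have μ_1 {x : HM n} (h1 : x.A = 1) (h2 : x.a = 0) : μ x = 1 := uq (hμ _) (one_mem _) fun v => by simp [hμ', act, h1, h2]
  let ψ : HM n →* G := MonoidHom.mk' (fun x => ι (x.t, x.b) * μ x) fun x y => by
    have : ((x * y).t, (x * y).b) = (x.t, x.b) + act x (y.t, y.b) := by simp [act, add_assoc]
    rw [this, ι_add, ← hμ', μ_mul]; group
  have hψ (x) : ψ x = ι (x.t, x.b) * μ x := rfl
  have hψz : ψ z0 = z := by rw [hψ, μ_1 rfl rfl, mul_one]; exact ι_z
  have hinj : Function.Injective ψ := (injective_iff_map_eq_one ψ).2 fun x hx => by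
    have h1 : μ x = 1 := mem_bot.1 (hUM ▸ mem_inf.2 ⟨by rw [eq_inv_of_mul_eq_one_right hx]; exact inv_mem (ι_U _), hμ x⟩)
    have h2 : (x.t, x.b) = 0 := ι_inj (by rw [hψ, h1, mul_one] at hx; rw [hx, ι_0])
    have h3 (v) : act x v = v := ι_inj (by rw [← hμ', h1]; simp)
    refine HM.ext (Units.ext (Matrix.ext_iff_smul.2 fun v => ?_)) (funext fun i => ?_) (congrArg Prod.snd h2)
      (congrArg Prod.fst h2)
    · simpa [act] using congrArg Prod.snd (h3 (0, v))
    · simpa [act] using congrArg Prod.fst (h3 (0, Pi.single i 1))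
  have hC : centralizer {ψ z0} = centralizer (zpowers z : Set G) := by
    rw [hψz, zpowers_eq_closure, centralizer_closure]
  have hr : ψ.range = centralizer (zpowers z : Set G) := by
    rw [← hC]
    ext c
    rw [mem_centralizer_singleton_iff]
    refine ⟨?_, fun h => ?_⟩
    · rintro ⟨x, rfl⟩
      rw [← map_mul, z0_comm, map_mul]
    obtain ⟨u, hu, m, hm, rfl⟩ := mem_sup_of_normal_left.1 (hUM' ▸ mem_top c : c ∈ U ⊔ M)
    obtain ⟨v, rfl⟩ := ι_sur hu
    have h1 : m * z * m⁻¹ = z := by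
      rw [hψz, mul_assoc, ← mul_assoc z, ← ι_z, ← ι_add, add_comm, ι_add, mul_assoc] at h
      rw [← ι_z, mul_left_cancel h, mul_inv_cancel_right]
    obtain ⟨x, hx⟩ := exists_act (AddEquiv.toMultiplicative.symm ((e.trans (MulAut.conjNormal m)).trans e.symm))
      (show e.symm (MulAut.conjNormal m (e (.ofAdd (1, 0)))) = .ofAdd (1, 0) from
        e.symm_apply_eq.2 (by rw [he]; exact Subtype.ext h1))
    refine ⟨⟨x.A, x.a, v.2, v.1⟩, congrArg (ι v * ·) (uq (hμ _) hm fun w => ?_)⟩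
    rw [hμ']
    exact (congrArg ι (hx w)).trans (by simp [ι])
  obtain ⟨g, hg⟩ := gl2_trans (v := Fin.cons 1 0) (w := (Fin.cons 0 (Pi.single ⟨0, hn⟩ 1) : Fin (n + 1) → ZMod 2))
    (fun h => by simpa using congrFun h 0) (fun h => by have := congrFun h (Fin.succ ⟨0, hn⟩); rw [Fin.cons_succ] at this; simpa using this)
  let c := (Fin.consLinearEquiv (ZMod 2) fun _ : Fin (n + 1) => ZMod 2).toAddEquiv
  obtain ⟨m, -, hm⟩ := full ((c.trans (DistribMulAction.toAddEquiv _ g)).trans c.symm)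
  refine main hn ψ hinj hr hC (g := m) (q := ⟨1, 0, Pi.single ⟨0, hn⟩ 1, 0⟩) rfl ?_
    (fun e => by simpa [z0] using congrArg HM.t e) hQ
  rw [hψz, ← ι_z, hm, hψ, μ_1 rfl rfl, mul_one]
  exact congrArg ι (c.symm_apply_eq.2 hg)

end Cfsg.Agent.S5423
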