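import Cfsg.Statements.S5425
import Cfsg.Agent.H6.MSubD
-- import your own Cfsg.Agent.* helpers here

set_option autoImplicit false
open Cfsg

namespace Cfsg.Agent.S5425

open Cfsg.Agent.H6.MSub Cfsg.Agent.H16

abbrev L32 := Matrix.SpecialLinearGroup (Fin 3) (ZMod 2)

theorem simple32 : IsSimpleGroup L32 := by
  have hc : Subgroup.center L32 = ⊥ := by rw [← Subgroup.card_eq_one, H12.card_center_SL]; simp
  haveI := H12.PSL_fin_simple (F := ZMod 2) 3 (by norm_num) (by norm_num)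
  exact ((QuotientGroup.quotientMulEquivOfEq hc).trans QuotientGroup.quotientBot).symm.isSimpleGroup

structure Facts {G : Type*} [Group G] (z : G) (Q E K : Subgroup G) : Prop where
  es : ESData Q z
  cQ : Nat.card Q = 128
  QC : ∀ x ∈ Q, x * z = z * x
  nQ : ∀ g, g * z = z * g → ∀ x ∈ Q, g * x * g⁻¹ ∈ Q
  EQ : E ≤ Q
  cE : Nat.card E = 16
  E2 : ∀ x ∈ E, x ^ 2 = 1
  cen : ∀ g, (∀ x ∈ E, g * x = x * g) → g ∈ E
  nE : ∀ e ∈ E, e ≠ 1 → ∀ g, g * e = e * g → ∀ x ∈ E, g * x * g⁻¹ ∈ E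
  KC : ∀ k ∈ K, k * z = z * k
  iso : Nonempty (K ≃* L32)
  cC : Nat.card (Subgroup.centralizer ({z} : Set G)) = 21504

theorem facts0 : Facts z0 Q0 E16 K0 :=
  ⟨es0, Q0_facts.1, fun _ hx => Subgroup.mem_centralizer_singleton_iff.mp (clos_le hx),
    fun g hg => Q0_facts.2 g (Subgroup.mem_centralizer_singleton_iff.mpr hg), E16_le, E16_facts.1, E16_sq, E16_cen,
    fun _ he h1 => E16_norm he h1, fun _ hx => Subgroup.mem_centralizer_singleton_iff.mp (clos_le hx), iso3, CZ_facts.1⟩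

section
variable {G : Type*} [Group G] {z : G} {Q E K : Subgroup G}

theorem Facts.map (h : Facts z Q E K) (e : G ≃* G) :
    Facts (e z) (Q.map e.toMonoidHom) (E.map e.toMonoidHom) (K.map e.toMonoidHom) := by
  have mm : ∀ {H : Subgroup G} {x : G}, e x ∈ H.map e.toMonoidHom ↔ x ∈ H :=
    Subgroup.mem_map_iff_mem (f := e.toMonoidHom) e.injective
  have fa : ∀ {P : G → Prop}, (∀ x, P (e x)) → ∀ x, P x := fun h => e.surjective.forall.mpr h
  refine ⟨⟨mm.mpr h.es.mem, fun c => h.es.ne (e.map_eq_one_iff.mp c), fa fun x hx => ?_, fa fun x hx => ?_,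
    fa fun y hy hc => ?_, ?_⟩, ?_, fa fun x hx => ?_, fa fun g hg => fa fun x hx => ?_, Subgroup.map_mono h.EQ, ?_,
    fa fun x hx => ?_, fa fun g hg => ?_, fa fun a ha h1 => fa fun g hg => fa fun x hx => ?_, fa fun x hx => ?_, ?_, ?_⟩
  · rw [← map_mul, ← map_mul, h.es.comm x (mm.mp hx)]
  · rw [← map_mul, e.map_eq_one_iff, e.injective.eq_iff]; exact h.es.sq x (mm.mp hx)
  · rw [e.map_eq_one_iff, e.injective.eq_iff]
    exact h.es.cen y (mm.mp hy) fun x hx => e.injective (by rw [map_mul, map_mul, hc _ (mm.mpr hx)])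
  · obtain ⟨x, hx, y, hy, hxy⟩ := h.es.na
    exact ⟨_, mm.mpr hx, _, mm.mpr hy, fun c => hxy (e.injective (by rw [map_mul, map_mul, c]))⟩
  · rw [Subgroup.card_map_of_injective e.injective, h.cQ]
  · rw [← map_mul, ← map_mul, h.QC x (mm.mp hx)]
  · rw [← map_inv, ← map_mul, ← map_mul, mm]
    exact h.nQ g (e.injective (by rw [map_mul, map_mul, hg])) x (mm.mp hx)
  · rw [Subgroup.card_map_of_injective e.injective, h.cE]
  · rw [← map_pow, h.E2 x (mm.mp hx), map_one]
  · exact mm.mpr (h.cen g fun x hx => e.injective (by rw [map_mul, map_mul, hg _ (mm.mpr hx)]))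
  · rw [← map_inv, ← map_mul, ← map_mul, mm]
    exact h.nE a (mm.mp ha) (fun c => h1 (by rw [c, map_one])) g (e.injective (by rw [map_mul, map_mul, hg])) x (mm.mp hx)
  · rw [← map_mul, ← map_mul, h.KC x (mm.mp hx)]
  · obtain ⟨f⟩ := h.iso
    exact ⟨(e.subgroupMap K).symm.trans f⟩
  · rw [← h.cC]
    refine (Nat.card_congr (Equiv.subtypeEquiv e.toEquiv fun x => ?_)).symm
    rw [Subgroup.mem_centralizer_singleton_iff, Subgroup.mem_centralizer_singleton_iff]
    exact ⟨fun c => by rw [MulEquiv.toEquiv_eq_coe, EquivLike.coe_coe, ← map_mul, ← map_mul, c],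
      fun c => e.injective (by rw [map_mul, map_mul]; exact c)⟩

variable [Finite G]

theorem card_mul_le {P K C : Subgroup G} (h : P ⊓ K = ⊥) (h1 : P ≤ C) (h2 : K ≤ C) :
    Nat.card P * Nat.card K ≤ Nat.card C := by
  rw [← Nat.card_prod]
  refine Nat.card_le_card_of_injective (fun x => ⟨x.1 * x.2, C.mul_mem (h1 x.1.2) (h2 x.2.2)⟩) fun a b e => ?_
  exact Subgroup.mul_injective_of_disjoint (disjoint_iff.mpr h) (congrArg Subtype.val e)

theorem Facts.cK (h : Facts z Q E K) : Nat.card K = 168 := let ⟨f⟩ := h.iso; (Nat.card_congr f.toEquiv).trans card3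

theorem Facts.inf_bot (h : Facts z Q E K) {P : Subgroup G} (hP : IsPGroup 2 P)
    (hn : ∀ g, g * z = z * g → ∀ x ∈ P, g * x * g⁻¹ ∈ P) : P ⊓ K = ⊥ := by
  obtain ⟨f⟩ := h.iso
  have := simple32
  have : IsSimpleGroup K := f.isSimpleGroup
  rcases NormBy.of_simple (K := K) (N := P ⊓ K) inf_le_right
    (fun k hk x hx => ⟨hn k (h.KC k hk) x hx.1, K.mul_mem (K.mul_mem hk hx.2) (K.inv_mem hk)⟩) with e | e
  · exact e
  · obtain ⟨n, hn⟩ := (hP.to_le (inf_eq_right.mp e)).exists_card_eq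
    have : 3 ∣ 2 ^ n := by rw [← hn, h.cK]; norm_num
    exact absurd (Nat.prime_three.dvd_of_dvd_pow this) (by norm_num)

theorem Facts.pQ (h : Facts z Q E K) : IsPGroup 2 Q := IsPGroup.of_card (n := 7) h.cQ

theorem Facts.core (h : Facts z Q E K) :
    (pCore 2 (Subgroup.centralizer ({z} : Set G))).map (Subgroup.centralizer ({z} : Set G)).subtype = Q := by
  have hQ : Q ≤ Subgroup.centralizer {z} := fun x hx => Subgroup.mem_centralizer_singleton_iff.mpr (h.QC x hx)
  have hK : K ≤ Subgroup.centralizer {z} := fun x hx => Subgroup.mem_centralizer_singleton_iff.mpr (h.KC x hx)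
  have n1 : (Q.subgroupOf (Subgroup.centralizer {z})).Normal :=
    NormBy.normal_subgroupOf fun g hg => h.nQ g (Subgroup.mem_centralizer_singleton_iff.mp hg)
  have p1 : IsPGroup 2 (Q.subgroupOf (Subgroup.centralizer {z})) := h.pQ.comap_subtype
  have : pCore 2 (Subgroup.centralizer ({z} : Set G)) = Q.subgroupOf _ := by
    refine le_antisymm (sSup_le fun N hN => ?_) (le_sSup ⟨n1, p1⟩)
    obtain ⟨n2, p2⟩ := hN
    have p3 := (IsPGroup.to_sup_of_normal_right p2 p1).map (Subgroup.centralizer ({z} : Set G)).subtype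
    have e1 := h.inf_bot p3 (by
      rintro g hg _ ⟨x, hx, rfl⟩
      exact ⟨_, Subgroup.Normal.conj_mem inferInstance x hx ⟨g, Subgroup.mem_centralizer_singleton_iff.mpr hg⟩, rfl⟩)
    have e2 := card_mul_le e1 (Subgroup.map_subtype_le _) hK
    rw [h.cK, h.cC, Subgroup.card_map_of_injective (Subgroup.subtype_injective _)] at e2
    have e3 := Subgroup.eq_of_le_of_card_ge (le_sup_right : Q.subgroupOf (Subgroup.centralizer {z}) ≤ N ⊔ _) (by
      rw [Nat.card_congr (Subgroup.subgroupOfEquivOfLe hQ).toEquiv, h.cQ]; omega)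
    rw [e3]; exact le_sup_left
  rw [this, Subgroup.subgroupOf_map_subtype, inf_eq_left.mpr hQ]

theorem Facts.commE (h : Facts z Q E K) {x y : G} (hx : x ∈ E) (hy : y ∈ E) : x * y = y * x := by
  have i : ∀ a ∈ E, a⁻¹ = a := fun a ha => inv_eq_of_mul_eq_one_left (by rw [← pow_two, h.E2 a ha])
  rw [← i _ (E.mul_mem hx hy), mul_inv_rev, i x hx, i y hy]

theorem Facts.center (h : Facts z Q E K) {g : G} : g ∈ (Subgroup.center Q).map Q.subtype ↔ g = 1 ∨ g = z := by
  constructor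
  · rintro ⟨x, hx, rfl⟩
    exact h.es.cen x x.2 fun y hy => (congrArg Subtype.val (Subgroup.mem_center_iff.mp hx ⟨y, hy⟩)).symm
  · rintro (rfl | rfl)
    · exact one_mem _
    · exact ⟨⟨_, h.es.mem⟩, Subgroup.mem_center_iff.mpr fun y => Subtype.ext (h.QC y y.2), rfl⟩

theorem Facts.odd (h : Facts z Q E K) (X : Subgroup G) (hX : Odd (Nat.card X))
    (hn : Q ≤ Subgroup.normalizer (X : Set G)) : X = ⊥ := by
  have triv : ∀ x ∈ X, x ^ 2 = 1 → x = 1 := fun x hx h2 => by
    have a := Subgroup.orderOf_dvd_natCard X hx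
    have b := orderOf_dvd_of_pow_eq_one h2
    rcases (Nat.dvd_prime Nat.prime_two).mp b with c | c
    · exact orderOf_eq_one_iff.mp c
    · rw [c] at a; exact absurd (even_iff_two_dvd.mpr a) (Nat.not_even_iff_odd.mpr hX)
  have nm : ∀ e ∈ E, ∀ x ∈ X, e * x * e⁻¹ ∈ X := fun e he x hx => (Subgroup.mem_normalizer_iff.mp (hn (h.EQ he)) x).mp hx
  have inv : ∀ e ∈ E, e ≠ 1 → ∀ x ∈ X, e * x * e⁻¹ = x⁻¹ := fun e he h1 x hx => by
    let φ : X →* X := (X.normalizerMonoidHom ⟨e, hn (h.EQ he)⟩).toMonoidHom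
    have hφ : ∀ y : X, (φ y : G) = e * y * e⁻¹ := fun y => rfl
    have f1 : MonoidHom.FixedPointFree φ := fun y hy => by
      have c : (y : G) * e = e * y := by
        have := hφ y; rw [hy] at this
        exact (eq_mul_inv_iff_mul_eq.mp this)
      have : (y : G) ∈ E := h.cen _ fun a ha => by
        have m1 : (y : G) * a * (y : G)⁻¹ * a⁻¹ ∈ E := E.mul_mem (h.nE e he h1 y c a ha) (E.inv_mem ha)
        have m2 : (y : G) * a * (y : G)⁻¹ * a⁻¹ ∈ X := by
          have := X.mul_mem y.2 (nm a ha _ (X.inv_mem y.2)); simpa [mul_assoc] using this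
        have := triv _ m2 (h.E2 _ m1)
        rwa [mul_inv_eq_one, mul_inv_eq_iff_eq_mul] at this
      exact Subtype.ext (triv _ y.2 (h.E2 _ this))
    have f2 : Function.Involutive φ := fun y => Subtype.ext (by
      rw [hφ, hφ]
      calc _ = e ^ 2 * y * (e ^ 2)⁻¹ := by rw [pow_two]; group
        _ = _ := by rw [h.E2 e he]; group)
    exact (hφ ⟨x, hx⟩).symm.trans (congrArg Subtype.val (congrFun (f1.coe_eq_inv_of_involutive f2) ⟨x, hx⟩))
  obtain ⟨a, ha, a1⟩ : ∃ a ∈ E, a ≠ 1 := by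
    by_contra! c
    have := h.cE; rw [(Subgroup.eq_bot_iff_forall _).mpr c, Subgroup.card_bot] at this; omega
  obtain ⟨b, hb, b1⟩ : ∃ b ∈ E, b ∉ Subgroup.zpowers a := by
    by_contra! c
    have := Subgroup.card_le_of_le (c : E ≤ Subgroup.zpowers a)
    rw [h.cE, Nat.card_zpowers] at this
    have := Nat.le_of_dvd (by norm_num) (orderOf_dvd_of_pow_eq_one (h.E2 a ha)); omega
  refine (Subgroup.eq_bot_iff_forall _).mpr fun x hx => triv x hx ?_
  have e1 := inv _ (E.mul_mem ha hb) (fun c => b1 (eq_inv_of_mul_eq_one_right c ▸ inv_mem (Subgroup.mem_zpowers a))) x hx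
  have e2 := inv b hb (fun c => b1 (c ▸ one_mem _)) x hx
  have e3 := inv a ha a1 _ (X.inv_mem hx)
  rw [show a * b * x * (a * b)⁻¹ = a * (b * x * b⁻¹) * a⁻¹ by group, e2, e3, inv_inv] at e1
  rw [pow_two]; exact mul_eq_one_iff_eq_inv.mpr e1

theorem Facts.fin (h : Facts z Q E K) : IsExtraspecial 2 Q ∧ Nat.card Q = 2 ^ 7 ∧
    (∃ E : Subgroup G, E ≤ Q ∧ IsElementaryAbelian 2 E ∧ Nat.card E = 2 ^ 4) ∧ IsLargeExtraspecial Q ∧
    ∃ K : Subgroup G, K ≤ Subgroup.centralizer ({z} : Set G) ∧ Q ⊓ K = ⊥ ∧ Q ⊔ K = Subgroup.centralizer ({z} : Set G) ∧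
      Nonempty (K ≃* L32) := by
  have hQ : Q ≤ Subgroup.centralizer {z} := fun x hx => Subgroup.mem_centralizer_singleton_iff.mpr (h.QC x hx)
  have hK : K ≤ Subgroup.centralizer {z} := fun x hx => Subgroup.mem_centralizer_singleton_iff.mpr (h.KC x hx)
  have es : IsExtraspecial 2 Q := h.es.of_hom Q.subtype Q.subtype_injective (fun x => x.2) fun y hy => ⟨⟨y, hy⟩, rfl⟩
  have d := h.inf_bot h.pQ h.nQ
  refine ⟨es, h.cQ, ⟨E, h.EQ, ⟨⟨⟨fun a b => Subtype.ext (h.commE a.2 b.2)⟩⟩, h.E2⟩, h.cE⟩, ⟨es, ?_, fun g hg => ?_, h.odd⟩,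
    K, hK, d, ?_, h.iso⟩
  · ext g
    rw [h.center]
    constructor
    · intro hg
      exact h.es.cen g (h.EQ (h.cen g fun x hx => (hg x (h.EQ hx)).symm)) fun x hx => (hg x hx).symm
    · rintro (rfl | rfl)
      · exact one_mem _
      · exact h.QC
  · exact Subgroup.mem_normalizer_fintype (h.nQ g (hg z (h.center.mpr (Or.inr rfl))).symm)
  · refine Subgroup.eq_of_le_of_card_ge (sup_le hQ hK) ?_
    have := card_mul_le d (le_sup_left : Q ≤ Q ⊔ K) le_sup_right
    rw [h.cQ, h.cK] at this; rw [h.cC]; omega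

end


/-- In the Mathieu group of degree 24 (the automorphism group of the length-24 binary Golay code, acting on the 24 coordinates), let z be an involution whose fixed points form an octad (the support of a code word of weight 8), and let Q be the largest normal 2-subgroup of the centralizer C of z. Then Q is extraspecial of order 2^7 with an elementary abelian subgroup of order 16 (plus type), Q is a large extraspecial 2-subgroup, and C is the split extension of Q by the special linear group of degree 3 over the field with two elements. -/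
theorem result (z : ↥Cfsg.M24) (hz : orderOf z = 2) (hfix : (Finset.univ.filter fun p : Cfsg.GolayPt => (z : Equiv.Perm Cfsg.GolayPt) p = p) ∈ Cfsg.octads) (Q : Subgroup ↥Cfsg.M24) (hQ : Q = (Cfsg.pCore 2 ↥(Subgroup.centralizer ({z} : Set ↥Cfsg.M24))).map (Subgroup.centralizer ({z} : Set ↥Cfsg.M24)).subtype) : Cfsg.IsExtraspecial 2 ↥Q ∧ Nat.card ↥Q = 2 ^ 7 ∧ (∃ E : Subgroup ↥Cfsg.M24, E ≤ Q ∧ Cfsg.IsElementaryAbelian 2 E ∧ Nat.card ↥E = 2 ^ 4) ∧ Cfsg.IsLargeExtraspecial Q ∧ ∃ K : Subgroup ↥Cfsg.M24, K ≤ Subgroup.centralizer ({z} : Set ↥Cfsg.M24) ∧ Q ⊓ K = ⊥ ∧ Q ⊔ K = Subgroup.centralizer ({z} : Set ↥Cfsg.M24) ∧ Nonempty (↥K ≃* Matrix.SpecialLinearGroup (Fin 3) (ZMod 2)) := by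
  obtain ⟨c, rfl⟩ := conj_z0 hz (mem_octads.mp hfix).2
  have h := facts0.map (MulAut.conj c)
  rw [MulAut.conj_apply] at h
  rw [hQ, h.core]
  exact h.fin

end Cfsg.Agent.S5425
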