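import Cfsg.Statements.S5428
import Cfsg.Agent.H10.Xsp6
import Cfsg.Agent.H3.Misc1

set_option autoImplicit false
open Cfsg

namespace Cfsg.Agent.S5428

/-- Let z be an involution of the finite group G whose centralizer C has generalized Fitting subgroup Q extraspecial (as a 2-group), let A be a subgroup of C of odd order, and let R be the centralizer of A in Q; suppose R has order at least 32, the largest normal subgroup of odd order of the centralizer of the subgroup generated by A and R lies in A, the order of that centralizer is not divisible by 4, and g is an element of G with g z g⁻¹ in R but outside the centre Z of Q. Let M be the subgroup generated by A and the centralizer of A (A is normal in it). Then: the centralizer in M of the subgroup generated by R and A, joined with A, equals the subgroup generated by A and Z; the image of R in M/A is a large extraspecial 2-subgroup of M/A; and g z g⁻¹ is conjugate to z inside the subgroup generated by R and the centralizer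 of A in g Q g⁻¹. -/
theorem result {G : Type*} [Group G] [Finite G] (z : G) (hz : orderOf z = 2) (Q : Subgroup G) (hQC : Q ≤ Subgroup.centralizer ({z} : Set G)) (hF : (Cfsg.generalizedFittingSubgroup ↥(Subgroup.centralizer ({z} : Set G))).map (Subgroup.centralizer ({z} : Set G)).subtype = Q) (hQ : Cfsg.IsExtraspecial 2 ↥Q) (A : Subgroup G) (hA : A ≤ Subgroup.centralizer ({z} : Set G)) (hAodd : Odd (Nat.card ↥A)) (R : Subgroup G) (hR : R = Q ⊓ Subgroup.centralizer (A : Set G)) (hR32 : 32 ≤ Nat.card ↥R) (hO : (Cfsg.oddCore ↥(Subgroup.centralizer ((A ⊔ R : Subgroup G) : Set G))).map (Subgroup.centralizer ((A ⊔ R : Subgroup G) : Set G)).subtype ≤ A) (h4 : ¬ 4 ∣ Nat.card ↥(Subgroup.centralizer ((A ⊔ R : Subgroup G) : Set G))) (g : G) (hgR : g * z * g⁻¹ ∈ R) (hgZ : g * z * g⁻¹ ∉ ((Subgroup.center ↥Q).map Q.subtype)) (M : Subgroup G) (hM : M = Subgroup.centralizer (A : Set G) ⊔ A) [hn : (A.subgroupOf M).Normal] : (M ⊓ Subgroup.centralizer ((R ⊔ A : Subgroup G) : Set G))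 ⊔ A = A ⊔ ((Subgroup.center ↥Q).map Q.subtype) ∧ Cfsg.IsLargeExtraspecial ((R.subgroupOf M).map (QuotientGroup.mk' (A.subgroupOf M))) ∧ ∃ x ∈ R ⊔ ((Q).map (MulAut.conj g).toMonoidHom ⊓ Subgroup.centralizer (A : Set G)), x * (g * z * g⁻¹) * x⁻¹ = z := by
  open Subgroup Cfsg.Agent.H10 in
  have : Fact (Nat.Prime 2) := ⟨Nat.prime_two⟩
  have h0 := lx_of_fstar hz hF hQ
  rw [h0.center_eq] at hgZ ⊢
  have h := h0.lpr (hR ▸ hgR).1 fun e => hgZ (by rw [e]; exact mem_zpowers _)
  set t := g * z * g⁻¹ with ht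
  set P := Q.map (MulAut.conj g).toMonoidHom
  have hAQ : A ≤ normalizer (Q : Set G) := hA.trans h0.nQ
  have hAP : A ≤ normalizer (P : Set G) := fun a ha => h.hP.mem_normalizer ((hR ▸ hgR).2 a ha)
  have hR1 : XS R z := hR ▸ h0.cA hAQ hAodd ⟨t, hR ▸ hgR, hgZ⟩
  have hzP : z ∈ P ⊓ centralizer (A : Set G) := ⟨h.zP, (h0.cA_mem hAQ).2⟩
  have hR2 := h.hP.cA hAP hAodd ⟨z, hzP, h.pr.symm.t_not⟩
  obtain ⟨x, hx, e1, e2⟩ := (Pr.mk hR1.toSymT hR2.toSymT hgR hzP h.ne).trans t Pr.t_mem z Pr.z_mem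
    h.hP.ne_one h0.ne_one h.ne
  have hRC : R ≤ centralizer (A : Set G) := hR ▸ inf_le_right
  have hCM : centralizer (A : Set G) ≤ M := hM ▸ le_sup_left
  have hD : centralizer ((A ⊔ R : Subgroup G) : Set G) ≤ A ⊔ zpowers z := by
    set D := centralizer ((A ⊔ R : Subgroup G) : Set G) with hDd
    have hzD : z ∈ D := by
      rw [hDd, centralizer_sup]; exact ⟨hzP.2, hR1.cent⟩
    have hS : H3.SylowIn 2 (zpowers z) D := by
      refine ⟨Subgroup.zpowers_le.mpr hzD, h0.isPGroup.to_le h0.zpowers_le, fun e => h4 ?_⟩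
      rw [← card_mul_relIndex (Subgroup.zpowers_le.mpr hzD), Nat.card_zpowers, hz]
      exact Nat.mul_dvd_mul_left 2 e
    obtain ⟨K, k1, k2, k3, -, k4, -⟩ := hS.exists_complement (hS.hasNormalPComplement_of_le_centralizer
      (Subgroup.zpowers_le.mpr fun d hd => (hd z (mem_sup_right hR1.mem)).symm))
    rw [← k4]
    exact sup_le_sup_right ((le_OqOf k1 (le_normalizer.trans k3) k2).trans hO) _
  refine ⟨le_antisymm (sup_le (inf_le_right.trans (sup_comm A R ▸ hD)) le_sup_left)
    (sup_le le_sup_right (le_trans (Subgroup.zpowers_le.mpr (mem_inf.mpr ⟨hCM hzP.2, ?_⟩)) le_sup_left)), ?_,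
    x, hx, e2⟩
  · rw [centralizer_sup]; exact ⟨hR1.cent, hzP.2⟩
  set f := QuotientGroup.mk' (A.subgroupOf M) with hf
  have hMA : M ≤ normalizer (A : Set G) := hM ▸ sup_le (centralizer_le_normalizer _) le_normalizer
  have hinj : ∀ y ∈ R.subgroupOf M, f y = 1 → y = 1 := fun y hy e => Subtype.ext (by
    have : (y : G) ∈ R ⊓ A := ⟨hy, (QuotientGroup.eq_one_iff y).mp e⟩
    rwa [disjoint_of_isPGroup_of_coprime hR1.isPGroup hAodd.coprime_two_right] at this)
  set z' : M := ⟨z, hCM hzP.2⟩ with hz'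
  have hcop : ∀ S : Subgroup M, IsPGroup 2 S → centralizer ((S.map f : Subgroup _) : Set _) =
      (centralizer (S : Set M)).map f := fun S hS => H1.centralizer_map_mk'_eq
    (coprime_of_odd_of_isPGroup (by rwa [card_subgroupOf_of_le (hM ▸ le_sup_right)]) hS).symm
    (Or.inl (isSolvable_of_isPGroup hS))
  have hzp : ∀ y : M, (y : G) ∈ A ⊔ zpowers z → f y ∈ zpowers (f z') := fun y hy => by
    obtain ⟨a, ha, b, hb, e⟩ := (mem_sup_iff_of_right_le_normalizer
      ((Subgroup.zpowers_le.mpr z'.2).trans hMA)).mp hy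
    have ha' : f ⟨a, hM ▸ mem_sup_right ha⟩ = 1 := (QuotientGroup.eq_one_iff _).mpr ha
    rcases h0.mem_z.mp hb with rfl | rfl
    · rw [show y = ⟨a, hM ▸ mem_sup_right ha⟩ from Subtype.ext (by simpa using e.symm), ha']
      exact one_mem _
    · rw [show y = ⟨a, hM ▸ mem_sup_right ha⟩ * z' from Subtype.ext e.symm, map_mul, ha', one_mul]
      exact mem_zpowers _
  have hcQ : ∀ c, (∀ q ∈ (R.subgroupOf M).map f, q * c = c * q) → c ∈ zpowers (f z') := by
    intro c hc
    have : c ∈ centralizer (((R.subgroupOf M).map f : Subgroup _) : Set _) := hc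
    rw [hcop _ (isPGroup_subgroupOf hR1.isPGroup M), centralizer_subgroupOf (hRC.trans hCM)] at this
    obtain ⟨c, hc', rfl⟩ := this
    obtain ⟨b, hb, a, ha, e⟩ := (mem_sup_iff_of_left_le_normalizer
      (centralizer_le_normalizer _)).mp (hM.le c.2)
    refine hzp c (e ▸ mul_mem (hD ?_) (mem_sup_left ha))
    rw [centralizer_sup]
    refine mem_inf.mpr ⟨hb, ?_⟩
    rw [eq_mul_inv_of_mul_eq e]
    exact mul_mem (mem_subgroupOf.mp hc') (inv_mem (le_centralizer_iff.mp hRC ha))
  have ho : orderOf (f z') = 2 := H11.orderOf_two_of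
    (fun e => h0.ne_one (congrArg Subtype.val (hinj z' hR1.mem e)))
    (by rw [← map_mul, show z' * z' = 1 from Subtype.ext h0.zz, map_one])
  set t' : M := ⟨t, hCM (hRC hgR)⟩ with ht'
  have hsz : f t' ∉ zpowers (f z') := fun e => by
    rcases (mem_zpowers_two ho).mp e with e | e
    · exact h.hP.ne_one (congrArg Subtype.val (hinj t' hgR e))
    · rw [← mul_inv_eq_one, ← map_inv, ← map_mul] at e
      exact h.ne (mul_inv_eq_one.mp (congrArg Subtype.val
        (hinj _ (mul_mem hgR (inv_mem hR1.mem) : t * z⁻¹ ∈ R) e)))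
  have hL : LX ((R.subgroupOf M).map f) (f z') := by
    refine ⟨⟨⟨ho, ⟨z', hR1.mem, rfl⟩, ?_, ?_, fun y _ e _ => hcQ y e⟩, fun y _ e => hcQ y e,
      _, ⟨t', hgR, rfl⟩, hsz⟩, hcQ, fun c hc => ?_⟩
    · rintro _ ⟨y, hy, rfl⟩
      rw [← map_mul, ← map_mul]
      exact congrArg f (Subtype.ext (hR1.cent y hy))
    · rintro _ ⟨y, hy, rfl⟩
      rw [← map_mul]
      exact hzp _ (mem_sup_right (hR1.sq y hy))
    · rw [← centralizer_zpowers, ← MonoidHom.map_zpowers, hcop _ (H11.isPGroup_zpowers_of_orderOf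
        (k := 1) (by rw [hz', Subgroup.orderOf_mk, hz]; rfl)), centralizer_zpowers] at hc
      obtain ⟨c, hc, rfl⟩ := hc
      have e : (c : G) ∈ normalizer (R : Set G) := hR ▸ le_normalizer_inf inf_le_left inf_le_right
        (mem_inf.mpr ⟨h0.mem_normalizer (congrArg Subtype.val (mem_centralizer_singleton_iff.mp hc)),
          normalizer_le_normalizer_centralizer A (hMA c.2)⟩)
      refine mem_normalizer_of_conj_le ?_
      rintro _ ⟨y, hy, rfl⟩
      exact ⟨c * y * c⁻¹, (mem_normalizer_iff.mp e y).mp hy, by simp [hf]⟩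
  have hxM : x ∈ M := hCM ((sup_le hRC inf_le_right : _ ≤ centralizer (A : Set G)) hx)
  have e3 : f ⟨x, hxM⟩ * f z' * (f ⟨x, hxM⟩)⁻¹ = f t' := by
    rw [← map_inv, ← map_mul, ← map_mul]
    exact congrArg f (Subtype.ext e1)
  refine hL.large_of_conj (g := f ⟨x, hxM⟩) ?_ ?_ <;> rw [e3]
  · exact ⟨t', hgR, rfl⟩
  · exact fun e => hsz (by rw [e]; exact mem_zpowers _)

end Cfsg.Agent.S5428
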