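import Cfsg.Statements.S5431
import Cfsg.Agent.H10.Xsp4

set_option autoImplicit false
open Cfsg

namespace Cfsg.Agent.S5431

section
open Subgroup Cfsg.Agent.H10
open scoped commutatorElement Pointwise

theorem aux {G : Type*} [Group G] [Finite G] {Q P : Subgroup G} {z t : G} (h : LPr Q P z t) :
    (center ↥(RR Q P z t)).map (RR Q P z t).subtype = closure ({z, t} : Set G) ∧
    Q ⊓ P ≤ (Subgroup.upperCentralSeries ↥(RR Q P z t) 2).map (RR Q P z t).subtype ∧
    Subgroup.upperCentralSeries ↥(RR Q P z t) 3 = ⊤ ∧ IsElementaryAbelian 2 (Q ⊓ P) ∧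
    (∀ x ∈ RR Q P z t, ∀ y ∈ RR Q P z t, x * y * x⁻¹ * y⁻¹ ∈ Q ⊓ P ∧ x ^ 2 ∈ Q ⊓ P) ∧
    (P ⊓ centralizer ({z} : Set G)) ⊓ (Q ⊓ centralizer ({t} : Set G)) = Q ⊓ P ∧
    ⁅Q ⊔ P, Q ⊓ P⁆ ≤ closure ({z, t} : Set G) := by
  have hV : closure ({z, t} : Set G) ≤ Q ⊓ P := le_inf h.pr.V_le h.pr.V_le'
  have hE : Q ⊓ P ≤ Q ⊓ centralizer ({t} : Set G) :=
    inf_le_inf_left _ h.hP.le_centralizer
  have hE' : Q ⊓ P ≤ P ⊓ centralizer ({z} : Set G) :=
    le_inf inf_le_right (inf_le_left.trans h.hQ.le_centralizer)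
  have hER : Q ⊓ P ≤ RR Q P z t := hE.trans le_sup_right
  have hz := Subgroup.zpowers_le.mpr (Pr.z_mem (z := z) (t := t))
  have ht := Subgroup.zpowers_le.mpr (Pr.t_mem (z := z) (t := t))
  have h7 : ⁅Q ⊔ P, Q ⊓ P⁆ ≤ closure ({z, t} : Set G) :=
    commutator_sup_left_le h.pr.le_norm h.pr.le_norm'
      ((commutator_mono le_rfl inf_le_left).trans (h.hQ.commutator_le.trans hz))
      ((commutator_mono le_rfl inf_le_right).trans (h.hP.commutator_le.trans ht))
  have h1 : RR Q P z t ⊓ centralizer (RR Q P z t : Set G) = closure ({z, t} : Set G) :=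
    le_antisymm (fun c hc => h.pr.mem_V_of (h.hQ.mem_of_cent h.tQ h.hP.zz h.pr.t_not
      fun r hr e => hc.2 r (mem_sup_right ⟨hr, mem_centralizer_singleton_iff.mpr e⟩)))
      (le_inf (hV.trans hER) (le_centralizer_iff.mp h.R_le))
  have hN : RR Q P z t ≤ normalizer ((Q ⊓ P : Subgroup G) : Set G) :=
    le_normalizer_inf (h.R_le.trans h.cV_le) (h.R_le.trans h.cV_le')
  have hAB : ⁅P ⊓ centralizer ({z} : Set G), Q ⊓ centralizer ({t} : Set G)⁆ ≤ Q ⊓ P :=
    le_inf ((commutator_mono inf_le_right inf_le_left).trans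
      (commutator_le_right_of_le_normalizer h.hQ.nQ))
      ((commutator_mono inf_le_left inf_le_right).trans
      (commutator_le_left_of_le_normalizer h.hP.nQ))
  have hA := le_sup_left.trans hN
  have hB := le_sup_right.trans hN
  have h5 : ⁅RR Q P z t, RR Q P z t⁆ ≤ Q ⊓ P := by
    refine commutator_sup_left_le hA hB ?_ ?_ <;> rw [commutator_comm] <;>
      refine commutator_sup_left_le hA hB ?_ ?_
    · exact (commutator_mono inf_le_left inf_le_left).trans (h.hP.commutator_le.trans (ht.trans hV))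
    · rw [commutator_comm]; exact hAB
    · exact hAB
    · exact (commutator_mono inf_le_left inf_le_left).trans (h.hQ.commutator_le.trans (hz.trans hV))
  have h2 : ∀ x : RR Q P z t, (x : G) ∈ Q ⊓ P → x ∈ Subgroup.upperCentralSeries ↥(RR Q P z t) 2 := by
    intro x hx
    refine Subgroup.mem_upperCentralSeries_succ_iff.mpr fun y => ?_
    rw [Subgroup.upperCentralSeries_one]
    have := h7 (commutator_comm (Q ⊓ P) _ ▸ commutator_mem_commutator hx (LPr.R_le_X y.2))
    rw [← h1] at this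
    exact mem_center_iff.mpr fun w => Subtype.ext (this.2 w w.2)
  refine ⟨by rw [center_map_subtype, h1], fun x hx => ⟨⟨x, hER hx⟩, h2 _ hx, rfl⟩,
    eq_top_iff.mpr fun x _ => Subgroup.mem_upperCentralSeries_succ_iff.mpr fun y =>
      h2 _ (h5 (commutator_mem_commutator x.2 y.2)), ?_,
    fun x hx y hy => ⟨h5 (commutator_mem_commutator hx hy), ?_⟩,
    le_antisymm (le_inf (inf_le_right.trans inf_le_left) (inf_le_left.trans inf_le_left))
      (le_inf hE' hE), h7⟩
  · have e : ∀ x ∈ Q ⊓ P, x * x = 1 := fun x hx => h.pr.eq_one (h.hQ.sq x hx.1) (h.hP.sq x hx.2)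
    exact ⟨⟨⟨fun x y => Subtype.ext (H11.comm_of_sq_eq_one e x.2 y.2)⟩⟩,
      fun x hx => by rw [pow_two, e x hx]⟩
  · obtain ⟨a, ha, b, hb, rfl⟩ := (mem_sup_iff_of_right_le_normalizer h.B_le_norm).mp hx
    have : (a * b) ^ 2 = a * a * ⁅a⁻¹, b⁆ * (b * b) := by
      rw [pow_two, commutatorElement_def]; group
    rw [this]
    exact mul_mem (mul_mem (hV (ht (h.hP.sq a ha.1))) (hAB (commutator_mem_commutator (inv_mem ha) hb)))
      (hV (hz (h.hQ.sq b hb.1)))

end

/-- Let Q be a large extraspecial 2-subgroup of the finite group G (extraspecial; centralizer equal to its centre; normal in the centralizer of its centre; normalizing no non-trivial subgroup of odd order) with centre generated by z, an involution, of width w ≥ 2 (order 2^(2w+1)); let g be an element outside the centralizer H of z with g z g⁻¹ in Q; write V for the subgroup generated by z and g z g⁻¹, X for the subgroup generated by Q and g Q g⁻¹, R for the subgroup generated by the centralizer of z in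 g Q g⁻¹ and the centralizer of g z g⁻¹ in Q, and E for the intersection of Q and g Q g⁻¹. Then V is the centre of R, E lies in the second centre of R, R is nilpotent of class at most 3, E and R/E are elementary abelian, R/E is the direct product of the images of the centralizer of g z g⁻¹ in Q and of the centralizer of z in g Q g⁻¹ (R is their product and they meet in E), and the commutator subgroup of X and E lies in V. -/
theorem result {G : Type*} [Group G] [Finite G] (Q : Subgroup G) (hQ : Cfsg.IsLargeExtraspecial Q) (z : G) (hz : ((Subgroup.center ↥Q).map Q.subtype) = Subgroup.zpowers z) (hz2 : orderOf z = 2) (w : ℕ) (hw : 2 ≤ w) (hcard : Nat.card ↥Q = 2 ^ (2 * w + 1)) (g : G) (hgH : g ∉ Subgroup.centralizer ({z} : Set G)) (hgQ : g * z * g⁻¹ ∈ Q) (V X R E : Subgroup G) (hV : V = Subgroup.closure ({z, g * z * g⁻¹} : Set G)) (hX : X = Q ⊔ (Q).map (MulAut.conj g).toMonoidHom) (hR : R = ((Q).map (MulAut.conj g).toMonoidHom ⊓ Subgroup.centralizer ({z} : Set G))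 ⊔ (Q ⊓ Subgroup.centralizer ({g * z * g⁻¹} : Set G))) (hE : E = Q ⊓ (Q).map (MulAut.conj g).toMonoidHom) : (Subgroup.center ↥R).map R.subtype = V ∧ E ≤ (Subgroup.upperCentralSeries ↥R 2).map R.subtype ∧ Subgroup.upperCentralSeries ↥R 3 = ⊤ ∧ Cfsg.IsElementaryAbelian 2 E ∧ (∀ x ∈ R, ∀ y ∈ R, x * y * x⁻¹ * y⁻¹ ∈ E ∧ x ^ 2 ∈ E) ∧ ((Q).map (MulAut.conj g).toMonoidHom ⊓ Subgroup.centralizer ({z} : Set G)) ⊓ (Q ⊓ Subgroup.centralizer ({g * z * g⁻¹} : Set G)) = E ∧ ⁅X, E⁆ ≤ V := by
  open Subgroup Cfsg.Agent.H10 in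
  have h := (lx_of_large hQ hz).lpr hgQ fun e => hgH
    (mem_centralizer_singleton_iff.mpr (mul_inv_eq_iff_eq_mul.mp e))
  subst hV hX hR hE
  exact aux h

end Cfsg.Agent.S5431
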