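import Cfsg.Statements.S5432
import Cfsg.Agent.H26.ES3

set_option autoImplicit false
open Cfsg

namespace Cfsg.Agent.S5432


/-- Let E be an extraspecial 2-group of order 2^(2n+1), n ≥ 1. If E contains an elementary abelian subgroup of order 2^(n+1) (plus type), then its outer automorphism group is isomorphic to the full isometry group of the hyperbolic quadratic form in dimension 2n over the field with two elements; otherwise (minus type) it is isomorphic to the full isometry group of the elliptic quadratic form in dimension 2n over that field. -/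
theorem result {E : Type*} [Group E] [Finite E] (hE : Cfsg.IsExtraspecial 2 E) (n : ℕ) (hn : 1 ≤ n) (hcard : Nat.card E = 2 ^ (2 * n + 1)) : ((∃ A : Subgroup E, Cfsg.IsElementaryAbelian 2 A ∧ Nat.card ↥A = 2 ^ (n + 1)) → Nonempty (Cfsg.Out E ≃* Cfsg.isometryGroup (ZMod 2) (Cfsg.quadFormPlus n (ZMod 2)))) ∧ ((¬ ∃ A : Subgroup E, Cfsg.IsElementaryAbelian 2 A ∧ Nat.card ↥A = 2 ^ (n + 1)) → Nonempty (Cfsg.Out E ≃* Cfsg.isometryGroup (ZMod 2) (Cfsg.quadFormMinus (n - 1) (ZMod 2) 1 1))) := by
  obtain ⟨k, c, hc⟩ := H26.exists_ES_of_isExtraspecial hE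
  have hm : Module.finrank (ZMod 2) (Fin k → ZMod 2) = 2 * n := by
    rw [c.card_eq_pow] at hcard
    exact Nat.succ_injective (Nat.pow_right_injective le_rfl hcard)
  have := c.nontrivial_of_isExtraspecial hE
  obtain ⟨e⟩ := hc.nonempty_out_equiv
  rw [← hc.isPlus_iff hm]
  constructor
  · intro h
    obtain ⟨f, hf⟩ := (c.nd_Q_iff.mpr hc).equiv_QPlus h hm
    exact ⟨(e.trans (H13.SemiSim.ofIsometry f hf).conj).trans (H13.toOG (H13.QPlus n (ZMod 2))).symm⟩
  · intro h
    obtain ⟨f, hf⟩ := (c.nd_Q_iff.mpr hc).equiv_QMinus h (m := n - 1) (a := 1) (b := 1) (by omega)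
      (by decide)
    exact ⟨(e.trans (H13.SemiSim.ofIsometry f hf).conj).trans
      (H13.toOG (H13.QMinus (n - 1) (ZMod 2) 1 1)).symm⟩

end Cfsg.Agent.S5432
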