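import Cfsg.Statements.S5434
import Cfsg.Agent.H10.Xsp4

set_option autoImplicit false
open Cfsg

namespace Cfsg.Agent.S5434

/-- Let Q be a large extraspecial 2-subgroup of the finite group G (extraspecial; centralizer equal to its centre; normal in the centralizer of its centre; normalizing no non-trivial subgroup of odd order), and A a non-trivial subgroup of odd order of the normalizer of Q. Then Q is the central product of the centralizer of A in Q and the commutator subgroup [Q, A] (they generate Q and commute elementwise), [Q, A] is extraspecial, and the centralizer of A in Q is either the centre of Q or extraspecial. -/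
theorem result {G : Type*} [Group G] [Finite G] (Q : Subgroup G) (hQ : Cfsg.IsLargeExtraspecial Q) (A : Subgroup G) (hA : A ≤ Subgroup.normalizer (Q : Set G)) (hAodd : Odd (Nat.card ↥A)) (hA1 : A ≠ ⊥) : (Q ⊓ Subgroup.centralizer (A : Set G)) ⊔ ⁅Q, A⁆ = Q ∧ (∀ x ∈ Q ⊓ Subgroup.centralizer (A : Set G), ∀ y ∈ ⁅Q, A⁆, x * y = y * x) ∧ Cfsg.IsExtraspecial 2 ↥⁅Q, A⁆ ∧ (Q ⊓ Subgroup.centralizer (A : Set G) = ((Subgroup.center ↥Q).map Q.subtype) ∨ Cfsg.IsExtraspecial 2 ↥(Q ⊓ Subgroup.centralizer (A : Set G))) := by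
  open Subgroup Cfsg.Agent.H10 in
  obtain ⟨z, h, hz⟩ := exists_lx hQ.1 hQ.2.1 hQ.2.2.1
  have : Fact (Nat.Prime 2) := ⟨Nat.prime_two⟩
  refine ⟨by rw [sup_comm]; exact h.commutator_sup hA hAodd,
    fun x hx y hy => h.cent_commutator hA hy x hx, (h.commA hA hAodd fun e => hA1 ?_).isExtraspecial, ?_⟩
  · rw [h.centralizer_eq] at e
    exact eq_bot_of_isPGroup_of_coprime ((h.isPGroup.to_le h.zpowers_le).to_le e)
      hAodd.coprime_two_right
  by_cases hn : ∃ a ∈ Q ⊓ centralizer (A : Set G), a ∉ zpowers z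
  · exact Or.inr (h.cA hA hAodd hn).isExtraspecial
  · push Not at hn
    exact Or.inl (hz ▸ le_antisymm hn (Subgroup.zpowers_le.mpr (h.cA_mem hA)))

end Cfsg.Agent.S5434
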