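import Cfsg.Statements.S5435
import Cfsg.Agent.H10.Xsp6
import Cfsg.Agent.H24.Misc1
import Cfsg.Agent.H6.ZStar

set_option autoImplicit false
open Cfsg

namespace Cfsg.Agent.S5435

/-- Let L be a finite non-abelian simple group with an involution z whose centralizer R is a Sylow 2-subgroup of L whose Frattini subgroup is the subgroup generated by z. Then R is dihedral of order 8. -/
theorem result {L : Type*} [Group L] [Finite L] [IsSimpleGroup L] (hL : ¬ IsMulCommutative L) (z : L) (hz : orderOf z = 2) (R : Sylow 2 L) (hR : (R : Subgroup L) = Subgroup.centralizer ({z} : Set L)) (hΦ : (frattini ↥(R : Subgroup L)).map (R : Subgroup L).subtype = Subgroup.zpowers z) : Nonempty (↥(R : Subgroup L) ≃* DihedralGroup 4) := by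
  open Subgroup Cfsg.Agent.H10 in
  have : Fact (Nat.Prime 2) := ⟨Nat.prime_two⟩
  have hR2 : IsPGroup 2 (R : Subgroup L) := R.isPGroup'
  have hc : ∀ q, q ∈ (R : Subgroup L) ↔ q * z = z * q := fun q => by
    rw [hR, mem_centralizer_singleton_iff]
  have hsq : ∀ q ∈ (R : Subgroup L), q * q ∈ zpowers z := fun q hq => by
    rw [← hΦ, ← pow_two]; exact H1.pow_mem_map_frattini hR2 hq
  have hcen := H11.center_eq_bot_of_simple hL
  have hno : ∀ H : Subgroup L, H.index ≠ 2 := H11.no_index_two_of_simple fun e => hL (by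
    have := isCyclic_of_prime_card e
    infer_instance)
  have h : SymT (R : Subgroup L) z := by
    refine ⟨hz, (hc z).mpr rfl, fun q hq => (hc q).mp hq, hsq, fun e he h1 h2 => ?_⟩
    by_contra hez
    obtain ⟨M, hM, -, heM⟩ := H1.exists_isCoatom_notMem (G := (R : Subgroup L)) Nat.prime_two
      (N := frattini (R : Subgroup L)) (H3.commutator_le_frattini hR2) (H3.pow_mem_frattini hR2)
      (x := ⟨e, he⟩) fun e' => hez (hΦ ▸ ⟨_, e', rfl⟩)
    obtain ⟨g, h3, h4⟩ := H24.thompson_transfer_extremal (H24.sylIn_top R)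
      (M := M.map (Subgroup.subtype _)) (map_subtype_le M) (by
        rw [relIndex, map_subtype_subgroupOf, H1.index_eq_of_isCoatom hR2 hM]) h2
      (fun N hN => absurd hN (hno N)) hR2 fun q hq => mem_centralizer_singleton_iff.mpr (h1 q hq)
    have h5 : g ∈ normalizer ((R : Subgroup L) : Set L) :=
      mem_normalizer_of_conj_le fun x hx => h4 ⟨x, hx, rfl⟩
    have h6 := normalizer_le_normalizer_map_subtype (frattini (R : Subgroup L)) h5
    rw [hΦ] at h6
    have h7 := ((mem_zpowers_two hz).mp ((mem_normalizer_iff.mp h6 z).mp (mem_zpowers z))).resolve_left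
      (by simpa using H11.ne_one_of_orderOf_two hz)
    rw [h1 g ((hc g).mpr (mul_inv_eq_iff_eq_mul.mp h7)), mul_inv_cancel_right] at h3
    obtain ⟨x, hx, e1⟩ := h3
    exact heM ((Subtype.ext e1 : x = ⟨e, he⟩) ▸ hx)
  obtain ⟨g, ht, hne⟩ : ∃ g : L, g * z * g⁻¹ ∈ (R : Subgroup L) ∧ g * z * g⁻¹ ≠ z := by
    by_contra e
    push Not at e
    have hO : pPrimeCore 2 L = ⊥ := (IsSimpleGroup.eq_bot_or_eq_top_of_normal _
      inferInstance).resolve_right fun e' => by
        have := pPrimeCore_coprime 2 L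
        rw [e', card_top] at this
        have h1 := orderOf_dvd_natCard z
        rw [hz] at h1
        exact absurd (Nat.Coprime.coprime_dvd_left h1 this) (by norm_num)
    have := H6.mem_center_of_isolated hO hz fun g hg => e g ((hc _).mpr hg.eq.symm)
    rw [hcen] at this
    exact h.ne_one this
  set t := g * z * g⁻¹ with htd
  have hP := h.conj g
  have hpr : ∀ x ∈ zpowers z, x ∈ zpowers t → x = 1 := fun x h1 h2 =>
    (h.mem_z.mp h1).resolve_right fun e => (hP.mem_z.mp (by rwa [e] at h2)).elim h.ne_one hne.symm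
  have htz : t ∉ zpowers z := fun e => (h.mem_z.mp e).elim hP.ne_one hne
  have hE : ∀ r ∈ (R : Subgroup L), r * t = t * r → r * r = 1 := fun r hr e =>
    hpr _ (hsq r hr) (hP.sq r (by
      rw [hR, conj_centralizer_singleton]; exact mem_centralizer_singleton_iff.mpr e))
  have key : ∀ r ∈ (R : Subgroup L), r * t = t * r → r ∈ zpowers z ∨ r * t ∈ zpowers z :=
    fun r hr e => h.mem_of_cent_cent ht hP.zz htz hr (hE r hr e) fun s hs e' => by
      have e1 := hE _ (mul_mem hs hr) (by rw [mul_assoc, e, ← mul_assoc, e', mul_assoc])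
      rw [eq_inv_of_mul_eq_one_left e1, mul_inv_rev, inv_eq_of_mul_eq_one_left (hE r hr e),
        inv_eq_of_mul_eq_one_left (hE s hs e')]
  obtain ⟨a, ha, hat, ha2⟩ : ∃ a ∈ (R : Subgroup L), a * t ≠ t * a ∧ a * a = z := by
    obtain ⟨q, hq, hqt⟩ := h.exists_not_comm ht hP.zz htz
    rcases h.mem_z.mp (hsq q hq) with e | e
    · refine ⟨q * t, mul_mem hq ht, fun e' => hqt ?_, ?_⟩
      · rw [← mul_assoc t q t] at e'
        exact mul_right_cancel e'
      · calc q * t * (q * t) = q * t * q⁻¹ * (q * q) * t := by group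
          _ = z := by rw [h.conj_eq_of_ne hq ht hqt, e, mul_one, mul_assoc, hP.zz, mul_one]
    · exact ⟨q, hq, hqt, e⟩
  have ho : orderOf a = 4 := orderOf_eq_prime_pow (p := 2) (n := 1)
    (by rw [pow_one, pow_two, ha2]; exact h.ne_one)
    (by rw [show 2 ^ (1 + 1) = 2 * 2 from rfl, pow_mul, pow_two, pow_two, ha2, h.zz])
  obtain ⟨e⟩ := H11.nonempty_closure_equiv_dihedral (s := t) (by norm_num) ho (by
      rw [h.conj_eq_of_ne ht ha (Ne.symm hat), eq_inv_iff_mul_eq_one, mul_assoc, ha2, h.zz]) hP.zz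
    (by rintro ⟨k, hk⟩; exact hat (hk ▸ (Commute.zpow_right (Commute.refl a) k).eq))
  refine ⟨(MulEquiv.subgroupCongr (le_antisymm (fun r hr => ?_) ?_)).trans e⟩
  · have h1 : a ∈ closure ({a, t} : Set L) := Pr.z_mem
    have h2 : t ∈ closure ({a, t} : Set L) := Pr.t_mem
    have h3 : zpowers z ≤ closure ({a, t} : Set L) := Subgroup.zpowers_le.mpr (ha2 ▸ mul_mem h1 h1)
    have h4 : ∀ r ∈ (R : Subgroup L), r * t = t * r → r ∈ closure ({a, t} : Set L) := fun r hr e =>
      (key r hr e).elim (fun e => h3 e) fun e => by simpa using mul_mem (h3 e) (inv_mem h2)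
    by_cases e' : r * t = t * r
    · exact h4 r hr e'
    · simpa using mul_mem (inv_mem h1) (h4 _ (mul_mem ha hr) ((h.comm_mul_iff ht ha hr).mpr
        ⟨fun e => absurd e.symm hat, fun e => absurd e.symm e'⟩).symm)
  · exact (closure_le _).mpr (by rintro _ (rfl | rfl); exacts [ha, ht])

end Cfsg.Agent.S5435
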