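import Cfsg.Statements.S5436
import Cfsg.Agent.H10.Xsp6

set_option autoImplicit false
open Cfsg

namespace Cfsg.Agent.S5436

/-- Let z be an involution of the finite group G with centralizer H whose generalized Fitting subgroup Q is extraspecial of width at least 2 (order 2^(2w+1), w ≥ 2); suppose some conjugate of z other than z lies in Q, H/Q is a non-abelian simple group, H acts irreducibly by conjugation on Q modulo the subgroup generated by z (the only H-invariant subgroups of Q containing z are that subgroup and Q), and Q is not the subgroup generated by the conjugates of z lying in H. Then G is simple. -/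
theorem result {G : Type*} [Group G] [Finite G] (z : G) (hz : orderOf z = 2) (Q : Subgroup (Subgroup.centralizer ({z} : Set G))) [Q.Normal] (hF : Cfsg.generalizedFittingSubgroup ↥(Subgroup.centralizer ({z} : Set G)) = Q) (hQ : Cfsg.IsExtraspecial 2 ↥Q) (w : ℕ) (hw : 2 ≤ w) (hcard : Nat.card ↥Q = 2 ^ (2 * w + 1)) (hnwc : ∃ g : G, (∃ hq : g * z * g⁻¹ ∈ Subgroup.centralizer ({z} : Set G), (⟨g * z * g⁻¹, hq⟩ : Subgroup.centralizer ({z} : Set G)) ∈ Q) ∧ g * z * g⁻¹ ≠ z) (hsimp : IsSimpleGroup (↥(Subgroup.centralizer ({z} : Set G)) ⧸ Q)) (hna : ¬ IsMulCommutative (↥(Subgroup.centralizer ({z} : Set G)) ⧸ Q)) (hirr : ∀ W : Subgroup (Subgroup.centralizer ({z} : Set G)), W.Normal → W ≤ Q → (W = Q ∨ ∀ x ∈ W, (x : G) ∈ Subgroup.zpowers z)) (hwcl : Subgroup.closure {x : Subgroup.centralizer ({z} : Set G) | IsConj z (x : G)} ≠ Q) : IsSimpleGroup G := by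
  open Subgroup Cfsg.Agent.H10 in
  have : Fact (Nat.Prime 2) := ⟨Nat.prime_two⟩
  obtain ⟨y, hy, -⟩ := exists_xs hQ
  have hF' : FstarOf (centralizer ({z} : Set G)) = Q.map (Subgroup.subtype _) := by
    rw [FstarOf_def, hF]
  have h := lx_of_fstar hz hF' (hy.map (Subgroup.subtype_injective _)).isExtraspecial
  obtain ⟨g, ⟨h1, h2⟩, h3⟩ := hnwc
  refine h.simple (h.large_of_conj ⟨_, h2, rfl⟩ h3) ?_
    (hF' ▸ FstarOf_eq_OpOf_iff.mpr (hF' ▸ h.isPGroup))
  set W := closure {x : centralizer ({z} : Set G) | IsConj z (x : G)} with hW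
  have hWn : W.Normal := by
    refine ⟨fun x hx k => ?_⟩
    have : W.map (MulAut.conj k).toMonoidHom ≤ W := by
      rw [hW, MonoidHom.map_closure]
      refine closure_mono ?_
      rintro _ ⟨x, hx, rfl⟩
      exact IsConj.trans hx (H11.isConj_conj (k : G) x)
    exact this ⟨x, hx, rfl⟩
  have hQW : Q ≤ W := by
    rcases hirr (W ⊓ Q) inferInstance inf_le_right with e | e
    · exact e ▸ inf_le_left
    · exact absurd ((h.mem_z.mp (e _ ⟨subset_closure (H11.isConj_conj g z), h2⟩)).resolve_left
        (h.conj g).ne_one) h3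
  have hW' : W = ⊤ := by
    rcases hsimp.eq_bot_or_eq_top_of_normal (W.map (QuotientGroup.mk' Q))
      (hWn.map _ (QuotientGroup.mk'_surjective Q)) with e | e
    · rw [Subgroup.map_eq_bot_iff, QuotientGroup.ker_mk'] at e
      exact absurd (le_antisymm e hQW) hwcl
    · have := congrArg (comap (QuotientGroup.mk' Q)) e
      rwa [comap_map_eq, QuotientGroup.ker_mk', sup_eq_left.mpr hQW, comap_top] at this
  intro c hc
  have : W ≤ (normalClosure ({z} : Set G)).subgroupOf _ := (closure_le _).mpr fun x hx => by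
    obtain ⟨k, hk⟩ := isConj_iff.mp hx
    exact mem_subgroupOf.mpr (hk ▸ Subgroup.Normal.conj_mem inferInstance z
      (subset_normalClosure (Set.mem_singleton z)) k)
  exact this (hW' ▸ mem_top (⟨c, hc⟩ : centralizer ({z} : Set G)))

end Cfsg.Agent.S5436
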