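import Cfsg.Statements.S5437
import Cfsg.Agent.H10.Xsp5

set_option autoImplicit false
open Cfsg

namespace Cfsg.Agent.S5437

/-- Let I be a set of involutions of the finite group G closed under conjugation, and H a subgroup of G. The following are equivalent: (1) for every member x of I lying in H, the conjugates of x lying in H form a single H-class and the centralizer of x lies in H; (2) for every g outside H, no member of I lies in both H and g H g⁻¹; (3) every member of I lying in H fixes exactly one coset in the action of G on the cosets of H. -/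
theorem result {G : Type*} [Group G] [Finite G] (I : Set G) (hI : ∀ x ∈ I, orderOf x = 2) (hIc : ∀ g : G, ∀ x ∈ I, g * x * g⁻¹ ∈ I) (H : Subgroup G) : ((∀ x ∈ I, x ∈ H → (∀ g : G, g * x * g⁻¹ ∈ H → ∃ h ∈ H, h * x * h⁻¹ = g * x * g⁻¹) ∧ Subgroup.centralizer ({x} : Set G) ≤ H) ↔ (∀ g : G, g ∉ H → ∀ x ∈ I, ¬ (x ∈ H ∧ x ∈ (H : Subgroup G).map (MulAut.conj g).toMonoidHom))) ∧ ((∀ g : G, g ∉ H → ∀ x ∈ I, ¬ (x ∈ H ∧ x ∈ (H : Subgroup G).map (MulAut.conj g).toMonoidHom)) ↔ ∀ x ∈ I, x ∈ H → ∃! c : G ⧸ H, x • c = c) := by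
  open Subgroup Cfsg.Agent.H10 in
  refine ⟨⟨fun h g hg x hx e => ?_, fun h x hx hxH => ⟨fun g hg => ⟨g, ?_, rfl⟩, fun c hc => ?_⟩⟩,
    ⟨fun h x hx hxH => ⟨(1 : G), ?_, fun c hc => ?_⟩, fun h g hg x hx e => hg ?_⟩⟩
  · obtain ⟨k, hk, e1⟩ := (h x hx e.1).1 g⁻¹ (by simpa using mem_conj_iff.mp e.2)
    have : g * k ∈ H := (h x hx e.1).2 (mem_centralizer_singleton_iff.mpr (by
      calc g * k * x = g * (k * x * k⁻¹) * k := by group
        _ = _ := by rw [e1]; group))
    exact hg (by simpa using mul_mem this (inv_mem hk))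
  · by_contra e
    exact h g⁻¹ (fun e' => e (by simpa using e')) x hx ⟨hxH, mem_conj_iff.mpr (by simpa using hg)⟩
  · by_contra e
    refine h c e x hx ⟨hxH, mem_conj_iff.mpr ?_⟩
    rw [mul_assoc, ← mem_centralizer_singleton_iff.mp hc]
    simpa using hxH
  · exact QuotientGroup.eq.mpr (by simpa using hxH)
  · obtain ⟨g, rfl⟩ := QuotientGroup.mk_surjective c
    have e1 : g⁻¹ * x * g ∈ H := by
      have := QuotientGroup.eq.mp (show ((g : G) : G ⧸ H) = ((x * g : G) : G ⧸ H) from hc.symm)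
      rwa [← mul_assoc] at this
    have : g ∈ H := by
      by_contra e
      exact h g e x hx ⟨hxH, mem_conj_iff.mpr e1⟩
    exact QuotientGroup.eq.mpr (by simpa using this)
  · have := (h x hx e.1).unique (y₁ := ((1 : G) : G ⧸ H)) (y₂ := (g : G ⧸ H))
      (QuotientGroup.eq.mpr (by simpa using e.1))
      (Eq.symm (QuotientGroup.eq.mpr (by simpa [mul_assoc] using mem_conj_iff.mp e.2)))
    simpa using QuotientGroup.eq.mp this

end Cfsg.Agent.S5437
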