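import Cfsg.Statements.S5438
import Cfsg.Agent.H10.Xsp5

set_option autoImplicit false
open Cfsg

namespace Cfsg.Agent.S5438

/-- Let z be a 2-central involution of the finite group G (an involution central in some Sylow 2-subgroup) and H a subgroup containing z such that the coset H is the only coset of H fixed by z (in the action of G on the cosets of H). Then H has odd index in G, and for every 2-element x of H the conjugates of x lying in H form a single H-class. -/
theorem result {G : Type*} [Group G] [Finite G] (z : G) (hz : Cfsg.IsTwoCentralInvolution z) (H : Subgroup G) (hzH : z ∈ H) (hfix : ∀ g : G, g⁻¹ * z * g ∈ H → g ∈ H) : Odd H.index ∧ ∀ x ∈ H, (∃ k : ℕ, orderOf x = 2 ^ k) → ∀ g : G, g * x * g⁻¹ ∈ H → ∃ h ∈ H, h * x * h⁻¹ = g * x * g⁻¹ := by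
  open Subgroup Cfsg.Agent.H10 in
  have : Fact (Nat.Prime 2) := ⟨Nat.prime_two⟩
  obtain ⟨hz2, P, hzP, hP⟩ := hz
  have hPH : (P : Subgroup G) ≤ H := fun x hx => hfix x (by
    rw [mul_assoc, ← hP x hx]; simpa using hzH)
  refine ⟨Nat.odd_iff.mpr (Nat.two_dvd_ne_zero.mp fun e =>
    P.not_dvd_index (e.trans (index_dvd_of_le hPH))), fun x hx ⟨k, hk⟩ g hg => ?_⟩
  have key : ∀ y ∈ H, orderOf y = 2 ^ k → ∃ h ∈ H, ∃ S, H3.SylowIn 2 S (centralizer {y}) ∧
      S ≤ H ∧ h⁻¹ * z * h ∈ S := by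
    intro y hy hy2
    obtain ⟨h, hh, e⟩ := (H3.sylowIn_of_le P hPH).exists_conj_le
      (H11.isPGroup_zpowers_of_orderOf hy2) (Subgroup.zpowers_le.mpr hy)
    have e1 := hP _ (H3.conj_smul_le_iff.mp e y (mem_zpowers y))
    obtain ⟨S, h1, h2, h3⟩ := exists_sylowIn_of_fix (p := 2) (H := H) (C := centralizer {y})
      (z := h⁻¹ * z * h) (H11.isPGroup_zpowers_of_orderOf (k := 1)
        (by simpa [hz2] using H11.orderOf_conj h⁻¹ z))
      (mul_mem (mul_mem (inv_mem hh) hzH) hh) (mem_centralizer_singleton_iff.mpr (by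
        calc h⁻¹ * z * h * y = h⁻¹ * (z * (h * y * h⁻¹)) * h := by group
          _ = _ := by rw [← e1]; group))
      (fun g hg => by
        have := hfix (h * g⁻¹) (by simpa [mul_assoc] using hg)
        simpa using mul_mem (inv_mem this) hh)
    exact ⟨h, hh, S, h1, h2, h3⟩
  obtain ⟨h1, hh1, S1, a1, b1, c1⟩ := key x hx hk
  obtain ⟨h2, hh2, S2, a2, b2, c2⟩ := key _ hg (by rw [H11.orderOf_conj, hk])
  have a3 := a1.conj g
  rw [← H3.map_conj_eq_smul (centralizer _), conj_centralizer_singleton] at a3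
  obtain ⟨c, hc, e⟩ := a3.exists_conj a2
  rw [H3.conj_smul_conj_smul] at e
  have h4 := b2 (e ▸ H3.conj_mem_conj_smul.mpr c1)
  have h5 := hfix (h1 * (c * g)⁻¹) (by simpa [mul_assoc] using h4)
  refine ⟨c * g, by simpa using mul_mem (inv_mem h5) hh1, ?_⟩
  calc _ = c * (g * x * g⁻¹) * c⁻¹ := by group
    _ = _ := by rw [mem_centralizer_singleton_iff.mp hc, mul_inv_cancel_right]

end Cfsg.Agent.S5438
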