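import Cfsg.Statements.S5439
import Cfsg.Agent.H10.Xsp5

set_option autoImplicit false
open Cfsg

namespace Cfsg.Agent.S5439

/-- Let I and J be two different conjugacy classes of involutions of the finite group G and H a subgroup such that every member of I ∪ J fixes exactly one coset in the action on the cosets of H, and such that for every a in I ∩ H and every b in (I ∪ J) ∩ H different from a and commuting with it, the centralizer of a b lies in H. Then H = G. -/
theorem result {G : Type*} [Group G] [Finite G] (I J : Set G) (a₀ b₀ : G) (ha₀ : orderOf a₀ = 2) (hb₀ : orderOf b₀ = 2) (hI : I = {x | IsConj a₀ x}) (hJ : J = {x | IsConj b₀ x}) (hIJ : I ≠ J) (H : Subgroup G) (hfix : ∀ x ∈ I ∪ J, ∃! c : G ⧸ H, x • c = c) (hcent : ∀ a ∈ I, a ∈ H → ∀ b ∈ I ∪ J, b ∈ H → a ≠ b → a * b = b * a → Subgroup.centralizer ({a * b} : Set G) ≤ H) : H = ⊤ := by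
  open Subgroup Cfsg.Agent.H10 in
  have hfix' : ∀ x ∈ I ∪ J, ∀ g k : G, g⁻¹ * x * g ∈ H → k⁻¹ * x * k ∈ H → g⁻¹ * k ∈ H := by
    intro x hx g k h1 h2
    exact QuotientGroup.eq.mp ((hfix x hx).unique (y₁ := (g : G ⧸ H)) (y₂ := (k : G ⧸ H))
      (Eq.symm (QuotientGroup.eq.mpr (by simpa [mul_assoc] using h1)))
      (Eq.symm (QuotientGroup.eq.mpr (by simpa [mul_assoc] using h2))))
  have hI' : ∀ x ∈ I, ∀ y, IsConj x y → y ∈ I := fun x hx y e => by
    rw [hI] at hx ⊢; exact IsConj.trans hx e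
  have hJ' : ∀ x ∈ J, ∀ y, IsConj x y → y ∈ J := fun x hx y e => by
    rw [hJ] at hx ⊢; exact IsConj.trans hx e
  have ha0 : a₀ ∈ I := by rw [hI]; exact IsConj.refl _
  have hb0 : b₀ ∈ J := by rw [hJ]; exact IsConj.refl _
  by_contra hne
  obtain ⟨a, haI, haH⟩ : ∃ a ∈ I, a ∈ H := by
    obtain ⟨c, hc⟩ := (hfix a₀ (Or.inl ha0)).exists
    obtain ⟨g, rfl⟩ := QuotientGroup.mk_surjective c
    refine ⟨g⁻¹ * a₀ * g, hI' _ ha0 _ (by simpa using H11.isConj_conj g⁻¹ a₀), ?_⟩
    have := QuotientGroup.eq.mp (show ((g : G) : G ⧸ H) = ((a₀ * g : G) : G ⧸ H) from hc.symm)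
    rwa [← mul_assoc] at this
  obtain ⟨b, hbJ, hbH⟩ : ∃ b ∈ J, b ∉ H := by
    by_contra hc
    push Not at hc
    refine hne (eq_top_iff.mpr fun g _ => ?_)
    simpa using hfix' b₀ (Or.inr hb0) 1 g (by simpa using hc _ hb0)
      (hc _ (hJ' _ hb0 _ (by simpa using H11.isConj_conj g⁻¹ b₀)))
  have ha2 : a * a = 1 := H11.mul_self_of_orderOf_two (by
    rw [hI] at haI; rw [← H11.orderOf_eq_of_isConj haI, ha₀])
  have hb2 : b * b = 1 := H11.mul_self_of_orderOf_two (by
    rw [hJ] at hbJ; rw [← H11.orderOf_eq_of_isConj hbJ, hb₀])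
  obtain ⟨w, ⟨k, hk⟩, hw, hwa, hwb⟩ := H11.exists_invol_commute_of_not_isConj ha2 hb2 (fun e => hIJ (by
    rw [hI] at haI
    rw [hJ] at hbJ
    have e1 : IsConj a₀ b₀ := (IsConj.trans haI e).trans (IsConj.symm hbJ)
    rw [hI, hJ]
    ext x
    exact ⟨fun h => e1.symm.trans h, fun h => e1.trans h⟩))
  have hwH : w ∈ H := by
    simpa using hfix' a (Or.inl haI) 1 w (by simpa using haH) (by
      rw [mul_assoc, ← hwa.eq]; simpa using haH)
  have hinv := H11.invol_inverts_left ha2 hb2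
  have hc : a * w ∈ I ∪ J := by
    have e : ∀ j : ℤ, (a * b) ^ (-j) * a = a * (a * b) ^ j := fun j => by
      rw [H11.zpow_mul_of_inv hinv, neg_neg]
    rcases Int.even_or_odd' k with ⟨j, rfl | rfl⟩
    · refine Or.inl (hI' _ haI _ (isConj_iff.mpr ⟨(a * b) ^ (-j), ?_⟩))
      rw [e, ← hk]; group
    · refine Or.inr (hJ' _ hbJ _ (isConj_iff.mpr ⟨(a * b) ^ (-j), ?_⟩))
      have : b = a * (a * b) := by rw [← mul_assoc, ha2, one_mul]
      calc (a * b) ^ (-j) * b * ((a * b) ^ (-j))⁻¹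
          = (a * b) ^ (-j) * (a * (a * b)) * ((a * b) ^ (-j))⁻¹ := by rw [← this]
        _ = a * ((a * b) ^ j * (a * b) * (a * b) ^ j) := by
            rw [← mul_assoc ((a * b) ^ (-j)), e, zpow_neg, inv_inv]; simp only [mul_assoc]
        _ = _ := by
            rw [← hk, ← zpow_add_one, ← zpow_add]
            congr 2; ring
  have := hcent a haI haH _ hc (mul_mem haH hwH)
    (fun e => H11.ne_one_of_orderOf_two hw (by simpa using e)) (by rw [mul_assoc, hwa.eq])
  rw [← mul_assoc, ha2, one_mul] at this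
  exact hbH (this (mem_centralizer_singleton_iff.mpr hwb.eq.symm))

end Cfsg.Agent.S5439
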