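import Cfsg.Statements.S5440
import Cfsg.Agent.H21.Fi5

set_option autoImplicit false
set_option linter.style.haveILetI false
open Cfsg

namespace Cfsg.Agent.S5440

open Cfsg.Agent.LL Cfsg.Agent.LL.U6 Cfsg.Agent.H10 Subgroup

/-- Let G be a finite group of large Fischer type at the involution z: the generalized Fitting subgroup Q of H = C_G(z) is extraspecial of order 2^13, H has normal subgroups Q ≤ H₁ ≤ H₂ with H₁/Q of order 3, H₂/H₁ the projective special unitary group of dimension 4 over the field with nine elements and H₂ of index 2 in H, and some conjugate of z other than z lies in Q. Then H has exactly two orbits, under conjugation, on the involutions of Q other than z. -/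
theorem result {G : Type*} [Group G] [Finite G] (z : G) (Q : Subgroup (Subgroup.centralizer ({z} : Set G))) [Q.Normal] (hF : Cfsg.IsOfLargeFischerTypeAt z Q) : ∃ s t : Subgroup.centralizer ({z} : Set G), s ∈ Q ∧ t ∈ Q ∧ orderOf s = 2 ∧ orderOf t = 2 ∧ (s : G) ≠ z ∧ (t : G) ≠ z ∧ (¬ ∃ h : Subgroup.centralizer ({z} : Set G), h * s * h⁻¹ = t) ∧ ∀ x : Subgroup.centralizer ({z} : Set G), x ∈ Q → orderOf x = 2 → (x : G) ≠ z → (∃ h : Subgroup.centralizer ({z} : Set G), h * s * h⁻¹ = x) ∨ ∃ h : Subgroup.centralizer ({z} : Set G), h * t * h⁻¹ = x := by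
  obtain ⟨ρ, p, m, hr⟩ := exists_FT hF
  have hK : K0 ≤ ρ.range := hr ▸ K0_H1
  have k : ∀ v ≠ 0, hf v v = 0 → ∃ s ∈ Q, p s = v ∧ orderOf s = 2 ∧ (s : G) ≠ z := fun v h0 h => by
    obtain ⟨_, ⟨s, hs, rfl⟩, rfl⟩ := m.surj v
    have h1 := mt (m.zero ⟨s, hs, rfl⟩).mpr h0
    refine ⟨s, hs, rfl, orderOf_eq_prime (Subtype.ext ?_) fun e => h1 ?_, fun e => h1 ?_⟩
    · rw [pow_two]; exact (m.sq ⟨s, hs, rfl⟩).mpr h
    · rw [e]; exact one_mem _
    · rw [coe_subtype, e]; exact mem_zpowers z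
  obtain ⟨s, hs, es, a1, a2⟩ := k v0 v0_ne (hf_of (by decide +kernel))
  obtain ⟨t, ht, et, b1, b2⟩ := k v1 v1_ne (hf_of (by decide +kernel))
  refine ⟨s, t, hs, ht, a1, b1, a2, b2, fun ⟨h, e⟩ => not_orb (hr.le ⟨h, rfl⟩) ?_, fun x hx h2 hz => ?_⟩
  · rw [← es, ← m.act h (x := s) ⟨s, hs, rfl⟩, ← et, ← e]; rfl
  · have hx' : (x : G) ∈ Q.map (centralizer ({z} : Set G)).subtype := ⟨x, hx, rfl⟩
    obtain ⟨g, hg, e⟩ := m.invol hx' (by rw [← coe_mul, ← pow_two, ← h2, pow_orderOf_eq_one, coe_one]) fun e => by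
      rcases m.lx.mem_z.mp e with e | e
      · rw [show x = 1 from Subtype.ext e, orderOf_one] at h2; omega
      · exact hz e
    exact e.imp (fun e => (m.conj_of' hK ⟨s, hs, rfl⟩ hx' v0_ne ⟨1, one_mem _, es⟩ ⟨g, hg, e⟩).imp fun _ => Subtype.ext)
      fun e => (m.conj_of' hK ⟨t, ht, rfl⟩ hx' v1_ne ⟨1, one_mem _, et⟩ ⟨g, hg, e⟩).imp fun _ => Subtype.ext

end Cfsg.Agent.S5440
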