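import Cfsg.Statements.S5442
import Cfsg.Agent.H21.Fi5

set_option autoImplicit false
set_option linter.style.haveILetI false
open Cfsg

namespace Cfsg.Agent.S5442

open Cfsg.Agent.LL Cfsg.Agent.LL.U6 Cfsg.Agent.H10 Subgroup

/-- Let G be a finite group of large Fischer type at the involution z: the generalized Fitting subgroup Q of H = C_G(z) is extraspecial of order 2^13, H has normal subgroups Q ≤ H₁ ≤ H₂ with H₁/Q of order 3, H₂/H₁ the projective special unitary group of dimension 4 over the field with nine elements and H₂ of index 2 in H, and some conjugate of z other than z lies in Q. Let s = g z g⁻¹ be a conjugate of z lying in Q and different from z. Then the intersection of Q and g Q g⁻¹ (as subgroups of G) is elementary abelian of order 2^7; and in H/Q, writing X for the image of the centralizer of s in H and E for the image of the intersection of g Q g⁻¹ with H, E is a normal subgroup of X, elementary abelian of order 32, with X/E isomorphic to the alternating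 group of degree 6. -/
theorem result {G : Type*} [Group G] [Finite G] (z : G) (Q : Subgroup (Subgroup.centralizer ({z} : Set G))) [Q.Normal] (hF : Cfsg.IsOfLargeFischerTypeAt z Q) (s : G) (hsQ : ∃ hsc : s ∈ Subgroup.centralizer ({z} : Set G), (⟨s, hsc⟩ : Subgroup.centralizer ({z} : Set G)) ∈ Q) (hs : IsConj z s) (hs1 : s ≠ z) (g : G) (hg : g * z * g⁻¹ = s) (X E : Subgroup ((Subgroup.centralizer ({z} : Set G)) ⧸ Q)) (hX : X = ((Subgroup.centralizer ({z} : Set G) ⊓ Subgroup.centralizer ({s} : Set G)).subgroupOf (Subgroup.centralizer ({z} : Set G))).map (QuotientGroup.mk' Q)) (hE : E = ((((Q.map (Subgroup.centralizer ({z} : Set G)).subtype)).map (MulAut.conj g).toMonoidHom ⊓ Subgroup.centralizer ({z} : Set G)).subgroupOf (Subgroup.centralizer ({z} : Set G))).map (QuotientGroup.mk' Q)) : Cfsg.IsElementaryAbelian 2 ((Q.map (Subgroup.centralizer ({z} : Set G)).subtype) ⊓ ((Q.map (Subgroup.centralizer ({z} : Set G)).subtype)).map (MulAut.conj g).toMonoidHom) ∧ Nat.card ↥((Q.map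 (Subgroup.centralizer ({z} : Set G)).subtype) ⊓ ((Q.map (Subgroup.centralizer ({z} : Set G)).subtype)).map (MulAut.conj g).toMonoidHom) = 2 ^ 7 ∧ E ≤ X ∧ (∀ x ∈ X, ∀ y ∈ E, x * y * x⁻¹ ∈ E) ∧ Cfsg.IsElementaryAbelian 2 E ∧ Nat.card E = 32 ∧ ∃ _ : (E.subgroupOf X).Normal, Nonempty (↥X ⧸ E.subgroupOf X ≃* alternatingGroup (Fin 6)) := by
  obtain ⟨ρ0, p0, m0, hr0⟩ := exists_FT hF
  have h1 := mem_map_cent.mpr hsQ
  obtain ⟨k, hk, e1⟩ := m0.to_v1' hr0 h1 hs hs1
  have hk' : k ∈ ρ0.range := hr0.ge (K0_H1 hk)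
  obtain ⟨ρ, p, m, hr, e⟩ : ∃ ρ p, FT z (Q.map (centralizer ({z} : Set G)).subtype) ρ p ∧ ρ.range = H1 ∧ p s = v1 :=
    ⟨_, _, m0.shift' hk', (range_shift hk').trans hr0, e1⟩
  subst hg
  have hp := m.lx.lpr h1 hs1
  have hq : ∀ x, ρ x = 1 ↔ x ∈ Q := fun x => (m.ker x).trans (mem_map_iff_mem (subtype_injective _))
  obtain ⟨ι, hι⟩ := U6.exists_lift (QuotientGroup.mk' Q) (QuotientGroup.mk'_surjective Q) ρ
    fun x hx => (hq x).mpr ((QuotientGroup.eq_one_iff x).mp hx)
  have hi : Function.Injective ι := (injective_iff_map_eq_one ι).mpr fun x hx => by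
    obtain ⟨x, rfl⟩ := QuotientGroup.mk'_surjective Q x
    exact (QuotientGroup.eq_one_iff x).mpr ((hq x).mp (hι x ▸ hx))
  have hc : ι.comp (QuotientGroup.mk' Q) = ρ := MonoidHom.ext hι
  have h2 : E.map ι = E32 := m.E_eq hp (m.card_conj g) (by rw [hE, map_map, hc]) hr e
  have h3 : X.map ι = X1 := by rw [hX, map_map, hc, m.bar_cent h1 (e ▸ v1_ne), hr, e]
  have h4 : Nat.card E = 32 := by rw [← card_map_of_injective hi, h2, E32_card]
  have h5 := m.card_E hp (m.card_conj g) (E := E.map ι) (by rw [hE, map_map, hc])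
  rw [card_map_of_injective hi, h4] at h5
  have h6 : ∀ y ∈ E, y * y = 1 := fun y hy => hi (by
    rw [map_mul, map_one]; exact m.E_sq hp (E := E.map ι) (by rw [hE, map_map, hc]) _ (mem_map_of_mem ι hy))
  have h7 : ∀ {A : Type _} [Group A] {B : Subgroup A}, (∀ x ∈ B, x * x = 1) → IsElementaryAbelian 2 B := fun h =>
    ⟨⟨⟨fun x y => Subtype.ext (H11.comm_of_sq_eq_one h x.2 y.2)⟩⟩, fun a ha => by rw [pow_two]; exact h a ha⟩
  obtain ⟨θ, hs, hθ⟩ := exists_θ
  let u := (equivMapOfInjective X ι hi).trans (MulEquiv.subgroupCongr h3)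
  have h8 : E.subgroupOf X = (θ.comp u.toMonoidHom).ker := Subgroup.ext fun x =>
    ((hθ (u x)).trans (h2 ▸ mem_map_iff_mem hi)).symm
  haveI hn : (E.subgroupOf X).Normal := h8 ▸ MonoidHom.normal_ker _
  exact ⟨h7 (MT.sq_inf hp), by omega, MT.E_le hp hX hE, MT.E_conj hp hX hE, h7 h6, h4,
    hn, ⟨(QuotientGroup.quotientMulEquivOfEq h8).trans
      (QuotientGroup.quotientKerEquivOfSurjective _ (hs.comp u.surjective))⟩⟩

end Cfsg.Agent.S5442
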