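import Cfsg.Statements.S5443
import Cfsg.Agent.H21.Fi5

set_option autoImplicit false
set_option linter.style.haveILetI false
open Cfsg

namespace Cfsg.Agent.S5443

open Cfsg.Agent.LL Cfsg.Agent.LL.U6 Cfsg.Agent.H10 Subgroup

/-- Let G be a finite group of large Fischer type at the involution z: the generalized Fitting subgroup Q of H = C_G(z) is extraspecial of order 2^13, H has normal subgroups Q ≤ H₁ ≤ H₂ with H₁/Q of order 3, H₂/H₁ the projective special unitary group of dimension 4 over the field with nine elements and H₂ of index 2 in H, and some conjugate of z other than z lies in Q. Let t be an involution of Q not conjugate to z in G, and S the set of elements of H conjugating t to t or to t z (the stabilizer of the image of t in Q modulo its centre). Then the image of S in H/Q is isomorphic to the full isometry group of the elliptic quadratic form in dimension 6 over the field with two elements. -/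
theorem result {G : Type*} [Group G] [Finite G] (z : G) (Q : Subgroup (Subgroup.centralizer ({z} : Set G))) [Q.Normal] (hF : Cfsg.IsOfLargeFischerTypeAt z Q) (t : Subgroup.centralizer ({z} : Set G)) (htQ : t ∈ Q) (ht2 : orderOf t = 2) (ht : ¬ IsConj z (t : G)) (S : Subgroup (Subgroup.centralizer ({z} : Set G))) (hS : ∀ h : Subgroup.centralizer ({z} : Set G), h ∈ S ↔ (h * t * h⁻¹ = t ∨ ((h * t * h⁻¹ : Subgroup.centralizer ({z} : Set G)) : G) = t * z)) : Nonempty (↥(S.map (QuotientGroup.mk' Q)) ≃* Cfsg.isometryGroup (ZMod 2) (Cfsg.quadFormMinus 2 (ZMod 2) 1 1)) := by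
  obtain ⟨ρ0, p0, m0, hr0⟩ := exists_FT hF
  have h1 : (t : G) ∈ Q.map (centralizer ({z} : Set G)).subtype := ⟨t, htQ, rfl⟩
  obtain ⟨k, hk, e1⟩ := m0.invol h1 (by rw [← coe_mul, ← pow_two, ← ht2, pow_orderOf_eq_one, coe_one]) fun e => by
    rcases m0.lx.mem_z.mp e with e | e
    · rw [show t = 1 from Subtype.ext e, orderOf_one] at ht2; omega
    · exact ht (by rw [e])
  replace e1 := e1.resolve_right fun e => ht (m0.isConj_of hr0 (setting_nwc hF.1) h1 ⟨k, hk, e⟩)
  have hk' : k ∈ ρ0.range := hr0.ge (K0_H1 hk)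
  obtain ⟨ρ, p, m, hr, e⟩ : ∃ ρ p, FT z (Q.map (centralizer ({z} : Set G)).subtype) ρ p ∧ ρ.range = H1 ∧ p t = v0 :=
    ⟨_, _, m0.shift' hk', (range_shift hk').trans hr0, e1⟩
  have hq : ∀ x, ρ x = 1 ↔ x ∈ Q := fun x => (m.ker x).trans (mem_map_iff_mem (subtype_injective _))
  obtain ⟨ι, hι⟩ := U6.exists_lift (QuotientGroup.mk' Q) (QuotientGroup.mk'_surjective Q) ρ
    fun x hx => (hq x).mpr ((QuotientGroup.eq_one_iff x).mp hx)
  have hi : Function.Injective ι := (injective_iff_map_eq_one ι).mpr fun x hx => by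
    obtain ⟨x, rfl⟩ := QuotientGroup.mk'_surjective Q x
    exact (QuotientGroup.eq_one_iff x).mpr ((hq x).mp (hι x ▸ hx))
  have h2 : ∀ h, h ∈ S ↔ ρ h v0 = v0 := fun h => by
    rw [hS, ← e, ← m.act h h1, m.lx.cent _ h1, Subtype.ext_iff]
    refine ⟨?_, fun e => m.uniq h1 (m.conj_mem h h1) e.symm⟩
    rintro (e | e)
    · exact congrArg p e
    · exact (congrArg p e).trans (m.p_zmul h1)
  have h3 : (S.map (QuotientGroup.mk' Q)).map ι = Y0 := by
    rw [map_map, show ι.comp (QuotientGroup.mk' Q) = ρ from MonoidHom.ext hι]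
    refine le_antisymm (by rintro _ ⟨h, hh, rfl⟩; exact ⟨hr.le ⟨h, rfl⟩, (h2 h).mp hh⟩) fun g hg => ?_
    obtain ⟨h, rfl⟩ := hr.ge hg.1
    exact ⟨h, (h2 h).mpr hg.2, rfl⟩
  obtain ⟨u⟩ := Y0_iso
  exact ⟨((equivMapOfInjective _ ι hi).trans (MulEquiv.subgroupCongr h3)).trans u⟩

end Cfsg.Agent.S5443
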