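import Cfsg.Statements.S5444
import Cfsg.Agent.H21.Fi6

set_option autoImplicit false
set_option linter.style.haveILetI false
open Cfsg

namespace Cfsg.Agent.S5444

open Cfsg.Agent.LL Cfsg.Agent.LL.U6 Cfsg.Agent.H10 Subgroup

/-- Let G be a finite group of large Fischer type at the involution z: the generalized Fitting subgroup Q of H = C_G(z) is extraspecial of order 2^13, H has normal subgroups Q ≤ H₁ ≤ H₂ with H₁/Q of order 3, H₂/H₁ the projective special unitary group of dimension 4 over the field with nine elements and H₂ of index 2 in H, and some conjugate of z other than z lies in Q. Let T be a Sylow 2-subgroup of H. Then T has exactly one elementary abelian subgroup A of largest order; A has order 2^11, it meets Q in a subgroup of order 2^7, and its image in H/Q has order 16. -/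
theorem result {G : Type*} [Group G] [Finite G] (z : G) (Q : Subgroup (Subgroup.centralizer ({z} : Set G))) [Q.Normal] (hF : Cfsg.IsOfLargeFischerTypeAt z Q) (T : Sylow 2 ↥(Subgroup.centralizer ({z} : Set G))) : ∃ A : Subgroup ↥(T : Subgroup (Subgroup.centralizer ({z} : Set G))), Cfsg.maxElementaryAbelianSubgroups 2 ↥(T : Subgroup (Subgroup.centralizer ({z} : Set G))) = {A} ∧ Nat.card A = 2 ^ 11 ∧ Nat.card ↥(A.map (T : Subgroup (Subgroup.centralizer ({z} : Set G))).subtype ⊓ Q) = 2 ^ 7 ∧ Nat.card ↥((A.map (T : Subgroup (Subgroup.centralizer ({z} : Set G))).subtype).map (QuotientGroup.mk' Q)) = 16 := by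
  haveI : Fact (Nat.Prime 2) := ⟨Nat.prime_two⟩
  obtain ⟨ρ0, p0, m0, hr0⟩ := exists_FT hF
  obtain ⟨k, hk, e1⟩ := (sylowIn_of_card (p := 2) (k := 8) (m := 76545) Tb_H1 Tb_card H1_card (by decide)).exists_conj_le
    (T.2.map ρ0) ((map_le_range _ _).trans hr0.le)
  have hk' : k ∈ ρ0.range := hr0.ge hk
  obtain ⟨ρ, p, m, hr, e⟩ : ∃ ρ p, FT z (Q.map (centralizer ({z} : Set G)).subtype) ρ p ∧ ρ.range = H1 ∧
      (T : Subgroup (centralizer ({z} : Set G))).map ρ ≤ Tb :=
    ⟨_, _, m0.shift' hk', (range_shift hk').trans hr0, by rw [← map_map]; exact e1⟩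
  have hq : ρ.ker = Q := Subgroup.ext fun x => (m.ker x).trans (mem_map_iff_mem (subtype_injective _))
  have cQ := m.card
  rw [card_map_of_injective (subtype_injective _)] at cQ
  have h1 : m.AA ≤ T := inf_le_left.trans ((comap_mono F16_Tb).trans (T.3 ((IsPGroup.of_card (n := 8) Tb_card).comap_of_ker_isPGroup
    ρ (hq ▸ IsPGroup.of_card cQ)) (map_le_iff_le_comap.mp e)).le)
  have h2 : Nat.card (m.AA.subgroupOf T) = 2 ^ 11 := (Nat.card_congr (subgroupOfEquivOfLe h1).toEquiv).trans (m.card_AA hr)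
  have h3 : ∀ B : Subgroup (T : Subgroup (centralizer ({z} : Set G))), IsElementaryAbelian 2 B → 2 ^ 11 ≤ Nat.card B →
      B ≤ m.AA.subgroupOf T := fun B hB h => map_le_iff_le_comap.mp (m.le_AA ((map_mono (map_subtype_le B)).trans e)
    (by rintro _ ⟨b, hb, rfl⟩; rw [← map_mul, ← pow_two, hB.2 b hb, map_one])
    (by rwa [card_map_of_injective (subtype_injective _)]))
  have h4 : ∀ a ∈ m.AA.subgroupOf T, a * a = 1 := fun a ha => Subtype.ext (m.AA_sq hr ha)
  have h5 : IsElementaryAbelian 2 (m.AA.subgroupOf T) :=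
    ⟨⟨⟨fun a b => Subtype.ext (H11.comm_of_sq_eq_one h4 a.2 b.2)⟩⟩, fun a ha => (pow_two a).trans (h4 a ha)⟩
  have h6 : Nat.card ↥(m.AA ⊓ Q) = 2 ^ 7 := by
    rw [← m.card_A0, ← m.AA_ker', card_map_of_injective (subtype_injective _), hq]
  refine ⟨m.AA.subgroupOf T, Set.eq_singleton_iff_unique_mem.mpr ⟨⟨h5, fun B hB => ?_⟩, fun B hB => ?_⟩, h2, ?_, ?_⟩
  · by_contra! h
    exact (card_le_of_le (h3 B hB (h2 ▸ h.le))).not_gt h
  · exact eq_of_le_of_card_ge (h3 B hB.1 (h2 ▸ hB.2 _ h5)) (hB.2 _ h5)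
  · rwa [map_subgroupOf_eq_of_le h1]
  · have := card_map_mul_card_inf_ker (QuotientGroup.mk' Q) m.AA
    rw [QuotientGroup.ker_mk', h6, m.card_AA hr] at this
    rw [map_subgroupOf_eq_of_le h1]; omega

end Cfsg.Agent.S5444
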