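import Cfsg.Statements.S5445
import Cfsg.Agent.H21.Fi7
import Cfsg.Agent.H26.AutP

set_option autoImplicit false
set_option linter.style.haveILetI false
open Cfsg

namespace Cfsg.Agent.S5445

open Cfsg.Agent.LL Cfsg.Agent.LL.U6 Cfsg.Agent.H10 Subgroup

/-- Let G be a finite group of large Fischer type at the involution z: the generalized Fitting subgroup Q of H = C_G(z) is extraspecial of order 2^13, H has normal subgroups Q ≤ H₁ ≤ H₂ with H₁/Q of order 3, H₂/H₁ the projective special unitary group of dimension 4 over the field with nine elements and H₂ of index 2 in H, and some conjugate of z other than z lies in Q. Then G has an elementary abelian subgroup V of order 8 containing z whose normalizer L has the following structure: the largest normal 2-subgroup R of L is special of order 2^15 with centre V, and L/R is isomorphic to the direct product of SL(3, 2) and the alternating group of degree 6. -/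
theorem result {G : Type*} [Group G] [Finite G] (z : G) (Q : Subgroup (Subgroup.centralizer ({z} : Set G))) [Q.Normal] (hF : Cfsg.IsOfLargeFischerTypeAt z Q) : ∃ V : Subgroup G, Cfsg.IsElementaryAbelian 2 V ∧ Nat.card V = 8 ∧ z ∈ V ∧ ∃ R : Subgroup G, R = (Cfsg.pCore 2 ↥(Subgroup.normalizer (V : Set G))).map (Subgroup.normalizer (V : Set G)).subtype ∧ Cfsg.IsSpecial 2 ↥R ∧ Nat.card R = 2 ^ 15 ∧ (Subgroup.center ↥R).map R.subtype = V ∧ ∃ _ : (R.subgroupOf (Subgroup.normalizer (V : Set G))).Normal, Nonempty (↥(Subgroup.normalizer (V : Set G)) ⧸ R.subgroupOf (Subgroup.normalizer (V : Set G)) ≃* Matrix.SpecialLinearGroup (Fin 3) (ZMod 2) × ↥(alternatingGroup (Fin 6))) := by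
  have z2 : ∀ x : ZMod 2, x ≠ 0 → x = 1 := by decide
  haveI : Fact (Nat.Prime 2) := ⟨Nat.prime_two⟩
  obtain ⟨ρ, p, m, hr⟩ := exists_FT hF
  have hw := setting_nwc hF.1
  have ss := m.ss hr hw
  obtain ⟨θ, hs, hk⟩ := m.exists_θ' hr
  have hn : ∀ n ∈ normalizer (m.V : Set G), ∀ c ∈ centralizer (m.V : Set G), n * c * n⁻¹ ∈ centralizer (m.V : Set G) :=
    fun n hn c hc v hv => by
      have := hc _ ((mem_normalizer_iff.mp (inv_mem hn) v).mp hv)
      calc v * (n * c * n⁻¹) = n * (n⁻¹ * v * n⁻¹⁻¹ * c) * n⁻¹ := by group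
        _ = _ := by rw [this]; group
  let S : Subgroup G :=
    { carrier := {l | l ∈ normalizer (m.V : Set G) ∧ ∀ c d : centralizer (m.V : Set G), (d : G) = l * c * l⁻¹ → θ d = θ c}
      one_mem' := ⟨one_mem _, fun c d e => congrArg θ (Subtype.ext (by simpa using e))⟩
      mul_mem' := fun {a b} ha hb => ⟨mul_mem ha.1 hb.1, fun c d e =>
        (ha.2 ⟨_, hn b hb.1 c c.2⟩ d (by rw [e]; group)).trans (hb.2 c _ rfl)⟩
      inv_mem' := fun {a} ha => ⟨inv_mem ha.1, fun c d e => (ha.2 d c (by rw [e]; group)).symm⟩ }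
  have ha : ∀ φ : MulAut m.V, ∃ l ∈ S, ∀ u : m.V, l * u * l⁻¹ = φ u := fun φ =>
    let ⟨g, hg, e⟩ := ss.exists_aut φ
    ⟨g, iSup₂_le (a := S) (fun u hu l hl => ⟨ss.le_norm hu.1 hu.2 hl, fun c d e => by
      rw [← mul_inv_eq_one, ← map_inv, ← map_mul, hk]
      refine m.Qf_R hr hw hu.1 hu.2 ⟨?_, (d * c⁻¹).2⟩
      rw [coe_mul, coe_inv, e, mul_assoc, mul_assoc, ← mul_assoc (c : G)]
      exact mul_mem hl ((ss.lx u hu.1 hu.2).conj_mem (c.2 u hu.1).symm (inv_mem hl))⟩) hg, e⟩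
  obtain ⟨β, hβ⟩ := exists_beta θ hs (H16.center_eq_bot_of_simple (by rw [card_A6]; norm_num)) hn fun n hn' => by
    obtain ⟨l, hl, e⟩ := ha (m.V.normalizerMonoidHom ⟨n, hn'⟩)
    have h1 : l⁻¹ * n ∈ centralizer (m.V : Set G) := fun u hu => by
      have : l * u * l⁻¹ = n * u * n⁻¹ := e ⟨u, hu⟩
      calc u * (l⁻¹ * n) = l⁻¹ * (l * u * l⁻¹) * n := by group
        _ = _ := by rw [this]; group
    exact ⟨θ ⟨_, h1⟩, fun c d e => (hl.2 (⟨_, h1⟩ * c * ⟨_, h1⟩⁻¹) d (by rw [e]; simp [mul_assoc])).trans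
      (by simp only [map_mul, map_inv])⟩
  have hc : IsMulCommutative m.V := ⟨⟨fun a b => Subtype.ext (m.V_comm a.2 b.2)⟩⟩
  have h2 : ∀ a ∈ m.V, a ^ 2 = 1 := fun a h => (pow_two a).trans (m.V_sq h)
  obtain ⟨e0⟩ := H26.nonempty_mulAut_equiv_GL (V := m.V) (fun a => Subtype.ext (h2 a a.2)) m.card_V
  let e1 := e0.trans (MulEquiv.ofBijective (Matrix.SpecialLinearGroup.toGL (n := Fin 3) (R := ZMod 2))
    ⟨Matrix.SpecialLinearGroup.toGL_injective, fun g => ⟨⟨g, z2 _ (Matrix.isUnits_det_units g).ne_zero⟩, Units.ext rfl⟩⟩).symm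
  let Φ := (e1.toMonoidHom.comp m.V.normalizerMonoidHom).prod β
  have hα : ∀ n, m.V.normalizerMonoidHom n = 1 ↔ (n : G) ∈ centralizer (m.V : Set G) := fun n =>
    SetLike.ext_iff.mp m.V.normalizerMonoidHom_ker n
  have hC : centralizer (m.V : Set G) ≤ normalizer (m.V : Set G) := centralizer_le_normalizer _
  have hΦ : ∀ n, Φ n = 1 ↔ (n : G) ∈ centralizer (m.V : Set G) ∧ β n = 1 := fun n => by
    simp [Φ, Prod.ext_iff, hα]
  have kΦ : Φ.ker = m.R.subgroupOf _ := Subgroup.ext fun n => (hΦ n).trans ⟨fun h => (hk ⟨n, h.1⟩).mp (hβ n ⟨n, h.1⟩ rfl ▸ h.2),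
    fun h => ⟨h.2, (hβ n ⟨n, h.2⟩ rfl).trans ((hk _).mpr h)⟩⟩
  have sΦ : Function.Surjective Φ := fun ⟨a, b⟩ => by
    obtain ⟨l, hl, e⟩ := ha (e1.symm a)
    obtain ⟨c, e'⟩ := hs ((β ⟨l, hl.1⟩)⁻¹ * b)
    refine ⟨⟨l, hl.1⟩ * ⟨c, hC c.2⟩, (map_mul _ _ _).trans (Prod.ext ?_ ?_)⟩
    · simp [Φ, (hα ⟨c, hC c.2⟩).mpr c.2, show m.V.normalizerMonoidHom ⟨l, hl.1⟩ = e1.symm a from
        MulEquiv.ext fun u => Subtype.ext (e u)]
    · simp [Φ, hβ ⟨c, hC c.2⟩ c rfl, e']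
  have tr : ∀ u ∈ m.V, ∀ v ∈ m.V, u ≠ 1 → v ≠ 1 → ∃ n ∈ normalizer (m.V : Set G), n * u * n⁻¹ = v := fun u hu v hv a b => by
    by_cases e : v * u = 1
    · exact ⟨1, one_mem _, by simp [eq_inv_of_mul_eq_one_left e, ss.inv hu]⟩
    have l := ss.lx _ (mul_mem hv hu) e
    obtain ⟨q, hq, f⟩ := l.exists_ne_comm (ss.le _ (mul_mem hv hu) e hu) fun h => by simpa [a, b] using l.mem_z.mp h
    exact ⟨q, ss.le_norm (mul_mem hv hu) e hq, by
      rw [l.conj_eq_of_ne hq (ss.le _ (mul_mem hv hu) e hu) f, mul_assoc, m.V_sq hu, mul_one]⟩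
  have hR : IsPGroup 2 m.R := IsPGroup.of_card (m.card_R hr)
  have h3 : m.V ≤ (commutator m.R).map m.R.subtype := fun v hv => by
    by_cases e : v = 1
    · exact e ▸ one_mem _
    obtain ⟨n, h, rfl⟩ := tr z m.z_V v hv m.lx.ne_one e
    obtain ⟨a, ha, b, hb, f⟩ := m.z_comm
    have k : ∀ a ∈ Q.map (centralizer ({z} : Set G)).subtype ⊓ centralizer (m.V : Set G), n * a * n⁻¹ ∈ m.R := fun a ha =>
      m.Qf_R hr hw hv e ⟨Qf_cj n ((Qf_z m.lx).ge ha.1), hn n h a ha.2⟩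
    rw [map_subtype_commutator]
    convert commutator_mem_commutator (k a ha) (k b hb) using 1
    rw [← f]; simp only [commutatorElement_def]; group
  have h4 := frattini_le_of_sq fun _ => m.R_sq hr hw
  have h5 := map_mono (f := m.R.subtype) (H3.commutator_le_frattini hR)
  have h6 : (center m.R).map m.R.subtype = m.V := le_antisymm (map_le_iff_le_comap.mpr fun c h => m.cent_R c.2 fun r hr =>
    congrArg Subtype.val (mem_center_iff.mp h ⟨r, hr⟩)) fun v hv => ⟨⟨v, m.QC_R ⟨hv.1, m.V_CV hv⟩⟩,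
      mem_center_iff.mpr fun r => Subtype.ext (r.2.2 v hv).symm, rfl⟩
  haveI hN : (m.R.subgroupOf (normalizer (m.V : Set G))).Normal := kΦ ▸ inferInstance
  refine ⟨m.V, ⟨hc, h2⟩, m.card_V, m.z_V, m.R, ?_, ⟨hR, map_injective (subtype_injective _) (h6 ▸ le_antisymm h4 (h3.trans h5)),
    map_injective (subtype_injective _) (h6 ▸ le_antisymm (h5.trans h4) h3)⟩, m.card_R hr, h6, hN,
    ⟨(QuotientGroup.quotientMulEquivOfEq kΦ.symm).trans (QuotientGroup.quotientKerEquivOfSurjective Φ sΦ)⟩⟩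
  refine (map_subgroupOf_eq_of_le (H := m.R) (inf_le_right.trans hC)).symm.trans (congrArg _
    (le_antisymm (H1.le_pCore hR.comap_subtype) fun t ht => kΦ.le ((hΦ t).mpr ⟨fun v hv => ?_, ?_⟩)))
  · obtain ⟨u, hu, u1⟩ := (bot_or_exists_ne_one _).resolve_left (H1.inf_centralizer_ne_bot_of_isPGroup
      (IsPGroup.of_card m.card_V) ((H1.isPGroup_pCore 2 _).map _) (map_subtype_le _) fun e => m.lx.ne_one (e.le m.z_V))
    by_cases e : v = 1
    · simp [e]
    obtain ⟨n, h, rfl⟩ := tr u hu.1 v hv u1 e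
    have : n⁻¹ * t * n * u = u * (n⁻¹ * t * n) := hu.2 _ ⟨_, (inferInstance : (pCore 2 _).Normal).conj_mem' t ht ⟨n, h⟩, rfl⟩
    calc n * u * n⁻¹ * t = n * (u * (n⁻¹ * t * n)) * n⁻¹ := by group
      _ = _ := by rw [← this]; group
  · exact (two_normal_simple (by rw [card_A6]; norm_num) (Normal.map inferInstance β fun b => let ⟨n, e⟩ := sΦ (1, b);
      ⟨n, congrArg Prod.snd e⟩) ((H1.isPGroup_pCore 2 _).map β)).le ⟨t, ht, rfl⟩

end Cfsg.Agent.S5445
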