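import Cfsg.Statements.S5447
import Cfsg.Agent.H21.Fi12

set_option autoImplicit false
set_option linter.style.haveILetI false
open Cfsg

namespace Cfsg.Agent.S5447

open Cfsg.Agent.LL Cfsg.Agent.LL.U6 Cfsg.Agent.H10 Subgroup
open scoped Pointwise

/-- Let G be a finite group of large Fischer type at the involution z: the generalized Fitting subgroup Q of H = C_G(z) is extraspecial of order 2^13, H has normal subgroups Q ≤ H₁ ≤ H₂ with H₁/Q of order 3, H₂/H₁ the projective special unitary group of dimension 4 over the field with nine elements and H₂ of index 2 in H, and some conjugate of z other than z lies in Q. Let T be a Sylow 2-subgroup of G, A its Thompson subgroup and M = N_G(A) its normalizer. Then M controls fusion in A (elements of A conjugate in G are conjugate in M), and M has exactly two orbits on the non-identity elements of A: those conjugate to z in G and those not. -/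
theorem result {G : Type*} [Group G] [Finite G] (z : G) (Q : Subgroup (Subgroup.centralizer ({z} : Set G))) [Q.Normal] (hF : Cfsg.IsOfLargeFischerTypeAt z Q) (T : Sylow 2 G) (A M : Subgroup G) (hA : A = Cfsg.thompsonSubgroupOf 2 (T : Subgroup G)) (hM : M = Subgroup.normalizer (A : Set G)) : (∀ a ∈ A, ∀ g : G, g * a * g⁻¹ ∈ A → ∃ m ∈ M, m * a * m⁻¹ = g * a * g⁻¹) ∧ (∃ a ∈ A, a ≠ 1 ∧ IsConj z a) ∧ (∃ a ∈ A, a ≠ 1 ∧ ¬ IsConj z a) ∧ ∀ a ∈ A, ∀ b ∈ A, a ≠ 1 → b ≠ 1 → (IsConj z a ↔ IsConj z b) → ∃ m ∈ M, m * a * m⁻¹ = b := by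
  subst hA hM
  obtain ⟨⟨B, u⟩, ⟨c, hc, e⟩, t, h⟩ := fi_main hF T
  obtain ⟨Φ, h1, -, h2⟩ := h.exists_hom
  have k := fun a ha g => u.fusion (fun _ => h.A_sq) h.cardA.ge (a := a) (g := g) ha
  have d : ({none, some 0} : Finset GolayPt).card = 2 := by decide
  refine ⟨k, ⟨c, hc, fun f => ?_, e⟩, ⟨_, h.mem _, h.ne_one d, (h.duad _ (h.mem _) (h.ne_one d)).mpr ⟨_, d, rfl⟩⟩,
    fun a ha b hb a1 b1 f => ?_⟩
  · obtain ⟨ρ, p, m, -⟩ := exists_FT hF
    simp [f, m.lx.ne_one] at e
  by_cases l : IsConj z a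
  · obtain ⟨g, rfl⟩ := isConj_iff.mp (l.symm.trans (f.mp l))
    exact k a ha g hb
  · obtain ⟨S, s1, rfl⟩ := (h.duad a ha a1).mp l
    obtain ⟨S', s2, rfl⟩ := (h.duad b hb b1).mp (mt f.mpr l)
    obtain ⟨σ, rfl⟩ : S' ∈ MulAction.orbit M24 S := by rw [H16.orbit_subset_eq (by omega)]; exact s2.trans s1.symm
    obtain ⟨n, rfl⟩ := h1 σ
    exact ⟨n, n.2, h2 n S (by simp [s1])⟩

end Cfsg.Agent.S5447
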