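import Cfsg.Statements.S5448
import Cfsg.Agent.H21.Fi12

set_option autoImplicit false
set_option linter.style.haveILetI false
open scoped Pointwise
open Cfsg

namespace Cfsg.Agent.S5448

open Cfsg.Agent.LL Cfsg.Agent.LL.U6 Cfsg.Agent.H10 Subgroup
open scoped Pointwise

/-- Let G be a finite group of large Fischer type at the involution z: the generalized Fitting subgroup Q of H = C_G(z) is extraspecial of order 2^13, H has normal subgroups Q ≤ H₁ ≤ H₂ with H₁/Q of order 3, H₂/H₁ the projective special unitary group of dimension 4 over the field with nine elements and H₂ of index 2 in H, and some conjugate of z other than z lies in Q. Let T be a Sylow 2-subgroup of G, A its Thompson subgroup, M = N_G(A) its normalizer, and t an involution of A not conjugate to z in G. Then the centralizer of t in M, modulo A, is isomorphic to the setwise stabilizer of a two-element subset of the 24 points in the Mathieu group of degree 24 (the automorphism group of the smaller Mathieu group on 22 points). -/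
theorem result {G : Type*} [Group G] [Finite G] (z : G) (Q : Subgroup (Subgroup.centralizer ({z} : Set G))) [Q.Normal] (hF : Cfsg.IsOfLargeFischerTypeAt z Q) (T : Sylow 2 G) (A M : Subgroup G) (hA : A = Cfsg.thompsonSubgroupOf 2 (T : Subgroup G)) (hM : M = Subgroup.normalizer (A : Set G)) (t : G) (htA : t ∈ A) (ht2 : orderOf t = 2) (ht : ¬ IsConj z t) : ∃ _ : (A.subgroupOf (M ⊓ Subgroup.centralizer ({t} : Set G))).Normal, Nonempty (↥(M ⊓ Subgroup.centralizer ({t} : Set G)) ⧸ A.subgroupOf (M ⊓ Subgroup.centralizer ({t} : Set G)) ≃* ↥(Cfsg.M24 ⊓ MulAction.stabilizer (Equiv.Perm Cfsg.GolayPt) ({none, some 0} : Set Cfsg.GolayPt))) := by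
  subst hA hM
  obtain ⟨-, -, s, h⟩ := fi_main hF T
  generalize thompsonSubgroupOf 2 (T : Subgroup G) = A at *
  obtain ⟨Φ, h1, h3, h2⟩ := h.exists_hom
  obtain ⟨S, s1, rfl⟩ := (h.duad t htA (by rintro rfl; simp at ht2)).mp ht
  obtain ⟨σ, e⟩ : ({none, some 0} : Finset GolayPt) ∈ MulAction.orbit M24 S := by
    rw [H16.orbit_subset_eq (by omega), s1]; decide
  have k : ∀ n : normalizer (A : Set G), (n : G) ∈ centralizer {s S} ↔ ((σ * Φ n * σ⁻¹ : M24) : Equiv.Perm GolayPt) ∈
      MulAction.stabilizer (Equiv.Perm GolayPt) ({none, some 0} : Set GolayPt) := fun n => by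
    rw [mem_centralizer_singleton_iff, ← mul_inv_eq_iff_eq_mul, h2 n S (by simp [s1]), MulAction.mem_stabilizer_iff,
      show ({none, some 0} : Set GolayPt) = (σ • S : Finset GolayPt) by simp [show σ • S = _ from e], ← Finset.coe_smul_finset,
      Finset.coe_inj]
    change _ ↔ (σ * Φ n * σ⁻¹) • σ • S = σ • S
    rw [smul_smul, inv_mul_cancel_right, mul_smul, smul_left_cancel_iff]
    exact ⟨h.inj (by simp [s1]) (by simp [s1]) (by simp [s1]), congrArg s⟩
  let ψ := ((M24.subtype.comp ((MulAut.conj σ).toMonoidHom.comp Φ)).comp (inclusion inf_le_left)).codRestrict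
    (M24 ⊓ MulAction.stabilizer (Equiv.Perm GolayPt) ({none, some 0} : Set GolayPt))
    fun n : ↥(normalizer (A : Set G) ⊓ centralizer {s S}) => ⟨Subtype.property _, (k _).mp n.2.2⟩
  have h4 : ψ.ker = A.subgroupOf _ := Subgroup.ext fun n => by
    refine Iff.trans ?_ (SetLike.ext_iff.mp h3 (inclusion inf_le_left n))
    rw [MonoidHom.mem_ker, MonoidHom.mem_ker, Subtype.ext_iff]
    change ((σ * Φ (inclusion inf_le_left n) * σ⁻¹ : M24) : Equiv.Perm GolayPt) = 1 ↔ _
    rw [OneMemClass.coe_eq_one, conj_eq_one_iff]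
  have : (A.subgroupOf (normalizer (A : Set G) ⊓ centralizer {s S})).Normal := by rw [← h4]; infer_instance
  refine ⟨this, ⟨(QuotientGroup.quotientMulEquivOfEq h4.symm).trans
    (QuotientGroup.quotientKerEquivOfSurjective ψ fun g => ?_)⟩⟩
  obtain ⟨n, f⟩ := h1 (σ⁻¹ * ⟨g, g.2.1⟩ * σ)
  exact ⟨⟨n, n.2, (k n).mpr (by simpa [f, mul_assoc] using g.2.2)⟩, Subtype.ext (by
    change ((σ * Φ n * σ⁻¹ : M24) : Equiv.Perm GolayPt) = _
    simp [f, mul_assoc])⟩

end Cfsg.Agent.S5448
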