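import Cfsg.Statements.S5451
import Cfsg.Agent.H21.Fi8

set_option autoImplicit false
set_option maxRecDepth 100000
set_option linter.style.haveILetI false
open Cfsg

namespace Cfsg.Agent.S5451

open Cfsg.Agent.LL Cfsg.Agent.LL.U6 Cfsg.Agent.H10 Subgroup

/-- Let G be a finite group of large Fischer type at the involution z: the generalized Fitting subgroup Q of H = C_G(z) is extraspecial of order 2^13, H has normal subgroups Q ≤ H₁ ≤ H₂ with H₁/Q of order 3, H₂/H₁ the projective special unitary group of dimension 4 over the field with nine elements and H₂ of index 2 in H, and some conjugate of z other than z lies in Q. Let X be a subgroup of H of order 3 whose product with Q is normal in H (X maps onto the normal subgroup of order 3 of H/Q). Then the centralizer of X in H is quasisimple with cyclic centre of order 6 and central quotient isomorphic to the projective special unitary group of dimension 4 over the field with nine elements. -/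
theorem result {G : Type*} [Group G] [Finite G] (z : G) (Q : Subgroup (Subgroup.centralizer ({z} : Set G))) [Q.Normal] (hF : Cfsg.IsOfLargeFischerTypeAt z Q) (X : Subgroup (Subgroup.centralizer ({z} : Set G))) (hX : Nat.card X = 3) (hXQ : (X ⊔ Q).Normal) : Cfsg.IsQuasisimple ↥(Subgroup.centralizer ((X : Subgroup (Subgroup.centralizer ({z} : Set G))) : Set (Subgroup.centralizer ({z} : Set G)))) ∧ IsCyclic ↥(Subgroup.center ↥(Subgroup.centralizer ((X : Subgroup (Subgroup.centralizer ({z} : Set G))) : Set (Subgroup.centralizer ({z} : Set G))))) ∧ Nat.card ↥(Subgroup.center ↥(Subgroup.centralizer ((X : Subgroup (Subgroup.centralizer ({z} : Set G))) : Set (Subgroup.centralizer ({z} : Set G))))) = 6 ∧ ∃ (K : Type) (_ : Field K) (_ : Fintype K), Fintype.card K = 9 ∧ Nonempty (↥(Subgroup.centralizer ((X : Subgroup (Subgroup.centralizer ({z} : Set G))) : Set (Subgroup.centralizer ({z} : Set G)))) ⧸ Subgroup.center ↥(Subgroup.centralizer ((X : Subgroup (Subgroup.centralizer ({z}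 : Set G))) : Set (Subgroup.centralizer ({z} : Set G)))) ≃* Cfsg.PSU 4 K 3) := by
  obtain ⟨ρ, p, m, hr⟩ := exists_FT hF
  obtain ⟨π, hs, hk⟩ := exists_U
  have h1 : ∀ a ∈ X, a ^ 3 = 1 := fun a ha => congrArg Subtype.val (hX ▸ pow_card_eq_one' (x := (⟨a, ha⟩ : X)))
  have h4 : ∀ a ∈ X, a * a * (a * a) = a := fun a ha => by
    rw [show a * a * (a * a) = a ^ 3 * a by simp [pow_succ, mul_assoc], h1 a ha, one_mul]
  have h2 : ∀ a ∈ X, ρ a ∈ K0 := fun a ha => (mem_H1.mp (hr.le ⟨a, rfl⟩)).elim id fun h => by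
    have : ψ * (ψ * ρ a) * ψ⁻¹ * (ψ * ρ a) ∈ K0 := mul_mem (TT_norm mP _ h) h
    rw [mul_assoc, inv_mul_cancel_left, ← mul_assoc ψ,
      mul_eq_one_iff_inv_eq.mpr (show ψ⁻¹ = ψ from TT_inv mP), one_mul, ← map_mul] at this
    rw [← h4 a ha, map_mul]; exact mul_mem this this
  have h3 : ((X.map ρ).subgroupOf K0).map π = ⊥ := (Normal.eq_bot_or_eq_top ⟨by
    rintro _ ⟨⟨_, h⟩, ⟨a, ha, rfl⟩, rfl⟩ u
    obtain ⟨k, rfl⟩ := hs u
    obtain ⟨c, e⟩ := hr.ge (K0_H1 k.2)
    obtain ⟨y, hy, q, hq, f⟩ := mem_sup_of_normal_right.mp (hXQ.conj_mem a (mem_sup_left ha) c)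
    refine ⟨k * ⟨_, h⟩ * k⁻¹, ⟨y, hy, ?_⟩, by simp⟩
    have := congrArg ρ f
    simpa [(m.ker q).mpr ⟨q, hq, rfl⟩, e] using this⟩).resolve_right fun e => by
      have := (card_map_dvd _ π).trans ((card_comap_dvd_of_injective _ _ (subtype_injective K0)).trans (card_map_dvd X ρ))
      rw [show (X.map ρ).comap K0.subtype = (X.map ρ).subgroupOf K0 from rfl, e, card_top, card_PSUU43, hX] at this
      norm_num at this
  obtain ⟨x, hxX, hx⟩ : ∃ x ∈ X, ρ x = Wm := by
    obtain ⟨a, ha, a1⟩ := X.bot_or_exists_ne_one.resolve_left fun e => by simp [e] at hX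
    rcases mem_Z.mp ((hk ⟨_, h2 a ha⟩).mp (h3.le ⟨_, ⟨a, ha, rfl⟩, rfl⟩)) with h | h | h
    · exact (a1 ((h4 a ha).symm.trans (Subtype.ext (m.lx.sq_of_mem_z (m.lx.sq _ ((m.ker a).mp h)))))).elim
    · exact ⟨a, ha, h⟩
    · refine ⟨a * a, mul_mem ha ha, ?_⟩
      rw [map_mul, show ρ a = Wm * Wm from h, show Wm * Wm * (Wm * Wm) = Wm ^ 3 * Wm by simp [pow_succ, mul_assoc],
        ← orderOf_W, pow_orderOf_eq_one, one_mul]
  have x3 := h1 x hxX
  have ox : orderOf x = 3 := orderOf_eq_prime x3 fun e => by simpa [← hx, e] using orderOf_W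
  obtain rfl : zpowers x = X := eq_of_le_of_card_ge (zpowers_le.mpr hxX) (by rw [Nat.card_zpowers, ox, hX])
  rw [centralizer_zpowers]
  have hY : ∀ y : centralizer ({x} : Set (centralizer ({z} : Set G))), ρ y ∈ K0 := fun y =>
    FT.Y_K0 hr hx (mem_centralizer_singleton_iff.mp y.2)
  let σ := π.comp ((ρ.comp (Subgroup.subtype _)).codRestrict K0 hY)
  have sσ : Function.Surjective σ := fun u => by
    obtain ⟨k, rfl⟩ := hs u
    obtain ⟨y, hy, e⟩ := m.Y_surj hr hx x3 k.2
    exact ⟨⟨y, mem_centralizer_singleton_iff.mpr hy⟩, congrArg π (Subtype.ext e)⟩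
  let z' : centralizer ({z} : Set G) := ⟨z, mem_centralizer_singleton_iff.mpr rfl⟩
  have zc : ∀ y, Commute y z' := fun y => Subtype.ext (mem_centralizer_singleton_iff.mp y.2)
  have zz : z' * z' = 1 := Subtype.ext m.lx.zz
  have hz : ∀ {K : Subgroup (centralizer ({z} : Set G))} {y}, z' ∈ K → y * x = x * y → ρ y = 1 → y ∈ K := fun {_ y} h a b => by
    rcases m.lx.mem_z.mp (m.Y_ker hx a b) with e | e
    exacts [(Subtype.ext e : y = 1) ▸ one_mem _, (Subtype.ext e : y = z') ▸ h]
  let w : centralizer ({x} : Set (centralizer ({z} : Set G))) :=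
    ⟨z' * x, mem_centralizer_singleton_iff.mpr ((zc x).symm.mul_left (Commute.refl x))⟩
  have a1 : zpowers w ≤ center _ := zpowers_le.mpr (mem_center_iff.mpr fun y =>
    Subtype.ext ((zc y).mul_right (mem_centralizer_singleton_iff.mp y.2)))
  have a2 : center _ ≤ σ.ker := fun c hc => by
    rw [MonoidHom.mem_ker, ← mem_bot, ← center_U, Subgroup.mem_center_iff]
    intro y
    obtain ⟨y, rfl⟩ := sσ y
    rw [← map_mul, ← map_mul, Subgroup.mem_center_iff.mp hc]
  have a3 : σ.ker ≤ zpowers w := fun y hy => by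
    obtain ⟨k, e⟩ := (hk _).mp hy
    have b1 : z' ∈ zpowers (z' * x) := ⟨3, by
      simp only [zpow_ofNat]; rw [(zc x).symm.mul_pow, x3, mul_one, pow_succ, sq, zz, one_mul]⟩
    have b2 := (mul_mem_cancel_left b1).mp (mem_zpowers _)
    have b3 := (mul_mem_cancel_right (zpow_mem (inv_mem b2) k)).mp (hz (y := y * x⁻¹ ^ k) b1
      (Commute.mul_left (mem_centralizer_singleton_iff.mp y.2) ((Commute.refl x).inv_left.zpow_left k))
      (by rw [map_mul, map_zpow, map_inv, hx, inv_zpow, mul_inv_eq_one]; exact e.symm))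
    exact (mem_map_iff_mem (subtype_injective _)).mp (by rwa [MonoidHom.map_zpowers])
  have a4 := le_antisymm a2 (a3.trans a1)
  have a5 := le_antisymm (a2.trans a3) a1
  let u := (QuotientGroup.quotientMulEquivOfEq a4).trans (QuotientGroup.quotientKerEquivOfSurjective σ sσ)
  refine ⟨⟨isPerfect_iff.mpr (le_antisymm (commutator_le_self _) fun y hy => ?_), u.isSimpleGroup⟩,
    a5 ▸ inferInstance, ?_, FQ 3 2, inferInstance, inferInstance, card_FQ 3 2, ⟨u⟩⟩
  · have b1 : K0 ≤ (centralizer {x}).map ρ := fun k h =>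
      let ⟨y, a, b⟩ := m.Y_surj hr hx x3 h; ⟨y, mem_centralizer_singleton_iff.mpr a, b⟩
    obtain ⟨d, hd, e⟩ := (map_commutator _ _ ρ).ge (commutator_mono b1 b1 (K0_perf (hY ⟨y, hy⟩)))
    exact (mul_mem_cancel_right (inv_mem hd)).mp (hz ((mem_map_iff_mem (subtype_injective _)).mp
      (m.z_mem hr hx x3 (setting_nwc hF.1))) (mem_centralizer_singleton_iff.mp (mul_mem hy (inv_mem
        (commutator_le_self _ hd)))) (by simp [e]))
  · rw [a5, Nat.card_zpowers, ← orderOf_coe, (zc x).symm.orderOf_mul_eq_mul_orderOf_of_coprime, ox, ← orderOf_coe, m.lx.ord]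
    rw [ox, ← orderOf_coe, m.lx.ord]; norm_num

end Cfsg.Agent.S5451
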