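import Cfsg.Statements.S5459
import Cfsg.Agent.H29.TT4

set_option autoImplicit false
open Cfsg

namespace Cfsg.Agent.S5459
open Cfsg.Agent.H29


/-- Let G be a finite group with a quasisimple normal subgroup L and an involution d such that G is generated by L and d, the centre of L has odd order, and d inverts every element of the centre of L. If the commuting graph on the conjugacy class of the image of d in G modulo the centre of L is connected, then the commuting graph on the conjugacy class of d is connected. -/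
theorem result {G : Type*} [Group G] [Finite G] (L : Subgroup G) [L.Normal] (hL : Cfsg.IsQuasisimple ↥L) (d : G) (hd : orderOf d = 2) (hgen : L ⊔ Subgroup.zpowers d = ⊤) (hodd : Odd (Nat.card ↥(Subgroup.center ↥L))) (hinv : ∀ c ∈ (Subgroup.center ↥L).map L.subtype, d * c * d⁻¹ = c⁻¹) [hn : ((Subgroup.center ↥L).map L.subtype).Normal] (hconn : (Cfsg.commutingGraph (conjugatesOf (QuotientGroup.mk d : G ⧸ (Subgroup.center ↥L).map L.subtype))).Connected) : (Cfsg.commutingGraph (conjugatesOf d)).Connected := by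
  set Z := (Subgroup.center ↥L).map L.subtype
  have hm : ∀ {x} g, x ∈ conjugatesOf d → g * x * g⁻¹ ∈ conjugatesOf d := fun g h => h.trans (isConj_iff.2 ⟨g, rfl⟩)
  have cj : ∀ g {a b}, H29.CR (conjugatesOf d) a b → H29.CR (conjugatesOf d) (g * a * g⁻¹) (g * b * g⁻¹) := fun g _ _ h =>
    h.lift (fun x => g * x * g⁻¹) fun _ _ h => ⟨hm g h.1, hm g h.2.1, (H29.commute_cj g).2 h.2.2⟩
  have sy : ∀ {a b}, H29.CR (conjugatesOf d) a b → H29.CR (conjugatesOf d) b a := fun h => by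
    induction h with
    | refl => exact .refl
    | tail _ h ih => exact .head ⟨h.2.1, h.1, h.2.2.symm⟩ ih
  let K : Subgroup G :=
    { carrier := {g | H29.CR (conjugatesOf d) d (g * d * g⁻¹)}
      one_mem' := by simpa [H29.CR] using Relation.ReflTransGen.refl
      mul_mem' := fun {g k} hg hk => hg.trans (H29.cj_cj g k d ▸ cj g hk)
      inv_mem' := fun {g} hg => by have := cj g⁻¹ hg; rw [H29.cj_inv_cj] at this; exact sy this }
  have iv : ∀ x ∈ conjugatesOf d, ∀ c ∈ Z, x * c * x⁻¹ = c⁻¹ := fun x hx c hc => by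
    obtain ⟨g, rfl⟩ := isConj_iff.1 hx
    have := hinv _ (hn.conj_mem c hc g⁻¹)
    rw [show g * d * g⁻¹ * c * (g * d * g⁻¹)⁻¹ = g * (d * (g⁻¹ * c * g⁻¹⁻¹) * d⁻¹) * g⁻¹ by group, this]; group
  have lift : ∀ v, H29.CR (conjugatesOf (d : G ⧸ Z)) d v → ∃ y ∈ conjugatesOf d, (y : G ⧸ Z) = v ∧
      H29.CR (conjugatesOf d) d y := fun v hv => by
    induction hv with
    | refl => exact ⟨d, .refl d, rfl, .refl⟩
    | tail _ h ih =>
      obtain ⟨x, hx, rfl, hx'⟩ := ih
      obtain ⟨g, rfl⟩ := isConj_iff.1 h.2.1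
      obtain ⟨g, rfl⟩ := QuotientGroup.mk_surjective g
      have hv := hm g (IsConj.refl d)
      have e : ((g * d * g⁻¹ : G) : G ⧸ Z) = g * d * (g : G ⧸ Z)⁻¹ := rfl
      rw [← e] at h ⊢
      generalize g * d * g⁻¹ = v at *
      have hz : (x * v * x⁻¹)⁻¹ * v ∈ Z := QuotientGroup.eq.1 (H29.cj_of_commute h.2.2)
      obtain ⟨m, hm'⟩ := exists_pow_eq_self_of_coprime (x := (x * v * x⁻¹)⁻¹ * v) (n := 4) (by
        refine Nat.Coprime.coprime_dvd_right (Subgroup.orderOf_dvd_natCard _ hz) ?_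
        rw [Subgroup.card_subtype]; exact (Nat.coprime_two_left.2 hodd).pow_left 2)
      rw [← pow_mul, mul_comm 4, pow_mul] at hm'
      have hw := pow_mem hz m
      generalize ((x * v * x⁻¹)⁻¹ * v) ^ m = w at *
      have e1 : w * v * w⁻¹ = v * (w * w)⁻¹ := by
        have := iv v hv _ (inv_mem hw); rw [inv_inv] at this; nth_rw 1 [← this]; group
      refine ⟨w * v * w⁻¹, hm w hv, ?_, hx'.tail ⟨hx, hm w hv, H29.commute_iff_cj.2 ?_⟩⟩
      · simp [(QuotientGroup.eq_one_iff w).2 hw]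
      · rw [e1, show x * (v * (w * w)⁻¹) * x⁻¹ = v * ((x * v * x⁻¹)⁻¹ * v)⁻¹ * (x * (w * w)⁻¹ * x⁻¹) by group, ← hm',
          iv x hx _ (inv_mem (mul_mem hw hw))]; group
  have k : ∀ g : G, ∃ z ∈ Z, z * g ∈ K := fun g => by
    obtain ⟨y, hy, e, hy'⟩ := lift _ ((H29.connected_iff.1 hconn).2 _ (.refl _) _ (isConj_iff.2 ⟨(g : G ⧸ Z), rfl⟩))
    have hz : (g * d * g⁻¹)⁻¹ * y ∈ Z := QuotientGroup.eq.1 e.symm
    have hv := hm g (IsConj.refl d)
    obtain ⟨m, hm'⟩ := exists_pow_eq_self_of_coprime (x := (g * d * g⁻¹)⁻¹ * y) (n := 2) (by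
      refine Nat.Coprime.coprime_dvd_right (Subgroup.orderOf_dvd_natCard _ hz) ?_
      rw [Subgroup.card_subtype]; exact Nat.coprime_two_left.2 hodd)
    rw [← pow_mul, mul_comm 2, pow_mul] at hm'
    have hw := pow_mem hz m
    generalize ((g * d * g⁻¹)⁻¹ * y) ^ m = w at *
    refine ⟨w⁻¹, inv_mem hw, show H29.CR _ _ _ from ?_⟩
    have := iv _ hv _ hw
    rw [← H29.cj_cj, ← this]
    convert hy' using 1
    rw [this, inv_inv]; nth_rw 1 [← this]
    rw [← mul_inv_cancel_left (g * d * g⁻¹) y, ← hm', pow_two]; group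
  have hK : L ≤ K := by
    have : commutator L ≤ K.subgroupOf L := by
      rw [commutator_def, Subgroup.commutator_le]
      intro a _ b _
      obtain ⟨_, ⟨y, hy, rfl⟩, h1⟩ := k a
      obtain ⟨_, ⟨z, hz, rfl⟩, h2⟩ := k b
      have h1 : y * a ∈ K.subgroupOf L := h1
      have h2 : z * b ∈ K.subgroupOf L := h2
      have cy := Subgroup.mem_center_iff.1 hy
      have cz := Subgroup.mem_center_iff.1 hz
      convert mul_mem (mul_mem (mul_mem h1 h2) (inv_mem h1)) (inv_mem h2) using 1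
      rw [← cy a, ← cz b, show a * y * (b * z) * (a * y)⁻¹ * (b * z)⁻¹ = a * (y * (b * z) * y⁻¹) * (a⁻¹ * z⁻¹) * b⁻¹ by group,
        ← cy, ← mul_inv_rev, ← cz a]; group
    rw [hL.1.commutator_eq_top] at this
    exact fun x hx => this (Subgroup.mem_top (⟨x, hx⟩ : L))
  have hK' : K = ⊤ := eq_top_iff.2 (hgen ▸ sup_le hK ((Subgroup.zpowers_le).2 (show H29.CR _ _ _ by simpa [H29.CR] using .refl)))
  refine H29.connected_iff.2 ⟨⟨d, .refl d⟩, fun a ha b hb => ?_⟩
  obtain ⟨g, rfl⟩ := isConj_iff.1 ha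
  obtain ⟨k, rfl⟩ := isConj_iff.1 hb
  exact (sy (hK'.ge (Subgroup.mem_top g))).trans (hK'.ge (Subgroup.mem_top k))

end Cfsg.Agent.S5459
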