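import Cfsg.Statements.S5465
import Cfsg.Agent.H29.Fi17

set_option autoImplicit false
open Cfsg

namespace Cfsg.Agent.S5465
open Cfsg.Agent.H29


/-- Let G be a finite group with trivial centre generated by a conjugation-invariant set D of 3-transpositions on which it acts primitively, such that for some d in D the subgroup generated by the members of D other than d commuting with d has central largest normal 2- and 3-subgroups, and suppose G with D is of type M(24), and let L be the commutator subgroup of G. Let d₁, d₂ be distinct commuting members of D and j = d₁ d₂. Then K, the joint centralizer of d₁ and d₂ in L, is quasisimple, is the generalized Fitting subgroup of the centralizer of j in L, has index 2 in it and contains j, and the centralizer of j in L modulo the subgroup generated by j is isomorphic to the full automorphism group of the Fischer group Fi₂₂ (as presented). -/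
theorem result {G : Type*} [Group G] [Finite G] {D : Set G} (hD : Cfsg.IsThreeTranspositionGroup D) (hprim : Cfsg.IsPrimitiveUnderConj D) (d₀ : G) (hd₀ : d₀ ∈ D) (h3 : Cfsg.pCore 3 ↥(Subgroup.closure {y : G | y ∈ D ∧ y ≠ d₀ ∧ Commute d₀ y}) ≤ Subgroup.center ↥(Subgroup.closure {y : G | y ∈ D ∧ y ≠ d₀ ∧ Commute d₀ y})) (h2 : Cfsg.pCore 2 ↥(Subgroup.closure {y : G | y ∈ D ∧ y ≠ d₀ ∧ Commute d₀ y}) ≤ Subgroup.center ↥(Subgroup.closure {y : G | y ∈ D ∧ y ≠ d₀ ∧ Commute d₀ y})) (h24 : Cfsg.IsOfTypeM24 G D) (L : Subgroup G) (hL : L = commutator G) (d₁ d₂ : G) (h₁ : d₁ ∈ D) (h₂ : d₂ ∈ D) (hne : d₁ ≠ d₂) (hc : Commute d₁ d₂) (K CL : Subgroup G) (hK : K = L ⊓ Subgroup.centralizer ({d₁, d₂} : Set G)) (hCL : CL = L ⊓ Subgroup.centralizer ({d₁ * d₂} : Set G)) [hn : ((Subgroup.zpowers (d₁ * d₂)).subgroupOf CL).Normal] : Cfsg.IsQuasisimple ↥K ∧ K = (Cfsg.generalizedFittingSubgroup ↥CL).map CL.subtype ∧ K ≤ CL ∧ (K.subgroupOf CL).index = 2 ∧ d₁ * d₂ ∈ K ∧ Nonempty (↥CL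 ⧸ (Subgroup.zpowers (d₁ * d₂)).subgroupOf CL ≃* MulAut Cfsg.Spor.Fi22) := by
  have W := M24.wh hD hprim h24
  obtain ⟨iL, nL⟩ := M24.index W
  have s := fun a ha => T3sq W.tr3.set (a := a) ha
  have m2 : d₂ ∈ Nb D d₁ := ⟨h₂, hne.symm, hc⟩
  obtain ⟨β2, γ2, c2⟩ := M24.loc2 W _ h₁ _ m2
  obtain ⟨_, hM, -⟩ := M22.model
  have C := M24.cd2 W h₁ m2
  obtain ⟨f, f1, f2⟩ := C.ex
  have d1 := C.le (Subgroup.subset_closure (show d₁ ∈ _ by simp))
  have pL := (Subgroup.mul_mem_iff_of_index_two iL).2 (iff_of_false (nL _ h₁) (nL _ h₂))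
  have hZ : Subgroup.zpowers (d₁ * d₂) = commutator G ⊓ Subgroup.closure {d₁, d₂} := by
    refine (even_part iL (nL _ h₁) (s _ h₁) (Subgroup.zpowers_le.2 pL) (Subgroup.zpowers_le.2 ?_) ?_ ?_).symm
    · exact mul_mem (Subgroup.subset_closure (by simp)) (Subgroup.subset_closure (by simp))
    · rintro _ ⟨n, rfl⟩; exact ((Commute.refl _).mul_right hc).zpow_right n
    · rintro _ (rfl | rfl)
      exacts [(s _ h₁).symm ▸ one_mem _, hc.eq ▸ Subgroup.mem_zpowers _]
  obtain ⟨q1, q2, q3, ⟨π, p1, p2⟩, α, hα⟩ := even_struct W.tr3 (fun y hy => hy.1.1) c2 hM H17.Fi22.simple iL nL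
    (d := d₁) (by simp) h₁ C.cl C.cen C.le C.nm C.le' rfl hZ
  obtain ⟨f', g1, g2⟩ := even_quot iL f f1 f2 d1 (C.le' d1) (nL _ h₁)
  rw [← C.cl] at hK
  subst hL hCL hK
  have eK := hZ ▸ inf_le_inf_left (commutator G) C.le
  have kC := inf_le_inf_left (commutator G) C.le'
  have := H17.Fi22.faith.fin
  have : Finite (MulAut Cfsg.Spor.Fi22) := .of_injective _ MulEquiv.toEquiv_injective
  refine ⟨q1, q3.symm, kC, ?_, eK (Subgroup.mem_zpowers _), quot_of_card α hα ?_⟩
  · rw [← g2, Subgroup.index_ker, MonoidHom.range_eq_top.2 g1]; simp [Fintype.card_perm]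
  · rw [card_of_hom f' g1, g2, card_subOf kC, card_of_hom π p1, p2, card_subOf eK, card_subOf (eK.trans kC), card_aut22]
    simp [Fintype.card_perm, Nat.factorial, mul_comm, mul_left_comm]

end Cfsg.Agent.S5465
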