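import Cfsg.Statements.S5466
import Cfsg.Agent.H29.Fi15
import Cfsg.Agent.S0815

set_option autoImplicit false
open Cfsg

namespace Cfsg.Agent.S5466
open Cfsg.Agent.H29


/-- Let G be a finite group with trivial centre generated by a conjugation-invariant set D of 3-transpositions on which it acts primitively, such that for some d in D the subgroup generated by the members of D other than d commuting with d has central largest normal 2- and 3-subgroups, and suppose G with D is of type M(24), and let L be the commutator subgroup of G. Let d₁, d₂, d₃ be distinct pairwise commuting members of D, j their product, E the subgroup generated by d₁ d₂ and d₁ d₃ (a four-group lying in L), CL the centralizer of j in L and K its generalized Fitting subgroup. Then K is quasisimple with centre E, K is the centralizer of E in L, K modulo E is isomorphic to the projective special unitary group of dimension 6 over the field with four elements, CL/K is isomorphic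 to the symmetric group of degree 3, and CL modulo E is isomorphic to the full automorphism group of that unitary group. -/
theorem result {G : Type*} [Group G] [Finite G] {D : Set G} (hD : Cfsg.IsThreeTranspositionGroup D) (hprim : Cfsg.IsPrimitiveUnderConj D) (d₀ : G) (hd₀ : d₀ ∈ D) (h3 : Cfsg.pCore 3 ↥(Subgroup.closure {y : G | y ∈ D ∧ y ≠ d₀ ∧ Commute d₀ y}) ≤ Subgroup.center ↥(Subgroup.closure {y : G | y ∈ D ∧ y ≠ d₀ ∧ Commute d₀ y})) (h2 : Cfsg.pCore 2 ↥(Subgroup.closure {y : G | y ∈ D ∧ y ≠ d₀ ∧ Commute d₀ y}) ≤ Subgroup.center ↥(Subgroup.closure {y : G | y ∈ D ∧ y ≠ d₀ ∧ Commute d₀ y})) (h24 : Cfsg.IsOfTypeM24 G D) (L : Subgroup G) (hL : L = commutator G) (d₁ d₂ d₃ : G) (h₁ : d₁ ∈ D) (h₂ : d₂ ∈ D) (h₃ : d₃ ∈ D) (h12 : d₁ ≠ d₂) (h13 : d₁ ≠ d₃) (h23 : d₂ ≠ d₃) (c12 : Commute d₁ d₂) (c13 : Commute d₁ d₃) (c23 : Commute d₂ d₃) (E CL K : Subgroup G) (hE : E = Subgroup.closure ({d₁ * d₂, d₁ * d₃} : Set G)) (hCL : CL = L ⊓ Subgroup.centralizer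 ({d₁ * d₂ * d₃} : Set G)) (hK : K = (Cfsg.generalizedFittingSubgroup ↥CL).map CL.subtype) : Cfsg.IsQuasisimple ↥K ∧ (Subgroup.center ↥K).map K.subtype = E ∧ K = L ⊓ Subgroup.centralizer (E : Set G) ∧ (∃ (_ : (E.subgroupOf K).Normal) (F : Type) (_ : Field F) (_ : Fintype F), Fintype.card F = 4 ∧ Nonempty (↥K ⧸ E.subgroupOf K ≃* Cfsg.PSU 6 F 2)) ∧ ∃ _ : (K.subgroupOf CL).Normal, Nonempty (↥CL ⧸ K.subgroupOf CL ≃* Equiv.Perm (Fin 3)) ∧ E ≤ CL ∧ ∃ (_ : (E.subgroupOf CL).Normal) (F : Type) (_ : Field F) (_ : Fintype F), Fintype.card F = 4 ∧ Nonempty (↥CL ⧸ E.subgroupOf CL ≃* MulAut (Cfsg.PSU 6 F 2)) := by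
  have W := M24.wh hD hprim h24
  obtain ⟨iL, nL⟩ := M24.index W
  obtain ⟨β, γ, c⟩ := W.ch
  have s := fun a ha => T3sq W.tr3.set (a := a) ha
  have m2 : d₂ ∈ Nb D d₁ := ⟨h₂, h12.symm, c12⟩
  have m3 : d₃ ∈ Nb (Nb D d₁) d₂ := ⟨⟨h₃, h13.symm, c13⟩, h23.symm, c23⟩
  obtain ⟨β2, γ2, c2⟩ := M24.loc2 W _ h₁ _ m2
  obtain ⟨β3, γ3, c3⟩ := M22.loc c2 _ m3
  have cm : ∀ v ∈ ({d₁, d₂, d₃} : Set G), ∀ y ∈ Nb (Nb (Nb D d₁) d₂) d₃, Commute v y := by
    rintro _ (rfl | rfl | rfl) y hy; exacts [hy.1.1.2.2, hy.1.2.2, hy.2.2]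
  have cA : ∀ v ∈ ({d₁, d₂, d₃} : Set G), ∀ y ∈ ({d₁, d₂, d₃} : Set G), Commute v y := by
    rintro _ (rfl | rfl | rfl) _ (rfl | rfl | rfl) <;> first | rfl | assumption | (symm; assumption)
  obtain ⟨β, γ, c, e⟩ := c.at_of_tr M24.r3 M24.tr3 (x := d₃ * (d₂ * d₁)) (l := [d₃, d₂, d₁])
    ⟨by simp [Ne.symm, *], rfl, by simp [*], fun a ha b hb => cA a (by simpa [or_comm, or_left_comm] using ha) b
      (by simpa [or_comm, or_left_comm] using hb), by simp⟩
  have sub : ∀ {Z}, H17.subB (M24.B.bits Z) (M24.B.cn' M24.Y3) = true → ∀ y ∈ M24.B.nodes β Z,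
      y ∈ Nb (Nb (Nb D d₁) d₂) d₃ := fun hc y hy => by
    have := c.sub_cn' hc hy
    simp only [e, List.mem_cons, List.not_mem_nil, or_false, forall_eq_or_imp, forall_eq, not_or] at this
    exact ⟨⟨⟨this.1, this.2.1.2.2, this.2.2.2.2⟩, this.2.1.2.1, this.2.2.2.1⟩, this.2.1.1, this.2.2.1⟩
  have a3 : Subgroup.closure {d₁, d₂, d₃} ≤ Subgroup.closure (Nb (Nb (Nb D d₁) d₂) d₃) := by
    have e' := e
    simp only [M24.Y3, TB.nodes_cons, TB.nodes_nil, List.cons.injEq, and_true] at e'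
    rw [Subgroup.closure_le]; rintro _ (rfl | rfl | rfl)
    · exact mem_closure_of_prod (e'.2.2 ▸ W.rel M24.base c M24.T1r) (sub M24.T1s)
    · exact mem_closure_of_prod (e'.2.1 ▸ W.rel M24.base c M24.T2r) (sub M24.T2s)
    · exact mem_closure_of_prod (e'.1 ▸ W.rel M24.base c M24.T3r) (sub M24.T3s)
  obtain ⟨a1, a2⟩ := W.centL c M24.tr3 c3 MU6.model (A := {d₁, d₂, d₃}) (c := 8) (s := 14)
    (by ext; simp [e, or_comm, or_left_comm]) cm a3 (by decide) (by decide) M24.pp3 (by norm_num)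
    (by rw [MU6.card_M6]) (by
      obtain ⟨w, hw, cw⟩ := c2.exists_not_comm M22.r3 m3
      refine le_trans ?_ (two_mul_card_le (V := Subgroup.closure {d₁, d₂}) (a := d₃) (Subgroup.closure_mono (by grind))
        (Subgroup.subset_closure (by simp)) fun h => cw (comm_of_mem_closure (fun v hv => ?_) h).symm)
      · have := four_le W.tr3.set h₁ h₂ h12.symm; omega
      · rcases hv with rfl | rfl; exacts [hw.1.2.2.symm, hw.2.2.symm])
  obtain ⟨f, f1, f2, f3⟩ := perm_struct W.tr3 (v := ![d₁, d₂, d₃]) (x := d₁ * d₂ * d₃)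
    (fun i j => by fin_cases i <;> fin_cases j <;> simp [*, Ne.symm])
    (fun i => by fin_cases i <;> simp [*]) (fun i j => by fin_cases i <;> fin_cases j <;> simp [*, Commute.symm])
    (by simp [mul_assoc]) (M24.fac3 W _) fun l l' h h' => let ⟨g, _, e⟩ := c.cj_lists M24.r3 M24.tr3 h h'; ⟨g, e⟩
  have rg : Set.range ![d₁, d₂, d₃] = {d₁, d₂, d₃} := by ext; simp [or_comm, or_left_comm]
  rw [rg] at f2
  have le : Subgroup.centralizer {d₁, d₂, d₃} ≤ Subgroup.centralizer {d₁ * d₂ * d₃} := fun g hg =>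
    Subgroup.mem_centralizer_singleton_iff.2 (((show Commute d₁ g from hg _ (by simp)).mul_left
      (hg _ (by simp))).mul_left (hg _ (by simp))).symm.eq
  have d1 : d₁ ∈ Subgroup.centralizer {d₁, d₂, d₃} := fun v hv => cA v hv _ (by simp)
  have pL : ∀ a ∈ D, ∀ b ∈ D, a * b ∈ commutator G := fun a ha b hb =>
    (Subgroup.mul_mem_iff_of_index_two iL).2 (iff_of_false (nL a ha) (nL b hb))
  have hZ : E = commutator G ⊓ Subgroup.closure {d₁, d₂, d₃} := by
    rw [hE, eq_comm]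
    refine even_part iL (nL _ h₁) (s _ h₁) ((Subgroup.closure_le _).2 ?_) ((Subgroup.closure_le _).2 ?_)
      (fun v => comm_of_mem_closure ?_) ?_
    · rintro _ (rfl | rfl); exacts [pL _ h₁ _ h₂, pL _ h₁ _ h₃]
    · rintro _ (rfl | rfl) <;> exact mul_mem (Subgroup.subset_closure (by simp)) (Subgroup.subset_closure (by simp))
    · rintro _ (rfl | rfl); exacts [(Commute.refl _).mul_right c12, (Commute.refl _).mul_right c13]
    · rintro _ (rfl | rfl | rfl)
      exacts [(s _ h₁).symm ▸ one_mem _, c12.eq ▸ Subgroup.subset_closure (by simp),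
        c13.eq ▸ Subgroup.subset_closure (by simp)]
  obtain ⟨q1, q2, q3, ⟨π, p1, p2⟩, α, hα⟩ := even_struct W.tr3 (fun y hy => hy.1.1.1) c3 MU6.model MU6.simple6 iL nL
    (d := d₁) (by simp) h₁ a1 a2 a3 (C := Subgroup.centralizer {d₁ * d₂ * d₃}) (fun g hg y hy => by
      have : ∀ v ∈ ({d₁, d₂, d₃} : Set G), g * y * g⁻¹ ≠ v ∧ Commute v (g * y * g⁻¹) := fun v hv => by
        obtain ⟨i, rfl⟩ := rg.ge hv
        obtain ⟨i, rfl⟩ := (f ⟨g, hg⟩).surjective i
        have m := rg.le ⟨i, rfl⟩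
        rw [← f3]
        refine ⟨fun e => ?_, (commute_cj g).2 (cm _ m y hy)⟩
        rw [← show y = ![d₁, d₂, d₃] i by simpa using e] at m
        rcases m with rfl | rfl | rfl
        exacts [hy.1.1.2.1 rfl, hy.1.2.1 rfl, hy.2.1 rfl]
      exact ⟨⟨⟨W.tr3.conj _ _ hy.1.1.1, this _ (by simp)⟩, this _ (by simp)⟩, this _ (by simp)⟩) (a1 ▸ le) rfl hZ
  obtain ⟨f', g1, g2⟩ := even_quot iL f f1 f2 d1 (le d1) (nL _ h₁)
  subst hL hCL
  obtain rfl : K = _ := hK.trans q3
  have eK : E ≤ commutator G ⊓ Subgroup.closure (Nb (Nb (Nb D d₁) d₂) d₃) := hZ ▸ inf_le_inf_left _ a3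
  have kC := inf_le_inf_left (commutator G) (a1.le.trans le)
  obtain ⟨ε⟩ := MU6.psu_equiv H17.card_F4
  rw [← a1] at g2
  have n1 := π.normal_ker
  have n2 := f'.normal_ker
  have n3 := α.normal_ker
  rw [p2] at n1; rw [g2] at n2; rw [hα] at n3
  have : Finite MU6.M6 := .of_surjective π p1
  have : Finite (MulAut MU6.M6) := .of_injective _ MulEquiv.toEquiv_injective
  refine ⟨q1, by rw [q2, Subgroup.map_subgroupOf_eq_of_le eK], ?_,
    ⟨n1, H17.F4, inferInstance, inferInstance, H17.card_F4, (quot_of_hom π p1 p2).map (·.trans ε.symm)⟩,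
    n2, quot_of_hom f' g1 g2, eK.trans kC, n3, H17.F4, inferInstance, inferInstance, H17.card_F4,
    (quot_of_card α hα ?_).map (·.trans (MulAut.congr ε.symm))⟩
  · rw [a1, hE, Subgroup.centralizer_closure]
    refine congrArg _ (le_antisymm (fun g hg => ?_) fun g hg => ?_)
    · rintro _ (rfl | rfl) <;> exact ((show Commute d₁ g from hg _ (by simp)).mul_left (hg _ (by simp))).eq
    · have k : ∀ b ∈ D, d₁ ≠ b → Commute d₁ b → Commute (d₁ * b) g → g * d₁ * g⁻¹ = d₁ ∨ g * d₁ * g⁻¹ = b :=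
        fun b hb n cb cg => by
          have F : Fa D 2 (d₁ * b) [d₁, b] := ⟨by simp [n], rfl, by simp [*], by simp [cb, cb.symm], by simp⟩
          have := F.cj W.tr3 g
          rw [commute_iff_cj.1 cg.symm] at this
          simpa using (M24.fac2 W.tr3.set c _ _ _ this F (g * d₁ * g⁻¹)).1 (by simp)
      have k2 : Commute (d₁ * d₂) g := hg _ (by simp)
      have k3 : Commute (d₁ * d₃) g := hg _ (by simp)
      have k1 : Commute d₁ g := (commute_iff_cj.2 ((k _ h₂ h12 c12 k2).elim id fun e =>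
        (k _ h₃ h13 c13 k3).elim id fun e' => absurd (e.symm.trans e') h23)).symm
      rintro _ (rfl | rfl | rfl)
      exacts [k1, by simpa using (k1.inv_left.mul_left k2).eq, by simpa using (k1.inv_left.mul_left k3).eq]
  · have := Nat.card_congr (MulAut.congr ε).toEquiv
    rw [Cfsg.Agent.S0815.result 2 1 le_rfl (by norm_num) (by rw [H17.card_F4]; norm_num) 6 (by norm_num) (by simp),
      Nat.card_congr ε.toEquiv] at this
    rw [card_of_hom f' g1, g2, card_subOf kC, card_of_hom π p1, p2, card_subOf eK, card_subOf (eK.trans kC), ← this]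
    simp [Fintype.card_perm, Nat.factorial, mul_comm, mul_left_comm]

end Cfsg.Agent.S5466
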