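import Cfsg.Statements.S5468
import Cfsg.Agent.H29.F23
import Cfsg.Agent.H29.Fi13

set_option autoImplicit false
open Cfsg

namespace Cfsg.Agent.S5468
open Cfsg.Agent.H29


/-- Let G be a finite group with trivial centre generated by a conjugation-invariant set D of 3-transpositions on which it acts primitively, such that for some d in D the subgroup generated by the members of D other than d commuting with d has central largest normal 2- and 3-subgroups, and suppose G with D is of type M(23). Let d₁, d₂ be distinct commuting members of D, j = d₁ d₂, K the joint centralizer of d₁ and d₂ and C the centralizer of j. Then K has index 2 in C, the centre of K is the subgroup generated by d₁ and d₂, K is quasisimple with K modulo its centre isomorphic to the projective special unitary group of dimension 6 over the field with four elements, and C modulo the subgroup generated by d₁ and d₂ has trivial centre (so it is that unitary group extended by an outer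 involution). -/
theorem result {G : Type*} [Group G] [Finite G] {D : Set G} (hD : Cfsg.IsThreeTranspositionGroup D) (hprim : Cfsg.IsPrimitiveUnderConj D) (d₀ : G) (hd₀ : d₀ ∈ D) (h3 : Cfsg.pCore 3 ↥(Subgroup.closure {y : G | y ∈ D ∧ y ≠ d₀ ∧ Commute d₀ y}) ≤ Subgroup.center ↥(Subgroup.closure {y : G | y ∈ D ∧ y ≠ d₀ ∧ Commute d₀ y})) (h2 : Cfsg.pCore 2 ↥(Subgroup.closure {y : G | y ∈ D ∧ y ≠ d₀ ∧ Commute d₀ y}) ≤ Subgroup.center ↥(Subgroup.closure {y : G | y ∈ D ∧ y ≠ d₀ ∧ Commute d₀ y})) (h23 : Cfsg.IsOfTypeM23 G D) (d₁ d₂ : G) (h₁ : d₁ ∈ D) (h₂ : d₂ ∈ D) (hne : d₁ ≠ d₂) (hc : Commute d₁ d₂) (K C V : Subgroup G) (hK : K = Subgroup.centralizer ({d₁, d₂} : Set G)) (hC : C = Subgroup.centralizer ({d₁ * d₂} : Set G)) (hV : V = Subgroup.closure ({d₁, d₂} : Set G)) [hn : (V.subgroupOf C).Normal] : K ≤ C ∧ (K.subgroupOf C).index = 2 ∧ (Subgroup.center ↥K).map K.subtype = V ∧ Cfsg.IsQuasisimple ↥K ∧ (∃ (F : Type) (_ : Field F) (_ : Fintype F), Fintype.card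 F = 4 ∧ Nonempty (↥K ⧸ Subgroup.center ↥K ≃* Cfsg.PSU 6 F 2)) ∧ Subgroup.center (↥C ⧸ V.subgroupOf C) = ⊥ := by
  have W := M23.wh hD h23
  obtain ⟨β, γ, c⟩ := W.ch
  subst hK hC hV
  have hb : d₂ ∈ Nb D d₁ := ⟨h₂, hne.symm, hc⟩
  have hL : ∀ a ∈ D, Loc MU6.B (Nb D a) := fun a ha => let ⟨_, _, h⟩ := M23.locW W a ha; M22.loc h
  obtain ⟨a1, a2, a3⟩ := W.cent2 M23.r3 hL MU6.model M23.base M23.R1s M23.R1r M23.R2s M23.R2r (s := 10) (by decide)
    (by decide) M23.pp2 (by norm_num) (by rw [MU6.card_M6]) h₁ hb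
  obtain ⟨β1, γ1, c1⟩ := hL _ h₁ _ hb
  obtain ⟨f, f1, f2, -⟩ := perm_struct W.tr3 (v := ![d₁, d₂]) (x := d₁ * d₂)
    (fun i j => by fin_cases i <;> fin_cases j <;> simp [*, Ne.symm])
    (fun i => by fin_cases i <;> simp [*]) (fun i j => by fin_cases i <;> fin_cases j <;> simp [*, Commute.symm])
    (by simp) (M23.fac2 W.tr3.set c _) fun l l' h h' => let ⟨g, _, e⟩ := c.cj_lists M23.r3 M23.r3.tr2 h h'; ⟨g, e⟩
  rw [show Set.range ![d₁, d₂] = {d₁, d₂} by ext; simp [or_comm]] at f2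
  have le : Subgroup.centralizer {d₁, d₂} ≤ Subgroup.centralizer {d₁ * d₂} := fun g hg =>
    Subgroup.mem_centralizer_singleton_iff.2 ((show Commute d₁ g from hg _ (by simp)).mul_left (hg _ (by simp))).symm.eq
  refine ⟨le, by rw [← f2, Subgroup.index_ker, MonoidHom.range_eq_top.2 f1]; simp [Fintype.card_perm], ?_, ?_, ?_, ?_⟩
  · rw [← a1, a2, Subgroup.map_subgroupOf_eq_of_le a3]
  · obtain ⟨β, γ, c, rfl, rfl⟩ := c.exists_at1 M23.r3 h₁ h₂ hne.symm hc
    exact a1 ▸ c1.quasi MU6.model MU6.simple6 (c1.perfect MU6.r3 (fun a ha => T3sq W.tr3.set ha.1.1)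
      (fun y hy => c.sub_nb2 M23.Ros hy) (by rw [TB.nodes, List.length_map]; decide) (W.rel M23.base c M23.Ror))
  · obtain ⟨π, p1, p2, -⟩ := c1.exists_hom MU6.r3 MU6.model
    exact ⟨H17.F4, inferInstance, inferInstance, H17.card_F4,
      a1 ▸ (quot_of_hom π p1 p2).map fun e => e.trans (MU6.psu_equiv H17.card_F4).some.symm⟩
  · refine eq_bot_iff.2 fun q hq => ?_
    obtain ⟨z, rfl⟩ := QuotientGroup.mk_surjective q
    have m : ∀ y ∈ Nb (Nb D d₁) d₂, y ∈ Subgroup.centralizer {d₁, d₂} := fun y hy => a1 ▸ Subgroup.subset_closure hy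
    have h1 := c1.comm_of_mod W.tr3 (fun y hy => hy.1.1) MU6.r3 (z := z) fun y hy w hw => by
      have := Subgroup.mem_center_iff.1 hq (⟨y, le (m y hy)⟩ : Subgroup.centralizer {d₁ * d₂})
      rw [← QuotientGroup.mk_mul, ← QuotientGroup.mk_mul, eq_comm, ← mul_inv_eq_one, ← QuotientGroup.mk_inv,
        ← QuotientGroup.mk_mul, QuotientGroup.eq_one_iff, Subgroup.mem_subgroupOf] at this
      simp only [Subgroup.coe_mul, mul_inv_rev, Subgroup.coe_inv, ← mul_assoc] at this
      exact (comm_of_mem_closure (fun v hv => (show Commute v w from m w hw v hv).symm) this).symm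
    have h2 : ∀ y ∈ Subgroup.centralizer {d₁, d₂}, Commute (z : G) y := fun y hy => comm_of_mem_closure h1 (a1 ▸ hy)
    have h3 : (z : G) ∈ Subgroup.closure (Nb (Nb D d₁) d₂) :=
      a1 ▸ fun v hv => (h2 v (a1 ▸ a3 (Subgroup.subset_closure hv))).symm.eq
    have h4 : (⟨z, h3⟩ : Subgroup.closure (Nb (Nb D d₁) d₂)) ∈ Subgroup.center _ := Subgroup.mem_center_iff.2 fun y =>
      Subtype.ext (h2 y (a1 ▸ y.2)).symm.eq
    exact (QuotientGroup.eq_one_iff z).2 (a2.le h4)

end Cfsg.Agent.S5468
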