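import Cfsg.Statements.S5470
import Cfsg.Agent.H29.F22
import Cfsg.Agent.H29.Fi13

set_option autoImplicit false
open Cfsg

namespace Cfsg.Agent.S5470
open Cfsg.Agent.H29


/-- Let G be a finite group with trivial centre generated by a conjugation-invariant set D of 3-transpositions on which it acts primitively, such that for some d in D the subgroup generated by the members of D other than d commuting with d has central largest normal 2- and 3-subgroups, and suppose G with D is of type M(22). Then the centralizer of a product of three distinct pairwise commuting members of D has order 2^16 · 3^3. -/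
theorem result {G : Type*} [Group G] [Finite G] {D : Set G} (hD : Cfsg.IsThreeTranspositionGroup D) (hprim : Cfsg.IsPrimitiveUnderConj D) (d₀ : G) (hd₀ : d₀ ∈ D) (h3 : Cfsg.pCore 3 ↥(Subgroup.closure {y : G | y ∈ D ∧ y ≠ d₀ ∧ Commute d₀ y}) ≤ Subgroup.center ↥(Subgroup.closure {y : G | y ∈ D ∧ y ≠ d₀ ∧ Commute d₀ y})) (h2 : Cfsg.pCore 2 ↥(Subgroup.closure {y : G | y ∈ D ∧ y ≠ d₀ ∧ Commute d₀ y}) ≤ Subgroup.center ↥(Subgroup.closure {y : G | y ∈ D ∧ y ≠ d₀ ∧ Commute d₀ y})) (h22 : Cfsg.IsOfTypeM22 G D) (d₁ d₂ d₃ : G) (h₁ : d₁ ∈ D) (h₂ : d₂ ∈ D) (h₃ : d₃ ∈ D) (h12 : d₁ ≠ d₂) (h13 : d₁ ≠ d₃) (h23 : d₂ ≠ d₃) (c12 : Commute d₁ d₂) (c13 : Commute d₁ d₃) (c23 : Commute d₂ d₃) : Nat.card ↥(Subgroup.centralizer ({d₁ * d₂ * d₃} : Set G)) = 2 ^ 16 * 3 ^ 3 := by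
  have W := M22.wh hD h22
  obtain ⟨β, γ, c⟩ := W.ch
  have h0 : Fa D 3 (d₁ * d₂ * d₃) [d₁, d₂, d₃] :=
    ⟨by simp [*], rfl, by simp [*], by simp [*, Commute.symm], by simp [mul_assoc]⟩
  obtain ⟨l₂, a1, a2, a3⟩ := M22.fac3 W h0
  obtain ⟨β, γ, c, e⟩ := c.at_of_tr M22.r3 M22.tr3 h0
  have k := c.card_cent W.tr3 (t := 7) (by decide) (by decide) M22.tr3
  rw [W.card, M22.pp3, e] at k
  have tr : ∀ {y : G} {l : List G}, Fa D 3 (d₁ * d₂ * d₃) l → y ∈ l →
      ∃ a ∈ Subgroup.centralizer {d₁ * d₂ * d₃}, a * d₁ * a⁻¹ = y := fun {y l} hl hy => by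
    classical
    obtain ⟨g, -, g1, g2⟩ := c.cj_lists M22.r3 M22.tr3 h0 (hl.perm (List.perm_cons_erase hy))
    exact ⟨g, Subgroup.mem_centralizer_singleton_iff.2 (mul_inv_eq_iff_eq_mul.1 g2), (List.cons.inj g1).1⟩
  have cj : ∀ a ∈ Subgroup.centralizer {d₁ * d₂ * d₃}, Fa D 3 (d₁ * d₂ * d₃) ([d₁, d₂, d₃].map fun x => a * x * a⁻¹) :=
    fun a ha => by simpa only [Subgroup.mem_centralizer_singleton_iff.1 ha, mul_inv_cancel_right] using h0.cj W.tr3 a
  have o1 : {y | ∃ a ∈ Subgroup.centralizer {d₁ * d₂ * d₃}, a * d₁ * a⁻¹ = y}.ncard = 6 := by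
    classical
    have : {y | ∃ a ∈ Subgroup.centralizer {d₁ * d₂ * d₃}, a * d₁ * a⁻¹ = y} = ([d₁, d₂, d₃] ++ l₂).toFinset := by
      ext y
      simp only [Set.mem_setOf_eq, Finset.mem_coe, List.mem_toFinset, List.mem_append]
      refine ⟨?_, fun h => h.elim (tr h0) (tr a1)⟩
      rintro ⟨a, ha, rfl⟩
      exact (a3 _ (cj a ha)).imp (fun h => (h _).1 (by simp)) fun h => (h _).1 (by simp)
    rw [this, Set.ncard_coe_finset, List.toFinset_card_of_nodup (List.nodup_append.2 ⟨h0.1, a1.1,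
      fun x hx y hy e => a2 x hx (e ▸ hy)⟩), List.length_append, a1.2.1]; rfl
  have o2 : {y | ∃ a ∈ Subgroup.centralizer {d₁ * d₂ * d₃} ⊓ Subgroup.centralizer {d₁}, a * d₂ * a⁻¹ = y} = {d₂, d₃} := by
    ext y; constructor
    · rintro ⟨a, ⟨ha, ha'⟩, rfl⟩
      have := cj a ha
      rw [List.map_cons, Subgroup.mem_centralizer_singleton_iff.1 ha', mul_inv_cancel_right] at this
      simpa using (M22.fac2 W.tr3.set c _ _ _ this.tail h0.tail (a * d₂ * a⁻¹)).1 (by simp)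
    · rintro (rfl | rfl)
      · exact ⟨1, one_mem _, by simp⟩
      · obtain ⟨g, -, g1, g2⟩ := c.cj_lists M22.r3 M22.tr3 h0 (h0.perm ((List.Perm.swap _ _ _).cons _))
        simp only [List.map_cons, List.cons.injEq] at g1
        exact ⟨g, ⟨Subgroup.mem_centralizer_singleton_iff.2 (mul_inv_eq_iff_eq_mul.1 g2),
          Subgroup.mem_centralizer_singleton_iff.2 (mul_inv_eq_iff_eq_mul.1 g1.1)⟩, g1.2.1⟩
  have o3 : (Subgroup.centralizer {d₁ * d₂ * d₃} ⊓ Subgroup.centralizer {d₁}) ⊓ Subgroup.centralizer {d₂} =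
      Subgroup.centralizer {y | y ∈ [d₁, d₂, d₃]} := by
    ext a
    simp only [Subgroup.mem_inf, Subgroup.mem_centralizer_iff, Set.mem_singleton_iff, forall_eq, Set.mem_setOf_eq,
      List.forall_mem_cons, List.not_mem_nil, false_imp_iff, implies_true, and_true]
    refine ⟨fun ⟨⟨x, y⟩, z⟩ => ⟨y, z, ?_⟩, fun ⟨x, y, z⟩ => ⟨⟨((Commute.mul_left x y).mul_left z).eq, x⟩, y⟩⟩
    have := (Commute.mul_left (Commute.mul_left y z).inv_left x).eq
    rwa [inv_mul_cancel_left] at this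
  rw [card_eq_orbit _ d₁, o1, card_eq_orbit _ d₂, o2, o3, Set.ncard_pair h23]
  simp only [M22.ord] at k
  omega

end Cfsg.Agent.S5470
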