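import Cfsg.Statements.S5471
import Cfsg.Agent.H29.F23
import Cfsg.Agent.H29.Fi13

set_option autoImplicit false
open Cfsg

namespace Cfsg.Agent.S5471
open Cfsg.Agent.H29


/-- Let G be a finite group with trivial centre generated by a conjugation-invariant set D of 3-transpositions on which it acts primitively, such that for some d in D the subgroup generated by the members of D other than d commuting with d has central largest normal 2- and 3-subgroups, and suppose G with D is of type M(23). Let d₁, d₂, d₃ be distinct pairwise commuting members of D and j their product. Then the joint centralizer of d₁, d₂, d₃ is normal in the centralizer of j with quotient isomorphic to the symmetric group of degree 3. -/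
theorem result {G : Type*} [Group G] [Finite G] {D : Set G} (hD : Cfsg.IsThreeTranspositionGroup D) (hprim : Cfsg.IsPrimitiveUnderConj D) (d₀ : G) (hd₀ : d₀ ∈ D) (h3 : Cfsg.pCore 3 ↥(Subgroup.closure {y : G | y ∈ D ∧ y ≠ d₀ ∧ Commute d₀ y}) ≤ Subgroup.center ↥(Subgroup.closure {y : G | y ∈ D ∧ y ≠ d₀ ∧ Commute d₀ y})) (h2 : Cfsg.pCore 2 ↥(Subgroup.closure {y : G | y ∈ D ∧ y ≠ d₀ ∧ Commute d₀ y}) ≤ Subgroup.center ↥(Subgroup.closure {y : G | y ∈ D ∧ y ≠ d₀ ∧ Commute d₀ y})) (h23 : Cfsg.IsOfTypeM23 G D) (d₁ d₂ d₃ : G) (h₁ : d₁ ∈ D) (h₂ : d₂ ∈ D) (h₃ : d₃ ∈ D) (h12 : d₁ ≠ d₂) (h13 : d₁ ≠ d₃) (h23 : d₂ ≠ d₃) (c12 : Commute d₁ d₂) (c13 : Commute d₁ d₃) (c23 : Commute d₂ d₃) (K C : Subgroup G) (hK : K = Subgroup.centralizer ({d₁, d₂, d₃} : Set G)) (hC : C = Subgroup.centralizer ({d₁ * d₂ * d₃} : Set G)) : K ≤ C ∧ ∃ _ : (K.subgroupOf C).Normal, Nonempty (↥C ⧸ K.subgroupOf C ≃* Equiv.Perm (Fin 3)) := by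
  rename_i ht
  have W := M23.wh hD ht
  obtain ⟨β, γ, c⟩ := W.ch
  subst hK hC
  obtain ⟨f, f1, f2, -⟩ := perm_struct W.tr3 (v := ![d₁, d₂, d₃]) (x := d₁ * d₂ * d₃)
    (fun i j => by fin_cases i <;> fin_cases j <;> simp [*, Ne.symm])
    (fun i => by fin_cases i <;> simp [*]) (fun i j => by fin_cases i <;> fin_cases j <;> simp [*, Commute.symm])
    (by simp [mul_assoc]) (M23.fac3 W _) fun l l' h h' => let ⟨g, _, e⟩ := c.cj_lists M23.r3 M23.tr3 h h'; ⟨g, e⟩
  rw [show Set.range ![d₁, d₂, d₃] = {d₁, d₂, d₃} by ext; simp [or_comm, or_left_comm]] at f2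
  refine ⟨fun g hg => Subgroup.mem_centralizer_singleton_iff.2 ?_, f2 ▸ f.normal_ker, ?_⟩
  · exact (((show Commute d₁ g from hg _ (by simp)).mul_left (hg _ (by simp))).mul_left (hg _ (by simp))).symm.eq
  · exact @quot_of_hom _ _ _ _ f f1 _ (f2 ▸ f.normal_ker) f2

end Cfsg.Agent.S5471
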