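import Cfsg.Statements.S5514
import Cfsg.Agent.H16.O7b

set_option autoImplicit false
open Cfsg

namespace Cfsg.Agent.S5514

/-- The commutator subgroup of the isometry group of a non-degenerate 7-dimensional quadratic form over the field with three elements, modulo its (trivial) centre — the simple group Ω(7, 3) — has exactly seven conjugacy classes of subgroups of order 3. -/
theorem result : ∃ Y : Fin 7 → Subgroup (Cfsg.POmega (ZMod 3) (Cfsg.quadFormOdd 3 (ZMod 3))), (∀ i, Nat.card (Y i) = 3) ∧ (∀ i j, (∃ g : Cfsg.POmega (ZMod 3) (Cfsg.quadFormOdd 3 (ZMod 3)), (Y i).map (MulAut.conj g).toMonoidHom = Y j) → i = j) ∧ (∀ X : Subgroup (Cfsg.POmega (ZMod 3) (Cfsg.quadFormOdd 3 (ZMod 3))), Nat.card X = 3 → ∃ i, ∃ g : Cfsg.POmega (ZMod 3) (Cfsg.quadFormOdd 3 (ZMod 3)), X.map (MulAut.conj g).toMonoidHom = Y i) := by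
  obtain ⟨r, h0, h1, h2, h3⟩ := H16.O7.main
  let e := H16.O7.eqv
  refine H16.subgroup_classes (fun i => e.symm (r i)) (fun i => by rw [MulEquiv.orderOf_eq, h0]) (fun x hx => ?_)
    (fun i j c => h2 i j (by simpa using e.toMonoidHom.map_isConj c)) fun j => by
      simpa using e.symm.toMonoidHom.map_isConj (h3 j)
  obtain ⟨i, c⟩ := h1 (e x) (by rw [MulEquiv.orderOf_eq, hx])
  exact ⟨i, by simpa using e.symm.toMonoidHom.map_isConj c⟩

end Cfsg.Agent.S5514
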