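import Cfsg.Statements.S5516
import Cfsg.Agent.H29.Ot3

set_option autoImplicit false
open Cfsg

namespace Cfsg.Agent.S5516
open Cfsg.Agent.H29


/-- PΩ⁺(8, 3) (the commutator subgroup of the isometry group of the hyperbolic quadratic form in dimension 8 over the field with three elements, modulo its centre) has exactly 13 conjugacy classes of subgroups of order 3; and a finite group G whose generalized Fitting subgroup L is isomorphic to PΩ⁺(8, 3) with G/L the symmetric group of degree 3 has exactly 7 orbits, under conjugation, on the subgroups of L of order 3. -/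
theorem result {G : Type*} [Group G] [Finite G] (L : Subgroup G) (hL : L = Cfsg.generalizedFittingSubgroup G) (hF : Nonempty (↥L ≃* Cfsg.POmega (ZMod 3) (Cfsg.quadFormPlus 4 (ZMod 3)))) [hn : L.Normal] (hq : Nonempty (G ⧸ L ≃* Equiv.Perm (Fin 3))) : (∃ Y : Fin 13 → Subgroup (Cfsg.POmega (ZMod 3) (Cfsg.quadFormPlus 4 (ZMod 3))), (∀ i, Nat.card (Y i) = 3) ∧ (∀ i j, (∃ g : Cfsg.POmega (ZMod 3) (Cfsg.quadFormPlus 4 (ZMod 3)), (Y i).map (MulAut.conj g).toMonoidHom = Y j) → i = j) ∧ (∀ X : Subgroup (Cfsg.POmega (ZMod 3) (Cfsg.quadFormPlus 4 (ZMod 3))), Nat.card X = 3 → ∃ i, ∃ g : Cfsg.POmega (ZMod 3) (Cfsg.quadFormPlus 4 (ZMod 3)), X.map (MulAut.conj g).toMonoidHom = Y i)) ∧ ∃ Y : Fin 7 → Subgroup G, (∀ i, Y i ≤ L ∧ Nat.card (Y i) = 3) ∧ (∀ i j, (∃ g : G, (Y i).map (MulAut.conj g).toMonoidHom = Y j) → i = j) ∧ ∀ X : Subgroup G, X ≤ L → Nat.card X = 3 → ∃ i, ∃ g : G, X.map (MulAut.conj g).toMonoidHom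 = Y i := by
  refine ⟨H29.Ot.gen13 (H13.pomegaEquiv (H13.QPlus 4 (ZMod 3))) _ (fun i => H29.Ot.order_u (H29.Ot.ne13 i))
    H29.Ot.sep13 fun _ => H29.Ot.cls_P, ?_⟩
  obtain ⟨e, h1, h2⟩ := H29.Ot.ext_P8 L hL hF hq
  refine H29.Ot.gen7 L e H29.Ot.JP h1 h2 H29.Ot.JP_inv _ (fun i => H29.Ot.order_u (H29.Ot.ne7 i)) H29.Ot.sep7
    fun x hx => ?_
  obtain ⟨i, g, h⟩ := H29.Ot.cls_P hx
  obtain ⟨j, m, h'⟩ := H29.Ot.cls7 i
  exact ⟨j, g, m, h ▸ h'⟩

end Cfsg.Agent.S5516
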