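import Cfsg.Agent.H29.U22
import Cfsg.Agent.H17.Fi22O7
import Cfsg.Agent.H17.FM4
import Cfsg.Statements.S5517

set_option autoImplicit false
open Cfsg

namespace Cfsg.Agent.S5517

open Subgroup Cfsg.Agent.H17

/-- Let G be a finite group with trivial centre generated by a conjugation-invariant set D of 3-transpositions on which it acts primitively, such that for some d in D the subgroup generated by the members of D other than d commuting with d has central largest normal 2- and 3-subgroups, and suppose G with D is of type M(22). Then G has a subgroup L generated by the members of D it contains and isomorphic to Ω(7, 3) (the commutator subgroup of the isometry group of a non-degenerate 7-dimensional quadratic form over the field with three elements, modulo its centre), and every Sylow 3-subgroup of L is a Sylow 3-subgroup of G. -/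
theorem result {G : Type*} [Group G] [Finite G] {D : Set G} (hD : Cfsg.IsThreeTranspositionGroup D) (hprim : Cfsg.IsPrimitiveUnderConj D) (d₀ : G) (hd₀ : d₀ ∈ D) (h3 : Cfsg.pCore 3 ↥(Subgroup.closure {y : G | y ∈ D ∧ y ≠ d₀ ∧ Commute d₀ y}) ≤ Subgroup.center ↥(Subgroup.closure {y : G | y ∈ D ∧ y ≠ d₀ ∧ Commute d₀ y})) (h2 : Cfsg.pCore 2 ↥(Subgroup.closure {y : G | y ∈ D ∧ y ≠ d₀ ∧ Commute d₀ y}) ≤ Subgroup.center ↥(Subgroup.closure {y : G | y ∈ D ∧ y ≠ d₀ ∧ Commute d₀ y})) (h22 : Cfsg.IsOfTypeM22 G D) : ∃ L : Subgroup G, Cfsg.IsDSubgroup D L ∧ Nonempty (↥L ≃* Cfsg.POmega (ZMod 3) (Cfsg.quadFormOdd 3 (ZMod 3))) ∧ ∀ P : Sylow 3 ↥L, ∃ P' : Sylow 3 G, (P : Subgroup ↥L).map L.subtype = (P' : Subgroup G) := by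
  obtain ⟨e, he⟩ := H29.uniq22 hD h22
  have e1 := (wgrp Fi22.g Fi22aT.W).equivMapOfInjective e.symm.toMonoidHom e.symm.injective
  refine ⟨(wgrp Fi22.g Fi22aT.W).map e.symm.toMonoidHom, le_antisymm ((closure_le _).2 fun d hd => hd.2) ?_,
    Fi22.isoO7.map e1.symm.trans, fun P => ?_⟩
  · rw [map_le_iff_le_comap]
    refine wgrp_le fun w hw => subset_closure ⟨?_, mem_map_of_mem _ (mem_wgrp _ hw)⟩
    obtain ⟨x, hx, rfl⟩ : ∃ x < 9, w = [x] := by revert w; decide
    obtain ⟨d, hd, h⟩ := he.ge (H29.M22.lets hx)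
    simpa [← h] using hd
  · have hL := (Nat.card_congr e1.toEquiv).symm.trans Fi22.cardWa
    have hG := (Nat.card_congr e.toEquiv).trans Fi22.faith.card
    have h1 := (card_map_of_injective (K := P.toSubgroup) (subtype_injective _)).trans
      (card_sylow (a := 9) hL (by norm_num) (by norm_num) P)
    exact ⟨(IsPGroup.of_card h1).toSylow (by simpa using (sylow_of_card h1 hG (by norm_num)).3), rfl⟩

end Cfsg.Agent.S5517
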