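import Cfsg.Statements.S5519
import Cfsg.Agent.H29.Ce4

set_option autoImplicit false
open Cfsg

namespace Cfsg.Agent.S5519
open Cfsg.Agent.H29


/-- Let G be a finite group with trivial centre generated by a conjugation-invariant set D of 3-transpositions on which it acts primitively, such that for some d in D the subgroup generated by the members of D other than d commuting with d has central largest normal 2- and 3-subgroups, and suppose G with D is of type M(22). Let d₁, d₂ be distinct commuting members of D and C the centralizer of their product. Then the generalized Fitting subgroup of C is the direct product of a group of order 2 and an extraspecial 2-group of order 2^9, and C modulo it is isomorphic to the full isometry group of the elliptic quadratic form in dimension 6 over the field with two elements. -/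
theorem result {G : Type*} [Group G] [Finite G] {D : Set G} (hD : Cfsg.IsThreeTranspositionGroup D) (hprim : Cfsg.IsPrimitiveUnderConj D) (d₀ : G) (hd₀ : d₀ ∈ D) (h3 : Cfsg.pCore 3 ↥(Subgroup.closure {y : G | y ∈ D ∧ y ≠ d₀ ∧ Commute d₀ y}) ≤ Subgroup.center ↥(Subgroup.closure {y : G | y ∈ D ∧ y ≠ d₀ ∧ Commute d₀ y})) (h2 : Cfsg.pCore 2 ↥(Subgroup.closure {y : G | y ∈ D ∧ y ≠ d₀ ∧ Commute d₀ y}) ≤ Subgroup.center ↥(Subgroup.closure {y : G | y ∈ D ∧ y ≠ d₀ ∧ Commute d₀ y})) (h22 : Cfsg.IsOfTypeM22 G D) (d₁ d₂ : G) (h₁ : d₁ ∈ D) (h₂ : d₂ ∈ D) (hne : d₁ ≠ d₂) (hc : Commute d₁ d₂) (C : Subgroup G) (hC : C = Subgroup.centralizer ({d₁ * d₂} : Set G)) [hn : (Cfsg.generalizedFittingSubgroup ↥C).Normal] : (∃ (E : Type) (_ : Group E) (_ : Finite E), Cfsg.IsExtraspecial 2 E ∧ Nat.card E = 2 ^ 9 ∧ Nonempty (↥(Cfsg.generalizedFittingSubgroup ↥C) ≃* Multiplicative (ZMod 2) × E)) ∧ Nonempty (↥C ⧸ Cfsg.generalizedFittingSubgroup ↥C ≃* Cfsg.isometryGroup (ZMod 2) (Cfsg.quadFormMinus 2 (ZMod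 2) 1 1)) := by
  subst hC
  obtain ⟨E, φ, h, -⟩ := M22.c2W (M22.wh hD h22) h₁ h₂ hne hc
  obtain ⟨E1, a1, a2, ⟨e⟩⟩ := h.split
  let s : Shrink.{0} E1 ≃* E1 := Shrink.mulEquiv
  exact ⟨⟨Shrink.{0} E1, inferInstance, Finite.of_equiv _ (equivShrink _),
    a1.of_hom (E1.subtype.comp s.toMonoidHom) (E1.subtype_injective.comp s.injective)
      (fun x => Subtype.prop _) fun y hy => ⟨s.symm ⟨y, hy⟩, by simp⟩,
    (Nat.card_congr (equivShrink _)).symm.trans a2, ⟨(((MulEquiv.subgroupCongr (h.fstar.trans h.ker_eq)).trans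
      (Subgroup.subgroupOfEquivOfLe h.le')).trans e.symm).trans ((MulEquiv.refl _).prodCongr s.symm)⟩⟩,
    (quot_of_hom φ h.sur h.fstar.symm).map fun f => f.trans (H13.toOG Q6).symm⟩

end Cfsg.Agent.S5519
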