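import Cfsg.Statements.S5520
import Cfsg.Agent.H21.Su5

set_option autoImplicit false
set_option linter.style.haveILetI false
open Cfsg

namespace Cfsg.Agent.S5520

open Cfsg.Agent.LL Cfsg.Agent.LL.U6 Cfsg.Agent.H3 Subgroup
open scoped Pointwise

/-- In the special unitary group of dimension 6 over the field with four elements (determinant-one matrices preserving the standard Hermitian form), the subgroups K whose centre has order 3 with K modulo its centre isomorphic to the projective special unitary group of dimension 4 over the field with nine elements fall into exactly three conjugacy classes. -/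
theorem result (F : Type) [Field F] [Fintype F] (hF : Fintype.card F = 4) (F9 : Type) [Field F9] [Fintype F9] (hF9 : Fintype.card F9 = 9) : ∃ K₁ K₂ K₃ : Subgroup ↥(Cfsg.SU 6 F 2), (∀ K ∈ [K₁, K₂, K₃], Nat.card ↥(Subgroup.center ↥K) = 3 ∧ Nonempty (↥K ⧸ Subgroup.center ↥K ≃* Cfsg.PSU 4 F9 3)) ∧ (¬ ∃ g : ↥(Cfsg.SU 6 F 2), K₁.map (MulAut.conj g).toMonoidHom = K₂) ∧ (¬ ∃ g : ↥(Cfsg.SU 6 F 2), K₁.map (MulAut.conj g).toMonoidHom = K₃) ∧ (¬ ∃ g : ↥(Cfsg.SU 6 F 2), K₂.map (MulAut.conj g).toMonoidHom = K₃) ∧ ∀ K : Subgroup ↥(Cfsg.SU 6 F 2), Nat.card ↥(Subgroup.center ↥K) = 3 → Nonempty (↥K ⧸ Subgroup.center ↥K ≃* Cfsg.PSU 4 F9 3) → ∃ g : ↥(Cfsg.SU 6 F 2), K.map (MulAut.conj g).toMonoidHom = K₁ ∨ K.map (MulAut.conj g).toMonoidHom = K₂ ∨ K.map (MulAut.conj g).toMonoidHom = K₃ := by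
  obtain ⟨f⟩ := H12.nonempty_ringEquiv_of_natCard_eq (F := F) (K := H16.F4)
    (by rw [Nat.card_eq_fintype_card, Nat.card_eq_fintype_card, hF, H16.card_F4])
  obtain ⟨f9⟩ := H12.nonempty_ringEquiv_of_natCard_eq (F := F9) (K := FQ 3 2)
    (by rw [Nat.card_eq_fintype_card, Nat.card_eq_fintype_card, hF9, card_FQ]; rfl)
  obtain ⟨e⟩ := equiv_SU
  let ι : SU 6 F 2 →* Γ := SUg.subtype.comp ((H12.suCongr 6 2 f).trans e).toMonoidHom
  have hι : Function.Injective ι := SUg.subtype_injective.comp ((H12.suCongr 6 2 f).trans e).injective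
  have hr : ∀ g, g ∈ ι.range ↔ g ∈ SUg := fun g => ⟨fun ⟨x, h⟩ => h ▸ (e _).2, fun h =>
    ⟨((H12.suCongr 6 2 f).trans e).symm ⟨g, h⟩, congrArg Subtype.val (MulEquiv.apply_symm_apply _ _)⟩⟩
  have h1 : ∀ k ∈ zpowers δ, ((MulAut.conj k • K0).comap ι).map ι = MulAut.conj k • K0 := fun k hk =>
    map_comap_eq_self (conj_smul_le_iff.mpr fun x hx => (hr _).mpr (conj_SU (δz_GU hk) (K0_SU hx)))
  have h2 : ∀ (K : Subgroup (SU 6 F 2)) g, (K.map (MulAut.conj g).toMonoidHom).map ι = MulAut.conj (ι g) • K.map ι :=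
    fun K g => by rw [← map_conj_eq_smul, map_map, map_map]; congr 1; ext x : 1; simp
  have h3 : ∀ k ∈ zpowers δ, ∀ k' ∈ zpowers δ, (∃ g, ((MulAut.conj k • K0).comap ι).map (MulAut.conj g).toMonoidHom =
      (MulAut.conj k' • K0).comap ι) → k = k' := fun k hk k' hk' ⟨g, h⟩ =>
    not_conj ((hr _).mp ⟨g, rfl⟩) hk hk' (by rw [← h1 k hk, ← h2, h, h1 k' hk'])
  obtain ⟨π0, hs0, hk0⟩ := exists_U
  have h4 : center K0 = π0.ker := le_antisymm (fun z hz => by
    rw [MonoidHom.mem_ker, ← mem_bot, ← center_U, Subgroup.mem_center_iff]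
    intro y
    obtain ⟨y, rfl⟩ := hs0 y
    rw [← map_mul, ← map_mul, Subgroup.mem_center_iff.mp hz]) fun z hz => Subgroup.mem_center_iff.mpr fun y =>
      Subtype.ext (Z_comm (SUg_le (K0_SU y.2)) ((hk0 z).mp hz))
  have h5 : ∀ k ∈ zpowers δ, ∀ K, K = (MulAut.conj k • K0).comap ι →
      Nat.card (center K) = 3 ∧ Nonempty (K ⧸ center K ≃* PSU 4 F9 3) := by
    rintro k hk _ rfl
    let u := (H16.conjEquiv k K0 _ fun _ => conj_mem_conj_smul.symm).trans
      ((equivMapOfInjective _ ι hι).trans (MulEquiv.subgroupCongr (h1 k hk))).symm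
    refine ⟨?_, ⟨(H12.centerQuotCongr u).symm.trans ((QuotientGroup.quotientMulEquivOfEq h4).trans
      ((QuotientGroup.quotientKerEquivOfSurjective π0 hs0).trans (H12.psuCongr 4 3 f9).symm))⟩⟩
    rw [← H12.map_center_equiv u, card_map_of_injective u.injective, h4,
      show π0.ker = Z.subgroupOf K0 from Subgroup.ext hk0, Nat.card_congr (subgroupOfEquivOfLe Z_K0).toEquiv, card_Z]
  have m : ∀ j : ℕ, δ ^ j ∈ zpowers δ := fun j => pow_mem (mem_zpowers δ) j
  have n : ∀ i < 3, ∀ j < 3, δ ^ i = δ ^ j → i = j := fun i hi j hj =>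
    pow_injOn_Iio_orderOf (orderOf_δ ▸ hi :) (orderOf_δ ▸ hj :)
  refine ⟨(MulAut.conj (δ ^ 0) • K0).comap ι, (MulAut.conj (δ ^ 1) • K0).comap ι, (MulAut.conj (δ ^ 2) • K0).comap ι,
    fun K hK => ?_, fun h => by simpa using n 0 (by norm_num) 1 (by norm_num) (h3 _ (m 0) _ (m 1) h),
    fun h => by simpa using n 0 (by norm_num) 2 (by norm_num) (h3 _ (m 0) _ (m 2) h),
    fun h => by simpa using n 1 (by norm_num) 2 (by norm_num) (h3 _ (m 1) _ (m 2) h), fun K hc ⟨u⟩ => ?_⟩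
  · simp only [List.mem_cons, List.not_mem_nil, or_false] at hK
    exact hK.elim (h5 _ (m 0) K) fun h => h.elim (h5 _ (m 1) K) (h5 _ (m 2) K)
  · let v := equivMapOfInjective K ι hι
    let w := u.trans (H12.psuCongr 4 3 f9)
    obtain ⟨g, hg, k, hk, h⟩ := cls (K := K.map ι) (fun x hx => (hr x).mp (map_le_range ι K hx))
      ((w.toMonoidHom.comp (QuotientGroup.mk' _)).comp v.symm.toMonoidHom)
      ((w.surjective.comp (QuotientGroup.mk'_surjective _)).comp v.symm.surjective) (by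
        rw [← MonoidHom.comap_ker, ← map_equiv_eq_comap_symm', card_map_of_injective v.injective,
          MonoidHom.ker_comp_of_injective _ _ w.injective, QuotientGroup.ker_mk', hc])
    obtain ⟨g, rfl⟩ := (hr g).mpr hg
    have := map_injective hι ((h2 K g).trans (h.symm.trans (h1 k hk).symm))
    obtain ⟨j, hj, rfl⟩ := H16.exists_pow_of_mem (by norm_num) orderOf_δ hk
    refine ⟨g, ?_⟩
    interval_cases j
    exacts [Or.inl this, Or.inr (Or.inl this), Or.inr (Or.inr this)]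

end Cfsg.Agent.S5520
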