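import Cfsg.Statements.S5541
import Cfsg.Agent.H29.Maj

set_option autoImplicit false
open Cfsg

namespace Cfsg.Agent.S5541
open Cfsg.Agent.H29


/-- Let ρ be a representation of a group H on a finite-dimensional real vector space U whose only ρ-invariant subspaces are the zero subspace and U, and suppose U carries a non-zero ρ-invariant symmetric bilinear form. Then the following are equivalent: (1) there is a non-zero ρ-equivariant commutative bilinear product on U of which every ρ-equivariant bilinear product is a scalar multiple; (2) there is a non-zero ρ-invariant trilinear form on U that is symmetric under all permutations of its arguments and of which every ρ-invariant trilinear form is a scalar multiple. -/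
theorem result {H : Type*} [Group H] {U : Type*} [AddCommGroup U] [Module ℝ U] [FiniteDimensional ℝ U] (ρ : Representation ℝ H U) (hirr : ∀ W : Submodule ℝ U, (∀ g : H, W.map (ρ g) ≤ W) → W = ⊥ ∨ W = ⊤) (B : LinearMap.BilinForm ℝ U) (hB0 : B ≠ 0) (hBs : ∀ u v, B u v = B v u) (hBi : ∀ (g : H) (u v : U), B (ρ g u) (ρ g v) = B u v) : (∃ m : U →ₗ[ℝ] U →ₗ[ℝ] U, m ≠ 0 ∧ (∀ u v, m u v = m v u) ∧ (∀ (g : H) (u v : U), m (ρ g u) (ρ g v) = ρ g (m u v)) ∧ ∀ m' : U →ₗ[ℝ] U →ₗ[ℝ] U, (∀ (g : H) (u v : U), m' (ρ g u) (ρ g v) = ρ g (m' u v)) → ∃ c : ℝ, m' = c • m) ↔ (∃ t : U →ₗ[ℝ] U →ₗ[ℝ] U →ₗ[ℝ] ℝ, t ≠ 0 ∧ (∀ u v w, t u v w = t v u w ∧ t u v w = t u w v) ∧ (∀ (g : H) (u v w : U), t (ρ g u) (ρ g v) (ρ g w) = t u v w) ∧ ∀ t' : U →ₗ[ℝ] U →ₗ[ℝ] U →ₗ[ℝ] ℝ, (∀ (g : H) (u v w : U), t' (ρ g u) (ρ g v) (ρ g w) = t' u v w) → ∃ c : ℝ, t' = c • t) := by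
  have hnd : B.Nondegenerate := by
    have : LinearMap.ker B = ⊥ := (hirr (LinearMap.ker B) fun g => by
      rintro _ ⟨v, hv, rfl⟩
      refine LinearMap.mem_ker.2 (LinearMap.ext fun w => ?_)
      have := hBi g v (ρ g⁻¹ w)
      rw [LinearMap.mem_ker.1 hv, Representation.self_inv_apply] at this
      exact this).resolve_right fun h => hB0 (LinearMap.ker_eq_top.1 h)
    exact (LinearMap.IsRefl.nondegenerate_iff_separatingLeft fun u v h => by rwa [hBs]).2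
      (LinearMap.separatingLeft_iff_ker_eq_bot.2 this)
  let e := LinearMap.BilinForm.toDual B hnd
  have he : ∀ u w, e u w = B u w := fun _ _ => rfl
  let T : (U →ₗ[ℝ] U →ₗ[ℝ] U) → U →ₗ[ℝ] U →ₗ[ℝ] U →ₗ[ℝ] ℝ := fun m => m.compr₂ e.toLinearMap
  let M : (U →ₗ[ℝ] U →ₗ[ℝ] U →ₗ[ℝ] ℝ) → U →ₗ[ℝ] U →ₗ[ℝ] U := fun t => t.compr₂ e.symm.toLinearMap
  have hT : ∀ m u v w, T m u v w = B (m u v) w := fun _ _ _ _ => rfl
  have hM : ∀ t u v w, B (M t u v) w = t u v w := fun t u v w => by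
    rw [← he]; exact congrArg (· w) (e.apply_symm_apply (t u v))
  have ext : ∀ x y, (∀ w, B x w = B y w) → x = y := fun x y h => e.injective (LinearMap.ext h)
  have iT : ∀ m : U →ₗ[ℝ] U →ₗ[ℝ] U, (∀ g u v, m (ρ g u) (ρ g v) = ρ g (m u v)) →
      ∀ g u v w, T m (ρ g u) (ρ g v) (ρ g w) = T m u v w := fun m h g u v w => by rw [hT, hT, h, hBi]
  have iM : ∀ t : U →ₗ[ℝ] U →ₗ[ℝ] U →ₗ[ℝ] ℝ, (∀ g u v w, t (ρ g u) (ρ g v) (ρ g w) = t u v w) →
      ∀ g u v, M t (ρ g u) (ρ g v) = ρ g (M t u v) := fun t h g u v => ext _ _ fun w => by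
    rw [← ρ.self_inv_apply g w, hM, h, hBi, hM]
  constructor
  · rintro ⟨m, h0, hc, hi, hu⟩
    have all : ∀ t' : U →ₗ[ℝ] U →ₗ[ℝ] U →ₗ[ℝ] ℝ, (∀ g u v w, t' (ρ g u) (ρ g v) (ρ g w) = t' u v w) →
        ∃ c : ℝ, t' = c • T m := fun t' h => by
      obtain ⟨c, hc⟩ := hu _ (iM t' h)
      exact ⟨c, by ext u v w; rw [← hM, hc]; simp [hT]⟩
    have n0 : T m ≠ 0 := fun h => h0 (by ext u v; exact ext _ _ fun w => by rw [← hT, h]; simp)
    have s1 : ∀ u v w, T m u v w = T m v u w := fun u v w => by rw [hT, hT, hc]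
    refine ⟨T m, n0, fun u v w => ⟨s1 u v w, ?_⟩, iT m hi, all⟩
    obtain ⟨c, hc⟩ := all ((LinearMap.lflip (R := ℝ)).toLinearMap ∘ₗ T m) fun g u v w => iT m hi g u w v
    have s2 : ∀ u v w, T m u w v = c * T m u v w := fun u v w => congrArg (· u v w) hc
    have k1 : ∀ u v w, T m u v w = c ^ 2 * T m u v w := fun u v w => by
      linear_combination s2 u w v + c * s2 u v w
    have k2 : T m u v w = c ^ 3 * T m u v w := by
      nth_rw 1 [s2 u w v, s1 u w v, s2 w v u, s1 w v u, s2 v u w, s1 v u w]; ring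
    linear_combination -s2 u v w + k2 - c * k1 u v w
  · rintro ⟨t, h0, hs, hi, hu⟩
    refine ⟨M t, fun h => h0 (by ext u v w; rw [← hM, h]; simp), fun u v => ext _ _ fun w => by
      rw [hM, hM, (hs u v w).1], iM t hi, fun m' h => ?_⟩
    obtain ⟨c, hc⟩ := hu _ (iT m' h)
    exact ⟨c, by ext u v; exact ext _ _ fun w => by rw [← hT, hc]; simp [hM]⟩

end Cfsg.Agent.S5541
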