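import Cfsg.Statements.S5543
import Cfsg.Agent.H29.Maj2

set_option autoImplicit false
open Cfsg

namespace Cfsg.Agent.S5543
open Cfsg.Agent.H29


/-- Let V be a finite-dimensional real vector space with a commutative bilinear product and a positive-definite symmetric bilinear form that associates with the product and satisfies the Norton inequality (the Majorana setting of the definitions). Let X be a group of linear automorphisms of V in which every element squares to the identity, and suppose every non-identity element x of X is a Majorana involution with an axial vector a(x) of squared length 1, such that for any two distinct non-identity x, y the product a(x) ∘ a(y) equals (1/8)(a(x) + a(y) − a(xy)) (the dihedral subalgebra of type 2A whose third axis belongs to the involution xy). Then X has order at most 4. -/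
theorem result {V : Type*} [AddCommGroup V] [Module ℝ V] [FiniteDimensional ℝ V] (mul : V →ₗ[ℝ] V →ₗ[ℝ] V) (B : LinearMap.BilinForm ℝ V) (hV : Cfsg.Axial.IsMajoranaAmbient mul B) (X : Subgroup (V ≃ₗ[ℝ] V)) (hX : ∀ x ∈ X, x * x = 1) (ax : (V ≃ₗ[ℝ] V) → V) (hax : ∀ x ∈ X, x ≠ 1 → Cfsg.Axial.IsMajoranaPair mul B x (ax x)) (h1 : ∀ x ∈ X, x ≠ 1 → B (ax x) (ax x) = 1) (h2A : ∀ x ∈ X, ∀ y ∈ X, x ≠ 1 → y ≠ 1 → x ≠ y → mul (ax x) (ax y) = (1 / 8 : ℝ) • (ax x + ax y - ax (x * y))) : Nat.card ↥X ≤ 4 := by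
  classical
  by_contra! hlt
  have : Finite X := Nat.finite_of_card_ne_zero (by omega)
  have := Fintype.ofFinite X
  have ex : ∀ s : Finset X, s.card ≤ 4 → ∃ x, x ∉ s := fun s hs => by
    by_contra! h
    have := Finset.card_le_card (fun x _ => h x : Finset.univ ⊆ s)
    rw [Finset.card_univ, ← Nat.card_eq_fintype_card] at this; omega
  obtain ⟨⟨x, hx⟩, nx⟩ := ex {1} (by simp)
  obtain ⟨⟨y, hy⟩, ny⟩ := ex {1, ⟨x, hx⟩} (Finset.card_le_two.trans (by omega))
  obtain ⟨⟨z, hz⟩, nz⟩ := ex {1, ⟨x, hx⟩, ⟨y, hy⟩, ⟨x * y, mul_mem hx hy⟩} Finset.card_le_four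
  simp only [Finset.mem_insert, Finset.mem_singleton, Subtype.ext_iff, not_or, OneMemClass.coe_one] at nx ny nz
  have iv : ∀ u ∈ X, u⁻¹ = u := fun u hu => inv_eq_of_mul_eq_one_right (hX u hu)
  have cm : ∀ u ∈ X, ∀ v ∈ X, u * v = v * u := fun u hu v hv => by
    rw [← iv _ (mul_mem hu hv), mul_inv_rev, iv u hu, iv v hv]
  have xx : ∀ u ∈ X, ∀ v, u * (u * v) = v := fun u hu v => by rw [← mul_assoc, hX u hu, one_mul]
  have n1 : ∀ u ∈ X, ∀ v, v ≠ u → u * v ≠ 1 := fun u hu v hv e => hv (by rw [← xx u hu v, e, mul_one])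
  have n2 : ∀ u v : V ≃ₗ[ℝ] V, v ≠ 1 → u ≠ u * v := fun u v hv e => hv (left_eq_mul.1 e)
  have eg : ∀ u ∈ X, u ≠ 1 → u ≠ x → mul (ax x) (ax u - ax (x * u)) = (1 / 4 : ℝ) • (ax u - ax (x * u)) :=
    fun u hu u1 ux => by
      rw [map_sub, h2A x hx u hu nx u1 ux.symm, h2A x hx _ (mul_mem hx hu) nx (n1 x hx u ux) (n2 x u u1), xx x hx]; module
  obtain ⟨c, hc⟩ := H29.Maj.f44 (hax x hx nx) (eg y hy ny.1 ny.2) (eg z hz nz.1 nz.2.1)
  have zy : z ≠ y := nz.2.2.1
  have n3 : y ≠ x * z := fun e => nz.2.2.2 (by rw [e, xx x hx])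
  have hxy := mul_mem hx hy
  have hxz := mul_mem hx hz
  have hyz := mul_mem hy hz
  have yz1 : y * z ≠ 1 := n1 y hy z zy
  have yzx : y * z ≠ x := fun e => nz.2.2.2 (by rw [← e, cm _ hyz y hy, xx y hy])
  have E := eg _ hyz yz1 yzx
  simp only [map_sub, LinearMap.sub_apply] at hc
  rw [h2A y hy z hz ny.1 nz.1 zy.symm, h2A y hy _ hxz ny.1 (n1 x hx z nz.2.1) n3,
    h2A _ hxy z hz (n1 x hx y ny.2) nz.1 (Ne.symm nz.2.2.2),
    h2A _ hxy _ hxz (n1 x hx y ny.2) (n1 x hx z nz.2.1) (fun e => zy (mul_left_cancel e).symm),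
    show y * (x * z) = x * (y * z) by rw [← mul_assoc, cm y hy x hx, mul_assoc], mul_assoc x y z,
    show x * y * (x * z) = y * z by rw [cm x hx y hy, mul_assoc, xx x hx]] at hc
  simp only [map_sub, map_add, map_smul] at hc E
  have h3 : ax (y * z) - ax (x * (y * z)) = (-16 * c) • ax x := by
    linear_combination (norm := module) (-16 : ℝ) • hc - (4 : ℝ) • E
  have h4 := congrArg (mul (ax x)) h3
  rw [map_sub, E, map_smul, H29.Maj.idem (hax x hx nx), ← h3] at h4
  have h5 : ax (x * (y * z)) = ax (y * z) := by linear_combination (norm := module) (4 / 3 : ℝ) • h4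
  have := H29.Maj.inv_eq hV (hax _ hyz yz1) (hax _ (mul_mem hx hyz) (n1 x hx _ yzx)) (h1 _ hyz yz1) (g := 1)
    ⟨fun _ _ => rfl, fun _ _ => rfl⟩ h5
  exact nx (by simpa using this.symm)

end Cfsg.Agent.S5543
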