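import Cfsg.Statements.S5545
import Cfsg.Agent.H29.Maj2

set_option autoImplicit false
open Cfsg

namespace Cfsg.Agent.S5545
open Cfsg.Agent.H29


/-- Let V be a finite-dimensional real vector space with a commutative bilinear product and a positive-definite symmetric bilinear form that associates with the product and satisfies the Norton inequality (the Majorana setting of the definitions). Let μ₀, μ₁ be commuting Majorana involutions with distinct axial vectors a₀ ≠ a₁ of squared length 1, each involution having no other axial vector. Then either a₀ and a₁ are orthogonal with a₀ ∘ a₁ = 0 (type 2B), or their inner product is 1/8 and, with a₂ = a₀ + a₁ − 8 a₀ ∘ a₁, the vector a₂ is an idempotent and a₀ ∘ a₂ = (1/8)(a₀ + a₂ − a₁), a₁ ∘ a₂ = (1/8)(a₁ + a₂ − a₀) (type 2A: the three idempotents span a subalgebra with aᵢ ∘ aⱼ = (1/8)(aᵢ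 + aⱼ − aₖ)). -/
theorem result {V : Type*} [AddCommGroup V] [Module ℝ V] [FiniteDimensional ℝ V] (mul : V →ₗ[ℝ] V →ₗ[ℝ] V) (B : LinearMap.BilinForm ℝ V) (hV : Cfsg.Axial.IsMajoranaAmbient mul B) (μ₀ μ₁ : V ≃ₗ[ℝ] V) (a₀ a₁ : V) (h₀ : Cfsg.Axial.IsMajoranaPair mul B μ₀ a₀) (h₁ : Cfsg.Axial.IsMajoranaPair mul B μ₁ a₁) (hu₀ : ∀ a : V, Cfsg.Axial.IsMajoranaPair mul B μ₀ a → a = a₀) (hu₁ : ∀ a : V, Cfsg.Axial.IsMajoranaPair mul B μ₁ a → a = a₁) (hn₀ : B a₀ a₀ = 1) (hn₁ : B a₁ a₁ = 1) (hc : μ₀ * μ₁ = μ₁ * μ₀) (hne : a₀ ≠ a₁) : (B a₀ a₁ = 0 ∧ mul a₀ a₁ = 0) ∨ (B a₀ a₁ = 1 / 8 ∧ mul (a₀ + a₁ - (8 : ℝ) • mul a₀ a₁) (a₀ + a₁ - (8 : ℝ) • mul a₀ a₁) = a₀ + a₁ - (8 : ℝ) • mul a₀ a₁ ∧ mul a₀ (a₀ + a₁ - (8 : ℝ) • mul a₀ a₁) = (1 / 8 : ℝ) • (a₀ + (a₀ + a₁ - (8 : ℝ) • mul a₀ a₁) - a₁) ∧ mul a₁ (a₀ + a₁ - (8 : ℝ) • mul a₀ a₁) = (1 / 8 : ℝ) • (a₁ + (a₀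 + a₁ - (8 : ℝ) • mul a₀ a₁) - a₀)) := by
  obtain ⟨p1, p2, p3⟩ := H29.Maj.comm_case hV h₀ hn₀ (H29.Maj.idem h₁)
    (hu₁ _ (H29.Maj.pair_map h₁ (H29.Maj.aut h₀) hc))
  obtain ⟨q1, -, q3⟩ := H29.Maj.comm_case hV h₁ hn₁ (H29.Maj.idem h₀)
    (hu₀ _ (H29.Maj.pair_map h₀ (H29.Maj.aut h₁) hc.symm))
  rw [hV.1 a₁ a₀, hV.2.1 a₁ a₀] at q1 q3
  have e : (B a₀ a₁ * (8 * B a₀ a₁ - 1)) • (a₀ - a₁) = 0 := by
    linear_combination (norm := module) q3 - p3 + (4 : ℝ) • p1 - (4 : ℝ) • q1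
  rcases mul_eq_zero.1 ((smul_eq_zero.1 e).resolve_right (sub_ne_zero.2 hne)) with e | e
  · exact .inl ⟨e, p2 e⟩
  have e' : B a₀ a₁ = 1 / 8 := by linarith
  rw [e'] at p1 q1 p3
  refine .inr ⟨e', ?_, ?_, ?_⟩ <;> simp only [map_add, map_sub, map_smul, LinearMap.add_apply, LinearMap.sub_apply,
    LinearMap.smul_apply, H29.Maj.idem h₀, H29.Maj.idem h₁, hV.1 a₁ a₀, hV.1 (mul a₀ a₁) a₀, hV.1 (mul a₀ a₁) a₁, p1, q1]
  · linear_combination (norm := module) (4 : ℝ) • p3 + (16 : ℝ) • q1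
  · module
  · module

end Cfsg.Agent.S5545
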