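import Cfsg.Statements.S5546
import Cfsg.Agent.H21.Leech11

set_option autoImplicit false
set_option linter.style.haveILetI false
open Cfsg

namespace Cfsg.Agent.S5546

open Cfsg.Agent.LL Cfsg.Agent.H16

open TensorProduct MulAction

instance : Fact (Nat.Prime 13) := ⟨by norm_num⟩

abbrev W : Type := ZMod 13 ⊗[ℤ] L

noncomputable def rho : Co0 →* Module.End (ZMod 13) W where
  toFun g := (DistribSMul.toAddMonoidHom L g).toIntLinearMap.baseChange (ZMod 13)
  map_one' := by ext x; simp
  map_mul' g h := by ext x; simp [mul_smul]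

theorem rho_tmul (g : Co0) (x : L) : rho g (1 ⊗ₜ x) = 1 ⊗ₜ (g • x) := by simp [rho]

noncomputable def crd (i : GolayPt) : W →ₗ[ZMod 13] ZMod 13 :=
  (AlgebraTensorModule.rid ℤ (ZMod 13) (ZMod 13)).toLinearMap ∘ₗ
    ((LinearMap.proj i : V →ₗ[ℤ] ℤ) ∘ₗ leechLattice.subtype.toIntLinearMap).baseChange (ZMod 13)

theorem crd_tmul (i : GolayPt) (x : L) : crd i (1 ⊗ₜ x) = ((x : V) i : ZMod 13) := by simp [crd]

noncomputable abbrev P : Submodule (ZMod 13) W := Submodule.span (ZMod 13) {1 ⊗ₜ U}

theorem finrank_Q : Module.finrank (ZMod 13) (W ⧸ P) = 23 := by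
  have h1 := P.finrank_quotient_add_finrank
  rw [finrank_span_singleton (fun e => by
    have := crd_tmul pI U
    rw [e, map_zero] at this
    exact absurd this (by decide)), Module.finrank_baseChange, finrank_leech] at h1
  omega

noncomputable def rq : K2 →* Module.End (ZMod 13) (W ⧸ P) where
  toFun g := P.mapQ P (rho g) (Submodule.span_le.mpr (by
    rintro _ rfl
    change rho g (1 ⊗ₜ U) ∈ P
    rw [rho_tmul, show (g : Co0) • U = U from g.2]
    exact Submodule.mem_span_singleton_self _))
  map_one' := by ext x; simp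
  map_mul' g h := by ext x; simp

theorem rq_inj : Function.Injective rq := by
  have := simple_K2
  rw [← MonoidHom.ker_eq_bot_iff]
  refine (Subgroup.Normal.eq_bot_or_eq_top inferInstance).resolve_right fun e => ?_
  have h1 : rq ⟨_, (EU_le E_mem_EU).1⟩ = 1 := e.ge (Subgroup.mem_top _)
  have h2 := LinearMap.congr_fun h1 (P.mkQ (1 ⊗ₜ e8 (some 1)))
  change P.mkQ (rho (eps (cW 10558)) (1 ⊗ₜ e8 (some 1))) = P.mkQ _ at h2
  rw [rho_tmul, eps_e8, if_pos (by decide +kernel)] at h2
  obtain ⟨c, hc⟩ := Submodule.mem_span_singleton.mp ((Submodule.Quotient.eq _).mp h2)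
  have := congrArg (crd (some 1)) hc
  rw [map_smul, map_sub, crd_tmul, crd_tmul, crd_tmul] at this
  clear hc
  revert c
  decide +kernel

/-- The second Conway group (the stabilizer in the Leech lattice automorphism group of the short vector fixed in the definitions) is isomorphic to a subgroup of the general linear group of degree 23 over the field with 13 elements: there is an injective homomorphism into it. -/
theorem result : ∃ f : ↥Cfsg.Spor.Co2 →* GL (Fin 23) (ZMod 13), Function.Injective f := by
  let b := Module.finBasisOfFinrankEq (ZMod 13) (W ⧸ P) finrank_Q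
  let e : Spor.Co2 ≃* K2 := (Subgroup.subgroupOfEquivOfLe (H := Spor.Co2) (K := Co0) inf_le_left).symm.trans
    (MulEquiv.subgroupCongr (by ext g; simp [Spor.Co2, Subgroup.mem_subgroupOf]; rfl))
  refine ⟨((LinearMap.toMatrixAlgEquiv b).toMulEquiv.toMonoidHom.comp rq).toHomUnits.comp e.toMonoidHom, ?_⟩
  intro x y h
  exact e.injective (rq_inj ((LinearMap.toMatrixAlgEquiv b).injective (congrArg Units.val h)))

end Cfsg.Agent.S5546
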