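import Cfsg.Statements.S5547
import Cfsg.Agent.H29.R78
import Cfsg.Agent.H29.Fi3

set_option autoImplicit false
open Cfsg

namespace Cfsg.Agent.S5547
open Cfsg.Agent.H29

open H16 R78
set_option maxRecDepth 100000
noncomputable def MM : Mdl (fpOps P P.mul one) (GL (Fin 78) (ZMod 13)) (Fin 78 → ZMod 13) := fpMdl ok (fun _ _ => rfl) hone

theorem invol {a : ℕ} (e : andB (P.eB a) (Nat.beq (P.mul a a) one) = true) : ∃ g, MM.R a g ∧ g * g = 1 := by
  obtain ⟨e1, e2⟩ := andB_iff.1 e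
  have a1 := FP.e_of ok e1
  have : P.mat P.n a * P.mat P.n a = 1 := by
    rw [← hone.2, ← Nat.eq_of_beq_eq_true e2]
    ext i k
    rw [Matrix.mul_apply, FP.mat, FP.mat, Matrix.of_apply, FP.get_mul ok a1.2 a1.2 i.2 k.2, ← Fin.sum_univ_eq_sum_range
      (fun j => (H16.get P.s a (P.n * j + i) : ZMod P.p) * H16.get P.s a (P.n * k + j))]
    rfl
  exact ⟨⟨_, _, this, this⟩, ⟨a1, rfl⟩, Units.ext this⟩

theorem mx_ge {x : ℕ} (h : 9 ≤ x) : mx x = one := by
  obtain ⟨y, rfl⟩ := Nat.exists_eq_add_of_le' h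
  rfl



theorem ex (x : ℕ) : ∃ g, MM.R (mx x) g ∧ g * g = 1 := by
  by_cases h : x < 10
  · exact invol (allB_spec inv x h)
  · exact ⟨1, by rw [mx_ge (x := x) (by omega)]; exact MM.R_one, one_mul _⟩

theorem evR {g : ℕ → GL (Fin 78) (ZMod 13)} (g1 : ∀ x, MM.R (mx x) (g x)) (w : List ℕ) : MM.R (evM w) (H17.ev g w) := by
  induction w with
  | nil => exact MM.R_one
  | cons x w ih =>
    rw [H17.ev_cons]
    have := MM.R_mul (g1 x) ih
    change MM.R (force _ _) _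
    rw [force_eq, force_eq]
    exact this

theorem eq1 {a : ℕ} {g : GL (Fin 78) (ZMod 13)} (h : MM.R a g) (e : Nat.beq a one = true) : g = 1 := MM.eq_of h MM.R_one e

theorem sat' (r : List ℕ) (hr : r ∈ H17.Fi22.R0) : Nat.beq (evM r) one = true :=
  H17.allL_true (f := fun r => Nat.beq (evM r) one) sat r hr

theorem ne1 (h2 : MM.R (mx 0) 1) : False := by
  have h3 : m0 = one := h2.1.ext hone.1 fun t ht => by
    have := congrFun (congrFun (h2.2.symm.trans hone.2.symm) ⟨t % 78, Nat.mod_lt _ (by norm_num)⟩)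
      ⟨t / 78, Nat.div_lt_of_lt_mul ht⟩
    simpa only [FP.mat, Matrix.of_apply, Nat.div_add_mod] using this
  exact absurd ne (by rw [h3, Nat.beq_refl]; simp)

theorem emb {M : Type} [Group M] {g : ℕ → M} (g2 : ∀ x, g x * g x = 1) (g3 : ∀ x, 9 ≤ x → g x = 1)
    (g4 : H17.Sat g H17.Fi22.R0) (g5 : g 0 ≠ 1) : ∃ f : Spor.Fi22 →* M, Function.Injective f := by
  obtain ⟨f, hf⟩ := H17.Fi22.pres.lift _ g (inv_of_sq (nc := 9) g2 g3) g3 g4
  have := H17.Fi22.simple
  refine ⟨f, (MonoidHom.ker_eq_bot_iff f).1 ((Subgroup.Normal.eq_bot_or_eq_top inferInstance).resolve_right fun t => ?_)⟩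
  exact g5 ((hf 0).symm.trans (t.ge (Subgroup.mem_top _)))

theorem g3 {g : ℕ → GL (Fin 78) (ZMod 13)} (g1 : ∀ x, MM.R (mx x) (g x)) (x : ℕ) (hx : 9 ≤ x) : g x = 1 :=
  eq1 (g1 x) (by rw [mx_ge hx]; exact Nat.beq_refl _)

theorem g4 {g : ℕ → GL (Fin 78) (ZMod 13)} (g1 : ∀ x, MM.R (mx x) (g x)) : H17.Sat g H17.Fi22.R0 :=
  fun r hr => eq1 (evR g1 r) (sat' r hr)

theorem g5 {g : ℕ → GL (Fin 78) (ZMod 13)} (g1 : ∀ x, MM.R (mx x) (g x)) : g 0 ≠ 1 := fun h1 => by
  have h2 := g1 0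
  rw [h1] at h2
  exact ne1 h2

/-- The Fischer group Fi₂₂ (the finitely presented 3-transposition group of the definitions) is isomorphic to a subgroup of the general linear group of degree 78 over the field with 13 elements: there is an injective homomorphism into it. -/
theorem result : ∃ f : Cfsg.Spor.Fi22 →* GL (Fin 78) (ZMod 13), Function.Injective f := by
  choose g g1 g2 using ex
  exact emb g2 (g3 g1) (g4 g1) (g5 g1)

end Cfsg.Agent.S5547
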