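import Cfsg.Statements.S5551
import Cfsg.Agent.H21.Leech4

set_option autoImplicit false
set_option linter.style.haveILetI false
open Cfsg

namespace Cfsg.Agent.S5551

open Cfsg.Agent.LL Cfsg.Agent.H16

/-- In the Leech lattice of the definitions (integer coordinates, minimal squared length 32), let v and w be non-zero lattice vectors of squared length at most 64 that are congruent modulo twice the lattice. Then they have the same squared length, and if that length is less than 64 then w = v or w = −v. (So a class that contains a non-zero vector of squared length at most 64 has a well-defined type 2, 3 or 4, and a class of type 2 or 3 contains no such vector other than v and −v.) -/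
theorem result (v w : Cfsg.GolayPt → ℤ) (hv : v ∈ Cfsg.leechLattice) (hw : w ∈ Cfsg.leechLattice) (hv0 : v ≠ 0) (hw0 : w ≠ 0) (hvn : Cfsg.sqNorm v ≤ 64) (hwn : Cfsg.sqNorm w ≤ 64) (hc : ∃ z ∈ Cfsg.leechLattice, v - w = 2 • z) : Cfsg.sqNorm v = Cfsg.sqNorm w ∧ (Cfsg.sqNorm v < 64 → w = v ∨ w = -v) := by
  by_cases h1 : v = w
  · subst h1; exact ⟨rfl, fun _ => Or.inl rfl⟩
  by_cases h2 : v = -w
  · subst h2; exact ⟨sqNorm_neg _, fun _ => Or.inr (neg_neg _).symm⟩
  obtain ⟨a, b, -⟩ := leech_cong hv hw h1 h2 hvn hwn hc
  exact ⟨a.trans b.symm, fun h => by omega⟩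

end Cfsg.Agent.S5551
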