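import Cfsg.Statements.S5553
import Cfsg.Agent.H21.Leech2

set_option autoImplicit false
set_option linter.style.haveILetI false
open Cfsg

namespace Cfsg.Agent.S5553

open Cfsg.Agent.LL Cfsg.Agent.H16

/-- The Leech lattice of the definitions has an additive subgroup A containing twice the lattice, of index 2^12 in the lattice, all of whose vectors have squared length divisible by 32: the invariant quadratic form 'squared length over 16 modulo 2' on the lattice modulo twice the lattice (a 24-dimensional space over the field with two elements) vanishes on a 12-dimensional subspace, so it is of plus type. -/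
theorem result : ∃ A : AddSubgroup (Cfsg.GolayPt → ℤ), A ≤ Cfsg.leechLattice ∧ (∀ v ∈ Cfsg.leechLattice, (2 : ℤ) • v ∈ A) ∧ (A.addSubgroupOf Cfsg.leechLattice).index = 2 ^ 12 ∧ ∀ v ∈ A, (32 : ℤ) ∣ Cfsg.sqNorm v := by
  let A : AddSubgroup V :=
    { carrier := {x | IsL x 0 ∅ ∨ IsL x 0 Finset.univ}
      zero_mem' := Or.inl isL_zero
      add_mem' := by
        rintro x y (h | h) (h' | h')
        · exact Or.inl (by simpa using h.add h')
        · exact Or.inr (by simpa [← Finset.bot_eq_empty] using h.add h')
        · exact Or.inr (by simpa [← Finset.bot_eq_empty] using h.add h')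
        · exact Or.inl (by simpa using h.add h')
      neg_mem' := by
        rintro x (h | h)
        · exact Or.inl (by simpa using h.neg)
        · exact Or.inr (by simpa using h.neg) }
  have hA : A ≤ leechLattice := by
    rintro x (h | h) <;> exact h.mem
  have hu : IsL (fun i => 2 * ind Finset.univ i) 0 Finset.univ := isL_two_ind univ_mem_gSets
  refine ⟨A, hA, fun v hv => ?_, ?_, ?_⟩
  · have hs : ∀ m, (8 : ℤ) ∣ ∑ i, v i - 4 * m → (8 : ℤ) ∣ ∑ i, ((2 : ℤ) • v) i - 4 * 0 := by
      intro m h
      simp only [Pi.smul_apply, smul_eq_mul, ← Finset.mul_sum]; omega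
    rcases exists_isL hv with ⟨C, h⟩ | ⟨C, h⟩
    · refine Or.inl ⟨empty_mem_gSets, fun i => ?_, hs _ h.sum8⟩
      have := h.mod4 i
      simp only [Pi.smul_apply, smul_eq_mul, ind_of_not_mem (Finset.notMem_empty i)]; omega
    · refine Or.inr ⟨univ_mem_gSets, fun i => ?_, hs _ h.sum8⟩
      have := h.mod4 i
      simp only [Pi.smul_apply, smul_eq_mul, ind_of_mem (Finset.mem_univ i)]; omega
  · have hle : red4.ker ⊓ leechLattice ≤ A := fun x hx => Or.inl (isL_of_ker hx.2 (mem_ker_red4.mp hx.1))
    have h1 := AddSubgroup.relIndex_mul_relIndex _ _ _ hle hA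
    rw [AddSubgroup.inf_relIndex_right, AddSubgroup.relIndex_ker, card_map_red4] at h1
    have h2 : (red4.ker ⊓ leechLattice).relIndex A = 2 := by
      rw [AddSubgroup.relIndex, AddSubgroup.index_eq_two_iff]
      refine ⟨⟨_, Or.inr hu⟩, ?_⟩
      have key : ∀ x : A, x ∈ (red4.ker ⊓ leechLattice).addSubgroupOf A ↔ (4 : ℤ) ∣ (x : V) none := by
        rintro ⟨x, hx⟩
        rw [AddSubgroup.mem_addSubgroupOf, AddSubgroup.mem_inf, mem_ker_red4]
        refine ⟨fun h => h.1 none, fun h => ⟨fun i => ?_, hA hx⟩⟩
        rcases hx with hx | hx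
        · simpa [ind] using hx.mod4 i
        · have := hx.mod4 none
          rw [ind_of_mem (Finset.mem_univ _)] at this
          change (4 : ℤ) ∣ x none at h
          omega
      intro b
      rw [key, key]
      have : (2 : ℤ) ∣ (b : V) none := by
        rcases b.2 with h | h <;> have := h.mod4 none <;> omega
      simp only [AddSubgroup.coe_add, Pi.add_apply, ind_of_mem (Finset.mem_univ _)]
      unfold Xor
      omega
    rw [h2] at h1
    change A.relIndex leechLattice = _
    omega
  · rintro v (h | h)
    · exact h.dvd32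
    · have h1 : (32 : ℤ) ∣ sqNorm v - ∑ _i : GolayPt, (4 : ℤ) := by
        refine dvd_sum_sub fun i => ?_
        obtain ⟨a, ha⟩ := h.mod4 i
        rw [ind_of_mem (Finset.mem_univ _)] at ha
        have e : v i = 2 + 4 * a := by omega
        obtain ⟨b, hb⟩ := Int.even_mul_succ_self a
        exact ⟨b, by rw [e]; linear_combination 16 * hb⟩
      simp only [Finset.sum_const, card_univ24, nsmul_eq_mul] at h1
      omega

end Cfsg.Agent.S5553
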