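import Cfsg.Statements.S5563
import Cfsg.Agent.H21.Ja7

set_option autoImplicit false
set_option linter.style.haveILetI false
open Cfsg

namespace Cfsg.Agent.S5563

open Cfsg.Agent.LL Cfsg.Agent.LL.U6 Cfsg.Agent.H3 Cfsg.Agent.H10 Subgroup
open scoped Pointwise

/-- Let G be a finite non-abelian simple group of Janko-four type (an involution z whose centralizer H has an extraspecial largest normal 2-subgroup E of order 2^13 containing its centralizer in H, a normal subgroup N ≥ E of H with N/E of order 3 and H/N the automorphism group of M₂₂, and a subgroup P ≤ N of order 3 with C_E(P) = ⟨z⟩, N_H(P) ≠ C_H(P) and P ≤ C_H(P)′). Then the centralizer of P in H is the perfect sixfold cover of M₂₂ — it is perfect, its centre is cyclic of order 6 and its central quotient is isomorphic to M₂₂ — and the normalizer of P in G lies in H. -/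
theorem result {G : Type*} [Group G] [Finite G] [IsSimpleGroup G] (hG : ¬ IsMulCommutative G) (z : G) (P : Subgroup G) (hJ : Cfsg.IsOfJankoFourTypeWith z P) :
    ⁅(Subgroup.centralizer ({z} : Set G) ⊓ Subgroup.centralizer (P : Set G)), (Subgroup.centralizer ({z} : Set G) ⊓ Subgroup.centralizer (P : Set G))⁆ = (Subgroup.centralizer ({z} : Set G) ⊓ Subgroup.centralizer (P : Set G)) ∧
    IsCyclic ↥(Subgroup.center ↥(Subgroup.centralizer ({z} : Set G) ⊓ Subgroup.centralizer (P : Set G))) ∧ Nat.card ↥(Subgroup.center ↥(Subgroup.centralizer ({z} : Set G) ⊓ Subgroup.centralizer (P : Set G))) = 6 ∧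
    Cfsg.Spor.IsoM22 (↥(Subgroup.centralizer ({z} : Set G) ⊓ Subgroup.centralizer (P : Set G)) ⧸ Subgroup.center ↥(Subgroup.centralizer ({z} : Set G) ⊓ Subgroup.centralizer (P : Set G))) ∧ Subgroup.normalizer (P : Set G) ≤ Subgroup.centralizer ({z} : Set G) := by
  have hP := hJ.2.2.2.2.2.2.2.2
  obtain ⟨ρ, p, m, x, j, rfl⟩ := exists_JF hJ
  obtain ⟨b, d, t, Φ, k⟩ := j.exists_jc hG
  obtain ⟨θ, h1, h2⟩ := j.theta
  have h3 := k.z_comm
  have h4 := j.ord6
  have cm : Commute z (x : G) := (mem_centralizer_singleton_iff.mp x.2).symm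
  rw [H10.centralizer_zpowers] at hP ⊢
  have zC : z * x ∈ centralizer {z} ⊓ centralizer {(x : G)} := ⟨mul_mem (mem_centralizer_singleton_iff.mpr rfl) x.2,
    mul_mem (mem_centralizer_singleton_iff.mpr cm) (mem_centralizer_singleton_iff.mpr rfl)⟩
  haveI := H16.simple_K22
  have h5 := H16.center_eq_bot_of_simple (B := H16.K22) (by rw [H16.card_K22]; norm_num)
  have h6 : center ↥(centralizer {z} ⊓ centralizer {(x : G)}) = θ.ker := le_antisymm (fun c hc => h5.le
    (Subgroup.mem_center_iff.mpr fun g => by obtain ⟨g, rfl⟩ := h1 g; rw [← map_mul, ← map_mul, Subgroup.mem_center_iff.mp hc]))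
    fun c hc => Subgroup.mem_center_iff.mpr fun g => Subtype.ext (by
      obtain ⟨n, e⟩ := (h2 c).mp hc
      replace e : (z * x) ^ n = (c : G) := e
      rw [coe_mul, coe_mul, ← e]
      exact ((Commute.mul_right (mem_centralizer_singleton_iff.mp g.2.1) (mem_centralizer_singleton_iff.mp g.2.2)).zpow_right n).eq)
  have h7 : center ↥(centralizer {z} ⊓ centralizer {(x : G)}) = zpowers ⟨_, zC⟩ := h6.trans (Subgroup.ext fun c =>
    (h2 c).trans (exists_congr fun n => ⟨fun e => Subtype.ext e, fun e => congrArg Subtype.val e⟩))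
  refine ⟨le_antisymm (commutator_le.mpr fun a ha b hb => mul_mem (mul_mem (mul_mem ha hb) (inv_mem ha)) (inv_mem hb)) fun c hc => ?_, h7 ▸ inferInstance, by rw [h7, Nat.card_zpowers, orderOf_mk, h4],
    ⟨((QuotientGroup.quotientMulEquivOfEq h6).trans (QuotientGroup.quotientKerEquivOfSurjective θ h1)).trans H16.sporM22⟩, k.norm_P⟩
  have h8 : commutator H16.K22 = ⊤ := (Normal.eq_bot_or_eq_top inferInstance).resolve_left fun e => by
    rw [_root_.commutator_def, commutator_eq_bot_iff_le_centralizer, coe_top, centralizer_univ, h5] at e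
    exact top_ne_bot (le_bot_iff.mp e)
  have h9 := map_commutator ⊤ ⊤ θ
  rw [map_top_of_surjective θ h1, ← _root_.commutator_def, ← _root_.commutator_def, h8] at h9
  obtain ⟨a, ha, e⟩ := h9.ge (mem_top (θ ⟨c, hc⟩))
  simpa using mul_mem (zpowers_le.mpr (mul_mem h3 (hP (mem_zpowers _))) ((h2 (⟨c, hc⟩ * a⁻¹)).mp (by simp [e])))
    ((map_subtype_commutator _).le (mem_map_of_mem _ ha))

end Cfsg.Agent.S5563
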