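import Cfsg.Statements.S5565
import Cfsg.Agent.H21.Ja7

set_option autoImplicit false
set_option linter.style.haveILetI false
open Cfsg

namespace Cfsg.Agent.S5565

open Cfsg.Agent.LL Cfsg.Agent.LL.U6 Cfsg.Agent.H3 Cfsg.Agent.H10 Subgroup
open scoped Pointwise

/-- Let G be a finite non-abelian simple group of Janko-four type (an involution z whose centralizer H has an extraspecial largest normal 2-subgroup E of order 2^13 containing its centralizer in H, a normal subgroup N ≥ E of H with N/E of order 3 and H/N the automorphism group of M₂₂, and a subgroup P ≤ N of order 3 with C_E(P) = ⟨z⟩, N_H(P) ≠ C_H(P) and P ≤ C_H(P)′). Then a Sylow 3-subgroup R of G contained in H is extraspecial of order 27 and exponent 3, its normalizer in G lies in H, and that normalizer has order 864. -/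
theorem result {G : Type*} [Group G] [Finite G] [IsSimpleGroup G] (hG : ¬ IsMulCommutative G) (z : G) (hJ : Cfsg.IsOfJankoFourTypeAt z) (R : Sylow 3 G) (hR : (R : Subgroup G) ≤ Subgroup.centralizer ({z} : Set G)) :
    Cfsg.IsExtraspecial 3 ↥(R : Subgroup G) ∧ Nat.card ↥(R : Subgroup G) = 27 ∧ Monoid.exponent ↥(R : Subgroup G) = 3 ∧
    Subgroup.normalizer ((R : Subgroup G) : Set G) ≤ Subgroup.centralizer ({z} : Set G) ∧ Nat.card ↥(Subgroup.normalizer ((R : Subgroup G) : Set G)) = 864 := by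
  haveI : Fact (Nat.Prime 3) := ⟨Nat.prime_three⟩
  obtain ⟨P, h⟩ := hJ
  obtain ⟨ρ, p, m, x, j, -⟩ := exists_JF h
  obtain ⟨ρ, p, m, x, j, h1, h2, h3⟩ := j.syl (sylowIn_of_le R hR)
  obtain ⟨b, d, t, Φ, k⟩ := j.exists_jc hG
  obtain ⟨a1, a2⟩ := JC.R_es hR h2 h3
  obtain ⟨e⟩ := JC.R_iso hR h2 h3
  haveI : Nontrivial (R : Subgroup G) := Finite.one_lt_card_iff_nontrivial.mp (by rw [a2]; norm_num)
  exact ⟨a1, a2, (Monoid.exponent_eq_prime_iff Nat.prime_three).mpr fun g n => orderOf_eq_prime (e.injective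
    (by rw [map_pow, map_one]; exact Subtype.ext (R3_cls (e g).2).1)) n, k.norm_R hR h1 h2 h3, k.card_norm_R hR h1 h2 h3⟩

end Cfsg.Agent.S5565
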