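import Cfsg.Statements.S5566
import Cfsg.Agent.H21.Ja3

set_option autoImplicit false
set_option linter.style.haveILetI false
open Cfsg

namespace Cfsg.Agent.S5566

open Cfsg.Agent.LL Cfsg.Agent.LL.U6 Cfsg.Agent.H3 Cfsg.Agent.H10 Subgroup
open scoped Pointwise

/-- Let G be a finite non-abelian simple group of Janko-four type (an involution z whose centralizer H has an extraspecial largest normal 2-subgroup E of order 2^13 containing its centralizer in H, a normal subgroup N ≥ E of H with N/E of order 3 and H/N the automorphism group of M₂₂, and a subgroup P ≤ N of order 3 with C_E(P) = ⟨z⟩, N_H(P) ≠ C_H(P) and P ≤ C_H(P)′). Then a Sylow 2-subgroup of G has exactly one elementary abelian subgroup of order 2^11. -/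
theorem result {G : Type*} [Group G] [Finite G] [IsSimpleGroup G] (hG : ¬ IsMulCommutative G) (hJ : Cfsg.IsOfJankoFourType G) (T : Sylow 2 G) :
    ∃! V : Subgroup G, V ≤ (T : Subgroup G) ∧ Cfsg.IsElementaryAbelian 2 V ∧ Nat.card ↥V = 2 ^ 11 := by
  obtain ⟨z, P, h⟩ := hJ
  obtain ⟨ρ, p, m, x, j, -⟩ := exists_JF h
  have u := j.u11
  obtain ⟨g, h1, -⟩ := u.syl T
  have h2 : MulAut.conj g⁻¹ • m.AG ≤ T := conj_smul_le_iff.mpr fun x hx => by simpa using mem_conj_smul.mp (h1 hx)
  have h3 := sq_conj u.sq g⁻¹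
  have h4 := (card_conj_smul m.AG g⁻¹).trans u.card
  exact ⟨_, ⟨h2, ⟨⟨⟨fun a b => Subtype.ext (H11.comm_of_sq_eq_one h3 a.2 b.2)⟩⟩, fun a ha => (pow_two a).trans (h3 a ha)⟩, h4⟩,
    fun V ⟨a, b, c⟩ => u.uniq T.2 a (fun v hv => (pow_two v).symm.trans (b.2 v hv)) c.ge h2 h3 h4.ge⟩

end Cfsg.Agent.S5566
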