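import Cfsg.Statements.S5568
import Cfsg.Agent.H21.Ja5

set_option autoImplicit false
set_option linter.style.haveILetI false
open Cfsg

namespace Cfsg.Agent.S5568

open Cfsg.Agent.LL Cfsg.Agent.LL.U6 Cfsg.Agent.H3 Cfsg.Agent.H10 Subgroup
open scoped Pointwise

/-- Let G be a finite non-abelian simple group of Janko-four type (an involution z whose centralizer H has an extraspecial largest normal 2-subgroup E of order 2^13 containing its centralizer in H, a normal subgroup N ≥ E of H with N/E of order 3 and H/N the automorphism group of M₂₂, and a subgroup P ≤ N of order 3 with C_E(P) = ⟨z⟩, N_H(P) ≠ C_H(P) and P ≤ C_H(P)′). Let V be an elementary abelian subgroup of G of order 2^11. Then under conjugation by the normalizer of V the non-identity elements of V fall into an orbit of length 1771 consisting of conjugates of z and an orbit of length 276 consisting of involutions t not conjugate to z, and for such t the centralizer of t in G lies in the normalizer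 of V. -/
theorem result {G : Type*} [Group G] [Finite G] [IsSimpleGroup G] (hG : ¬ IsMulCommutative G) (z : G) (hJ : Cfsg.IsOfJankoFourTypeAt z) (V : Subgroup G) (hV : Cfsg.IsElementaryAbelian 2 V) (hcard : Nat.card ↥V = 2 ^ 11) :
    ∃ z' t : G, z' ∈ V ∧ t ∈ V ∧ t ≠ 1 ∧ IsConj z z' ∧ ¬ IsConj z t ∧
    Set.ncard {v : G | ∃ n ∈ Subgroup.normalizer (V : Set G), n * z' * n⁻¹ = v} = 1771 ∧
    Set.ncard {v : G | ∃ n ∈ Subgroup.normalizer (V : Set G), n * t * n⁻¹ = v} = 276 ∧
    Subgroup.centralizer ({t} : Set G) ≤ Subgroup.normalizer (V : Set G) := by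
  obtain ⟨P, h⟩ := hJ
  obtain ⟨ρ, p, m, x, j, -⟩ := exists_JF h
  obtain ⟨-, -, t0, -, h0⟩ := j.exists_js hG
  obtain ⟨g, rfl⟩ := j.u11.exists_eq (fun v hv => (pow_two v).symm.trans (hV.2 v hv)) hcard.ge
  have hz : g * z * g⁻¹ ∈ MulAut.conj g • m.AG := conj_mem_conj_smul.mpr (Co.A0_AG m.z_A0)
  have cz : IsConj z (g * z * g⁻¹) := isConj_iff.mpr ⟨g, rfl⟩
  obtain ⟨t, h⟩ : ∃ t, JS z (MulAut.conj g • m.AG) t := ⟨_, h0.conj g⟩
  generalize MulAut.conj g • m.AG = V at *
  obtain ⟨Φ, h1, -, h2⟩ := h.exists_hom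
  have d : ({none, some 0} : Finset GolayPt).card = 2 := by decide
  have k1 : (t '' {S | S.card = 2}).ncard = 276 := by
    rw [Set.InjOn.ncard_image fun S a T b => h.inj (by simp [show S.card = 2 from a]) (by simp [show T.card = 2 from b])
      (by rw [a, b]; norm_num), H16.ncard_subsets]; rfl
  refine ⟨_, _, hz, h.mem _, h.ne_one d, cz, h.not_conj d, ?_, k1 ▸ congrArg _ (Set.ext fun v => ⟨?_, ?_⟩),
    h.cent_duad j.u11 (h.mem _) (h.not_conj d) (h.ne_one d)⟩
  · have k2 : {v : G | ∃ n ∈ normalizer (V : Set G), n * (g * z * g⁻¹) * n⁻¹ = v} = ((V : Set G) \ {1}) \ (t '' {S | S.card = 2}) := by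
      ext v
      constructor
      · rintro ⟨n, hn, rfl⟩
        exact ⟨⟨(mem_normalizer_iff.mp hn _).mp hz, by simpa using m.lx.ne_one⟩, fun ⟨S, a, b⟩ =>
          h.not_conj a (b ▸ cz.trans (isConj_iff.mpr ⟨n, rfl⟩))⟩
      · rintro ⟨⟨a, b⟩, c⟩
        obtain ⟨k, rfl⟩ := isConj_iff.mp (cz.symm.trans (by_contra fun f => c ((h.duad v a b).mp f)))
        exact j.u11.fusion (fun _ => h.A_sq) h.cardA.ge hz a
    rw [k2, Set.ncard_sdiff (by rintro _ ⟨S, a, rfl⟩; exact ⟨h.mem S, h.ne_one a⟩), k1, Set.ncard_sdiff_singleton_of_mem V.one_mem,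
      show (V : Set G).ncard = 2 ^ 11 from h.cardA]; norm_num
  · rintro ⟨n, hn, rfl⟩
    exact ⟨_, by simp [d], (h2 ⟨n, hn⟩ _ (by simp [d])).symm⟩
  · rintro ⟨S, a, rfl⟩
    obtain ⟨σ, rfl⟩ : S ∈ MulAction.orbit M24 {none, some 0} := by rw [H16.orbit_subset_eq (by omega)]; exact a.trans d.symm
    obtain ⟨n, rfl⟩ := h1 σ
    exact ⟨n, n.2, h2 n _ (by simp [d])⟩

end Cfsg.Agent.S5568
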