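import Cfsg.Statements.S5569
import Cfsg.Agent.H21.Ja6

set_option autoImplicit false
set_option linter.style.haveILetI false
open Cfsg

namespace Cfsg.Agent.S5569

open Cfsg.Agent.LL Cfsg.Agent.LL.U6 Cfsg.Agent.H3 Cfsg.Agent.H10 Subgroup
open scoped Pointwise

/-- Let G be a finite non-abelian simple group of Janko-four type (an involution z whose centralizer H has an extraspecial largest normal 2-subgroup E of order 2^13 containing its centralizer in H, a normal subgroup N ≥ E of H with N/E of order 3 and H/N the automorphism group of M₂₂, and a subgroup P ≤ N of order 3 with C_E(P) = ⟨z⟩, N_H(P) ≠ C_H(P) and P ≤ C_H(P)′). Then the centralizer of an involution t of G that is not conjugate to z is a split extension of an elementary abelian normal subgroup of order 2^11 by a complement isomorphic to the automorphism group of M₂₂. -/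
theorem result {G : Type*} [Group G] [Finite G] [IsSimpleGroup G] (hG : ¬ IsMulCommutative G) (z : G) (hJ : Cfsg.IsOfJankoFourTypeAt z) (t : G) (ht : orderOf t = 2) (hnc : ¬ IsConj z t) :
    ∃ V K : Subgroup G, V ≤ Subgroup.centralizer ({t} : Set G) ∧ K ≤ Subgroup.centralizer ({t} : Set G) ∧
    Subgroup.centralizer ({t} : Set G) ≤ Subgroup.normalizer (V : Set G) ∧ Cfsg.IsElementaryAbelian 2 V ∧ Nat.card ↥V = 2 ^ 11 ∧
    K ⊓ V = ⊥ ∧ K ⊔ V = Subgroup.centralizer ({t} : Set G) ∧ Nonempty (↥K ≃* MulAut ↥Cfsg.Spor.M22) := by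
  obtain ⟨P, h⟩ := hJ
  obtain ⟨ρ, p, m, x, j, -⟩ := exists_JF h
  obtain ⟨b, d, s, Φ, k⟩ := j.exists_jc hG
  obtain ⟨a, ha, e⟩ := k.invol (H11.mul_self_of_orderOf_two ht)
  obtain ⟨g, rfl⟩ := isConj_iff.mp e.symm
  obtain ⟨K, hK⟩ := k.split
  obtain ⟨K, hK⟩ : ∃ K, Spl (MulAut.conj g • m.AG) K := ⟨_, hK.conj g⟩
  obtain ⟨s, h⟩ : ∃ s, JS z (MulAut.conj g • m.AG) s := ⟨_, k.h.conj g⟩
  replace ha := (conj_mem_conj_smul (g := g)).mpr ha
  generalize MulAut.conj g • m.AG = V at *
  generalize g * a * g⁻¹ = t at *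
  have t1 := H11.ne_one_of_orderOf_two ht
  have c := h.cent_duad j.u11 ha hnc t1
  have v : V ≤ centralizer {t} := fun v hv => mem_centralizer_singleton_iff.mpr (h.comm hv ha)
  obtain ⟨h1, ψ, h2⟩ := hK.iso h.toMS
  obtain ⟨S, s1, rfl⟩ := (h.duad t ha t1).mp hnc
  obtain ⟨u⟩ := autM22
  refine ⟨V, K ⊓ centralizer {s S}, v, inf_le_right, c, h.elem, h.cardA, eq_bot_iff.mpr fun y hy => hK.inf.le ⟨hy.1.1, hy.2⟩,
    le_antisymm (sup_le inf_le_right v) fun y hy => ?_, ⟨(subgroupOfEquivOfLe inf_le_left).symm.trans ((ψ.subgroupMap _).trans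
      ((MulEquiv.subgroupCongr ?_).trans ((MulAction.stabilizerEquivStabilizerOfOrbitRel (a := S) ?_).trans u.symm)))⟩⟩
  · obtain ⟨a, ha, k, hk, rfl⟩ := h1 y (c hy)
    exact mul_mem (mem_sup_right ha) (mem_sup_left ⟨hk, (mul_mem_cancel_left (v ha)).mp hy⟩)
  · ext y
    obtain ⟨y, rfl⟩ := ψ.surjective y
    refine (mem_map_iff_mem (f := (ψ : K →* M24)) ψ.injective).trans ?_
    rw [mem_subgroupOf, mem_inf, mem_centralizer_singleton_iff, ← mul_inv_eq_iff_eq_mul,
      h2 y S (by simp [s1]), MulAction.mem_stabilizer_iff]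
    exact ⟨fun e => h.inj (by simp [s1]) (by simp [s1]) (by simp [s1]) e.2, fun e => ⟨y.2, congrArg s e⟩⟩
  · rw [MulAction.orbitRel_apply, H16.orbit_subset_eq (by decide +kernel)]
    exact s1.trans (by decide +kernel)

end Cfsg.Agent.S5569
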