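import Cfsg.Statements.S5570
import Cfsg.Agent.J4B.Main

set_option autoImplicit false
open Cfsg

namespace Cfsg.Agent.S5570

open Cfsg.Agent.J4B
open scoped Pointwise

/-- Let G be a finite non-abelian simple group of Janko-four type (an involution z whose centralizer H has an extraspecial largest normal 2-subgroup E of order 2^13 containing its centralizer in H, a normal subgroup N ≥ E of H with N/E of order 3 and H/N the automorphism group of M₂₂, and a subgroup P ≤ N of order 3 with C_E(P) = ⟨z⟩, N_H(P) ≠ C_H(P) and P ≤ C_H(P)′). Then G has self-centralizing elementary abelian subgroups of order 2^10, any two of them are conjugate, and for such a subgroup A the normalizer of A is a split extension of A by a complement isomorphic to L₅(2) under which A has no proper non-trivial invariant subgroup. -/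
theorem result {G : Type*} [Group G] [Finite G] [IsSimpleGroup G] (hG : ¬ IsMulCommutative G) (hJ : Cfsg.IsOfJankoFourType G) :
    (∃ A : Subgroup G, Cfsg.IsElementaryAbelian 2 A ∧ Nat.card ↥A = 2 ^ 10 ∧ Subgroup.centralizer (A : Set G) = A) ∧
    (∀ A A' : Subgroup G, Cfsg.IsElementaryAbelian 2 A → Nat.card ↥A = 2 ^ 10 → Subgroup.centralizer (A : Set G) = A → Cfsg.IsElementaryAbelian 2 A' → Nat.card ↥A' = 2 ^ 10 → Subgroup.centralizer (A' : Set G) = A' → ∃ g : G, A' = A.map (MulAut.conj g).toMonoidHom) ∧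
    ∀ A : Subgroup G, Cfsg.IsElementaryAbelian 2 A → Nat.card ↥A = 2 ^ 10 → Subgroup.centralizer (A : Set G) = A →
      (∃ B : Subgroup G, B ≤ Subgroup.normalizer (A : Set G) ∧ B ⊓ A = ⊥ ∧ B ⊔ A = Subgroup.normalizer (A : Set G) ∧
        Nonempty (↥B ≃* Matrix.SpecialLinearGroup (Fin 5) (ZMod 2))) ∧
      ∀ W : Subgroup G, W ≤ A → Subgroup.normalizer (A : Set G) ≤ Subgroup.normalizer (W : Set G) → W = ⊥ ∨ W = A := by
  obtain ⟨A0, K, M, f, h, u⟩ := exists_ten' hG hJ
  refine ⟨⟨A0, ⟨⟨⟨fun a b => Subtype.ext (H11.comm_of_sq_eq_one (fun _ => h.sq) a.2 b.2)⟩⟩, fun a ha => (pow_two a).trans (h.sq ha)⟩,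
    h.cardA, h.cent_eq⟩, fun A A' a1 a2 a3 b1 b2 b3 => ?_, fun A a1 a2 a3 => ?_⟩
  · obtain ⟨g, rfl⟩ := u A a1 a2 a3
    obtain ⟨g', rfl⟩ := u A' b1 b2 b3
    refine ⟨g' * g⁻¹, ?_⟩
    change _ = MulAut.conj (g' * g⁻¹) • MulAut.conj g • A0
    rw [smul_smul, ← map_mul, inv_mul_cancel_right]
  · obtain ⟨g, rfl⟩ := u A a1 a2 a3
    exact ⟨(h.conj g).compl, fun W => (h.conj g).irr⟩

end Cfsg.Agent.S5570
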