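import Cfsg.Statements.S5594
import Cfsg.Agent.H21.Leech11

set_option autoImplicit false
set_option linter.style.haveILetI false
open Cfsg

namespace Cfsg.Agent.S5594

open Cfsg.Agent.LL Cfsg.Agent.H16

/-- The automorphism group of the Leech lattice contains the negation map, and the subgroup of order 2 it generates has no complement: the automorphism group is a non-split extension of its quotient by that subgroup (it is not the direct product of a group of order 2 with the first Conway group). -/
theorem result :
    ∃ n : ↥Cfsg.Co0, (∀ v : ↥Cfsg.leechLattice, ((n • v : ↥Cfsg.leechLattice) : Cfsg.GolayPt → ℤ) = -(v : Cfsg.GolayPt → ℤ)) ∧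
    ∀ K : Subgroup ↥Cfsg.Co0, ¬ (Subgroup.zpowers n).IsComplement' K := by
  refine ⟨neg1, fun v => by rw [neg1_smul]; rfl, fun K hK => ?_⟩
  have h1 : Nat.card (Subgroup.zpowers neg1) = 2 := by
    rw [Nat.card_zpowers]
    exact orderOf_eq_prime (by rw [pow_two]; exact eps_sq _) neg1_ne_one
  have h2 := hK.card_mul_card
  have h3 : K.index = 2 := hK.index_eq_card.trans h1
  have := Subgroup.normal_of_index_eq_two h3
  rw [h1, card_Co0] at h2
  rcases normal_Co0 K with h | h
  · have := Subgroup.card_le_of_le h
    rw [card_center] at this
    omega
  · rw [h, Subgroup.index_top] at h3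
    omega

end Cfsg.Agent.S5594
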