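import Cfsg.Statements.S5601
import Cfsg.Agent.H16.M24g

set_option autoImplicit false
open scoped Pointwise
open Cfsg

namespace Cfsg.Agent.S5601
open H16 in
theorem fix_zpowers (x : M24) : {p : GolayPt | ∀ y ∈ Subgroup.zpowers x, ((y : M24) : Equiv.Perm GolayPt) p = p}.ncard =
    (fixSet x).card := by
  rw [← Set.ncard_coe_finset]
  congr 1
  ext p
  rw [Finset.mem_coe, mem_fixSet]
  exact ⟨fun h => h x (Subgroup.mem_zpowers x), fun h y hy =>
    (Subgroup.zpowers_le (H := MulAction.stabilizer M24 p)).mpr h hy⟩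

theorem gen {X : Subgroup M24} (h : Nat.card X = 3) : ∃ x : M24, orderOf x = 3 ∧ X = Subgroup.zpowers x := by
  have := isCyclic_of_prime_card (p := 3) h
  obtain ⟨x, hx⟩ := (Subgroup.isCyclic_iff_exists_zpowers_eq_top X).mp this
  exact ⟨x, by rw [← Nat.card_zpowers, hx, h], hx.symm⟩

theorem conj_zpowers (k x : M24) : MulAut.conj k • Subgroup.zpowers x = Subgroup.zpowers (k * x * k⁻¹) :=
  MonoidHom.map_zpowers _ x

/-- The group of the length-24 code has exactly two conjugacy classes of subgroups of order 3: a subgroup of order 3 fixes either exactly 6 of the 24 points or none of them, both cases occur, and two subgroups of order 3 with the same number of fixed points are conjugate. -/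
theorem result : (∀ X : Subgroup ↥Cfsg.M24, Nat.card X = 3 → {p : Cfsg.GolayPt | ∀ x ∈ X, ((x : ↥Cfsg.M24) : Equiv.Perm Cfsg.GolayPt) p = p}.ncard = 6 ∨ {p : Cfsg.GolayPt | ∀ x ∈ X, ((x : ↥Cfsg.M24) : Equiv.Perm Cfsg.GolayPt) p = p}.ncard = 0) ∧ (∃ X : Subgroup ↥Cfsg.M24, Nat.card X = 3 ∧ {p : Cfsg.GolayPt | ∀ x ∈ X, ((x : ↥Cfsg.M24) : Equiv.Perm Cfsg.GolayPt) p = p}.ncard = 6) ∧ (∃ X : Subgroup ↥Cfsg.M24, Nat.card X = 3 ∧ {p : Cfsg.GolayPt | ∀ x ∈ X, ((x : ↥Cfsg.M24) : Equiv.Perm Cfsg.GolayPt) p = p}.ncard = 0) ∧ ∀ X Y : Subgroup ↥Cfsg.M24, Nat.card X = 3 → Nat.card Y = 3 → {p : Cfsg.GolayPt | ∀ x ∈ X, ((x : ↥Cfsg.M24) : Equiv.Perm Cfsg.GolayPt) p = p}.ncard = {p : Cfsg.GolayPt | ∀ x ∈ Y, ((x : ↥Cfsg.M24) : Equiv.Perm Cfsg.GolayPt) p = p}.ncard → ∃ k : ↥Cfsg.M24, MulAut.conj k • X = Y := by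
  refine ⟨fun X h => ?_, ⟨Subgroup.zpowers H16.t3A, by rw [Nat.card_zpowers, H16.orderOf_3A],
    by rw [fix_zpowers, H16.card_fix3A]⟩, ⟨Subgroup.zpowers H16.t3B, by rw [Nat.card_zpowers, H16.orderOf_3B],
    by rw [fix_zpowers, H16.card_fix3B]⟩, fun X Y h h' e => ?_⟩
  · obtain ⟨x, hx, rfl⟩ := gen h
    obtain ⟨c, rfl | rfl⟩ := H16.class3 hx <;>
      simp only [fix_zpowers, H16.fixSet_conj, Finset.card_smul_finset, H16.card_fix3A, H16.card_fix3B] <;> simp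
  obtain ⟨x, hx, rfl⟩ := gen h
  obtain ⟨y, hy, rfl⟩ := gen h'
  obtain ⟨c, rfl | rfl⟩ := H16.class3 hx <;> obtain ⟨d, rfl | rfl⟩ := H16.class3 hy <;>
    simp only [fix_zpowers, H16.fixSet_conj, Finset.card_smul_finset, H16.card_fix3A, H16.card_fix3B] at e
  · exact ⟨d * c⁻¹, by rw [conj_zpowers]; group⟩
  · omega
  · omega
  · exact ⟨d * c⁻¹, by rw [conj_zpowers]; group⟩

end Cfsg.Agent.S5601
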