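import Cfsg.Statements.S5602
import Cfsg.Agent.H16.M24g

set_option autoImplicit false
open scoped Pointwise
open Cfsg

namespace Cfsg.Agent.S5602
open H16 in
theorem b0 : {x | x ∈ octads ∧ t3A • x = x}.ncard = 21 :=
  (ncard_octads_filter (fun m => Nat.beq (img z3A m) m) fun m hm => by
    have hp := fun i hi => (rep3A i hi).1
    rw [rep3A.smul_toSet, toSet_eq_iff (by rw [img_eq hp]; exact imgS_lt hp _) hm, Nat.beq_eq]).trans (by decide +kernel)

open H16 in
theorem b1 : {x | x ∈ trios ∧ t3A • x = x}.ncard = 15 := tabTrio.ncard_fixed rep3A (by decide +kernel)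

open H16 in
theorem b2 : {x | x ∈ sextets ∧ t3A • x = x}.ncard = 16 := tabSext.ncard_fixed rep3A (by decide +kernel)

open H16 in
theorem b3 : {x | x ∈ dodecads ∧ t3A • x = x}.ncard = 20 :=
  (ncard_dodecads_filter (fun m => Nat.beq (img z3A m) m) fun m hm => by
    have hp := fun i hi => (rep3A i hi).1
    rw [rep3A.smul_toSet, toSet_eq_iff (by rw [img_eq hp]; exact imgS_lt hp _) hm, Nat.beq_eq]).trans (by decide +kernel)


/-- An element of order 3 of the group of the length-24 code having exactly 6 fixed points maps to themselves exactly 21 octads, exactly 15 trios, exactly 16 sextets and exactly 20 dodecads. -/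
theorem result (g : Equiv.Perm Cfsg.GolayPt) (hg : g ∈ Cfsg.M24) (h₃ : orderOf g = 3) (h₆ : (Finset.univ.filter fun p => g p = p).card = 6) : {o : Finset Cfsg.GolayPt | o ∈ Cfsg.octads ∧ g • o = o}.ncard = 21 ∧ {T : Finset (Finset Cfsg.GolayPt) | T ∈ Cfsg.trios ∧ g • T = T}.ncard = 15 ∧ {S : Finset (Finset Cfsg.GolayPt) | S ∈ Cfsg.sextets ∧ g • S = S}.ncard = 16 ∧ {d : Finset Cfsg.GolayPt | d ∈ Cfsg.dodecads ∧ g • d = d}.ncard = 20 := by
  obtain ⟨g, rfl⟩ : ∃ x : M24, x = g := ⟨⟨g, hg⟩, rfl⟩
  have hf : (H16.fixSet g).card = 6 := h₆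
  obtain ⟨c, rfl | rfl⟩ := H16.class3 (x := g) (by rwa [← Subgroup.orderOf_coe])
  · exact ⟨(H16.ncard_transfer c fun x => by exact and_congr (H16.smul_mem_octads c x) (H16.conj_smul_iff c _ x)).trans b0,
      (H16.ncard_transfer c fun x => by exact and_congr (H16.smul_mem_trios c x) (H16.conj_smul_iff c _ x)).trans b1,
      (H16.ncard_transfer c fun x => by exact and_congr (H16.smul_mem_sextets c x) (H16.conj_smul_iff c _ x)).trans b2,
      (H16.ncard_transfer c fun x => by exact and_congr (H16.smul_mem_dodecads c x) (H16.conj_smul_iff c _ x)).trans b3⟩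
  · rw [H16.fixSet_conj, Finset.card_smul_finset, H16.card_fix3B] at hf
    omega

end Cfsg.Agent.S5602
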