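import Cfsg.Statements.S5603
import Cfsg.Agent.H16.M24g

set_option autoImplicit false
open scoped Pointwise
open Cfsg

namespace Cfsg.Agent.S5603
open H16 in
theorem b0 : {x | x ∈ sextets ∧ t3B • x = x}.ncard = 7 := tabSext.ncard_fixed rep3B (by decide +kernel)

open H16 in
theorem b1 : {x | x ∈ trios ∧ t3B • x = x}.ncard = 15 := tabTrio.ncard_fixed rep3B (by decide +kernel)


/-- A fixed-point-free element of order 3 of the group of the length-24 code maps to themselves exactly 7 sextets and exactly 15 trios. -/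
theorem result (g : Equiv.Perm Cfsg.GolayPt) (hg : g ∈ Cfsg.M24) (h₃ : orderOf g = 3) (h₀ : ∀ p, g p ≠ p) : {S : Finset (Finset Cfsg.GolayPt) | S ∈ Cfsg.sextets ∧ g • S = S}.ncard = 7 ∧ {T : Finset (Finset Cfsg.GolayPt) | T ∈ Cfsg.trios ∧ g • T = T}.ncard = 15 := by
  obtain ⟨g, rfl⟩ : ∃ x : M24, x = g := ⟨⟨g, hg⟩, rfl⟩
  have hf : (H16.fixSet g).card = 0 := Finset.card_eq_zero.mpr (H16.fixSet_eq_empty.mpr h₀)
  obtain ⟨c, rfl | rfl⟩ := H16.class3 (x := g) (by rwa [← Subgroup.orderOf_coe])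
  · rw [H16.fixSet_conj, Finset.card_smul_finset, H16.card_fix3A] at hf
    omega
  · exact ⟨(H16.ncard_transfer c fun x => by exact and_congr (H16.smul_mem_sextets c x) (H16.conj_smul_iff c _ x)).trans b0,
      (H16.ncard_transfer c fun x => by exact and_congr (H16.smul_mem_trios c x) (H16.conj_smul_iff c _ x)).trans b1⟩

end Cfsg.Agent.S5603
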