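import Cfsg.Statements.S5604
import Cfsg.Agent.H16.M24h
import Cfsg.Agent.H16.Norm

set_option autoImplicit false
open scoped Pointwise
open Cfsg

namespace Cfsg.Agent.S5604
open H16 in
noncomputable def x7 : M24 := elt 648428993273451207475585175107734678 (by decide +kernel)

open H16 in
theorem r7 : Rep gpt 24 x7 (get 5 648428993273451207475585175107734678) := rep_elt _ _

def SK : List ℕ := [956302485175575353788796878166559809, 974380510768821363662145534143076928,
  154129027964934607333019193520040384, 984754849572050517165203323723233472, 859982542449279159356136849518563648,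
  277882456219609202339377456448517664, 610202125098853875765871253677036800, 651983885404662696457771676759950400,
  901822616494690202433832728814401952, 319474074325668186640293348907856416]

open H16 in
theorem bN : Nat.card (⊤ ⊓ Subgroup.normalizer (Subgroup.zpowers x7 : Set M24) : Subgroup M24) = 126 ∧
    Gen gpt 24 5 (⊤ ⊓ Subgroup.normalizer (Subgroup.zpowers x7 : Set M24)) [96348559455665519414310975777246710,
      384374050176298672484016085849965200, 734898381235223901172611479638556896, 629902797213641523827881452731763424] :=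
  norm_gen mulOk24 gpt_inj (faith_M24 ⊤) (B := [0, 22, 19, 9, 5, 10, 1]) (by decide) (inK_top_of_allL (S := SK) (by decide +kernel))
    card_top_M24.le trivial r7 (e := 7) (by norm_num) (inK_top_of_allL (by decide +kernel)) (by decide +kernel)

open H16 in
theorem bC : Nat.card (⊤ ⊓ Subgroup.centralizer {x7} : Subgroup M24) = 42 ∧
    Gen gpt 24 5 (⊤ ⊓ Subgroup.centralizer {x7}) [92991881951505052927442173413083880, 734898381235223901172611479638556896] :=
  cent_gen1 mulOk24 gpt_inj (faith_M24 ⊤) (B := [0, 22, 19, 9, 5, 10, 1]) (by decide) le_rfl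
    (inK_top_of_allL (S := SK) (by decide +kernel)) card_top_M24.le trivial r7 [] (by decide +kernel)

open H16 in
theorem bT : ∀ n ∈ Subgroup.normalizer (Subgroup.zpowers x7 : Set M24), n • fam 3 (tr 576) = fam 3 (tr 576) := fun n hn =>
  bN.2.le (H := MulAction.stabilizer M24 (fam 3 (tr 576))) (fun p hp g _ rg => rg.smul_fam (allL_iff.mp (by decide +kernel) p hp))
    ⟨trivial, hn⟩

open H16 in
theorem bA : ∃ x ∈ Subgroup.centralizer {x7}, ∃ y ∈ Subgroup.centralizer {x7}, x * y ≠ y * x := by
  obtain ⟨x, hx, rx⟩ := bC.2.1 _ List.mem_cons_self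
  obtain ⟨y, hy, ry⟩ := bC.2.1 _ (List.mem_cons_of_mem _ List.mem_cons_self)
  exact ⟨x, hx.2, y, hy.2, fun e => absurd (eqP_of_rep gpt_inj (rx.pmul five_le ry) (e ▸ ry.pmul five_le rx)) (by decide +kernel)⟩


/-- For a subgroup S of order 7 of the group of the length-24 code (a Sylow 7-subgroup): the normaliser of S has order 126, the centraliser of S has order 42 and is non-abelian, and the whole normaliser leaves some trio invariant. (These are the orders of a Frobenius group of order 21 times a symmetric group of degree 3; the isomorphism type itself is not asserted here.) -/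
theorem result (S : Subgroup ↥Cfsg.M24) (hS : Nat.card S = 7) : Nat.card ↥(Subgroup.normalizer (S : Set ↥Cfsg.M24)) = 126 ∧ Nat.card ↥(Subgroup.centralizer (S : Set ↥Cfsg.M24)) = 42 ∧ (∃ x ∈ Subgroup.centralizer (S : Set ↥Cfsg.M24), ∃ y ∈ Subgroup.centralizer (S : Set ↥Cfsg.M24), x * y ≠ y * x) ∧ ∃ T ∈ Cfsg.trios, ∀ n ∈ Subgroup.normalizer (S : Set ↥Cfsg.M24), ((n : ↥Cfsg.M24) : Equiv.Perm Cfsg.GolayPt) • T = T := by
  obtain ⟨c, rfl⟩ := H16.exists_conj_zpowers (p := 7) (m := 34974720) (by norm_num) H16.card_M24 (by norm_num)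
    (r7.orderOf_eq H16.five_le H16.gpt_inj (H16.faith_M24 ⊤) trivial (by norm_num) (by decide +kernel)) hS
  have h1 := bN.1
  have h2 := bC.1
  rw [top_inf_eq] at h1 h2
  rw [H16.centralizer_zpowers]
  refine ⟨(H16.card_conj fun x => H16.conj_mem_normalizer_zpowers c x7 x).trans h1,
    (H16.card_conj fun x => H16.conj_mem_centralizer c x7 x).trans h2, ?_, c • H16.fam 3 (H16.tr 576),
    H16.M24_smul_mem_trios c (H16.tabTrio.pt_mem (by norm_num)), fun n hn => ?_⟩
  · obtain ⟨x, hx, y, hy, h⟩ := bA
    exact ⟨_, (H16.conj_mem_centralizer c x7 x).mp hx, _, (H16.conj_mem_centralizer c x7 y).mp hy, fun e => h (by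
      rw [← mul_right_cancel_iff (a := c⁻¹)]; simpa [mul_assoc] using e)⟩
  · obtain ⟨n, rfl⟩ := (MulAut.conj c).surjective n
    exact H16.cj c (bT n ((H16.conj_mem_normalizer_zpowers c x7 n).mpr hn))

end Cfsg.Agent.S5604
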