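import Cfsg.Statements.S5605
import Cfsg.Agent.H16.M24g

set_option autoImplicit false
open scoped Pointwise
open Cfsg

namespace Cfsg.Agent.S5605
open H16 in
theorem b0 : {x | x ∈ octads ∧ t2A • x = x}.ncard = 71 :=
  (ncard_octads_filter (fun m => Nat.beq (img z2A m) m) fun m hm => by
    have hp := fun i hi => (rep2A i hi).1
    rw [rep2A.smul_toSet, toSet_eq_iff (by rw [img_eq hp]; exact imgS_lt hp _) hm, Nat.beq_eq]).trans (by decide +kernel)

open H16 in
theorem b1 : {x | x ∈ trios ∧ t2A • x = x}.ncard = 99 := tabTrio.ncard_fixed rep2A (by decide +kernel)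

open H16 in
theorem b2 : {x | x ∈ sextets ∧ t2A • x = x}.ncard = 91 := tabSext.ncard_fixed rep2A (by decide +kernel)


/-- An involution of the group of the length-24 code with exactly 8 fixed points maps to themselves exactly 71 octads, exactly 99 trios and exactly 91 sextets. -/
theorem result (g : Equiv.Perm Cfsg.GolayPt) (hg : g ∈ Cfsg.M24) (h₂ : orderOf g = 2) (h₈ : (Finset.univ.filter fun p => g p = p).card = 8) : {o : Finset Cfsg.GolayPt | o ∈ Cfsg.octads ∧ g • o = o}.ncard = 71 ∧ {T : Finset (Finset Cfsg.GolayPt) | T ∈ Cfsg.trios ∧ g • T = T}.ncard = 99 ∧ {S : Finset (Finset Cfsg.GolayPt) | S ∈ Cfsg.sextets ∧ g • S = S}.ncard = 91 := by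
  obtain ⟨g, rfl⟩ : ∃ x : M24, x = g := ⟨⟨g, hg⟩, rfl⟩
  have hf : (H16.fixSet g).card = 8 := h₈
  obtain ⟨c, rfl | rfl⟩ := H16.class2 (x := g) (by rwa [← Subgroup.orderOf_coe])
  · exact ⟨(H16.ncard_transfer c fun x => by exact and_congr (H16.smul_mem_octads c x) (H16.conj_smul_iff c _ x)).trans b0,
      (H16.ncard_transfer c fun x => by exact and_congr (H16.smul_mem_trios c x) (H16.conj_smul_iff c _ x)).trans b1,
      (H16.ncard_transfer c fun x => by exact and_congr (H16.smul_mem_sextets c x) (H16.conj_smul_iff c _ x)).trans b2⟩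
  · rw [H16.fixSet_conj, Finset.card_smul_finset, H16.card_fix2B] at hf
    omega

end Cfsg.Agent.S5605
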