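import Cfsg.Statements.S5609
import Cfsg.Agent.H16.M24h

set_option autoImplicit false
open scoped Pointwise
open Cfsg

namespace Cfsg.Agent.S5609
theorem adj {a b : Finset GolayPt} (ha : a ∈ octads) (hb : b ∈ octads) :
    (blockGraph octads).Adj ⟨a, ha⟩ ⟨b, hb⟩ ↔ (a ∩ b).card = 0 := by
  rw [blockGraph, SimpleGraph.fromRel_adj, Finset.card_eq_zero, ← Finset.disjoint_iff_inter_eq_empty]
  refine ⟨fun h => h.2.elim id fun h => h.symm, fun h => ⟨fun e => ?_, Or.inl h⟩⟩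
  obtain rfl : a = b := congrArg Subtype.val e
  have := ha.2
  rw [(Finset.disjoint_self_iff_empty a).mp h] at this
  exact absurd this (by simp)

open H16 in
theorem w4 {a b : Finset GolayPt} (ha : a ∈ octads) (hb : b ∈ octads) (h : (a ∩ b).card = 4) :
    ∃ x ∈ octads, (a ∩ x).card = 0 ∧ (x ∩ b).card = 0 := by
  obtain ⟨g, rfl, rfl⟩ := M24_octad_pair' oct0_mem (mem_octads_of (m := 13062145) (by decide +kernel)) ha hb
    (by rw [h]; decide +kernel)
  exact ⟨_, M24_smul_mem_octads g (mem_octads_of (m := 3704512) (by decide +kernel)),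
    by rw [card_smul_inter]; decide +kernel, by rw [card_smul_inter]; decide +kernel⟩

open H16 in
theorem w2 {a b : Finset GolayPt} (ha : a ∈ octads) (hb : b ∈ octads) (h : (a ∩ b).card = 2) :
    (∃ x ∈ octads, ∃ y ∈ octads, (a ∩ x).card = 0 ∧ (x ∩ y).card = 0 ∧ (y ∩ b).card = 0) ∧
      ∀ x ∈ octads, (a ∩ x).card = 0 → (x ∩ b).card ≠ 0 := by
  obtain ⟨g, rfl, rfl⟩ := M24_octad_pair' oct0_mem (mem_octads_of (m := 4845570) (by decide +kernel)) ha hb
    (by rw [h]; decide +kernel)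
  refine ⟨⟨_, M24_smul_mem_octads g (mem_octads_of (m := 6889680) (by decide +kernel)),
    _, M24_smul_mem_octads g (mem_octads_of (m := 8783649) (by decide +kernel)),
    by rw [card_smul_inter]; decide +kernel, by rw [card_smul_inter]; decide +kernel,
    by rw [card_smul_inter]; decide +kernel⟩, fun x hx => ?_⟩
  obtain ⟨x, rfl⟩ := MulAction.surjective g x
  rw [card_smul_inter, card_smul_inter]
  exact forall_wt (Q := fun x => (toSet oct0 ∩ x).card = 0 → (x ∩ toSet 4845570).card ≠ 0)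
    (fun m => impB (Nat.beq (pc24 (Nat.land oct0 m)) 0) (notB (Nat.beq (pc24 (Nat.land m 4845570)) 0)))
    (fun m _ h => by simpa only [impB_iff, notB_iff, Nat.beq_eq, ← card_inter_toSet] using h) (by decide +kernel)
    ((smul_mem_octads g x).mp hx)

theorem key {a b : Finset GolayPt} (ha : a ∈ octads) (hb : b ∈ octads) (hne : a ≠ b) :
    (blockGraph octads).Reachable ⟨a, ha⟩ ⟨b, hb⟩ ∧
    ((a ∩ b).card = 0 ∧ (blockGraph octads).dist ⟨a, ha⟩ ⟨b, hb⟩ = 1 ∨
     (a ∩ b).card = 4 ∧ (blockGraph octads).dist ⟨a, ha⟩ ⟨b, hb⟩ = 2 ∨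
     (a ∩ b).card = 2 ∧ (blockGraph octads).dist ⟨a, ha⟩ ⟨b, hb⟩ = 3) := by
  have hne' : (⟨a, ha⟩ : octads) ≠ ⟨b, hb⟩ := fun e => hne (congrArg Subtype.val e)
  rcases H16.octads_inter ha hb hne with h | h | h
  · exact ⟨((adj ha hb).mpr h).reachable, Or.inl ⟨h, SimpleGraph.dist_eq_one_iff_adj.mpr ((adj ha hb).mpr h)⟩⟩
  · obtain ⟨⟨x, hx, y, hy, h1, h2, h3⟩, h4⟩ := w2 ha hb h
    let p : (blockGraph octads).Walk ⟨a, ha⟩ ⟨b, hb⟩ :=
      .cons ((adj ha hx).mpr h1) (.cons ((adj hx hy).mpr h2) (.cons ((adj hy hb).mpr h3) .nil))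
    have h5 : _ ≤ 3 := SimpleGraph.dist_le p
    have h6 := p.reachable.one_lt_dist_of_ne_of_not_adj hne' (by rw [adj]; omega)
    refine ⟨p.reachable, Or.inr (Or.inr ⟨h, ?_⟩)⟩
    by_contra h7
    obtain ⟨q, hq⟩ := p.reachable.exists_walk_length_eq_dist
    rw [show (blockGraph octads).dist ⟨a, ha⟩ ⟨b, hb⟩ = 2 by omega] at hq
    have e1 := q.adj_getVert_succ (i := 0) (by omega)
    have e2 := q.adj_getVert_succ (i := 1) (by omega)
    rw [q.getVert_zero] at e1
    rw [show 1 + 1 = q.length from hq.symm, q.getVert_length] at e2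
    exact h4 _ (q.getVert 1).2 ((adj ha _).mp e1) ((adj _ hb).mp e2)
  · obtain ⟨x, hx, h1, h2⟩ := w4 ha hb h
    let p : (blockGraph octads).Walk ⟨a, ha⟩ ⟨b, hb⟩ := .cons ((adj ha hx).mpr h1) (.cons ((adj hx hb).mpr h2) .nil)
    have h5 : _ ≤ 2 := SimpleGraph.dist_le p
    have h6 := p.reachable.one_lt_dist_of_ne_of_not_adj hne' (by rw [adj]; omega)
    exact ⟨p.reachable, Or.inr (Or.inl ⟨h, by omega⟩)⟩


/-- In the graph on the 759 octads of the length-24 code in which two octads are adjacent when they are disjoint, the graph is connected (of diameter 3) and two distinct octads are at distance 1, 2 or 3 exactly when they meet in 0, 4 or 2 points respectively. -/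
theorem result (o o' : Finset Cfsg.GolayPt) (ho : o ∈ Cfsg.octads) (ho' : o' ∈ Cfsg.octads) (hne : o ≠ o') : (Cfsg.blockGraph Cfsg.octads).Connected ∧ ((Cfsg.blockGraph Cfsg.octads).dist ⟨o, ho⟩ ⟨o', ho'⟩ = 1 ↔ (o ∩ o').card = 0) ∧ ((Cfsg.blockGraph Cfsg.octads).dist ⟨o, ho⟩ ⟨o', ho'⟩ = 2 ↔ (o ∩ o').card = 4) ∧ ((Cfsg.blockGraph Cfsg.octads).dist ⟨o, ho⟩ ⟨o', ho'⟩ = 3 ↔ (o ∩ o').card = 2) := by
  have : Nonempty octads := ⟨⟨o, ho⟩⟩
  refine ⟨⟨fun a b => ?_⟩, ?_⟩
  · by_cases h : a = b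
    · rw [h]
    · exact (key a.2 b.2 fun e => h (Subtype.ext e)).1
  · have := (key ho ho' hne).2
    omega

end Cfsg.Agent.S5609
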