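import Cfsg.Statements.S5610
import Cfsg.Agent.H16.M24f

set_option autoImplicit false
open scoped Pointwise
open Cfsg

namespace Cfsg.Agent.S5610
open H16 MulAction in
theorem base1 : OrbDec KO trios [15, 420, 3360] ∅ := by
  have := tabTrio.orbDec gen_koG [(330, 15), (0, 420), (1, 3360)] 0 (by decide +kernel)
  rwa [ptSet_zero] at this

open H16 MulAction in
theorem base2 : OrbDec KO sextets [35, 840, 896] ∅ := by
  have := tabSext.orbDec gen_koG [(70, 35), (2, 840), (0, 896)] 0 (by decide +kernel)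
  rwa [ptSet_zero] at this

/-- The stabiliser of an octad in the group of the length-24 code has exactly three orbits on the 3795 trios, of sizes 15, 420 and 3360, and exactly three orbits on the 1771 sextets, of sizes 35, 840 and 896. -/
theorem result (o : Finset Cfsg.GolayPt) (ho : o ∈ Cfsg.octads) : (∃ X₁ ∈ Cfsg.trios, ∃ X₂ ∈ Cfsg.trios, ∃ X₃ ∈ Cfsg.trios, (MulAction.orbit ↥(MulAction.stabilizer Cfsg.M24 o) X₁).ncard = 15 ∧ (MulAction.orbit ↥(MulAction.stabilizer Cfsg.M24 o) X₂).ncard = 420 ∧ (MulAction.orbit ↥(MulAction.stabilizer Cfsg.M24 o) X₃).ncard = 3360 ∧ Cfsg.trios = MulAction.orbit ↥(MulAction.stabilizer Cfsg.M24 o) X₁ ∪ MulAction.orbit ↥(MulAction.stabilizer Cfsg.M24 o) X₂ ∪ MulAction.orbit ↥(MulAction.stabilizer Cfsg.M24 o) X₃) ∧ (∃ Y₁ ∈ Cfsg.sextets, ∃ Y₂ ∈ Cfsg.sextets, ∃ Y₃ ∈ Cfsg.sextets, (MulAction.orbit ↥(MulAction.stabilizer Cfsg.M24 o) Y₁).ncard = 35 ∧ (MulAction.orbit ↥(MulAction.stabilizer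 Cfsg.M24 o) Y₂).ncard = 840 ∧ (MulAction.orbit ↥(MulAction.stabilizer Cfsg.M24 o) Y₃).ncard = 896 ∧ Cfsg.sextets = MulAction.orbit ↥(MulAction.stabilizer Cfsg.M24 o) Y₁ ∪ MulAction.orbit ↥(MulAction.stabilizer Cfsg.M24 o) Y₂ ∪ MulAction.orbit ↥(MulAction.stabilizer Cfsg.M24 o) Y₃) := by
  obtain ⟨k, rfl⟩ := H16.M24_octad H16.oct0_mem ho
  have h := H16.conj_mem_stabilizer k (a := H16.toSet H16.oct0)
  have a := base1.conj h
  have b := base2.conj h
  rw [H16.smul_trios, Set.smul_set_empty] at a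
  rw [H16.smul_sextets, Set.smul_set_empty] at b
  constructor
  · obtain ⟨x1, h1, e1, x2, h2, e2, x3, h3, e3, e⟩ := a
    rw [Set.empty_union] at e
    exact ⟨x1, h1, x2, h2, x3, h3, e1, e2, e3, e⟩
  · obtain ⟨x1, h1, e1, x2, h2, e2, x3, h3, e3, e⟩ := b
    rw [Set.empty_union] at e
    exact ⟨x1, h1, x2, h2, x3, h3, e1, e2, e3, e⟩

end Cfsg.Agent.S5610
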