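import Cfsg.Statements.S5611
import Cfsg.Agent.H16.M24f

set_option autoImplicit false
open scoped Pointwise
open Cfsg

namespace Cfsg.Agent.S5611
open H16 MulAction in
theorem base1 : OrbDec KS octads [15, 360, 384] ∅ := by
  have := tabCode.orbDecQ gen_ksG (Q := fun s => s.card = 8) (fun i => Nat.beq (pc24 (cw i)) 8)
    (fun i _ => by rw [card_cset, Nat.beq_eq]) [(2, 15), (1, 360), (4, 384)] 0 (by decide +kernel)
  rwa [ptSet_zero] at this

open H16 MulAction in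
theorem base2 : OrbDec KS trios [15, 180, 720, 2880] ∅ := by
  have := tabTrio.orbDec gen_ksG [(302, 15), (2, 180), (0, 720), (1, 2880)] 0 (by decide +kernel)
  rwa [ptSet_zero] at this

/-- The stabiliser of a sextet in the group of the length-24 code has exactly three orbits on the 759 octads, of sizes 15, 360 and 384, and exactly four orbits on the 3795 trios, of sizes 15, 180, 720 and 2880. -/
theorem result (S : Finset (Finset Cfsg.GolayPt)) (hS : S ∈ Cfsg.sextets) : (∃ X₁ ∈ Cfsg.octads, ∃ X₂ ∈ Cfsg.octads, ∃ X₃ ∈ Cfsg.octads, (MulAction.orbit ↥(MulAction.stabilizer Cfsg.M24 S) X₁).ncard = 15 ∧ (MulAction.orbit ↥(MulAction.stabilizer Cfsg.M24 S) X₂).ncard = 360 ∧ (MulAction.orbit ↥(MulAction.stabilizer Cfsg.M24 S) X₃).ncard = 384 ∧ Cfsg.octads = MulAction.orbit ↥(MulAction.stabilizer Cfsg.M24 S) X₁ ∪ MulAction.orbit ↥(MulAction.stabilizer Cfsg.M24 S) X₂ ∪ MulAction.orbit ↥(MulAction.stabilizer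 Cfsg.M24 S) X₃) ∧ (∃ Y₁ ∈ Cfsg.trios, ∃ Y₂ ∈ Cfsg.trios, ∃ Y₃ ∈ Cfsg.trios, ∃ Y₄ ∈ Cfsg.trios, (MulAction.orbit ↥(MulAction.stabilizer Cfsg.M24 S) Y₁).ncard = 15 ∧ (MulAction.orbit ↥(MulAction.stabilizer Cfsg.M24 S) Y₂).ncard = 180 ∧ (MulAction.orbit ↥(MulAction.stabilizer Cfsg.M24 S) Y₃).ncard = 720 ∧ (MulAction.orbit ↥(MulAction.stabilizer Cfsg.M24 S) Y₄).ncard = 2880 ∧ Cfsg.trios = MulAction.orbit ↥(MulAction.stabilizer Cfsg.M24 S) Y₁ ∪ MulAction.orbit ↥(MulAction.stabilizer Cfsg.M24 S) Y₂ ∪ MulAction.orbit ↥(MulAction.stabilizer Cfsg.M24 S) Y₃ ∪ MulAction.orbit ↥(MulAction.stabilizer Cfsg.M24 S) Y₄) := by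
  obtain ⟨k, rfl⟩ := H16.M24_sextet H16.sx0_mem hS
  have h := H16.conj_mem_stabilizer k (a := H16.fam 6 (H16.sx 0))
  have a := base1.conj h
  have b := base2.conj h
  rw [H16.smul_octads, Set.smul_set_empty] at a
  rw [H16.smul_trios, Set.smul_set_empty] at b
  constructor
  · obtain ⟨x1, h1, e1, x2, h2, e2, x3, h3, e3, e⟩ := a
    rw [Set.empty_union] at e
    exact ⟨x1, h1, x2, h2, x3, h3, e1, e2, e3, e⟩
  · obtain ⟨x1, h1, e1, x2, h2, e2, x3, h3, e3, x4, h4, e4, e⟩ := b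
    rw [Set.empty_union] at e
    exact ⟨x1, h1, x2, h2, x3, h3, x4, h4, e1, e2, e3, e4, e⟩

end Cfsg.Agent.S5611
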