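import Cfsg.Statements.S5612
import Cfsg.Agent.H16.M24f

set_option autoImplicit false
open scoped Pointwise
open Cfsg

namespace Cfsg.Agent.S5612
open H16 MulAction in
theorem base1 : OrbDec KT octads [3, 84, 672] ∅ := by
  have := tabCode.orbDecQ gen_ktG (Q := fun s => s.card = 8) (fun i => Nat.beq (pc24 (cw i)) 8)
    (fun i _ => by rw [card_cset, Nat.beq_eq]) [(256, 3), (2, 84), (1, 672)] 0 (by decide +kernel)
  rwa [ptSet_zero] at this

open H16 MulAction in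
theorem base2 : OrbDec KT sextets [7, 84, 336, 1344] ∅ := by
  have := tabSext.orbDec gen_ktG [(49, 7), (1, 84), (0, 336), (2, 1344)] 0 (by decide +kernel)
  rwa [ptSet_zero] at this

/-- The stabiliser of a trio in the group of the length-24 code has exactly three orbits on the 759 octads, of sizes 3, 84 and 672, and exactly four orbits on the 1771 sextets, of sizes 7, 84, 336 and 1344. -/
theorem result (T : Finset (Finset Cfsg.GolayPt)) (hT : T ∈ Cfsg.trios) : (∃ X₁ ∈ Cfsg.octads, ∃ X₂ ∈ Cfsg.octads, ∃ X₃ ∈ Cfsg.octads, (MulAction.orbit ↥(MulAction.stabilizer Cfsg.M24 T) X₁).ncard = 3 ∧ (MulAction.orbit ↥(MulAction.stabilizer Cfsg.M24 T) X₂).ncard = 84 ∧ (MulAction.orbit ↥(MulAction.stabilizer Cfsg.M24 T) X₃).ncard = 672 ∧ Cfsg.octads = MulAction.orbit ↥(MulAction.stabilizer Cfsg.M24 T) X₁ ∪ MulAction.orbit ↥(MulAction.stabilizer Cfsg.M24 T) X₂ ∪ MulAction.orbit ↥(MulAction.stabilizer Cfsg.M24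 T) X₃) ∧ (∃ Y₁ ∈ Cfsg.sextets, ∃ Y₂ ∈ Cfsg.sextets, ∃ Y₃ ∈ Cfsg.sextets, ∃ Y₄ ∈ Cfsg.sextets, (MulAction.orbit ↥(MulAction.stabilizer Cfsg.M24 T) Y₁).ncard = 7 ∧ (MulAction.orbit ↥(MulAction.stabilizer Cfsg.M24 T) Y₂).ncard = 84 ∧ (MulAction.orbit ↥(MulAction.stabilizer Cfsg.M24 T) Y₃).ncard = 336 ∧ (MulAction.orbit ↥(MulAction.stabilizer Cfsg.M24 T) Y₄).ncard = 1344 ∧ Cfsg.sextets = MulAction.orbit ↥(MulAction.stabilizer Cfsg.M24 T) Y₁ ∪ MulAction.orbit ↥(MulAction.stabilizer Cfsg.M24 T) Y₂ ∪ MulAction.orbit ↥(MulAction.stabilizer Cfsg.M24 T) Y₃ ∪ MulAction.orbit ↥(MulAction.stabilizer Cfsg.M24 T) Y₄) := by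
  obtain ⟨k, rfl⟩ := H16.M24_trio H16.tr0_mem hT
  have h := H16.conj_mem_stabilizer k (a := H16.fam 3 (H16.tr 0))
  have a := base1.conj h
  have b := base2.conj h
  rw [H16.smul_octads, Set.smul_set_empty] at a
  rw [H16.smul_sextets, Set.smul_set_empty] at b
  constructor
  · obtain ⟨x1, h1, e1, x2, h2, e2, x3, h3, e3, e⟩ := a
    rw [Set.empty_union] at e
    exact ⟨x1, h1, x2, h2, x3, h3, e1, e2, e3, e⟩
  · obtain ⟨x1, h1, e1, x2, h2, e2, x3, h3, e3, x4, h4, e4, e⟩ := b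
    rw [Set.empty_union] at e
    exact ⟨x1, h1, x2, h2, x3, h3, x4, h4, e1, e2, e3, e4, e⟩

end Cfsg.Agent.S5612
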