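import Cfsg.Statements.S5613
import Cfsg.Agent.H16.M24g

set_option autoImplicit false
open scoped Pointwise
open Cfsg

namespace Cfsg.Agent.S5613
open H16 MulAction in
theorem base {o o' : Finset GolayPt} (ho : o ∈ octads) (ho' : o' ∈ octads) {c m l : ℕ} (h : (o ∩ o').card = c)
    (hc : codeCnt (fun x => andB (Nat.beq (pc24 x) 8) (Nat.beq (pc24 (Nat.land oct0 x)) c)) = m) (hm : 0 < m)
    (e : m * l = 322560) : Nat.card (stabilizer M24 o ⊓ stabilizer M24 o' : Subgroup M24) = l := by
  have h1 : orbit (stabilizer M24 o) o' = {x | x ∈ octads ∧ (o ∩ x).card = c} := by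
    ext x
    constructor
    · rintro ⟨g, rfl⟩
      refine ⟨M24_smul_mem_octads g ho', ?_⟩
      rw [← h, ← card_smul_inter (g : M24) o o', show (g : M24) • o = o from g.2]
      rfl
    · rintro ⟨h1, h2⟩
      obtain ⟨g, h3, h4⟩ := M24_octad_pair ho ho' h1 (h.trans h2.symm)
      exact ⟨⟨g, h3⟩, h4⟩
  have h2 : {x | x ∈ octads ∧ (o ∩ x).card = c}.ncard = m := by
    obtain ⟨k, rfl⟩ := M24_octad oct0_mem ho
    exact (ncard_transfer k fun x => by simp only [smul_mem_octads, card_smul_inter]; rfl).trans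
      ((ncard_octads_filter _ fun m _ => by rw [card_inter_toSet, Nat.beq_eq]).trans hc)
  have := card_eq_orbit_mul (stabilizer M24 o) o'
  rw [h1, h2, card_stab_octad ho, ← e] at this
  exact (Nat.eq_of_mul_eq_mul_left hm this).symm

/-- In the group of the length-24 code, the joint stabiliser of two octads has order 10752, 1152 or 720 according as the octads meet in 0, 4 or 2 points. -/
theorem result (o o' : Finset Cfsg.GolayPt) (ho : o ∈ Cfsg.octads) (ho' : o' ∈ Cfsg.octads) : ((o ∩ o').card = 0 → Nat.card ↥(MulAction.stabilizer Cfsg.M24 o ⊓ MulAction.stabilizer Cfsg.M24 o') = 10752) ∧ ((o ∩ o').card = 4 → Nat.card ↥(MulAction.stabilizer Cfsg.M24 o ⊓ MulAction.stabilizer Cfsg.M24 o') = 1152) ∧ ((o ∩ o').card = 2 → Nat.card ↥(MulAction.stabilizer Cfsg.M24 o ⊓ MulAction.stabilizer Cfsg.M24 o') = 720) := by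
  exact ⟨fun h => base ho ho' h (m := 30) (by decide +kernel) (by norm_num) rfl,
    fun h => base ho ho' h (m := 280) (by decide +kernel) (by norm_num) rfl,
    fun h => base ho ho' h (m := 448) (by decide +kernel) (by norm_num) rfl⟩

end Cfsg.Agent.S5613
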