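import Cfsg.Statements.S5614
import Cfsg.Agent.H16.M24g

set_option autoImplicit false
open scoped Pointwise
open Cfsg

namespace Cfsg.Agent.S5614
open H16 MulAction in
theorem base : Nonempty ((KO ⊓ stabilizer M24 (toSet 4845570) : Subgroup M24) ≃* Equiv.Perm (Fin 6)) := by
  obtain ⟨hk, g1⟩ := tabCode.stab_gen five_le gpt_inj card_KO koG_inK (a := 2) (by norm_num)
    (x := toSet 4845570) (congrArg toSet (by decide +kernel))
    (S := [224998481681360640563148692473497024, 975193091709205332667992640936119761])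
    (inK_of_fixAll (A := [oct0, 4845570]) (by decide +kernel) fun _ h => ⟨h _ (by simp), h _ (by simp)⟩)
    [[1, 0], [2, 2, 2, 0, 1, 2, 1, 0], [3, 3, 2, 3, 3, 2], [4, 0, 0]] [1, 0, 2, 3, 4] (by decide) (m := 448) (l := 720) rfl
    (by decide +kernel)
  obtain ⟨f⟩ := exists_equiv (w := 5) gpt_inj (inj_finPt 6) (by decide) (faith_M24 _) (faith_finPt 6 ⊤)
    [(224998481681360640563148692473497024, 141849), (975193091709205332667992640936119761, 45333)] g1
    (gen_perm (w := 3) (by norm_num) [[0, 1, 0], [1, 1, 2, 1, 0], [3, 2, 1, 3, 0, 1], [0, 1, 3, 0, 2, 4]] [0, 2, 3, 1, 4]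
      (by decide) (by decide +kernel))
    (by rw [hk, Subgroup.card_top, Nat.card_perm]; simp [Nat.factorial])
    [[1, 0], [2, 2, 2, 0, 1, 2, 1, 0], [3, 3, 2, 3, 3, 2], [4, 0, 0]] [1, 0, 2, 3, 4] (by decide) (by decide +kernel)
  exact ⟨f.trans Subgroup.topEquiv⟩

/-- In the group of the length-24 code, the joint stabiliser of two octads meeting in exactly two points is isomorphic to the symmetric group of degree 6. -/
theorem result (o o' : Finset Cfsg.GolayPt) (ho : o ∈ Cfsg.octads) (ho' : o' ∈ Cfsg.octads) (h₂ : (o ∩ o').card = 2) : Nonempty (↥(MulAction.stabilizer Cfsg.M24 o ⊓ MulAction.stabilizer Cfsg.M24 o') ≃* Equiv.Perm (Fin 6)) := by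
  obtain ⟨k, rfl, rfl⟩ := H16.M24_octad_pair' H16.oct0_mem (H16.mem_octads_of (m := 4845570) (by decide +kernel)) ho ho'
    (by rw [h₂, H16.card_inter_toSet]; decide +kernel)
  obtain ⟨f⟩ := base
  exact ⟨(H16.conjEquiv k _ _ (H16.conj_mem_inf (H16.conj_mem_stabilizer k (a := _))
    (H16.conj_mem_stabilizer k (a := _)))).symm.trans f⟩

end Cfsg.Agent.S5614
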