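import Cfsg.Statements.S5615
import Cfsg.Agent.H16.M24h

set_option autoImplicit false
open scoped Pointwise
open Cfsg

namespace Cfsg.Agent.S5615
def T15 : ℕ := 6590760025890384201963447614779037873957681390433203210077071099108199515155660960934994598247046829585561380054312325472042404692160871596411604025905973796760487122941649602475372154685613789742197479197143153782636107208719557080677343504319535346710568907700780338337220224101128255012817525097659759629453405287289299200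

open H16 in
def X : Set (Finset (Finset GolayPt)) := {T | T ∈ trios ∧ toSet oct0 ∈ T}

open H16 in
theorem mem {i : ℕ} (hi : i < 15) : fam 3 (get (Nat.mul 24 3) T15 i) ∈ X := by
  have := allB_spec (f := fun i => andB (isTrio (get (Nat.mul 24 3) T15 i)) (inFam 3 (get (Nat.mul 24 3) T15 i) oct0))
    (by decide +kernel) i hi
  rw [andB_iff] at this
  exact ⟨mem_trios_of this.1, mem_fam_of_inFam this.2⟩

open H16 in
theorem trans {T U : Finset (Finset GolayPt)} (hT : T ∈ X) (hU : U ∈ X) : ∃ g ∈ KO, g • T = U := by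
  obtain ⟨a, ha, h1⟩ := Finset.exists_mem_ne (show 1 < T.card by rw [hT.1.1]; norm_num) (toSet oct0)
  obtain ⟨b, hb, h2⟩ := Finset.exists_mem_ne (show 1 < U.card by rw [hU.1.1]; norm_num) (toSet oct0)
  obtain ⟨g, h3, rfl⟩ := M24_octad_pair oct0_mem (hT.1.2.1 a ha) (hU.1.2.1 b hb) (by
    rw [Finset.disjoint_iff_inter_eq_empty.mp (hT.1.2.2 _ hT.2 a ha h1.symm),
      Finset.disjoint_iff_inter_eq_empty.mp (hU.1.2.2 _ hU.2 b hb h2.symm)])
  refine ⟨g, h3, ?_⟩
  rw [trio_eq hT.1 hT.2 ha h1.symm, trio_eq hU.1 hU.2 hb h2.symm]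
  simp only [Finset.smul_finset_insert, Finset.smul_finset_singleton, smul_finset_compl, Finset.smul_finset_union, h3]

open H16 in
theorem tab : IsTab M24 gpt 24 5 X (fun i => fam 3 (get (Nat.mul 24 3) T15 i)) 15 (famF 3 T15 15 4) (famOk 3 T15 15 4) :=
  isTab_fam (by norm_num) gen_koG (a := 0) (by norm_num) (by decide +kernel) (fun _ => mem) fun _ => trans (mem (by norm_num))

def prog : List (List ℕ) :=
  [[0, 0, 0, 1, 1], [2, 2, 0, 1, 0, 2, 1], [2, 2, 3, 2, 0, 2, 3, 1], [3, 4, 2, 2, 4, 2], [3, 3, 3, 2, 2, 4, 2, 3, 4, 3]]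

open H16 in
theorem inK : ∀ p ∈ slp 12 15 prog (mapL (famP 3 T15 15 4) koG),
    InK (fun i => fam 3 (get (Nat.mul 24 3) T15 i)) 15 KO (get 12 p) :=
  InK.slp (by norm_num) prog fun q hq => by
    rw [mapL_eq] at hq
    obtain ⟨p, hp, rfl⟩ := List.mem_map.mp hq
    have := tab.inK koG_inK (by decide +kernel) p hp
    unfold famF at this
    exact this

open H16 in
theorem smul_X {g : M24} (hg : g ∈ KO) : g • X = X := by
  ext T
  obtain ⟨T, rfl⟩ := MulAction.surjective g T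
  beta_reduce
  rw [Set.smul_mem_smul_set_iff]
  refine and_congr (smul_mem_trios g T).symm ?_
  conv_rhs => rw [← show g • toSet oct0 = toSet oct0 from hg]
  exact (Finset.smul_mem_smul_finset_iff g).symm

open H16 in
theorem two (x y : Fin 2 → Finset (Finset GolayPt)) (hx : Function.Injective x) (hy : Function.Injective y)
    (h1 : ∀ i, x i ∈ X) (h2 : ∀ i, y i ∈ X) : ∃ g ∈ KO, ∀ i, g • x i = y i :=
  transB_tuple tab.inj [0, 1] (by decide) KO (2 ^ 15 - 1) (fun g hg => by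
    rw [MulAction.mem_stabilizer_iff, ← tab.eq_ptSet, smul_X hg]) inK (by decide +kernel) rfl x y hx hy
    (fun i => tab.eq_ptSet ▸ h1 i) fun i => tab.eq_ptSet ▸ h2 i

open H16 in
theorem ker : E16 = KO ⊓ fixingSubgroup M24 X := by
  refine Subgroup.eq_of_le_of_card_ge (E16_facts.2.le fun p hp g hg rg => ⟨smul_eq_of_perm (e := 1) fun t =>
    (mem_fixingSubgroup_iff M24).mp hg t t.2, (mem_fixingSubgroup_iff M24).mpr fun T hT => ?_⟩) ?_
  · exact tab.forall_mem (Q := fun T => g • T = T) (fun i => mapFam 3 (get (Nat.mul 24 3) T15 i) (get (Nat.mul 24 3) T15 i) p)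
      (fun i _ h => rg.smul_fam h) (allL_iff.mp (by decide +kernel : allL e16S (fun p => allN 15 fun i =>
        mapFam 3 (get (Nat.mul 24 3) T15 i) (get (Nat.mul 24 3) T15 i) p) = true) p hp) T hT
  · have := lbChain_mul_le tab.inj [0, 1, 2, 4] (by decide) KO inK (N := KO ⊓ fixingSubgroup M24 X) inf_le_left
      fun g hg b hb => (mem_fixingSubgroup_iff M24).mp hg.2 _ (mem (by revert b; decide))
    rw [card_KO, Nat.eq_of_beq_eq_true (by decide +kernel :
      Nat.beq (lbChain 12 15 [0, 1, 2, 4] (slp 12 15 prog (mapL (famP 3 T15 15 4) koG))) 20160 = true)] at this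
    rw [E16_facts.1]
    omega


/-- An octad of the length-24 code lies in exactly 15 trios; the stabiliser of the octad in the code's group acts doubly transitively on these 15 trios, and the kernel of this action is the pointwise stabiliser of the octad. -/
theorem result (o : Finset Cfsg.GolayPt) (ho : o ∈ Cfsg.octads) : {T : Finset (Finset Cfsg.GolayPt) | T ∈ Cfsg.trios ∧ o ∈ T}.ncard = 15 ∧ (∀ T₁ T₂ T₁' T₂' : Finset (Finset Cfsg.GolayPt), T₁ ∈ Cfsg.trios → T₂ ∈ Cfsg.trios → T₁' ∈ Cfsg.trios → T₂' ∈ Cfsg.trios → o ∈ T₁ → o ∈ T₂ → o ∈ T₁' → o ∈ T₂' → T₁ ≠ T₂ → T₁' ≠ T₂' → ∃ g ∈ Cfsg.M24, g • o = o ∧ g • T₁ = T₁' ∧ g • T₂ = T₂') ∧ ∀ g ∈ Cfsg.M24, g • o = o → ((∀ T ∈ Cfsg.trios, o ∈ T → g • T = T) ↔ ∀ p ∈ o, g p = p) := by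
  obtain ⟨k, rfl⟩ := H16.M24_octad H16.oct0_mem ho
  refine ⟨(H16.ncard_transfer k fun x => by
    exact and_congr (H16.smul_mem_trios k x) (Finset.smul_mem_smul_finset_iff k)).trans tab.ncard_eq,
    fun T1 T2 U1 U2 h1 h2 h3 h4 h5 h6 h7 h8 n1 n2 => ?_, fun g hg h => ?_⟩
  · obtain ⟨T1, rfl⟩ := MulAction.surjective k T1
    obtain ⟨T2, rfl⟩ := MulAction.surjective k T2
    obtain ⟨U1, rfl⟩ := MulAction.surjective k U1
    obtain ⟨U2, rfl⟩ := MulAction.surjective k U2
    simp only [H16.smul_mem_trios, Finset.smul_mem_smul_finset_iff, ne_eq, smul_left_cancel_iff] at h1 h2 h3 h4 h5 h6 h7 h8 n1 n2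
    obtain ⟨g, hg, h⟩ := two ![T1, T2] ![U1, U2] (by simpa [Function.Injective, eq_comm] using n1)
      (by simpa [Function.Injective, eq_comm] using n2) (Fin.forall_fin_two.mpr ⟨⟨h1, h5⟩, h2, h6⟩)
      (Fin.forall_fin_two.mpr ⟨⟨h3, h7⟩, h4, h8⟩)
    exact ⟨(k * g * k⁻¹ : M24), Subtype.property _, H16.cj k hg, H16.cj k (h 0), H16.cj k (h 1)⟩
  · obtain ⟨g, e⟩ := (MulAut.conj k).surjective ⟨g, hg⟩
    obtain rfl : ((k * g * k⁻¹ : M24) : Equiv.Perm GolayPt) = _ := congrArg Subtype.val e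
    have h0 : g ∈ H16.KO := (H16.conj_smul_iff k g _).mp h
    refine Iff.trans ?_ ((H16.conj_mem_fixing k _ g).trans (mem_fixingSubgroup_iff M24))
    change _ ↔ g ∈ H16.E16
    rw [ker]
    refine ⟨fun h1 => ⟨h0, (mem_fixingSubgroup_iff M24).mpr fun T hT => (H16.conj_smul_iff k g T).mp
      (h1 _ (H16.M24_smul_mem_trios k hT.1) (Finset.smul_mem_smul_finset hT.2))⟩, fun h1 T hT h2 => ?_⟩
    obtain ⟨T, rfl⟩ := MulAction.surjective k T
    exact H16.cj k ((mem_fixingSubgroup_iff M24).mp h1.2 T ⟨(H16.smul_mem_trios k T).mp hT,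
      (Finset.smul_mem_smul_finset_iff k).mp h2⟩)

end Cfsg.Agent.S5615
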