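import Cfsg.Statements.S5616
import Cfsg.Agent.H16.M24f

set_option autoImplicit false
open scoped Pointwise
open Cfsg

namespace Cfsg.Agent.S5616
/-- the invariant -/
def v (Y : Finset GolayPt) (S : Finset (Finset GolayPt)) : ℕ := (S.filter fun t => (t ∩ Y).Nonempty).card

theorem v_smul (g : M24) (Y : Finset GolayPt) (S : Finset (Finset GolayPt)) : v (g • Y) (g • S) = v Y S := by
  rw [v, v, Finset.smul_finset_def (s := S), Finset.filter_image, Finset.card_image_of_injective _ (MulAction.injective g)]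
  simp only [← Finset.smul_finset_inter, Finset.smul_finset_nonempty]

open H16 in
theorem vals : v (toSet 8388611) (fam 6 (sx 31)) = 1 ∧ v (toSet 8388611) (fam 6 (sx 2)) = 2 ∧
    v (toSet 8388611) (fam 6 (sx 0)) = 3 := by decide +kernel

open H16 in
theorem base : (∀ e ∈ [(31, 21), (2, 630), (0, 1120)], {x | (x ∈ sextets ∧ True) ∧
      v (toSet 8388611) x = v (toSet 8388611) (fam 6 (sx e.1))}.ncard = e.2) ∧
    (∀ x ∈ sextets, True → ∀ y ∈ sextets, True → v (toSet 8388611) x = v (toSet 8388611) y → ∃ g ∈ L21, g • x = y) := by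
  have := tabSext.classes l21G_inK (Q := fun _ => True) (fun _ => true) (by simp) (by simp)
    [(31, 21), (2, 630), (0, 1120)] (by decide +kernel) (v (toSet 8388611)) (fun g hg x => by
      conv_lhs => rw [← show g • toSet 8388611 = _ from hg, v_smul]) (by simp [vals])
  exact ⟨this.1, this.2.1⟩

/-- Let Y be a set of 3 of the 24 points. The sextets of the length-24 code whose tetrads meeting Y number 1, 2 or 3 are respectively 21, 630 and 1120 in number, and two sextets with the same number of tetrads meeting Y are conjugate under the setwise stabiliser of Y in the code's group. -/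
theorem result (Y : Finset Cfsg.GolayPt) (hY : Y.card = 3) : {S : Finset (Finset Cfsg.GolayPt) | S ∈ Cfsg.sextets ∧ (S.filter fun t => (t ∩ Y).Nonempty).card = 1}.ncard = 21 ∧ {S : Finset (Finset Cfsg.GolayPt) | S ∈ Cfsg.sextets ∧ (S.filter fun t => (t ∩ Y).Nonempty).card = 2}.ncard = 630 ∧ {S : Finset (Finset Cfsg.GolayPt) | S ∈ Cfsg.sextets ∧ (S.filter fun t => (t ∩ Y).Nonempty).card = 3}.ncard = 1120 ∧ ∀ S S' : Finset (Finset Cfsg.GolayPt), S ∈ Cfsg.sextets → S' ∈ Cfsg.sextets → (S.filter fun t => (t ∩ Y).Nonempty).card = (S'.filter fun t => (t ∩ Y).Nonempty).card → ∃ g ∈ Cfsg.M24, g • Y = Y ∧ g • S = S' := by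
  obtain ⟨k, rfl⟩ := H16.M24_subset (H16.card_triple0.trans hY.symm) (by rw [H16.card_triple0]; norm_num)
  refine ⟨(H16.ncard_transfer k fun x => ?_).trans (base.1 (31, 21) (by simp)),
    (H16.ncard_transfer k fun x => ?_).trans (base.1 (2, 630) (by simp)),
    (H16.ncard_transfer k fun x => ?_).trans (base.1 (0, 1120) (by simp)), fun U U' h1 h2 h => ?_⟩
  iterate 3
    change _ ∧ v _ _ = _ ↔ _
    simp only [vals, v_smul, H16.smul_mem_sextets, and_true]
  obtain ⟨U, rfl⟩ := MulAction.surjective k U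
  obtain ⟨U', rfl⟩ := MulAction.surjective k U'
  change v _ _ = v _ _ at h
  simp only [v_smul, H16.smul_mem_sextets] at h1 h2 h
  obtain ⟨g, h5, h6⟩ := base.2 U h1 trivial U' h2 trivial h
  exact ⟨(k * g * k⁻¹ : M24), Subtype.property _, H16.cj k h5, H16.cj k h6⟩

end Cfsg.Agent.S5616
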