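import Cfsg.Statements.S5617
import Cfsg.Agent.H16.M24f

set_option autoImplicit false
open scoped Pointwise
open Cfsg

namespace Cfsg.Agent.S5617
open H16 MulAction in
theorem base : OrbDec L12 sextets [396, 495, 880] ∅ := by
  have := tabSext.orbDec gen_l12G [(0, 396), (3, 495), (1, 880)] 0 (by decide +kernel)
  rwa [ptSet_zero] at this

/-- The setwise stabiliser, in the group of the length-24 code, of a complementary pair of dodecads has exactly three orbits on the 1771 sextets, of sizes 396, 495 and 880. -/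
theorem result (d : Finset Cfsg.GolayPt) (hd : d ∈ Cfsg.dodecads) : ∃ X₁ ∈ Cfsg.sextets, ∃ X₂ ∈ Cfsg.sextets, ∃ X₃ ∈ Cfsg.sextets, (MulAction.orbit ↥(MulAction.stabilizer Cfsg.M24 ({d, Finset.univ \ d} : Finset (Finset Cfsg.GolayPt))) X₁).ncard = 396 ∧ (MulAction.orbit ↥(MulAction.stabilizer Cfsg.M24 ({d, Finset.univ \ d} : Finset (Finset Cfsg.GolayPt))) X₂).ncard = 495 ∧ (MulAction.orbit ↥(MulAction.stabilizer Cfsg.M24 ({d, Finset.univ \ d} : Finset (Finset Cfsg.GolayPt))) X₃).ncard = 880 ∧ Cfsg.sextets = MulAction.orbit ↥(MulAction.stabilizer Cfsg.M24 ({d, Finset.univ \ d} : Finset (Finset Cfsg.GolayPt))) X₁ ∪ MulAction.orbit ↥(MulAction.stabilizer Cfsg.M24 ({d, Finset.univ \ d} : Finset (Finset Cfsg.GolayPt))) X₂ ∪ MulAction.orbit ↥(MulAction.stabilizer Cfsg.M24 ({d, Finset.univ \ d} : Finset (Finset Cfsg.GolayPt))) X₃ := by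
  obtain ⟨k, rfl⟩ := H16.M24_dodecad H16.sqD_mem hd
  have h := H16.conj_mem_stabilizer k (a := ({H16.toSet H16.sqD, (H16.toSet H16.sqD)ᶜ} : Finset (Finset GolayPt)))
  have a := base.conj h
  rw [H16.smul_sextets, Set.smul_set_empty, H16.smul_duad] at a
  obtain ⟨x1, h1, e1, x2, h2, e2, x3, h3, e3, e⟩ := a
  rw [Set.empty_union] at e
  exact ⟨x1, h1, x2, h2, x3, h3, e1, e2, e3, e⟩

end Cfsg.Agent.S5617
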