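import Cfsg.Statements.S5618
import Cfsg.Agent.H16.M24h

set_option autoImplicit false
open scoped Pointwise
open Cfsg

namespace Cfsg.Agent.S5618
open H16 MulAction in
theorem flag {d C : Finset GolayPt} (hd : d ∈ dodecads) (hC : C ∈ hexadsOn d) :
    ∃ g : M24, g • toSet sqD = d ∧ g • toSet 270351 = C := by
  obtain ⟨h1, h2, -⟩ := (mem_hexadsOn hd).mp hC
  obtain ⟨t, ht, h5⟩ := Finset.exists_subset_card_eq (show 5 ≤ C.card by omega)
  obtain ⟨g, rfl, rfl⟩ := flag_dod_subset (s := toSet 8207) hd (by decide +kernel) (ht.trans h2)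
    (by rw [h5]; decide +kernel) (by decide +kernel)
  refine ⟨g, rfl, hexad_unique (smul_mem_hexadsOn g (mem_hexadsOn_of (by decide +kernel))) hC (h5 ▸ Finset.card_le_card
    (Finset.subset_inter (Finset.smul_finset_subset_smul_finset (by decide +kernel)) ht))⟩

open H16 MulAction in
abbrev KH : Subgroup M24 := K12 ⊓ stabilizer M24 (toSet 270351)

open H16 MulAction in
theorem facts : Nat.card KH = 720 ∧ Gen gpt 24 5 KH [435732753822399533248080967270172685, 298097785495028334573530203466141248] := by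
  have e : K12 ⊓ stabilizer M24 (toSet 3416079) = KH := by
    ext g
    refine and_congr_right fun (h : g • toSet sqD = _) => ⟨fun (h' : g • _ = _) => ?_, fun (h' : g • _ = _) => ?_⟩
    · change g • _ = _
      rw [show toSet 270351 = toSet 3416079 ∩ toSet sqD by decide +kernel, Finset.smul_finset_inter, h, h']
    · refine octads_eq_of_five (M24_smul_mem_octads g (mem_octads_of (by decide +kernel))) (mem_octads_of (by decide +kernel))
        (le_trans (by decide +kernel) (Finset.card_le_card (s := toSet 270351) (Finset.subset_inter ?_ (by decide +kernel))))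
      rw [← h']
      exact Finset.smul_finset_subset_smul_finset (by decide +kernel)
  rw [← e]
  exact tabCode.stab_gen five_le gpt_inj card_K12 k12G_inK (a := 15) (by norm_num)
    (congrArg toSet (by decide +kernel : cw 15 = 3416079))
    (inK_of_fixAll (A := [sqD, 3416079]) (by decide +kernel) fun _ h => ⟨h _ (by simp), h _ (by simp)⟩)
    [[1, 1], [2, 2, 1, 0, 0, 1, 1, 0], [2, 2, 3, 2, 3, 2, 3]] [0, 1, 2, 4] (by decide) (m := 132) rfl (by decide +kernel)

open H16 MulAction in
theorem base : Nonempty (KH ≃* Equiv.Perm (Fin 6)) := by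
  obtain ⟨e⟩ := exists_equiv (w := 5) gpt_inj (inj_finPt 6) (by decide) (faith_M24 KH) (faith_finPt 6 ⊤)
    [(435732753822399533248080967270172685, 78632), (298097785495028334573530203466141248, 99170)] facts.2
    (gen_perm (w := 3) (by norm_num) [[0, 1, 0], [2, 2, 2, 0, 1, 2, 1], [2, 0, 0, 0, 2, 0, 2], [4, 3, 3, 4, 3, 4, 3]]
      [1, 0, 2, 3, 4] (by decide) (by decide +kernel))
    (by rw [facts.1, Subgroup.card_top, Nat.card_perm, Nat.card_fin]; rfl)
    [[1, 1], [2, 2, 1, 0, 0, 1, 1, 0], [2, 2, 3, 2, 3, 2, 3]] [0, 1, 2, 4] (by decide) (by decide +kernel)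
  exact ⟨e.trans Subgroup.topEquiv⟩

open H16 MulAction in
theorem b1 {g : M24} (hg : g ∈ KH) (h : ∀ p ∈ toSet 270351, g • p = p) : g = 1 :=
  eq_one_of_base mulOk24 gpt_inj facts.1.le facts.2.1 [[1, 1], [2, 2, 1, 0, 0, 2, 0], [2, 2, 3, 2, 3, 2, 3]] [0, 1, 2, 3, 13]
    (by decide) (by decide +kernel) hg fun b hb => h _ (by revert b; decide +kernel)

open H16 MulAction in
theorem b2 {g : M24} (hg : g ∈ KH) (h : ∀ p ∈ toSet sqD \ toSet 270351, g • p = p) : g = 1 :=
  eq_one_of_base mulOk24 gpt_inj facts.1.le facts.2.1 [[1, 0, 1], [2, 2, 0, 0, 0, 0, 2, 0], [2, 0, 0, 1, 2, 1, 3, 1]]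
    [4, 6, 8, 9, 12] (by decide) (by decide +kernel) hg fun b hb => h _ (by revert b; decide +kernel)


/-- For a dodecad d of the length-24 code and a hexad C on it (a 6-point intersection of d with an octad): the joint stabiliser of d and C in the code's group is isomorphic to the symmetric group of degree 6, and it acts faithfully both on the six points of C and on the six points of d outside C. -/
theorem result (d : Finset Cfsg.GolayPt) (hd : d ∈ Cfsg.dodecads) (C : Finset Cfsg.GolayPt) (hC : C ∈ Cfsg.hexadsOn d) : Nonempty (↥(MulAction.stabilizer Cfsg.M24 d ⊓ MulAction.stabilizer Cfsg.M24 C) ≃* Equiv.Perm (Fin 6)) ∧ (∀ g ∈ MulAction.stabilizer Cfsg.M24 d ⊓ MulAction.stabilizer Cfsg.M24 C, (∀ p ∈ C, ((g : ↥Cfsg.M24) : Equiv.Perm Cfsg.GolayPt) p = p) → g = 1) ∧ ∀ g ∈ MulAction.stabilizer Cfsg.M24 d ⊓ MulAction.stabilizer Cfsg.M24 C, (∀ p ∈ d \ C, ((g : ↥Cfsg.M24) : Equiv.Perm Cfsg.GolayPt) p = p) → g = 1 := by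
  obtain ⟨k, rfl, rfl⟩ := flag hd hC
  have h := H16.conj_mem_inf (H16.conj_mem_stabilizer k (a := H16.toSet H16.sqD))
    (H16.conj_mem_stabilizer k (a := H16.toSet 270351))
  obtain ⟨e⟩ := base
  refine ⟨⟨(H16.conjEquiv k _ _ h).symm.trans e⟩, fun g hg h' => ?_, fun g hg h' => ?_⟩
  all_goals obtain ⟨g, rfl⟩ := (MulAut.conj k).surjective g
  · rw [b1 ((h g).mpr hg) fun p hp => (H16.conj_smul_iff k g p).mp (h' _ (Finset.smul_mem_smul_finset hp)), map_one]
  · rw [← Finset.smul_finset_sdiff] at h'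
    rw [b2 ((h g).mpr hg) fun p hp => (H16.conj_smul_iff k g p).mp (h' _ (Finset.smul_mem_smul_finset hp)), map_one]

end Cfsg.Agent.S5618
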