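import Cfsg.Statements.S5619
import Cfsg.Agent.H16.M24h

set_option autoImplicit false
open scoped Pointwise
open Cfsg

namespace Cfsg.Agent.S5619
def qpt (i : ℕ) : QuaternionGroup 2 := if i < 4 then .a i else .xa (i - 4 : ℕ)

open H16 in
theorem b3 : Nat.card (clos gpt 24 5 K9 [487655643029606470073469406179395616, 487373122709212905255923294881187872]) = 9 ∧
    NormBy K9 (clos gpt 24 5 K9 [487655643029606470073469406179395616, 487373122709212905255923294881187872]) :=
  normal_clos mulOk24 gpt_inj (faith_M24 K9) K9_facts.2 (inK_K9 (by decide +kernel)) (B := [3]) (by decide) (by decide +kernel)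

open H16 in
theorem b3' : ∀ x ∈ clos gpt 24 5 K9 [487655643029606470073469406179395616, 487373122709212905255923294881187872], x ^ 3 = 1 :=
  ((gen_clos (faith_M24 K9) (inK_K9 (by decide +kernel))).comm_pow five_le (faith_M24 _) (by decide +kernel)).2

open H16 in
theorem b2 : Nat.card (clos gpt 24 5 K9 [898742143189044893377746329054414880, 232783362388564428185213343297439776]) = 8 ∧
    Nonempty (clos gpt 24 5 K9 [898742143189044893377746329054414880, 232783362388564428185213343297439776] ≃*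
      QuaternionGroup 2) := by
  have g1 := gen_clos (faith_M24 K9) (inK_K9 (S := [898742143189044893377746329054414880, 232783362388564428185213343297439776])
    (by decide +kernel))
  have h1 := card_of_ss mulOk24 gpt_inj (B := [3]) (by decide) (faith_M24 _) g1 (M := 8) (by decide +kernel)
  have hc : Nat.card (QuaternionGroup 2) = 8 := by rw [Nat.card_eq_fintype_card, QuaternionGroup.card]
  have i2 : Inj qpt 8 := by decide +kernel
  obtain ⟨e⟩ := exists_equiv (w := 5) gpt_inj i2 (by decide) (faith_M24 _)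
    (faith_of_surj (G := QuaternionGroup 2) (by decide +kernel) ⊤)
    [(898742143189044893377746329054414880, 858613), (232783362388564428185213343297439776, 10441795)] g1
    (gen_top (w := 3) (by norm_num) i2 hc [(qpt 5, 858613), (qpt 3, 10441795)] (by decide +kernel) [] [0] (by decide)
      (by decide +kernel)) (by rw [h1, Subgroup.card_top, hc]) [] [3] (by decide) (by decide +kernel)
  exact ⟨h1, ⟨e.trans Subgroup.topEquiv⟩⟩


/-- In the group of the length-24 code, the subgroup fixing a dodecad setwise and three of its points individually (a group of order 72) has a normal Sylow 3-subgroup that is elementary abelian of order 9, and its Sylow 2-subgroups are quaternion of order 8. -/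
theorem result (d : Finset Cfsg.GolayPt) (hd : d ∈ Cfsg.dodecads) (p q r : Cfsg.GolayPt) (hp : p ∈ d) (hq : q ∈ d) (hr : r ∈ d) (hpq : p ≠ q) (hpr : p ≠ r) (hqr : q ≠ r) : (∀ Q : Sylow 3 ↥(MulAction.stabilizer Cfsg.M24 d ⊓ MulAction.stabilizer Cfsg.M24 p ⊓ MulAction.stabilizer Cfsg.M24 q ⊓ MulAction.stabilizer Cfsg.M24 r), (Q : Subgroup ↥(MulAction.stabilizer Cfsg.M24 d ⊓ MulAction.stabilizer Cfsg.M24 p ⊓ MulAction.stabilizer Cfsg.M24 q ⊓ MulAction.stabilizer Cfsg.M24 r)).Normal ∧ Nat.card ↥Q = 9 ∧ ∀ x ∈ (Q : Subgroup ↥(MulAction.stabilizer Cfsg.M24 d ⊓ MulAction.stabilizer Cfsg.M24 p ⊓ MulAction.stabilizer Cfsg.M24 q ⊓ MulAction.stabilizer Cfsg.M24 r)), x ^ 3 = 1) ∧ ∀ P : Sylow 2 ↥(MulAction.stabilizer Cfsg.M24 d ⊓ MulAction.stabilizer Cfsg.M24 p ⊓ MulAction.stabilizer Cfsg.M24 q ⊓ MulAction.stabilizer Cfsg.M24 r), Nonempty (↥P ≃* QuaternionGroup 2) := by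
  obtain ⟨k, rfl, rfl, rfl, rfl⟩ := H16.flag_dod_three hd hp hq hr hpq hpr hqr
  have e := H16.conjEquiv k _ _ (H16.conj_K9 k)
  have : Fact (Nat.Prime 3) := ⟨Nat.prime_three⟩
  refine ⟨fun Q => ?_, fun P => ?_⟩
  · obtain ⟨ψ, h1, h2, h3, h4⟩ := H16.exists_hom_sylow H16.clos_le ⟨2, 8, b3.1, H16.K9_facts.1, by norm_num⟩ e Q
    refine ⟨⟨fun x hx g => (h4 _).mpr ?_⟩, ?_, fun x hx => h1 (by rw [map_pow, map_one]; exact b3' _ ((h4 x).mp hx))⟩
    · rw [map_mul, map_mul, map_inv]
      exact b3.2 _ (h2 g) _ ((h4 x).mp hx)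
    · rw [← b3.1]
      exact Nat.card_congr (Equiv.ofBijective (fun x => ⟨ψ x, (h4 x).mp x.2⟩) ⟨fun x y h => Subtype.ext (h1 (congrArg Subtype.val h)),
        fun y => let ⟨x, hx⟩ := h3 y (H16.clos_le y.2); ⟨⟨x, (h4 x).mpr (hx ▸ y.2)⟩, Subtype.ext hx⟩⟩)
  · obtain ⟨ψ, h1, h2, h3, h4⟩ := H16.exists_hom_sylow H16.clos_le ⟨3, 9, b2.1, H16.K9_facts.1, by norm_num⟩ e P
    obtain ⟨f⟩ := b2.2
    exact ⟨(MulEquiv.ofBijective ((ψ.comp (P : Subgroup _).subtype).codRestrict _ fun x => (h4 x).mp x.2)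
      ⟨fun x y h => Subtype.ext (h1 (congrArg Subtype.val h)),
        fun y => let ⟨x, hx⟩ := h3 y (H16.clos_le y.2); ⟨⟨x, (h4 x).mpr (hx ▸ y.2)⟩, Subtype.ext hx⟩⟩).trans f⟩

end Cfsg.Agent.S5619
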