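import Cfsg.Statements.S5620
import Cfsg.Agent.H16.M24h

set_option autoImplicit false
open scoped Pointwise
open Cfsg

namespace Cfsg.Agent.S5620

/-- Inside the stabiliser of the dodecad of squares (a Mathieu group of degree 12), the stabiliser of the residue 0 (a point of the dodecad) and the stabiliser of the extra point (a point outside the dodecad) are isomorphic but not conjugate; conjugation by a suitable element of the code's group that maps the dodecad of squares onto its complement carries the first onto the second. -/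
theorem result : Nonempty (↥(Cfsg.Spor.M12 ⊓ MulAction.stabilizer (Equiv.Perm Cfsg.GolayPt) (none : Cfsg.GolayPt)) ≃* ↥Cfsg.Spor.M11) ∧ (¬ ∃ k ∈ Cfsg.Spor.M12, MulAut.conj k • Cfsg.Spor.M11 = Cfsg.Spor.M12 ⊓ MulAction.stabilizer (Equiv.Perm Cfsg.GolayPt) (none : Cfsg.GolayPt)) ∧ ∃ g ∈ Cfsg.M24, g • Cfsg.Spor.squareDodecad = Finset.univ \ Cfsg.Spor.squareDodecad ∧ MulAut.conj g • Cfsg.Spor.M11 = Cfsg.Spor.M12 ⊓ MulAction.stabilizer (Equiv.Perm Cfsg.GolayPt) (none : Cfsg.GolayPt) := by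
  obtain ⟨g, hg⟩ := H16.exists_of_isM24 (p := 751630623651160968224180663700045367) (by decide +kernel)
  have h1 : g • H16.toSet H16.sqD = (H16.toSet H16.sqD)ᶜ := by
    rw [hg.smul_toSet, ← H16.toSet_compl]; exact congrArg _ (by decide +kernel)
  have h2 : g • (some 0 : GolayPt) = none := (hg 0 (by norm_num)).2.trans (by decide +kernel)
  have h3 : MulAut.conj (g : Equiv.Perm GolayPt) • Spor.M11 =
      Spor.M12 ⊓ MulAction.stabilizer (Equiv.Perm GolayPt) (none : GolayPt) := by
    ext x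
    obtain ⟨x, rfl⟩ := (MulAut.conj (g : Equiv.Perm GolayPt)).surjective x
    rw [← MulAut.smul_def, Subgroup.smul_mem_pointwise_smul_iff, Spor.M11, Spor.M12, H16.squareDodecad_eq, ← h2]
    refine and_congr (and_congr (H16.conj_mem_self g.2 x) ((H16.conj_mem_stabilizer (g : Equiv.Perm GolayPt) x _).trans ?_))
      (H16.conj_mem_stabilizer (g : Equiv.Perm GolayPt) x _)
    rw [show (g : Equiv.Perm GolayPt) • H16.toSet H16.sqD = _ from h1, MulAction.mem_stabilizer_iff, H16.smul_finset_compl,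
      compl_inj_iff]
    rfl
  refine ⟨⟨h3 ▸ ((MulAut.conj (g : Equiv.Perm GolayPt)).subgroupMap Spor.M11).symm⟩, ?_, g, g.2, ?_, h3⟩
  · rintro ⟨k, hk, e⟩
    obtain ⟨a, ha, h4⟩ := H16.K11_tuple (k := 1) (by norm_num) ![(⟨k, hk.1⟩ : M24)⁻¹ • H16.gpt 23] ![(⟨k, hk.1⟩ : M24)⁻¹ • H16.gpt 5]
      (Function.injective_of_subsingleton _) (Function.injective_of_subsingleton _)
      (by
        intro i; fin_cases i
        have : (⟨k, hk.1⟩ : M24) • H16.toSet H16.sqD = H16.toSet H16.sqD := H16.squareDodecad_eq ▸ hk.2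
        simp only [Fin.zero_eta, Matrix.cons_val_zero, H16.mem_inv_smul, this]; decide +kernel)
      (by
        intro i; fin_cases i
        have : (⟨k, hk.1⟩ : M24) • H16.toSet H16.sqD = H16.toSet H16.sqD := H16.squareDodecad_eq ▸ hk.2
        simp only [Fin.zero_eta, Matrix.cons_val_zero, H16.mem_inv_smul, this]; decide +kernel)
    have h5 : MulAut.conj k • (a : Equiv.Perm GolayPt) ∈ MulAut.conj k • Spor.M11 :=
      Subgroup.smul_mem_pointwise_smul _ _ _ (H16.sporM11 ⟨a, ha⟩).2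
    rw [e] at h5
    have h6 : ((⟨k, hk.1⟩ : M24) * a * (⟨k, hk.1⟩ : M24)⁻¹) • H16.gpt 23 = H16.gpt 23 := h5.2
    have h7 : a • (⟨k, hk.1⟩ : M24)⁻¹ • H16.gpt 23 = (⟨k, hk.1⟩ : M24)⁻¹ • H16.gpt 5 := h4 0
    rw [mul_smul, mul_smul, h7, smul_inv_smul] at h6
    exact absurd h6 (by decide)
  · rw [H16.squareDodecad_eq, ← Finset.compl_eq_univ_sdiff]; exact h1

end Cfsg.Agent.S5620
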