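import Cfsg.Statements.S5632
import Cfsg.Agent.H12.MaxB

set_option autoImplicit false
open Cfsg

namespace Cfsg.Agent.S5632

/-- For a finite field F and subspaces 0 < W < U of F^n with dim W + dim U = n, the elements of SL_n(F) stabilising both W and U form a subgroup that is not maximal in SL_n(F): some subgroup lies strictly between it and SL_n(F). -/
theorem result {F : Type*} [Field F] [Fintype F] (n : ℕ) (W U : Submodule F (Fin n → F)) (hW0 : W ≠ ⊥) (hWU : W < U) (hdim : Module.finrank F W + Module.finrank F U = n) : ∃ K : Subgroup (Matrix.GeneralLinearGroup (Fin n) F), Cfsg.Geo.subspaceStabilizer W ⊓ Cfsg.Geo.subspaceStabilizer U ⊓ Cfsg.Geo.specialLinear (Fin n) F < K ∧ K < Cfsg.Geo.specialLinear (Fin n) F := by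
    refine H12.not_max_SL_pair hW0 hWU.ne_top hWU.ne_bot (fun h => hW0 ?_) hWU.ne
    rw [h, finrank_top, Module.finrank_fin_fun] at hdim
    exact Submodule.finrank_eq_zero.mp (by omega)

end Cfsg.Agent.S5632
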