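import Cfsg.Statements.S5673
import Cfsg.Agent.H18.OmOdd
-- import your own Cfsg.Agent.* helpers here

set_option autoImplicit false
open Cfsg

namespace Cfsg.Agent.S5673

/-- Subgroup structure of the odd-dimensional orthogonal groups. Let F be a finite field of odd order and m ≥ 3, let Q be the standard quadratic form x₀² + Σ x_i y_i on F^(2m+1), and let Ω be the commutator subgroup of its isometry group, viewed inside GL_(2m+1)(F). Let H be a subgroup of Ω whose product with the scalar matrices in Ω is not all of Ω. Then either H is contained in a member of one of the geometric classes of subgroups of the isometry group (with the conditions built into InOrthogonalOddClass), or H is in the residual class: modulo scalars it is almost simple, and the perfect preimage of its socle acts absolutely irreducibly, is realisable over no proper subfield, and fixes no non-degenerate unitary form. -/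
theorem result {F : Type*} [Field F] [Fintype F] (hodd : Odd (Fintype.card F)) (m : ℕ) (hm : 3 ≤ m) (H : Subgroup (Matrix.GeneralLinearGroup (Unit ⊕ (Fin m ⊕ Fin m)) F)) (hH : H ≤ Cfsg.Geo.omegaGL (Cfsg.quadFormOdd m F)) (hproper : H ⊔ (Cfsg.Geo.scalars (Unit ⊕ (Fin m ⊕ Fin m)) F ⊓ Cfsg.Geo.omegaGL (Cfsg.quadFormOdd m F)) ≠ Cfsg.Geo.omegaGL (Cfsg.quadFormOdd m F)) : (∃ M : Subgroup (Matrix.GeneralLinearGroup (Unit ⊕ (Fin m ⊕ Fin m)) F), Cfsg.Geo.InOrthogonalOddClass m F M ∧ H ≤ M) ∨ Cfsg.Geo.InOrthogonalResidualClass H := by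
  have h1 := hH.trans H18.omegaGL_le
  have hf := H18.hform_of_quad (H18.quad_odd m (H18.two_ne_zero_iff_odd.mpr hodd))
  rcases H18.oddCls_std hodd (by omega) h1 with ⟨W, a1, a2, a3⟩ | ⟨W, a1, a2, a3, a4⟩ |
    ⟨t, k, D, a1, a2, a3⟩ | ⟨t, D, a1, a2, a3⟩ | ⟨r, K, a1, a2, a3, a4, a5⟩ |
    ⟨a, b, e, P, f₁, f₂, a1, a2, a3, a4⟩ | ⟨F₀, r, P, a1, a2, a3, a4⟩ |
    ⟨k, t, e, P, f₁, a1, a2, a3, a4⟩ | h
  · exact Or.inl ⟨_, Or.inl ⟨W, a1, a2, rfl⟩, le_inf a3 h1⟩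
  · exact Or.inl ⟨_, Or.inr (Or.inl ⟨W, a1, a2, a3, rfl⟩), le_inf a4 h1⟩
  · exact Or.inl ⟨_, Or.inr (Or.inr (Or.inl ⟨t, k, D, a1, a2, rfl⟩)), le_inf a3 h1⟩
  · exact Or.inl ⟨_, Or.inr (Or.inr (Or.inr (Or.inl ⟨t, D, a1, a2, rfl⟩))), le_inf a3 h1⟩
  · exact Or.inl ⟨_, Or.inr (Or.inr (Or.inr (Or.inr (Or.inl ⟨r, K, a1, fun h => a2 (by
      simp; omega), a3, a4, rfl⟩)))), le_inf a5 h1⟩
  · exact Or.inl ⟨_, Or.inr (Or.inr (Or.inr (Or.inr (Or.inr (Or.inl ⟨a, b, e, P, f₁, f₂, a1, a2,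
      a3.hf₁.symmetric, a3.hf₂.symmetric, a3.struct hf, rfl⟩))))), le_inf a4 h1⟩
  · exact Or.inl ⟨_, Or.inr (Or.inr (Or.inr (Or.inr (Or.inr (Or.inr (Or.inl
      ⟨F₀, r, P, a1, a2, a3, rfl⟩)))))), le_inf a4 h1⟩
  · exact Or.inl ⟨_, Or.inr (Or.inr (Or.inr (Or.inr (Or.inr (Or.inr (Or.inr
      ⟨k, t, e, P, f₁, a1, a3.two_le_t, a2, a3.hf₁.symmetric, a3.struct hf, rfl⟩)))))), le_inf a4 h1⟩
  · exact Or.inr h

end Cfsg.Agent.S5673
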