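import Cfsg.Statements.S5677
import Cfsg.Agent.H18.OMxE
-- import your own Cfsg.Agent.* helpers here

set_option autoImplicit false
open Cfsg

namespace Cfsg.Agent.S5677

/-- Let F be a finite field of odd order q, m ≥ 6, Q the standard quadratic form on F^(2m+1) and Ω the commutator subgroup of its isometry group. Let D be a decomposition of F^(2m+1) into t ≥ 2 pairwise orthogonal, pairwise Q-isometric subspaces of equal dimension k > 1 on which the polar form is non-degenerate. Unless q = 3 and k = 3, the elements of Ω permuting the members of D form a maximal subgroup of Ω. -/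
theorem result {F : Type*} [Field F] [Fintype F] (hodd : Odd (Fintype.card F)) (m : ℕ) (hm : 6 ≤ m) {t : ℕ} (k : ℕ) (hk : 1 < k) (D : Fin t → Submodule F (Unit ⊕ (Fin m ⊕ Fin m) → F)) (hD : Cfsg.Geo.IsOrthogonalMDecomposition (Cfsg.quadFormOdd m F) k D) (hex : ¬ (Fintype.card F = 3 ∧ k = 3)) : Cfsg.Geo.IsMaximalIn (Cfsg.Geo.omegaGL (Cfsg.quadFormOdd m F)) (Cfsg.Geo.decompositionStabilizer D ⊓ Cfsg.Geo.omegaGL (Cfsg.quadFormOdd m F)) := by
  have hQ := H18.quad_odd m (H18.two_ne_zero_iff_odd.mpr hodd)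
  refine H18.max_odec hQ (by simp; omega) hD ?_
  have h1 := H18.card_eq_of_isMDecomposition hD.decomp.decomp
  have h2 : Odd k := Nat.Odd.of_mul_right (m := t) ⟨m, by simp at h1; omega⟩
  have := Fintype.one_lt_card (α := F)
  by_cases h : k = 3
  · exact Or.inl ⟨h, hodd, fun h3 => hex ⟨h3, h⟩⟩
  · obtain ⟨l, hl⟩ := hodd
    obtain ⟨l, hl⟩ := h2
    exact Or.inr (Or.inl ⟨by omega, by omega⟩)

end Cfsg.Agent.S5677
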