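import Cfsg.Statements.S5680
import Cfsg.Agent.H18.F3D
import Cfsg.Agent.H18.OmOdd
-- import your own Cfsg.Agent.* helpers here

set_option autoImplicit false
open Cfsg

namespace Cfsg.Agent.S5680

/-- Let F be a finite field of odd order, m ≥ 6, Q the standard quadratic form on F^(2m+1) and Ω the commutator subgroup of its isometry group. Let K be a subfield of the algebra of (2m+1) × (2m+1) matrices over F containing the scalars, of prime degree r over F with r ≠ 2m + 1, whose elements are self-adjoint for the polar form of Q. Then the elements of Ω normalising K form a maximal subgroup of Ω. -/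
theorem result {F : Type*} [Field F] [Fintype F] (hodd : Odd (Fintype.card F)) (m : ℕ) (hm : 6 ≤ m) (r : ℕ) (hr : r.Prime) (hrn : 2 * m + 1 ≠ r) (K : Subalgebra F (Matrix (Unit ⊕ (Fin m ⊕ Fin m)) (Unit ⊕ (Fin m ⊕ Fin m)) F)) (hK : Cfsg.Geo.IsFieldSubalgebra r K) (hsa : Cfsg.Geo.IsSelfAdjointFor (QuadraticMap.polar (Cfsg.quadFormOdd m F)) K) : Cfsg.Geo.IsMaximalIn (Cfsg.Geo.omegaGL (Cfsg.quadFormOdd m F)) (Cfsg.Geo.subalgebraNormalizer K ⊓ Cfsg.Geo.omegaGL (Cfsg.quadFormOdd m F)) := by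
  have hQ := H18.quad_odd (F := F) m (H18.two_ne_zero_iff_odd.mpr hodd)
  have hc : Fintype.card (Unit ⊕ (Fin m ⊕ Fin m)) = 2 * m + 1 := by simp; omega
  obtain ⟨s, hs⟩ := H18.dvd_card_of_isFieldSubalgebra hK
  rw [hc] at hs
  have o : Odd (r * s) := hs ▸ odd_two_mul_add_one m
  obtain ⟨a, ha⟩ := (Nat.odd_mul.mp o).1
  obtain ⟨b, hb⟩ := (Nat.odd_mul.mp o).2
  have h2 := hr.two_le
  have b0 : b ≠ 0 := by rintro rfl; apply hrn; rw [hs, hb]; simp
  rcases (show b = 1 ∨ 2 ≤ b by omega) with rfl | b2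
  · exact H18.max_field3 hQ hodd hr (by omega) (by rw [hc, hs, hb]; ring) hK hsa
  · exact H18.max_field hQ hodd hr (by rw [hc, hs]; nlinarith) hK hsa

end Cfsg.Agent.S5680
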