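import Cfsg.Statements.S5699
import Cfsg.Agent.H18.OMxE
-- import your own Cfsg.Agent.* helpers here

set_option autoImplicit false
open Cfsg

namespace Cfsg.Agent.S5699

/-- Let F be a finite field with q elements, n ≥ 13 even, Q a non-degenerate quadratic form on F^n (of either type), and Ω the commutator subgroup of the isometry group of Q, viewed inside GL_n(F). Let D be a decomposition of F^n into two orthogonal subspaces of odd dimension n/2 on which the polar form is non-degenerate and which are not Q-isometric to each other. Then the elements of Ω permuting (necessarily fixing) the two subspaces form a maximal subgroup of Ω. -/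
theorem result {F : Type*} [Field F] [Fintype F] {n : ℕ} (hn : 13 ≤ n) (heven : Even n) (Q : (Fin n → F) → F) (hQ : Cfsg.Geo.IsNondegenerateQuadraticForm Q) (k : ℕ) (hk : 2 * k = n) (hko : Odd k) (D : Fin 2 → Submodule F (Fin n → F)) (hD : Cfsg.Geo.IsNondegenerateMDecomposition (QuadraticMap.polar Q) k D) (hni : ¬ Cfsg.Geo.AreIsometricFor Q (D 0) (D 1)) : Cfsg.Geo.IsMaximalIn (Cfsg.Geo.omegaGL Q) (Cfsg.Geo.decompositionStabilizer D ⊓ Cfsg.Geo.omegaGL Q) := by
  have hf := H18.hform_of_quad hQ
  have h0 := hD.decomp.finrank_eq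
  have h1 : D 1 = hf.perp (D 0) := Submodule.eq_of_le_of_finrank_eq
    (fun x hx y hy => hD.orthogonal 1 0 (by simp) x hx y hy) (by
      have := (hf.finrank_perp (hD.nondegenerate 0)).1
      simp [h0] at this ⊢; omega)
  have h2 : D 0 ≠ ⊥ := fun h => by have := h0 0; rw [h] at this; simp at this; omega
  have h3 : D = ![D 0, hf.perp (D 0)] := by ext1 i; fin_cases i; exacts [rfl, h1]
  have h4 : Geo.decompositionStabilizer D ⊓ Geo.omegaGL Q =
      Geo.subspaceStabilizer (D 0) ⊓ Geo.omegaGL Q := by
    refine le_antisymm (fun g hg => ⟨?_, hg.2⟩) fun g hg => ⟨?_, hg.2⟩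
    swap
    · obtain ⟨⟨σ, a1⟩, a2⟩ := hg
      have a3 : σ 0 = 0 := by
        by_contra a3
        have a4 := a1 0
        rw [show σ 0 = 1 by omega] at a4
        exact hni (H18.areIsometric_of_map (H18.omegaGL_le a2) a4)
      obtain ⟨k, -, rfl⟩ := H18.exists_ofOG hQ a2
      have a4 := a1 0
      rw [a3, H18.toLin'_ofOG] at a4
      exact (H18.ofOG_mem_stab hQ k).mpr (H18.mem_stO_iff_map.mpr a4)
    · rw [h3]
      exact (hf.pair_decomp h2 (hD.nondegenerate 0) (by simp [h0, hk])).2
        ⟨H18.isoG_le_sim _ (H18.omegaGL_le_isoG hg.2), hg.1⟩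
  rw [h4]
  obtain ⟨l, hl⟩ := hko
  refine H18.max_nd hQ (by simp; omega) h2 (fun h => by have := h0 0; rw [h] at this; simp at this; omega)
    (hD.nondegenerate 0) (fun _ => h1 ▸ hni) ?_
  rintro ⟨-, U, a1, -, -, rfl | ⟨-, a2⟩⟩
  · rw [h0] at a1; omega
  · rw [h0] at a2; simp at a2; omega

end Cfsg.Agent.S5699
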