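import Cfsg.Statements.S5775
import Cfsg.Agent.H18.SL34
import Cfsg.Agent.H18.SLArith

set_option autoImplicit false
open Cfsg

namespace Cfsg.Agent.S5775

/-- Every maximal subgroup of SL_3(q) is of one of the listed geometric types or lies in the residual class. Let F be a finite field with q elements and H a maximal subgroup of SL_3(F) (viewed inside GL_3(F)). Then H is the intersection with SL_3(F) of one of: the stabiliser of a proper non-zero subspace; for q ≥ 5, the stabiliser of a decomposition of F^3 into three independent lines; for q ≠ 4, the normaliser of a degree-3 subfield of the matrix algebra; a subfield group for a subfield F₀ with |F| = |F₀|^r, r prime; for q = p ≡ 1 mod 3 prime, the normaliser of an absolutely irreducible 3-subgroup R of exponent 3 with centre of order 3, all of whose characteristic abelian subgroups are cyclic, of order 3^(1+2m) for some m ≥ 1, with F the smallest field of characteristic p containing the cube roots of unity (so R is extraspecial of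 order 27); for q odd, the similarity group of a non-degenerate quadratic form; the similarity group of a non-degenerate unitary form — or else H lies in the residual class of the linear case (modulo scalars H is almost simple, with absolutely irreducible perfect socle preimage realisable over no proper subfield and fixing no non-degenerate quadratic, symplectic or unitary form). -/
theorem result {F : Type*} [Field F] [Fintype F] (H : Subgroup (Matrix.GeneralLinearGroup (Fin 3) F)) (hH : Cfsg.Geo.IsMaximalIn (Cfsg.Geo.specialLinear (Fin 3) F) H) :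
    (∃ W : Submodule F (Fin 3 → F), W ≠ ⊥ ∧ W ≠ ⊤ ∧ H = Cfsg.Geo.subspaceStabilizer W ⊓ Cfsg.Geo.specialLinear (Fin 3) F) ∨
    (5 ≤ Fintype.card F ∧ ∃ D : Fin 3 → Submodule F (Fin 3 → F), Cfsg.Geo.IsMDecomposition 1 D ∧ H = Cfsg.Geo.decompositionStabilizer D ⊓ Cfsg.Geo.specialLinear (Fin 3) F) ∨
    (Fintype.card F ≠ 4 ∧ ∃ K : Subalgebra F (Matrix (Fin 3) (Fin 3) F), Cfsg.Geo.IsFieldSubalgebra 3 K ∧ H = Cfsg.Geo.subalgebraNormalizer K ⊓ Cfsg.Geo.specialLinear (Fin 3) F) ∨
    (∃ (F₀ : Subfield F) (r : ℕ) (P : Matrix.GeneralLinearGroup (Fin 3) F), r.Prime ∧ Fintype.card F = Nat.card F₀ ^ r ∧ H = Cfsg.Geo.subfieldSubgroup F₀ P ⊓ Cfsg.Geo.specialLinear (Fin 3) F) ∨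
    (∃ (p : ℕ) (R : Subgroup (Matrix.GeneralLinearGroup (Fin 3) F)), p.Prime ∧ Fintype.card F = p ∧ p % 3 = 1 ∧ Cfsg.Geo.IsLinearSymplecticTypeData 3 R ∧ H = Cfsg.Geo.subgroupNormalizer R ⊓ Cfsg.Geo.specialLinear (Fin 3) F) ∨
    (Odd (Fintype.card F) ∧ ∃ Q : (Fin 3 → F) → F, Cfsg.Geo.IsNondegenerateQuadraticForm Q ∧ H = Cfsg.Geo.quadSimilarityGroup Q ⊓ Cfsg.Geo.specialLinear (Fin 3) F) ∨
    (∃ (σ : F ≃+* F) (f : (Fin 3 → F) → (Fin 3 → F) → F), Cfsg.Geo.IsUnitaryForm σ f ∧ H = Cfsg.Geo.similarityGroup f ⊓ Cfsg.Geo.specialLinear (Fin 3) F) ∨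
    Cfsg.Geo.InLinearResidualClass H := by
  have hq := H18.two_le_card (F := F)
  rcases H18.slCase (by simp) hH with h | ⟨t, m, D, h1, h2, h3, h4, h5, h6⟩ | ⟨r, K, h1, h2, h3, h4⟩ |
    ⟨a, b, e, P, h1, h2, h3, h4, h5⟩ | h | ⟨r, R, h1, ⟨m, h2⟩, h3⟩ | ⟨m, t, e, P, h1, h2, h3, h4⟩ |
    h | ⟨h1, h⟩ | h | h
  · exact Or.inl (h)
  · rw [Fintype.card_fin] at h2
    have h7 := h1.two_le
    have h8 := h1.pos
    have h9 : m ≤ 1 := by nlinarith
    interval_cases m
    · obtain rfl : t = 3 := by omega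
      exact Or.inr (Or.inl (⟨by omega, D, h1, h6⟩))
  · rw [Fintype.card_fin] at h2
    have h5 : r ≤ 3 := Nat.le_of_dvd (by decide) h2
    interval_cases r
    · exact absurd h1 (by decide)
    · exact absurd h1 (by decide)
    · exact absurd h2 (by decide)
    · by_cases hc : Fintype.card F = 4
      · obtain ⟨F₀, r, P, a1, a2, a3⟩ := H18.SL3_cubic hc (by simp) h3 (h4.le.trans inf_le_left)
          (h4.le.trans inf_le_right)
        exact Or.inr (Or.inr (Or.inr (Or.inl ⟨F₀, r, P, a1, a2, H18.eq_of_maximal hH a3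
          (H18.SL_not_le_subfield (by simp) (H18.ne_top_of_card_eq_pow a1 a2) P)⟩)))
      · exact Or.inr (Or.inr (Or.inl (⟨hc, K, h3, h4⟩)))
  · rw [Fintype.card_fin] at h3
    have h6 : a ≤ 3 := by nlinarith
    interval_cases a
    · omega
    · omega
  · exact Or.inr (Or.inr (Or.inr (Or.inl (h))))
  · rw [Fintype.card_fin] at h2
    obtain rfl : r = 3 := H18.eq_of_prime_pow (s := 3) (k := 1) h1.symplecticType.prime (by decide) (by decide) h2
    obtain ⟨p, h4, h5, h6⟩ := H18.linData_three h1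
    exact Or.inr (Or.inr (Or.inr (Or.inr (Or.inl (⟨p, R, h4, h5, h6, h1, h3⟩)))))
  · rw [Fintype.card_fin] at h3
    obtain ⟨h5, h6⟩ := H18.le_of_pow_eq (by omega) h2 h3
    nlinarith
  · exact Or.inr (Or.inr (Or.inr (Or.inr (Or.inr (Or.inl (h))))))
  · exact absurd h1 (by simp; decide)
  · exact Or.inr (Or.inr (Or.inr (Or.inr (Or.inr (Or.inr (Or.inl (h)))))))
  · exact Or.inr (Or.inr (Or.inr (Or.inr (Or.inr (Or.inr (Or.inr (h)))))))

end Cfsg.Agent.S5775
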