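import Cfsg.Statements.S5778
import Cfsg.Agent.H18.MdK
import Cfsg.Agent.H18.MdM
-- import your own Cfsg.Agent.* helpers here

set_option autoImplicit false
open Cfsg

namespace Cfsg.Agent.S5778

/-- Every maximal subgroup of SU_3(q), q ≥ 3, is of one of the listed geometric types or lies in the residual class. Let F be the field with q² elements, f the standard unitary form Σ u_i v_i^q on F^3, and H a maximal subgroup of SU_3(q) (the determinant-one isometries of f, inside GL_3(F)). Then H is the intersection with SU_3(q) of one of: the stabiliser of a non-zero subspace on which f vanishes; the stabiliser of a non-degenerate 1-space; for q ≠ 5, the stabiliser of a decomposition into three mutually orthogonal non-degenerate 1-spaces; for q ≠ 3, 5, the normaliser of an adjoint-closed degree-3 subfield of the matrix algebra; a subfield group of odd prime index whose F₀-structure carries f; for q odd, q ≥ 7, a subfield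 group of index 2 whose F₀-structure carries f; for q = p ≡ 2 mod 3 prime with p ≥ 11, the normaliser of an absolutely irreducible subgroup of order 27 with centre of order 3, exponent 3 and all characteristic abelian subgroups cyclic, contained in the similarity group of f — or else H lies in the residual class of the unitary case. -/
theorem result {F : Type*} [Field F] [Fintype F] (q : ℕ) (hF : Fintype.card F = q ^ 2) (hq : 3 ≤ q) (H : Subgroup (Matrix.GeneralLinearGroup (Fin 3) F)) (hH : Cfsg.Geo.IsMaximalIn (Cfsg.GU 3 F q ⊓ Cfsg.Geo.specialLinear (Fin 3) F) H) :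
    (∃ W : Submodule F (Fin 3 → F), W ≠ ⊥ ∧ Cfsg.Geo.IsTotallySingularFor (Cfsg.hermForm 3 F q) W ∧ H = Cfsg.Geo.subspaceStabilizer W ⊓ (Cfsg.GU 3 F q ⊓ Cfsg.Geo.specialLinear (Fin 3) F)) ∨
    (∃ W : Submodule F (Fin 3 → F), W ≠ ⊥ ∧ Cfsg.Geo.IsNondegenerateOn (Cfsg.hermForm 3 F q) W ∧ 2 * Module.finrank F W < 3 ∧ H = Cfsg.Geo.subspaceStabilizer W ⊓ (Cfsg.GU 3 F q ⊓ Cfsg.Geo.specialLinear (Fin 3) F)) ∨
    (q ≠ 5 ∧ ∃ D : Fin 3 → Submodule F (Fin 3 → F), Cfsg.Geo.IsNondegenerateMDecomposition (Cfsg.hermForm 3 F q) 1 D ∧ H = Cfsg.Geo.decompositionStabilizer D ⊓ (Cfsg.GU 3 F q ⊓ Cfsg.Geo.specialLinear (Fin 3) F)) ∨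
    (q ≠ 3 ∧ q ≠ 5 ∧ ∃ K : Subalgebra F (Matrix (Fin 3) (Fin 3) F), Cfsg.Geo.IsFieldSubalgebra 3 K ∧ Cfsg.Geo.IsAdjointClosedFor (Cfsg.hermForm 3 F q) K ∧ H = Cfsg.Geo.subalgebraNormalizer K ⊓ (Cfsg.GU 3 F q ⊓ Cfsg.Geo.specialLinear (Fin 3) F)) ∨
    (∃ (F₀ : Subfield F) (r : ℕ) (P : Matrix.GeneralLinearGroup (Fin 3) F), r.Prime ∧ Odd r ∧ Fintype.card F = Nat.card F₀ ^ r ∧ Cfsg.Geo.IsFormRationalStructure (Cfsg.hermForm 3 F q) F₀ 1 P ∧ H = Cfsg.Geo.subfieldSubgroup F₀ P ⊓ (Cfsg.GU 3 F q ⊓ Cfsg.Geo.specialLinear (Fin 3) F)) ∨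
    (Odd q ∧ 7 ≤ q ∧ ∃ (F₀ : Subfield F) (P : Matrix.GeneralLinearGroup (Fin 3) F), Fintype.card F = Nat.card F₀ ^ 2 ∧ Cfsg.Geo.IsFormRationalStructure (Cfsg.hermForm 3 F q) F₀ 1 P ∧ H = Cfsg.Geo.subfieldSubgroup F₀ P ⊓ (Cfsg.GU 3 F q ⊓ Cfsg.Geo.specialLinear (Fin 3) F)) ∨
    (∃ (p : ℕ) (R : Subgroup (Matrix.GeneralLinearGroup (Fin 3) F)), p.Prime ∧ q = p ∧ p % 3 = 2 ∧ 11 ≤ p ∧ Cfsg.Geo.IsSymplecticTypeGroup 3 R ∧ Cfsg.Geo.ActsAbsolutelyIrreducibly (Cfsg.Geo.matrixSet R) ∧ R ≤ Cfsg.Geo.similarityGroup (Cfsg.hermForm 3 F q) ∧ Nat.card R = 27 ∧ Nat.card (Subgroup.center R) = 3 ∧ H = Cfsg.Geo.subgroupNormalizer R ⊓ (Cfsg.GU 3 F q ⊓ Cfsg.Geo.specialLinear (Fin 3) F)) ∨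
    Cfsg.Geo.InUnitaryResidualClass H := by
  obtain ⟨σ, a, h⟩ := H18.exists_suH hF (by omega) hH
  have hn : Fintype.card (Fin 3) = 3 := Fintype.card_fin 3
  rcases h.cases with (h1 | ⟨W, h1, h2, h3, h4⟩) | ⟨t, m, D, h1, h2, h3, h4⟩ | ⟨m, D, h1, h2, h3, h4⟩ |
    ⟨r, K, h1, h2, h3, h4, h5, h6⟩ | (h1 | ⟨h1, F₀, P, h2, h3, h4⟩ | ⟨h1, h2⟩) | h1 |
    ⟨a, b, e, P, f₁, f₂, h1, h2, h3, h4, h5⟩ | ⟨k, t, e, P, f₁, h1, h2, h3, h4, h5⟩ | h1
  · exact Or.inl h1
  · exact Or.inr (Or.inl ⟨W, h1, h2, by simpa using h3, h4⟩)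
  · rw [hn] at h2
    have h7 := h1.decomp.two_le
    have h8 := h1.decomp.pos
    have h9 : m ≤ 1 := by nlinarith
    interval_cases m
    obtain rfl : t = 3 := by omega
    refine Or.inr (Or.inr (Or.inl ⟨?_, D, h1, h4⟩))
    rintro rfl
    exact H18.SU3_frame5 h h1 (h4.le.trans inf_le_left)
  · rw [hn] at h1
    omega
  · rw [hn] at h3
    have h7 : r ≤ 3 := Nat.le_of_dvd (by decide) h3
    interval_cases r
    · exact absurd h1 (by decide)
    · exact absurd h1 (by decide)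
    · exact absurd h2 (by decide)
    · refine Or.inr (Or.inr (Or.inr (Or.inl ⟨?_, ?_, K, h4, h5, h6⟩))) <;> rintro rfl
      · exact H18.SU3_field3 h hn h4 h5 (h6.le.trans inf_le_left)
      · exact H18.SU3_field5 h hn h4 h5 (h6.le.trans inf_le_left)
  · exact Or.inr (Or.inr (Or.inr (Or.inr (Or.inl h1))))
  · refine Or.inr (Or.inr (Or.inr (Or.inr (Or.inr (Or.inl ⟨h1, ?_, F₀, P, h2, h3, h4⟩)))))
    have h5 : q ≠ 3 := by
      rintro rfl; exact H18.SU3_orth3 h hn h2 h3 (h4.le.trans inf_le_left)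
    have h6 : q ≠ 5 := by
      rintro rfl; exact H18.SU3_orth5 h hn h2 h3 (h4.le.trans inf_le_left)
    obtain ⟨k, hk⟩ := h1
    omega
  · exact absurd h1 (by simp; decide)
  · obtain ⟨p, d, R, a1, a2, rfl, ⟨b1, b2, b3, b4⟩, a3, a4, a5, a6, a7, a8⟩ :=
      h.ext_odd h1 (r := 3) (k := 1) (by decide) (by decide) (by simp)
    obtain rfl : d = 1 := by omega
    have b5 : p % 3 = 2 := by
      have b6 := b4 1 (by decide) (by decide)
      have := Nat.mod_lt p (show 0 < 3 by decide)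
      generalize p % 3 = s at *
      interval_cases s <;> simp_all
    have b6 : 11 ≤ p := by
      by_contra b6
      have b7 : p ≠ 5 := by
        rintro rfl; exact H18.SU3_ext5 h hn a3 a4 a6 a5 a8
      have b8 : p ≠ 8 := by
        rintro rfl; exact absurd a1 (by decide)
      rw [pow_one] at hq
      omega
    exact Or.inr (Or.inr (Or.inr (Or.inr (Or.inr (Or.inr (Or.inl ⟨p, R, a1, pow_one p, b5, b6, a3,
      a4, a5.trans (H18.isoG_le_sim _), a6, a7, h.eq_normalizer3 a1 b6 a3 a4 a6 a7 a8⟩))))))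
  · rw [hn] at h3
    nlinarith
  · rw [hn] at h3
    obtain ⟨h6, h7⟩ := H18.le_of_pow_eq (by omega) h2 h3
    nlinarith
  · exact Or.inr (Or.inr (Or.inr (Or.inr (Or.inr (Or.inr (Or.inr h1))))))

end Cfsg.Agent.S5778
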