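import Cfsg.Statements.S5781
import Cfsg.Agent.H18.SL34
import Cfsg.Agent.H18.SLArith

set_option autoImplicit false
open Cfsg

namespace Cfsg.Agent.S5781

/-- Every maximal subgroup of SL_4(q) is of one of the listed geometric types or lies in the residual class. Let F be a finite field with q elements and H a maximal subgroup of SL_4(F) (inside GL_4(F)). Then H is the intersection with SL_4(F) of one of: the stabiliser of a proper non-zero subspace; for q ≥ 7, the stabiliser of a decomposition into four independent lines; for q ≥ 4, the stabiliser of a decomposition into two independent planes; the normaliser of a degree-2 subfield of the matrix algebra; a subfield group for a subfield F₀ with |F| = |F₀|^r, r prime; for q = p ≡ 1 mod 4 prime, the normaliser of an absolutely irreducible 2-subgroup R of exponent 4 with centre of order 4, all of whose characteristic abelian subgroups are cyclic, of order 2^(2+2m) for some m (here |R| = 64), with 4 dividing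 p − 1; for q odd, the similarity group of a non-degenerate quadratic form; the similarity group of a non-degenerate symplectic form; the similarity group of a non-degenerate unitary form — or else H lies in the residual class of the linear case. -/
theorem result {F : Type*} [Field F] [Fintype F] (H : Subgroup (Matrix.GeneralLinearGroup (Fin 4) F)) (hH : Cfsg.Geo.IsMaximalIn (Cfsg.Geo.specialLinear (Fin 4) F) H) :
    (∃ W : Submodule F (Fin 4 → F), W ≠ ⊥ ∧ W ≠ ⊤ ∧ H = Cfsg.Geo.subspaceStabilizer W ⊓ Cfsg.Geo.specialLinear (Fin 4) F) ∨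
    (7 ≤ Fintype.card F ∧ ∃ D : Fin 4 → Submodule F (Fin 4 → F), Cfsg.Geo.IsMDecomposition 1 D ∧ H = Cfsg.Geo.decompositionStabilizer D ⊓ Cfsg.Geo.specialLinear (Fin 4) F) ∨
    (4 ≤ Fintype.card F ∧ ∃ D : Fin 2 → Submodule F (Fin 4 → F), Cfsg.Geo.IsMDecomposition 2 D ∧ H = Cfsg.Geo.decompositionStabilizer D ⊓ Cfsg.Geo.specialLinear (Fin 4) F) ∨
    (∃ K : Subalgebra F (Matrix (Fin 4) (Fin 4) F), Cfsg.Geo.IsFieldSubalgebra 2 K ∧ H = Cfsg.Geo.subalgebraNormalizer K ⊓ Cfsg.Geo.specialLinear (Fin 4) F) ∨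
    (∃ (F₀ : Subfield F) (r : ℕ) (P : Matrix.GeneralLinearGroup (Fin 4) F), r.Prime ∧ Fintype.card F = Nat.card F₀ ^ r ∧ H = Cfsg.Geo.subfieldSubgroup F₀ P ⊓ Cfsg.Geo.specialLinear (Fin 4) F) ∨
    (∃ (p : ℕ) (R : Subgroup (Matrix.GeneralLinearGroup (Fin 4) F)), p.Prime ∧ Fintype.card F = p ∧ p % 4 = 1 ∧ Cfsg.Geo.IsLinearSymplecticTypeData 2 R ∧ H = Cfsg.Geo.subgroupNormalizer R ⊓ Cfsg.Geo.specialLinear (Fin 4) F) ∨
    (Odd (Fintype.card F) ∧ ∃ Q : (Fin 4 → F) → F, Cfsg.Geo.IsNondegenerateQuadraticForm Q ∧ H = Cfsg.Geo.quadSimilarityGroup Q ⊓ Cfsg.Geo.specialLinear (Fin 4) F) ∨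
    (∃ f : (Fin 4 → F) → (Fin 4 → F) → F, Cfsg.Geo.IsSymplecticForm f ∧ H = Cfsg.Geo.similarityGroup f ⊓ Cfsg.Geo.specialLinear (Fin 4) F) ∨
    (∃ (σ : F ≃+* F) (f : (Fin 4 → F) → (Fin 4 → F) → F), Cfsg.Geo.IsUnitaryForm σ f ∧ H = Cfsg.Geo.similarityGroup f ⊓ Cfsg.Geo.specialLinear (Fin 4) F) ∨
    Cfsg.Geo.InLinearResidualClass H := by
  have hq := H18.two_le_card (F := F)
  rcases H18.slCase (by simp) hH with h | ⟨t, m, D, h1, h2, h3, h4, h5, h6⟩ | ⟨r, K, h1, h2, h3, h4⟩ |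
    ⟨a, b, e, P, h1, h2, h3, h4, h5⟩ | h | ⟨r, R, h1, ⟨m, h2⟩, h3⟩ | ⟨m, t, e, P, h1, h2, h3, h4⟩ |
    h | ⟨h1, h⟩ | h | h
  · exact Or.inl (h)
  · rw [Fintype.card_fin] at h2
    have h7 := h1.two_le
    have h8 := h1.pos
    have h9 : m ≤ 2 := by nlinarith
    interval_cases m
    · obtain rfl : t = 4 := by omega
      exact Or.inr (Or.inl (⟨H18.frame_SL4 hH h1 h6 (h3 rfl), D, h1, h6⟩))
    · obtain rfl : t = 2 := by omega
      exact Or.inr (Or.inr (Or.inl (⟨h5 rfl rfl, D, h1, h6⟩)))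
  · rw [Fintype.card_fin] at h2
    have h5 : r ≤ 4 := Nat.le_of_dvd (by decide) h2
    interval_cases r
    · exact absurd h1 (by decide)
    · exact absurd h1 (by decide)
    · exact Or.inr (Or.inr (Or.inr (Or.inl (⟨K, h3, h4⟩))))
    · exact absurd h2 (by decide)
    · exact absurd h1 (by decide)
  · rw [Fintype.card_fin] at h3
    have h6 : a ≤ 3 := by nlinarith
    interval_cases a
    · omega
    · omega
  · exact Or.inr (Or.inr (Or.inr (Or.inr (Or.inl (h)))))
  · rw [Fintype.card_fin] at h2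
    obtain rfl : r = 2 := H18.eq_of_prime_pow (s := 2) (k := 2) h1.symplecticType.prime (by decide) (by decide) h2
    obtain ⟨p, h4, h5, h6⟩ := H18.linData_two h1 (by simp)
    exact Or.inr (Or.inr (Or.inr (Or.inr (Or.inr (Or.inl (⟨p, R, h4, h5, h6, h1, h3⟩))))))
  · rw [Fintype.card_fin] at h3
    obtain ⟨h5, h6⟩ := H18.le_of_pow_eq (by omega) h2 h3
    nlinarith
  · exact Or.inr (Or.inr (Or.inr (Or.inr (Or.inr (Or.inr (Or.inl (h)))))))
  · exact Or.inr (Or.inr (Or.inr (Or.inr (Or.inr (Or.inr (Or.inr (Or.inl (h))))))))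
  · exact Or.inr (Or.inr (Or.inr (Or.inr (Or.inr (Or.inr (Or.inr (Or.inr (Or.inl (h)))))))))
  · exact Or.inr (Or.inr (Or.inr (Or.inr (Or.inr (Or.inr (Or.inr (Or.inr (Or.inr (h)))))))))

end Cfsg.Agent.S5781
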