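import Cfsg.Statements.S5787
import Cfsg.Agent.H18.MdD
-- import your own Cfsg.Agent.* helpers here

set_option autoImplicit false
open Cfsg

namespace Cfsg.Agent.S5787

/-- Every maximal subgroup of Sp_4(q), q odd, is of one of the listed geometric types or lies in the residual class. Let F be a finite field of odd order q, f the standard alternating form on F^4 (coordinates Fin 2 ⊕ Fin 2), and H a maximal subgroup of the isometry group Sp_4(F) (inside GL_4(F)). Then H is the intersection with Sp_4(F) of one of: the stabiliser of a non-zero totally isotropic subspace; the stabiliser of a decomposition into two orthogonal non-degenerate 2-spaces; for q ≥ 5, of a decomposition into two totally isotropic 2-spaces; the normaliser of a degree-2 subfield K of the matrix algebra, self-adjoint with f(k v, v) = 0; for q ≥ 5, the normaliser of a degree-2 subfield closed under adjoints but not self-adjoint; a subfield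 group whose F₀-structure carries a non-zero multiple of f, |F| = |F₀|^r with r prime; for q = p prime, the normaliser of an absolutely irreducible symplectic-type 2-group of exponent 4, order 32, centre of order 2 and minus type inside the similarity group of f — or else H lies in the residual class of the symplectic case. -/
theorem result {F : Type*} [Field F] [Fintype F] (hodd : Odd (Fintype.card F)) (H : Subgroup (Matrix.GeneralLinearGroup (Fin 2 ⊕ Fin 2) F)) (hH : Cfsg.Geo.IsMaximalIn (Cfsg.spGL 2 F) H) :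
    (∃ W : Submodule F (Fin 2 ⊕ Fin 2 → F), W ≠ ⊥ ∧ Cfsg.Geo.IsTotallySingularFor (Cfsg.sympForm 2 F) W ∧ H = Cfsg.Geo.subspaceStabilizer W ⊓ Cfsg.spGL 2 F) ∨
    (∃ D : Fin 2 → Submodule F (Fin 2 ⊕ Fin 2 → F), Cfsg.Geo.IsNondegenerateMDecomposition (Cfsg.sympForm 2 F) 2 D ∧ H = Cfsg.Geo.decompositionStabilizer D ⊓ Cfsg.spGL 2 F) ∨
    (5 ≤ Fintype.card F ∧ ∃ D : Fin 2 → Submodule F (Fin 2 ⊕ Fin 2 → F), Cfsg.Geo.IsMDecomposition 2 D ∧ (∀ i, Cfsg.Geo.IsTotallySingularFor (Cfsg.sympForm 2 F) (D i)) ∧ H = Cfsg.Geo.decompositionStabilizer D ⊓ Cfsg.spGL 2 F) ∨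
    (∃ K : Subalgebra F (Matrix (Fin 2 ⊕ Fin 2) (Fin 2 ⊕ Fin 2) F), Cfsg.Geo.IsFieldSubalgebra 2 K ∧ Cfsg.Geo.IsSelfAdjointFor (Cfsg.sympForm 2 F) K ∧ (∀ k ∈ K, ∀ v : (Fin 2 ⊕ Fin 2 → F), (Cfsg.sympForm 2 F) (Matrix.mulVec k v) v = 0) ∧ H = Cfsg.Geo.subalgebraNormalizer K ⊓ Cfsg.spGL 2 F) ∨
    (5 ≤ Fintype.card F ∧ ∃ K : Subalgebra F (Matrix (Fin 2 ⊕ Fin 2) (Fin 2 ⊕ Fin 2) F), Cfsg.Geo.IsFieldSubalgebra 2 K ∧ Cfsg.Geo.IsAdjointClosedFor (Cfsg.sympForm 2 F) K ∧ ¬ Cfsg.Geo.IsSelfAdjointFor (Cfsg.sympForm 2 F) K ∧ H = Cfsg.Geo.subalgebraNormalizer K ⊓ Cfsg.spGL 2 F) ∨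
    (∃ (F₀ : Subfield F) (r : ℕ) (P : Matrix.GeneralLinearGroup (Fin 2 ⊕ Fin 2) F) (ζ : F), r.Prime ∧ Fintype.card F = Nat.card F₀ ^ r ∧ ζ ≠ 0 ∧ Cfsg.Geo.IsFormRationalStructure (Cfsg.sympForm 2 F) F₀ ζ P ∧ H = Cfsg.Geo.subfieldSubgroup F₀ P ⊓ Cfsg.spGL 2 F) ∨
    (∃ (p : ℕ) (R : Subgroup (Matrix.GeneralLinearGroup (Fin 2 ⊕ Fin 2) F)), p.Prime ∧ Fintype.card F = p ∧ Cfsg.Geo.IsSymplecticTypeGroup 2 R ∧ Cfsg.Geo.ActsAbsolutelyIrreducibly (Cfsg.Geo.matrixSet R) ∧ R ≤ Cfsg.Geo.similarityGroup (Cfsg.sympForm 2 F) ∧ Nat.card R = 32 ∧ Nat.card (Subgroup.center R) = 2 ∧ Cfsg.Geo.IsOfMinusType 2 R ∧ H = Cfsg.Geo.subgroupNormalizer R ⊓ Cfsg.spGL 2 F) ∨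
    Cfsg.Geo.InSymplecticResidualClass H := by
  have h := H18.spH_std (by decide) hH
  have hn : Fintype.card (Fin 2 ⊕ Fin 2) = 4 := by simp
  have h5q : Fintype.card F ≠ 3 → 5 ≤ Fintype.card F := fun h3 => by
    have := Fintype.one_lt_card (α := F)
    obtain ⟨k, hk⟩ := hodd
    omega
  rcases h.cases with (h1 | ⟨W, h1, h2, h3, h4⟩) | ⟨t, m, D, h1, h2, h3, h4, h5⟩ | h1 |
    ⟨r, K, h1, h2, h3⟩ | ⟨h1, ⟨m, D, h2, h3⟩ | ⟨K, h2⟩⟩ | h1 | ⟨R, k, h1, h2, h3, h4, h5, h6, h7, h8, h9, h10⟩ |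
    ⟨a, b, e, P, f₁, f₂, h1, h2, h3, h4, h5, h6⟩ | ⟨k, t, e, P, f₁, h1, h2, h3, h4, h5, h6⟩ | h1
  · exact Or.inl h1
  · exfalso
    have h5 : Module.finrank F W = 1 := by
      have := Submodule.finrank_eq_zero.not.mpr h1
      omega
    obtain ⟨w, hw, h6⟩ := W.exists_mem_ne_zero_of_ne_bot h1
    obtain ⟨x, hx, h7⟩ := (h2 w hw h6).1
    obtain ⟨c, hc⟩ := (finrank_eq_one_iff_of_nonzero' (⟨w, hw⟩ : W)
      (fun h0 => h6 (congrArg Subtype.val h0))).mp h5 ⟨x, hx⟩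
    apply h7
    rw [← show c • w = x from congrArg Subtype.val hc, h.hf.smul_left, h.sp.alternating, mul_zero]
  · rw [hn] at h2
    have h7 := h1.decomp.two_le
    have h8 := h1.decomp.pos
    have h9 : m ≤ 2 := by nlinarith
    interval_cases m
    · exact absurd h3 (by decide)
    · obtain rfl : t = 2 := by omega
      exact Or.inr (Or.inl ⟨D, h1, h5⟩)
  · exact absurd hodd h1.1
  · rw [hn] at h2
    have h7 : r ≤ 2 := by have := Nat.le_of_dvd (by decide) h2; omega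
    interval_cases r
    · exact absurd h1 (by decide)
    · exact absurd h1 (by decide)
    · exact Or.inr (Or.inr (Or.inr (Or.inl ⟨K, h3⟩)))
  · obtain rfl : m = 2 := by omega
    exact Or.inr (Or.inr (Or.inl ⟨h5q fun h0 =>
      H18.Sp4_pair h h0 h3.1 h3.2.1 h2 (h3.2.2.le.trans inf_le_left), D, h3⟩))
  · exact Or.inr (Or.inr (Or.inr (Or.inr (Or.inl ⟨h5q fun h0 =>
      H18.Sp4_unit h h0 hn h2.1 h2.2.1 h2.2.2.1 (h2.2.2.2.le.trans inf_le_left), K, h2⟩))))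
  · exact Or.inr (Or.inr (Or.inr (Or.inr (Or.inr (Or.inl h1)))))
  · obtain rfl : 2 = k := Nat.pow_right_injective (le_refl 2) (hn.symm.trans h1)
    exact Or.inr (Or.inr (Or.inr (Or.inr (Or.inr (Or.inr (Or.inl
      ⟨_, R, h2, rfl, h4, h5, h6, h7, h8, h9, h10⟩))))))
  · have h7 := hn.symm.trans h5.card
    have h8 := h5.two_le₁
    nlinarith
  · rw [hn] at h4
    obtain ⟨h7, h8⟩ := H18.le_of_pow_eq h2 (by omega) h4
    have h9 : k ≤ 2 := by nlinarith
    interval_cases k; interval_cases t <;> simp at h4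
  · exact Or.inr (Or.inr (Or.inr (Or.inr (Or.inr (Or.inr (Or.inr h1))))))

end Cfsg.Agent.S5787
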