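import Cfsg.Statements.S5790
import Cfsg.Agent.H18.SpMax
-- import your own Cfsg.Agent.* helpers here

set_option autoImplicit false
open Cfsg

namespace Cfsg.Agent.S5790

/-- Every maximal subgroup of Sp_4(q), q ≥ 4 even, is of one of the listed geometric types or lies in the residual class. Let F be a finite field of even order q ≥ 4, f the standard alternating form on F^4 (coordinates Fin 2 ⊕ Fin 2), and H a maximal subgroup of Sp_4(F) (inside GL_4(F)). Then H is the intersection with Sp_4(F) of one of: the stabiliser of a non-zero totally isotropic subspace; the stabiliser of a decomposition into two orthogonal non-degenerate 2-spaces; the normaliser of a degree-2 subfield K of the matrix algebra, self-adjoint with f(k v, v) = 0; a subfield group whose F₀-structure carries a non-zero multiple of f, |F| = |F₀|^r with r prime; the similarity group of a non-degenerate quadratic form whose polar form is f — or else H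 lies in the residual class of the symplectic case. -/
theorem result {F : Type*} [Field F] [Fintype F] (heven : ¬ Odd (Fintype.card F)) (h4 : 4 ≤ Fintype.card F) (H : Subgroup (Matrix.GeneralLinearGroup (Fin 2 ⊕ Fin 2) F)) (hH : Cfsg.Geo.IsMaximalIn (Cfsg.spGL 2 F) H) :
    (∃ W : Submodule F (Fin 2 ⊕ Fin 2 → F), W ≠ ⊥ ∧ Cfsg.Geo.IsTotallySingularFor (Cfsg.sympForm 2 F) W ∧ H = Cfsg.Geo.subspaceStabilizer W ⊓ Cfsg.spGL 2 F) ∨
    (∃ D : Fin 2 → Submodule F (Fin 2 ⊕ Fin 2 → F), Cfsg.Geo.IsNondegenerateMDecomposition (Cfsg.sympForm 2 F) 2 D ∧ H = Cfsg.Geo.decompositionStabilizer D ⊓ Cfsg.spGL 2 F) ∨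
    (∃ K : Subalgebra F (Matrix (Fin 2 ⊕ Fin 2) (Fin 2 ⊕ Fin 2) F), Cfsg.Geo.IsFieldSubalgebra 2 K ∧ Cfsg.Geo.IsSelfAdjointFor (Cfsg.sympForm 2 F) K ∧ (∀ k ∈ K, ∀ v : (Fin 2 ⊕ Fin 2 → F), (Cfsg.sympForm 2 F) (Matrix.mulVec k v) v = 0) ∧ H = Cfsg.Geo.subalgebraNormalizer K ⊓ Cfsg.spGL 2 F) ∨
    (∃ (F₀ : Subfield F) (r : ℕ) (P : Matrix.GeneralLinearGroup (Fin 2 ⊕ Fin 2) F) (ζ : F), r.Prime ∧ Fintype.card F = Nat.card F₀ ^ r ∧ ζ ≠ 0 ∧ Cfsg.Geo.IsFormRationalStructure (Cfsg.sympForm 2 F) F₀ ζ P ∧ H = Cfsg.Geo.subfieldSubgroup F₀ P ⊓ Cfsg.spGL 2 F) ∨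
    (∃ Q : (Fin 2 ⊕ Fin 2 → F) → F, Cfsg.Geo.IsNondegenerateQuadraticForm Q ∧ (∀ u v : (Fin 2 ⊕ Fin 2 → F), QuadraticMap.polar Q u v = (Cfsg.sympForm 2 F) u v) ∧ H = Cfsg.Geo.quadSimilarityGroup Q ⊓ Cfsg.spGL 2 F) ∨
    Cfsg.Geo.InSymplecticResidualClass H := by
  have h := H18.spH_std (by decide) hH
  have hn : Fintype.card (Fin 2 ⊕ Fin 2) = 4 := by simp
  rcases h.cases with (h1 | ⟨W, h1, h2, h3, h4⟩) | ⟨t, m, D, h1, h2, h3, h4, h5⟩ | h1 |
    ⟨r, K, h1, h2, h3⟩ | ⟨h1, ⟨m, D, h2, h3⟩ | h2⟩ | h1 | ⟨R, k, h1, h2, h3, h4, h5, h6, h7, h8, h9, h10⟩ |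
    ⟨a, b, e, P, f₁, f₂, h1, h2, h3, h4, h5, h6⟩ | ⟨k, t, e, P, f₁, h1, h2, h3, h4, h5, h6⟩ | h1
  · exact Or.inl (h1)
  · obtain ⟨j, hj⟩ := h.hf.even_of_nondegOn (fun v _ => h.sp.alternating v) h2
    exact absurd (Submodule.finrank_eq_zero.mp (by omega)) h1
  · rw [hn] at h2
    have h7 := h1.decomp.two_le
    have h8 := h1.decomp.pos
    have h9 : m ≤ 2 := by nlinarith
    interval_cases m
    · exact absurd h3 (by decide)
    · obtain rfl : t = 2 := by omega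
      exact Or.inr (Or.inl (⟨D, h1, h5⟩))
  · exact Or.inr (Or.inr (Or.inr (Or.inr (Or.inl (h1.2)))))
  · rw [hn] at h2
    have h7 : r ≤ 2 := by have := Nat.le_of_dvd (by decide) h2; omega
    interval_cases r
    · exact absurd h1 (by decide)
    · exact absurd h1 (by decide)
    · exact Or.inr (Or.inr (Or.inl (⟨K, h3⟩)))
  · exact absurd h1 heven
  · exact absurd h1 heven
  · exact Or.inr (Or.inr (Or.inr (Or.inl (h1))))
  · exact absurd h3 heven
  · exact absurd h1 heven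
  · exact absurd h1 heven
  · exact Or.inr (Or.inr (Or.inr (Or.inr (Or.inr (h1)))))

end Cfsg.Agent.S5790
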