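import Cfsg.Statements.S5796
import Cfsg.Agent.H18.MdF
-- import your own Cfsg.Agent.* helpers here

set_option autoImplicit false
open Cfsg

namespace Cfsg.Agent.S5796

/-- Every maximal subgroup of SU_5(q) is of one of the listed geometric types or lies in the residual class. Let F be the field with q² elements (characteristic p), f the standard unitary form Σ u_i v_i^q on F^5, and H a maximal subgroup of SU_5(q) (inside GL_5(F)). Then H is the intersection with SU_5(q) of one of: the stabiliser of a non-zero totally isotropic subspace; the stabiliser of a non-degenerate 1-space or 2-space; the stabiliser of a decomposition into five mutually orthogonal non-degenerate 1-spaces; for q ≥ 3, the normaliser of an adjoint-closed degree-5 subfield of the matrix algebra; a subfield group of odd prime index whose F₀-structure carries f; for q odd, a subfield group of index 2 whose F₀-structure carries f; for q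 = p ≡ 4 mod 5 or q = p² with p ≡ 2, 3 mod 5, the normaliser of an absolutely irreducible 5-group of exponent 5, order 125 and centre of order 5 with all characteristic abelian subgroups cyclic inside the similarity group of f — or else H lies in the residual class of the unitary case. -/
theorem result {F : Type*} [Field F] [Fintype F] (q : ℕ) (hF : Fintype.card F = q ^ 2) (H : Subgroup (Matrix.GeneralLinearGroup (Fin 5) F)) (hH : Cfsg.Geo.IsMaximalIn (Cfsg.GU 5 F q ⊓ Cfsg.Geo.specialLinear (Fin 5) F) H) :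
    (∃ W : Submodule F (Fin 5 → F), W ≠ ⊥ ∧ Cfsg.Geo.IsTotallySingularFor (Cfsg.hermForm 5 F q) W ∧ H = Cfsg.Geo.subspaceStabilizer W ⊓ (Cfsg.GU 5 F q ⊓ Cfsg.Geo.specialLinear (Fin 5) F)) ∨
    (∃ W : Submodule F (Fin 5 → F), W ≠ ⊥ ∧ Cfsg.Geo.IsNondegenerateOn (Cfsg.hermForm 5 F q) W ∧ 2 * Module.finrank F W < 5 ∧ H = Cfsg.Geo.subspaceStabilizer W ⊓ (Cfsg.GU 5 F q ⊓ Cfsg.Geo.specialLinear (Fin 5) F)) ∨
    (∃ D : Fin 5 → Submodule F (Fin 5 → F), Cfsg.Geo.IsNondegenerateMDecomposition (Cfsg.hermForm 5 F q) 1 D ∧ H = Cfsg.Geo.decompositionStabilizer D ⊓ (Cfsg.GU 5 F q ⊓ Cfsg.Geo.specialLinear (Fin 5) F)) ∨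
    (3 ≤ q ∧ ∃ K : Subalgebra F (Matrix (Fin 5) (Fin 5) F), Cfsg.Geo.IsFieldSubalgebra 5 K ∧ Cfsg.Geo.IsAdjointClosedFor (Cfsg.hermForm 5 F q) K ∧ H = Cfsg.Geo.subalgebraNormalizer K ⊓ (Cfsg.GU 5 F q ⊓ Cfsg.Geo.specialLinear (Fin 5) F)) ∨
    (∃ (F₀ : Subfield F) (r : ℕ) (P : Matrix.GeneralLinearGroup (Fin 5) F), r.Prime ∧ Odd r ∧ Fintype.card F = Nat.card F₀ ^ r ∧ Cfsg.Geo.IsFormRationalStructure (Cfsg.hermForm 5 F q) F₀ 1 P ∧ H = Cfsg.Geo.subfieldSubgroup F₀ P ⊓ (Cfsg.GU 5 F q ⊓ Cfsg.Geo.specialLinear (Fin 5) F)) ∨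
    (Odd q ∧ ∃ (F₀ : Subfield F) (P : Matrix.GeneralLinearGroup (Fin 5) F), Fintype.card F = Nat.card F₀ ^ 2 ∧ Cfsg.Geo.IsFormRationalStructure (Cfsg.hermForm 5 F q) F₀ 1 P ∧ H = Cfsg.Geo.subfieldSubgroup F₀ P ⊓ (Cfsg.GU 5 F q ⊓ Cfsg.Geo.specialLinear (Fin 5) F)) ∨
    (∃ (p : ℕ) (R : Subgroup (Matrix.GeneralLinearGroup (Fin 5) F)), p.Prime ∧ CharP F p ∧ ((q = p ∧ p % 5 = 4) ∨ (q = p ^ 2 ∧ (p % 5 = 2 ∨ p % 5 = 3))) ∧ Cfsg.Geo.IsSymplecticTypeGroup 5 R ∧ Cfsg.Geo.ActsAbsolutelyIrreducibly (Cfsg.Geo.matrixSet R) ∧ R ≤ Cfsg.Geo.similarityGroup (Cfsg.hermForm 5 F q) ∧ Nat.card R = 125 ∧ Nat.card (Subgroup.center R) = 5 ∧ H = Cfsg.Geo.subgroupNormalizer R ⊓ (Cfsg.GU 5 F q ⊓ Cfsg.Geo.specialLinear (Fin 5) F)) ∨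
    Cfsg.Geo.InUnitaryResidualClass H := by
  obtain ⟨σ, a, h⟩ := H18.exists_suH hF (by omega) hH
  rcases h.cases with (h1 | ⟨W, h1, h2, h3, h4⟩) | ⟨t, m, D, h1, h2, h3, h4⟩ | ⟨m, D, h1, h2, h3, h4⟩ |
    ⟨r, K, h1, h2, h3, h4, h5, h6⟩ | (h1 | h1 | ⟨h1, h2⟩) | h1 |
    ⟨a, b, e, P, f₁, f₂, h1, h2, h3, h4, h5⟩ | ⟨k, t, e, P, f₁, h1, h2, h3, h4, h5⟩ | h1
  · exact Or.inl (h1)
  · exact Or.inr (Or.inl (⟨W, h1, h2, by simpa using h3, h4⟩))
  · rw [Fintype.card_fin] at h2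
    have h7 := h1.decomp.two_le
    have h8 := h1.decomp.pos
    have h9 : m ≤ 2 := by nlinarith
    interval_cases m
    · obtain rfl : t = 5 := by omega
      exact Or.inr (Or.inr (Or.inl (⟨D, h1, h4⟩)))
    · omega
  · rw [Fintype.card_fin] at h1
    omega
  · rw [Fintype.card_fin] at h3
    have h7 : r ≤ 5 := Nat.le_of_dvd (by decide) h3
    interval_cases r
    · exact absurd h1 (by decide)
    · exact absurd h1 (by decide)
    · exact absurd h2 (by decide)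
    · exact absurd h3 (by decide)
    · exact absurd h1 (by decide)
    · refine Or.inr (Or.inr (Or.inr (Or.inl ⟨?_, K, h4, h5, h6⟩)))
      have h8 := H18.two_le_of_card_sq hF
      by_contra h9
      obtain rfl : q = 2 := by omega
      exact H18.SU5_field h (by simp) h4 h5 (h6.le.trans inf_le_left)
  · exact Or.inr (Or.inr (Or.inr (Or.inr (Or.inl (h1)))))
  · exact Or.inr (Or.inr (Or.inr (Or.inr (Or.inr (Or.inl (h1))))))
  · exact absurd h1 (by simp; decide)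
  · obtain ⟨p, d, R, a1, a2, rfl, ⟨b1, b2, b3, b4⟩, a3, a4, a5, a6, a7, a8⟩ :=
      h.ext_odd h1 (r := 5) (k := 1) (by decide) (by decide) (by simp)
    have a9 := h.eq_normalizer a3 a4 (Or.inr (by simp)) a8
    have : ∀ a < 5, ∀ d < 3, 0 < d → a ^ (2 * d) % 5 = 1 →
        (∀ e < 2 * d, 0 < e → a ^ e % 5 ≠ 1) → (d = 1 ∧ a = 4) ∨ (d = 2 ∧ (a = 2 ∨ a = 3)) := by
      set_option synthInstance.maxSize 1000 in decide
    refine Or.inr (Or.inr (Or.inr (Or.inr (Or.inr (Or.inr (Or.inl (⟨p, R, a1, a2, ?_, a3, a4, a5.trans (H18.isoG_le_sim _), a6, a7, a9⟩)))))))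
    rcases this _ (Nat.mod_lt p (by decide)) d (by omega) b1 b3 b4 with ⟨rfl, b5⟩ | ⟨rfl, b5⟩
    exacts [Or.inl ⟨pow_one p, b5⟩, Or.inr ⟨rfl, b5⟩]
  · rw [Fintype.card_fin] at h3
    have h6 : a ≤ 2 := by nlinarith
    interval_cases a
    omega
  · rw [Fintype.card_fin] at h3
    obtain ⟨h6, h7⟩ := H18.le_of_pow_eq (by omega) h2 h3
    nlinarith
  · exact Or.inr (Or.inr (Or.inr (Or.inr (Or.inr (Or.inr (Or.inr (h1)))))))

end Cfsg.Agent.S5796
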