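import Cfsg.Statements.S5826
import Cfsg.Agent.H18.OmEven
-- import your own Cfsg.Agent.* helpers here

set_option autoImplicit false
open Cfsg

namespace Cfsg.Agent.S5826

/-- Every maximal subgroup of Ω_8^-(q) is of one of the listed geometric types or lies in the residual class. Let F be a finite field with q elements, Q a non-degenerate quadratic form on F^8 of minus type (no totally singular 4-space), Ω the commutator subgroup of its isometry group, and H a maximal subgroup of Ω (inside GL_8(F)). Then H is the intersection with Ω of one of: the stabiliser of a non-zero totally singular subspace; for q odd, the stabiliser of a non-degenerate subspace of odd dimension; the stabiliser of a non-degenerate 2-space of minus type; for q ≥ 4, the stabiliser of a non-degenerate 2-space of plus type; the stabiliser of a non-degenerate 4-space; for q even, the stabiliser of the span of a non-singular vector; the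 normaliser of a degree-2 subfield of the matrix algebra; a subfield group of odd prime index whose F₀-structure carries a non-zero multiple of Q — or else H lies in the residual class of the orthogonal case (modulo scalars H is almost simple, with absolutely irreducible perfect socle preimage realisable over no proper subfield and fixing no non-degenerate unitary form). -/
theorem result {F : Type*} [Field F] [Fintype F] (Q : (Fin 8 → F) → F) (hQ : Cfsg.Geo.IsNondegenerateQuadraticForm Q) (hminus : ¬ Cfsg.Geo.IsPlusTypeOn Q ⊤) (H : Subgroup (Matrix.GeneralLinearGroup (Fin 8) F)) (hH : Cfsg.Geo.IsMaximalIn (Cfsg.Geo.omegaGL Q) H) :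
    (∃ W : Submodule F (Fin 8 → F), W ≠ ⊥ ∧ Cfsg.Geo.IsTotallySingularQuad Q W ∧ H = Cfsg.Geo.subspaceStabilizer W ⊓ Cfsg.Geo.omegaGL Q) ∨
    (Odd (Fintype.card F) ∧ ∃ W : Submodule F (Fin 8 → F), W ≠ ⊥ ∧ W ≠ ⊤ ∧ Odd (Module.finrank F W) ∧ Cfsg.Geo.IsNondegenerateOn (QuadraticMap.polar Q) W ∧ H = Cfsg.Geo.subspaceStabilizer W ⊓ Cfsg.Geo.omegaGL Q) ∨
    (∃ W : Submodule F (Fin 8 → F), Module.finrank F W = 2 ∧ Cfsg.Geo.IsNondegenerateOn (QuadraticMap.polar Q) W ∧ ¬ Cfsg.Geo.IsPlusTypeOn Q W ∧ H = Cfsg.Geo.subspaceStabilizer W ⊓ Cfsg.Geo.omegaGL Q) ∨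
    (4 ≤ Fintype.card F ∧ ∃ W : Submodule F (Fin 8 → F), Module.finrank F W = 2 ∧ Cfsg.Geo.IsNondegenerateOn (QuadraticMap.polar Q) W ∧ Cfsg.Geo.IsPlusTypeOn Q W ∧ H = Cfsg.Geo.subspaceStabilizer W ⊓ Cfsg.Geo.omegaGL Q) ∨
    (∃ W : Submodule F (Fin 8 → F), Module.finrank F W = 4 ∧ Cfsg.Geo.IsNondegenerateOn (QuadraticMap.polar Q) W ∧ H = Cfsg.Geo.subspaceStabilizer W ⊓ Cfsg.Geo.omegaGL Q) ∨
    (¬ Odd (Fintype.card F) ∧ ∃ v : (Fin 8 → F), Q v ≠ 0 ∧ H = Cfsg.Geo.subspaceStabilizer (Submodule.span F {v}) ⊓ Cfsg.Geo.omegaGL Q) ∨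
    (∃ K : Subalgebra F (Matrix (Fin 8) (Fin 8) F), Cfsg.Geo.IsFieldSubalgebra 2 K ∧ H = Cfsg.Geo.subalgebraNormalizer K ⊓ Cfsg.Geo.omegaGL Q) ∨
    (∃ (F₀ : Subfield F) (r : ℕ) (P : Matrix.GeneralLinearGroup (Fin 8) F) (ζ : F), r.Prime ∧ Odd r ∧ Fintype.card F = Nat.card F₀ ^ r ∧ ζ ≠ 0 ∧ Cfsg.Geo.IsQuadFormRationalStructure (fun v : Fin 8 → F => ζ * Q v) F₀ P ∧ H = Cfsg.Geo.subfieldSubgroup F₀ P ⊓ Cfsg.Geo.omegaGL Q) ∨
    Cfsg.Geo.InOrthogonalResidualClass H := by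
  have hn : Fintype.card (Fin 8) = 8 := by simp
  have h : H18.EvH Q H := ⟨hQ, by rw [hn]; decide, by omega, fun _ => hminus, hH⟩
  rcases h.cases (by omega) with (⟨W, a1, a2, a3, a4⟩ | ⟨a1, W, a2, a3, a4, a5, a6⟩ |
    ⟨W, k, a1, a2, a3, a4, a5, a6⟩ | a1) | (⟨t, m, D, a1, a2, a3, a4, a5, a6, a7, a8, a9⟩ |
    ⟨m, D, a1, a2, a3, a4, a5, a6⟩ | ⟨m, D, a1, a2, a3, a4⟩) | ⟨F₀, r, P, ζ, a1, a2, a3⟩ |
    (⟨r, K, a1, a2, a3, a4, a5, a6, a7⟩ | ⟨K, a1, a2⟩) | ⟨a1, a2, a3⟩ | ⟨a1, a2, a3⟩ | a1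
  · exact Or.inl (⟨W, a1, a2, a4⟩)
  · exact Or.inr (Or.inl (⟨a1, W, a2, a3, a4, a6⟩))
  · obtain rfl | rfl : k = 1 ∨ k = 2 := by omega
    · by_cases hp : Cfsg.Geo.IsPlusTypeOn Q W
      · exact Or.inr (Or.inr (Or.inr (Or.inl (⟨a5 rfl hp, W, a2, a6.1, hp, a6.2⟩))))
      · exact Or.inr (Or.inr (Or.inl (⟨W, a2, a6.1, hp, a6.2⟩)))
    · exact Or.inr (Or.inr (Or.inr (Or.inr (Or.inl (⟨W, a2, a6⟩)))))
  · exact Or.inr (Or.inr (Or.inr (Or.inr (Or.inr (Or.inl (a1))))))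
  · refine absurd (H18.plus_of_even hQ a8 ?_ ⟨2, hn⟩) hminus
    have : t ≤ 8 := Nat.le_of_dvd (by omega) ⟨m, hn.symm.trans a1⟩
    interval_cases t <;> first | decide | omega
  · obtain rfl : m = 4 := by omega
    exact absurd a2 (by decide)
  · exact absurd a3 hminus
  · exact Or.inr (Or.inr (Or.inr (Or.inr (Or.inr (Or.inr (Or.inr (Or.inl (⟨F₀, r, P, ζ, a1, a2 hminus, a3⟩))))))))
  · obtain rfl := (Nat.prime_dvd_prime_iff_eq a1 Nat.prime_two).mp
      (a1.dvd_of_dvd_pow (n := 3) (hn ▸ a2 :))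
    exact Or.inr (Or.inr (Or.inr (Or.inr (Or.inr (Or.inr (Or.inl (⟨K, a5, a7⟩)))))))
  · exact Or.inr (Or.inr (Or.inr (Or.inr (Or.inr (Or.inr (Or.inl (⟨K, a2.1, a2.2.2.2.2⟩)))))))
  · omega
  · omega
  · exact Or.inr (Or.inr (Or.inr (Or.inr (Or.inr (Or.inr (Or.inr (Or.inr (a1))))))))

end Cfsg.Agent.S5826
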