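import Cfsg.Statements.S5876
import Cfsg.Agent.H1.Cores
import Cfsg.Agent.H2.Basic

set_option autoImplicit false
open Cfsg

namespace Cfsg.Agent.S5876

open Subgroup Module
open scoped commutatorElement

section
variable {F V G : Type*} [Field F] [AddCommGroup V] [Module F V] [Group G]

theorem indep_aux {ι : Type*} (W : ι → Submodule F V) (j : ι) (T : Finset ι)
    (h : ∀ i ∈ T, ∃ f : V →ₗ[F] V, (∀ k, (W k).map f ≤ W k) ∧ (∀ v ∈ W i, f v = 0) ∧
      (∀ v ∈ W j, f v = 0 → v = 0)) : ∀ v ∈ W j, v ∈ ⨆ i ∈ T, W i → v = 0 := by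
  classical
  induction T using Finset.induction_on with
  | empty => intro v _ hv; simpa using hv
  | insert i T hi ih =>
    intro v hvj hv
    rw [Finset.iSup_insert] at hv
    obtain ⟨w, hw, u, hu, rfl⟩ := Submodule.mem_sup.1 hv
    obtain ⟨f, hf1, hf2, hf3⟩ := h i (Finset.mem_insert_self _ _)
    apply hf3 _ hvj
    apply ih (fun k hk => h k (Finset.mem_insert_of_mem hk)) _ (hf1 j ⟨_, hvj, rfl⟩)
    rw [map_add, hf2 w hw, zero_add]
    have : (⨆ i ∈ T, W i).map f ≤ ⨆ i ∈ T, W i := by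
      simp only [Submodule.map_iSup]
      exact iSup₂_mono fun k _ => hf1 k
    exact this ⟨u, hu, rfl⟩

/-- fixed space of a subgroup -/
def fx (ρ : G →* (V →ₗ[F] V)) (B : Subgroup G) : Submodule F V where
  carrier := {v | ∀ b ∈ B, ρ b v = v}
  add_mem' {a b} ha hb := fun x hx => by rw [map_add, ha x hx, hb x hx]
  zero_mem' := fun x _ => map_zero _
  smul_mem' c a ha := fun x hx => by rw [map_smul, ha x hx]

theorem mem_fx {ρ : G →* (V →ₗ[F] V)} {B : Subgroup G} {v : V} :
    v ∈ fx ρ B ↔ ∀ b ∈ B, ρ b v = v := Iff.rfl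

theorem rho_mul (ρ : G →* (V →ₗ[F] V)) (a b : G) (v : V) : ρ (a * b) v = ρ a (ρ b v) := by
  rw [map_mul]; rfl

theorem rho_inv (ρ : G →* (V →ₗ[F] V)) (a : G) (v : V) : ρ a⁻¹ (ρ a v) = v := by
  rw [← rho_mul, inv_mul_cancel, map_one]; rfl

theorem rho_inv' (ρ : G →* (V →ₗ[F] V)) (a : G) (v : V) : ρ a (ρ a⁻¹ v) = v := by
  rw [← rho_mul, mul_inv_cancel, map_one]; rfl

/-- stabilizer of a vector -/
def st (ρ : G →* (V →ₗ[F] V)) (v : V) : Subgroup G where
  carrier := {g | ρ g v = v}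
  mul_mem' {a b} ha hb := by
    show ρ (a * b) v = v
    rw [rho_mul, hb, ha]
  one_mem' := by show ρ 1 v = v; rw [map_one]; rfl
  inv_mem' {a} ha := by
    show ρ a⁻¹ v = v
    conv_lhs => rw [← show ρ a v = v from ha]
    rw [rho_inv]

theorem map_fx (ρ : G →* (V →ₗ[F] V)) (B : Subgroup G) (g : G) :
    (fx ρ B).map (ρ g) = fx ρ (B.map (MulAut.conj g).toMonoidHom) := by
  ext v
  constructor
  · rintro ⟨w, hw, rfl⟩ b hb
    rw [H1.mem_map_conj] at hb
    have := hw _ hb
    rw [rho_mul, rho_mul] at this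
    conv_rhs => rw [← this]
    rw [rho_inv']
  · intro hv
    refine ⟨ρ g⁻¹ v, fun b hb => ?_, rho_inv' ρ g v⟩
    have := hv (g * b * g⁻¹) (by rw [H1.mem_map_conj]; simpa [mul_assoc] using hb)
    rw [rho_mul, rho_mul] at this
    conv_rhs => rw [← this]
    rw [rho_inv]

theorem finrank_map_rho (ρ : G →* (V →ₗ[F] V)) (W : Submodule F V) (g : G) :
    finrank F (W.map (ρ g)) = finrank F W := by
  have hinj : Function.Injective (ρ g) := fun a b h => by
    rw [← rho_inv ρ g a, h, rho_inv]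
  exact (Submodule.equivMapOfInjective _ hinj W).finrank_eq.symm

theorem fpf [Finite G] [FiniteDimensional F V] (ρ : G →* (V →ₗ[F] V)) (hinj : Function.Injective ρ)
    (hirr : ∀ W : Submodule F V, (∀ g, W.map (ρ g) ≤ W) → W = ⊥ ∨ W = ⊤)
    (hprim : ∀ (m t : ℕ) (D : Fin t → Submodule F V), 2 ≤ t → 0 < m → (∀ i, finrank F (D i) = m) →
      iSupIndep D → iSup D = ⊤ → ¬ ∀ g, ∃ σ : Equiv.Perm (Fin t), ∀ i, (D i).map (ρ g) = D (σ i))
    (A : Subgroup G) [hA : A.Normal] (hc : ∀ a ∈ A, ∀ b ∈ A, a * b = b * a)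
    {a : G} (ha : a ∈ A) (ha1 : a ≠ 1) {v : V} (hv : ρ a v = v) : v = 0 := by
  classical
  by_contra hv0
  let P : Subgroup G → Prop := fun B => B ≤ A ∧ fx ρ B ≠ ⊥
  have hP0 : P (zpowers a) := by
    refine ⟨(zpowers_le).2 ha, fun h => hv0 ?_⟩
    rw [← Submodule.mem_bot F, ← h]
    exact fun b hb => (zpowers_le.2 (show a ∈ st ρ v from hv) : zpowers a ≤ st ρ v) hb
  obtain ⟨B, hB0, hB⟩ := Finite.exists_le_maximal hP0
  -- conjugates of B
  let c : G → Subgroup G := fun g => B.map (MulAut.conj g).toMonoidHom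
  have hcc : ∀ g h, (c h).map (MulAut.conj g).toMonoidHom = c (g * h) := by
    intro g h; ext x; simp only [c, H1.mem_map_conj]; simp [mul_assoc]
  have hc1 : c 1 = B := by ext x; simp [c, H1.mem_map_conj]
  have hPc : ∀ g (C : Subgroup G), P C → P (C.map (MulAut.conj g).toMonoidHom) := by
    intro g C hC
    refine ⟨fun x hx => ?_, fun h => hC.2 ?_⟩
    · rw [H1.mem_map_conj] at hx
      have := hA.conj_mem _ (hC.1 hx) g
      simpa [mul_assoc] using this
    · rw [← map_fx] at h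
      rw [← Submodule.finrank_eq_zero, ← finrank_map_rho ρ _ g, h, finrank_bot]
  have hmax : ∀ g, Maximal P (c g) := by
    intro g
    refine ⟨hPc g B hB.1, fun C hC hle => ?_⟩
    have h1 := hPc g⁻¹ C hC
    have h2 : B ≤ C.map (MulAut.conj g⁻¹).toMonoidHom := by
      rw [← hc1, ← inv_mul_cancel g, ← hcc]; exact Subgroup.map_mono hle
    have h3 := hB.2 h1 h2
    intro x hx
    simp only [c, H1.mem_map_conj]
    apply h3
    rw [H1.mem_map_conj]; simpa [mul_assoc] using hx
  let S : Set (Submodule F V) := Set.range fun g => fx ρ (c g)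
  haveI : Finite S := Set.finite_range _
  let e := Finite.equivFin S
  let D : Fin (Nat.card S) → Submodule F V := fun i => (e.symm i : S)
  have hD : ∀ i, ∃ g, D i = fx ρ (c g) := fun i => by
    obtain ⟨g, hg⟩ := (e.symm i).2; exact ⟨g, hg.symm⟩
  have hDinj : Function.Injective D := fun i j h => e.symm.injective (Subtype.ext h)
  have hDs : ∀ g, ∃ i, D i = fx ρ (c g) := fun g =>
    ⟨e ⟨_, g, rfl⟩, by simp only [D, Equiv.symm_apply_apply]⟩
  have hperm : ∀ g, ∃ σ : Equiv.Perm (Fin (Nat.card S)), ∀ i, (D i).map (ρ g) = D (σ i) := by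
    intro g
    have : ∀ i, ∃ j, (D i).map (ρ g) = D j := by
      intro i
      obtain ⟨h, hh⟩ := hD i
      obtain ⟨j, hj⟩ := hDs (g * h)
      exact ⟨j, by rw [hh, hj, map_fx, hcc]⟩
    choose s hs using this
    have hsi : Function.Injective s := by
      intro i j hij
      apply hDinj
      have h1 : (D i).map (ρ g) = (D j).map (ρ g) := by rw [hs, hs, hij]
      exact Submodule.map_injective_of_injective (fun a b h => by
        rw [← rho_inv ρ g a, h, rho_inv]) h1
    exact ⟨Equiv.ofBijective s hsi.bijective_of_finite, hs⟩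
  obtain ⟨i0, hi0⟩ := hDs 1
  rw [hc1] at hi0
  have htop : iSup D = ⊤ := by
    refine (hirr _ fun g => ?_).resolve_left fun h => hB.1.2 ?_
    · rw [Submodule.map_iSup]
      obtain ⟨σ, hσ⟩ := hperm g
      exact iSup_le fun i => by rw [hσ]; exact le_iSup D _
    · rw [eq_bot_iff, ← h, ← hi0]; exact le_iSup D _
  have hne : fx ρ B ≠ ⊤ := by
    intro h
    apply ha1
    apply hinj
    ext w
    have : w ∈ fx ρ B := h ▸ Submodule.mem_top
    rw [this a (hB0 (mem_zpowers a)), map_one]; rfl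
  refine hprim (finrank F (fx ρ B)) _ D ?_ ?_ ?_ ?_ htop hperm
  · by_contra hlt
    apply hne
    rw [eq_top_iff, ← htop, ← hi0]
    refine iSup_le fun i => ?_
    have : i = i0 := by
      apply Fin.ext; have := i.2; have := i0.2; omega
    rw [this]
  · rw [pos_iff_ne_zero, Ne, Submodule.finrank_eq_zero]; exact hB.1.2
  · intro i
    obtain ⟨g, hg⟩ := hD i
    rw [hg, ← map_fx, finrank_map_rho]
  · intro j
    rw [Submodule.disjoint_def]
    intro w hw hw'
    refine indep_aux D j (Finset.univ.erase j) (fun i hi => ?_) w hw ?_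
    · obtain ⟨g, hg⟩ := hD i
      obtain ⟨h, hh⟩ := hD j
      have hij : i ≠ j := Finset.ne_of_mem_erase hi
      have hnle : ¬ c g ≤ c h := fun hle => hij (hDinj (by
        rw [hg, hh, le_antisymm hle ((hmax g).2 (hmax h).1 hle)]))
      obtain ⟨b, hbg, hbh⟩ := SetLike.not_le_iff_exists.1 hnle
      have hbA : b ∈ A := (hmax g).1.1 hbg
      refine ⟨ρ b - LinearMap.id, fun k => ?_, fun u hu => ?_, fun u hu hu0 => ?_⟩
      · obtain ⟨l, hl⟩ := hD k
        rintro _ ⟨u, hu, rfl⟩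
        rw [hl] at hu ⊢
        refine Submodule.sub_mem _ (fun x hx => ?_) hu
        show ρ x (ρ b u) = ρ b u
        rw [← rho_mul, hc x ((hmax l).1.1 hx) b hbA, rho_mul, hu x hx]
      · rw [hg] at hu
        simp [hu b hbg]
      · by_contra hu1
        rw [hh] at hu
        have hbu : ρ b u = u := by simpa [sub_eq_zero] using hu0
        have hC : P (A ⊓ st ρ u) := by
          refine ⟨inf_le_left, fun h0 => hu1 ?_⟩
          rw [← Submodule.mem_bot F, ← h0]
          exact fun x hx => hx.2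
        exact hbh ((hmax h).2 hC (fun x hx => mem_inf.2 ⟨(hmax h).1.1 hx, hu x hx⟩) (mem_inf.2 ⟨hbA, hbu⟩))
    · refine (iSup₂_le fun i hi => ?_ : _ ≤ ⨆ i ∈ Finset.univ.erase j, D i) hw'
      exact le_iSup₂_of_le i (Finset.mem_erase.2 ⟨hi, Finset.mem_univ _⟩) le_rfl

/-- fixed space of an element -/
def fe (ρ : G →* (V →ₗ[F] V)) (g : G) : Submodule F V := LinearMap.ker (ρ g - LinearMap.id)

theorem mem_fe {ρ : G →* (V →ₗ[F] V)} {g : G} {v : V} : v ∈ fe ρ g ↔ ρ g v = v := by
  simp [fe, sub_eq_zero]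

theorem two_fe_le [FiniteDimensional F V] (ρ : G →* (V →ₗ[F] V)) (g x : G) :
    2 * finrank F (fe ρ g) ≤ finrank F V + finrank F (fe ρ ⁅g, x⁆) := by
  have h1 := Submodule.finrank_sup_add_finrank_inf_eq (fe ρ g) ((fe ρ g).map (ρ x))
  rw [finrank_map_rho] at h1
  have h2 : finrank F ↥(fe ρ g ⊔ (fe ρ g).map (ρ x)) ≤ finrank F V := Submodule.finrank_le _
  have h3 : fe ρ g ⊓ (fe ρ g).map (ρ x) ≤ fe ρ ⁅g, x⁆ := by
    rintro _ ⟨hv, w, hw, rfl⟩
    have hw' : w ∈ fe ρ g := hw
    have hv' : ρ x w ∈ fe ρ g := hv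
    rw [mem_fe] at hw' hv' ⊢
    have : ρ g⁻¹ w = w := (st ρ w).inv_mem hw'
    rw [commutatorElement_def, rho_mul, rho_mul, rho_mul, rho_inv, this, hv']
  have := Submodule.finrank_mono h3
  omega

theorem nilp_bound [Finite G] [FiniteDimensional F V] (ρ : G →* (V →ₗ[F] V))
    (hf : ∀ (A : Subgroup G), A.Normal → (∀ a ∈ A, ∀ b ∈ A, a * b = b * a) → ∀ a ∈ A, a ≠ 1 →
      fe ρ a = ⊥) (n : ℕ) : ∀ (N : Subgroup G), Nat.card N = n → N.Normal → Group.IsNilpotent N →
      ∀ y ∈ N, y ≠ 1 → 2 * finrank F (fe ρ y) ≤ finrank F V := by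
  induction n using Nat.strong_induction_on with
  | _ n ih =>
  intro N hn hN hnil y hy hy1
  have hZ : ∀ z ∈ (center N).map N.subtype, z ≠ 1 → fe ρ z = ⊥ := by
    refine hf _ inferInstance ?_
    rintro _ ⟨a, ha, rfl⟩ _ ⟨b, hb, rfl⟩
    have := mem_center_iff.1 hb a
    exact congrArg Subtype.val this
  let Z2 : Subgroup G := (Subgroup.upperCentralSeries N 2).map N.subtype
  by_cases hyc : y ∈ centralizer (Z2 : Set G)
  · by_cases hlt : N ⊓ centralizer (Z2 : Set G) = N
    · have h1 : Subgroup.upperCentralSeries N 1 = Subgroup.upperCentralSeries N 2 := by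
        refine le_antisymm (Subgroup.upperCentralSeries_mono _ (by norm_num)) fun x hx => ?_
        rw [Subgroup.upperCentralSeries_one, mem_center_iff]
        intro g
        have hg : (g : G) ∈ N ⊓ centralizer (Z2 : Set G) := by rw [hlt]; exact g.2
        exact Subtype.ext (hg.2 x ⟨x, hx, rfl⟩).symm
      have h2 := Subgroup.upperCentralSeries.eq_top (by norm_num) h1
      rw [Subgroup.upperCentralSeries_one] at h2
      rw [hZ y ⟨⟨y, hy⟩, by rw [h2]; trivial, rfl⟩ hy1, finrank_bot]; omega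
    · have hlt' : N ⊓ centralizer (Z2 : Set G) < N := lt_of_le_of_ne inf_le_left hlt
      exact ih _ (hn ▸ H1.card_lt_of_lt hlt') _ rfl inferInstance
        (H1.isNilpotent_of_le inf_le_left hnil) y (mem_inf.2 ⟨hy, hyc⟩) hy1
  · rw [mem_centralizer_iff] at hyc
    push Not at hyc
    obtain ⟨_, ⟨x, hx, rfl⟩, hxy⟩ := hyc
    have h1 : ⁅x, (⟨y, hy⟩ : N)⁆ ∈ center N := by
      rw [← Subgroup.upperCentralSeries_one]; exact Subgroup.mem_upperCentralSeries_succ_iff.1 hx _
    have h2 : ⁅y, (x : G)⁆ ∈ (center N).map N.subtype := by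
      rw [← commutatorElement_inv]
      exact inv_mem ⟨_, h1, rfl⟩
    have h3 := two_fe_le ρ y x
    rw [hZ _ h2 (fun h => hxy (commutatorElement_eq_one_iff_mul_comm.1 h).symm), finrank_bot] at h3
    omega

theorem solv_bound [Finite G] [FiniteDimensional F V] (ρ : G →* (V →ₗ[F] V)) (hs : Group.IsSolvable G)
    (hf : ∀ (A : Subgroup G), A.Normal → (∀ a ∈ A, ∀ b ∈ A, a * b = b * a) → ∀ a ∈ A, a ≠ 1 →
      fe ρ a = ⊥) (g : G) (hg : g ≠ 1) : 4 * finrank F (fe ρ g) ≤ 3 * finrank F V := by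
  have hb := nilp_bound ρ hf _ (fittingSubgroup G) rfl inferInstance (H1.isNilpotent_fittingSubgroup G)
  by_cases h : g ∈ centralizer (fittingSubgroup G : Set G)
  · have := hb g (H1.centralizer_fittingSubgroup_le hs h) hg
    omega
  · rw [mem_centralizer_iff] at h
    push Not at h
    obtain ⟨x, hx, hxg⟩ := h
    have h1 : ⁅g, x⁆ ∈ fittingSubgroup G := by
      rw [commutatorElement_def]
      exact mul_mem ((inferInstance : (fittingSubgroup G).Normal).conj_mem _ hx g) (inv_mem hx)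
    have h2 := hb _ h1 (fun h => hxg (commutatorElement_eq_one_iff_mul_comm.1 h).symm)
    have h3 := two_fe_le ρ g x
    omega
end

/-- Fixed-point spaces in primitive soluble linear groups. Let F be a finite field and G a soluble subgroup of GL_n(F) that acts irreducibly on F^n and primitively (G preserves no decomposition of F^n into two or more independent subspaces of equal dimension). Then every non-identity element g of G has fixed-point space {v : g v = v} of dimension at most 3n/4. -/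
theorem result {F : Type*} [Field F] [Fintype F] {n : ℕ} (G : Subgroup (Matrix.GeneralLinearGroup (Fin n) F)) (hsol : IsSolvable G) (hirr : Cfsg.Geo.ActsIrreducibly (Cfsg.Geo.matrixSet G)) (hprim : ∀ (m t : ℕ) (D : Fin t → Submodule F (Fin n → F)), 2 ≤ t → Cfsg.Geo.IsMDecomposition m D → ¬ G ≤ Cfsg.Geo.decompositionStabilizer D) (g : Matrix.GeneralLinearGroup (Fin n) F) (hg : g ∈ G) (hg1 : g ≠ 1) :
    4 * Module.finrank F (Module.End.eigenspace (Matrix.toLin' (g : Matrix (Fin n) (Fin n) F)) 1) ≤ 3 * n := by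
  classical
  let ρ : G →* ((Fin n → F) →ₗ[F] (Fin n → F)) :=
    { toFun := fun x => Matrix.toLin' ((x : Matrix.GeneralLinearGroup (Fin n) F) : Matrix (Fin n) (Fin n) F)
      map_one' := by simp [Module.End.one_eq_id]
      map_mul' := fun a b => by simp [Matrix.toLin'_mul, Module.End.mul_eq_comp] }
  have hinj : Function.Injective ρ := fun a b h => Subtype.ext (Units.ext (Matrix.toLin'.injective h))
  have h := solv_bound ρ hsol (fun A hA hc a ha ha1 => by
    rw [eq_bot_iff]
    intro v hv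
    refine fpf ρ hinj (fun W hW => hirr W ?_) (fun m t D h2 hm hD hi ht hp => ?_) A hc ha ha1 (mem_fe.1 hv)
    · rintro _ ⟨x, hx, rfl⟩; exact hW ⟨x, hx⟩
    · exact hprim m t D h2 ⟨h2, hm, hD, hi, ht⟩ fun x hx => hp ⟨x, hx⟩) ⟨g, hg⟩
    (fun h => hg1 (congrArg Subtype.val h))
  have e : Module.End.eigenspace (Matrix.toLin' (g : Matrix (Fin n) (Fin n) F)) 1 = fe ρ ⟨g, hg⟩ := by
    ext v; rw [Module.End.mem_eigenspace_iff, mem_fe, one_smul]; rfl
  rw [e]
  simpa using h

end Cfsg.Agent.S5876
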