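import Cfsg.Statements.S5938
import Cfsg.Agent.H12.PMd

set_option autoImplicit false
open Cfsg

namespace Cfsg.Agent.S5938

/-- Let p be a prime with p ≡ ±1 (mod 8) and F a field with p elements. Then PSL_2(F) has a maximal subgroup isomorphic to the symmetric group S_4. -/
theorem result {F : Type*} [Field F] [Fintype F] (p : ℕ) [Fact p.Prime] (hF : Fintype.card F = p) (hp : p % 8 = 1 ∨ p % 8 = 7) : ∃ H : Subgroup (Matrix.ProjectiveSpecialLinearGroup (Fin 2) F), IsCoatom H ∧ Nonempty (H ≃* Equiv.Perm (Fin 4)) := by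
    have := charP_of_card_eq_prime hF
    obtain ⟨H, ⟨e⟩⟩ := (S0803.result hF).mpr (by
      have : p % 16 = 1 ∨ p % 16 = 9 ∨ p % 16 = 7 ∨ p % 16 = 15 := by omega
      rcases this with e | e | e | e <;> simp [Nat.pow_mod, e])
    exact ⟨H, H12.coatom_perm4 p hF (by have := (Fact.out : p.Prime).two_le; omega) e, ⟨e⟩⟩

end Cfsg.Agent.S5938
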