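import Cfsg.Statements.S5941
import Cfsg.Agent.H12.PMd

set_option autoImplicit false
open Cfsg

namespace Cfsg.Agent.S5941

/-- Let K and F be finite fields of odd characteristic with #F = (#K)². Then PSL_2(F) has a maximal subgroup isomorphic to PGL_2(K). -/
theorem result {F K : Type*} [Field F] [Fintype F] [Field K] [Fintype K] (q : ℕ) (hK : Fintype.card K = q) (hF : Fintype.card F = q ^ 2) (hq : Odd q) : ∃ H : Subgroup (Matrix.ProjectiveSpecialLinearGroup (Fin 2) F), IsCoatom H ∧ Nonempty (H ≃* Matrix.ProjGenLinGroup (Fin 2) K) := by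
    subst hK
    obtain ⟨p, hp, n, hpp, -⟩ := FiniteField.card' F
    have := Fact.mk hpp
    have : 1 < Fintype.card K := Fintype.one_lt_card
    obtain ⟨H, e⟩ := (S0805.result rfl (hF ▸ hq.pow) 2 one_le_two hF.symm).2.mpr even_two
    exact ⟨H, H12.coatom_sub p Nat.prime_two (by obtain ⟨k, hk⟩ := hq; omega) hF (Or.inl e), e⟩

end Cfsg.Agent.S5941
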