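import Cfsg.Statements.S5943
import Cfsg.Agent.H12.PMd

set_option autoImplicit false
open Cfsg

namespace Cfsg.Agent.S5943

/-- Let K and F be finite fields of characteristic 2 with #K = q > 2 and #F = q^r for a prime r. Then PSL_2(F) has a maximal subgroup isomorphic to PSL_2(K) (which equals PGL_2(K) in characteristic 2). -/
theorem result {F K : Type*} [Field F] [Fintype F] [Field K] [Fintype K] (q r : ℕ) (hK : Fintype.card K = q) (hF : Fintype.card F = q ^ r) (hq : Even q) (hq2 : q ≠ 2) (hr : r.Prime) : ∃ H : Subgroup (Matrix.ProjectiveSpecialLinearGroup (Fin 2) F), IsCoatom H ∧ Nonempty (H ≃* Matrix.ProjectiveSpecialLinearGroup (Fin 2) K) := by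
    subst hK
    obtain ⟨p, hp, n, hpp, hn⟩ := FiniteField.card' F
    have := Fact.mk hpp
    have : 1 < Fintype.card K := Fintype.one_lt_card
    obtain ⟨f⟩ := H12.nonempty_ringHom_of_card_pow (F := F) (K := K) (m := r) (by simp [hF])
    have e := Nonempty.intro (MonoidHom.ofInjective (H12.psl2_map_injective f)).symm
    exact ⟨_, H12.coatom_sub p hr (by omega) hF (Or.inr ⟨e, Or.inr (hpp.even_iff.mp
      (Nat.even_pow.mp (hn ▸ hF ▸ hq.pow_of_ne_zero hr.ne_zero)).1)⟩), e⟩

end Cfsg.Agent.S5943
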