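import Cfsg.Statements.S5944
import Cfsg.Agent.H18.Msc2
-- import your own Cfsg.Agent.* helpers here

set_option autoImplicit false
open Cfsg

namespace Cfsg.Agent.S5944

/-- For n ≠ 4, every proper subgroup of the symmetric group S_n other than the alternating group A_n has index at least n. -/
theorem result (n : ℕ) (hn : n ≠ 4) (H : Subgroup (Equiv.Perm (Fin n))) (hH : H ≠ ⊤) (hA : H ≠ alternatingGroup (Fin n)) : n ≤ H.index := by
  have h0 := H.index_ne_zero_of_finite
  have h1 := mt Subgroup.index_eq_one.mp hH
  have h2 := mt Equiv.Perm.eq_alternatingGroup_of_index_eq_two hA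
  by_contra! h
  have h3 : Function.Injective (MulAction.toPermHom (Equiv.Perm (Fin n)) (Equiv.Perm (Fin n) ⧸ H)) := by
    rw [← MonoidHom.ker_eq_bot_iff, ← Subgroup.normalCore_eq_ker]
    exact H18.normalCore_eq_bot (by simp; omega) (by omega)
  have h4 := Nat.card_le_card_of_injective _ h3
  rw [Nat.card_perm, Nat.card_perm, Nat.card_fin] at h4
  exact absurd h4 (not_le.mpr (Nat.factorial_lt_of_lt (Nat.pos_of_ne_zero h0) h))

end Cfsg.Agent.S5944
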