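import Cfsg.Statements.S5950
import Cfsg.Agent.H28.Elu3

set_option autoImplicit false
open scoped MatrixGroups
open Cfsg

namespace Cfsg.Agent.S5950

open H28 Module
open scoped Pointwise

/-- Elements of prime order of PSL_n(q) fixing no decomposition `F^n = U ⊕ W` with `dim U = m`. Here `T = PSL_n(F)` for a field `F` with `q = p^f` elements (`n ≥ 2`, `(n, q) ≠ (2, 2), (2, 3)`); an element of `T` of prime order `r` is represented by a matrix `x` of determinant 1 with `x^r` scalar and `x` not scalar; `i` denotes the multiplicative order of `q` modulo `r` (when `r ≠ p`), and `(a)_r` the `r`-part of `a`. Let `n ≥ 3`, `1 ≤ m < n/2`, and let `r` be a prime dividing the number of such decompositions (unordered pairs `{U, W}` of complementary subspaces with `dim U = m`; since `m ≠ n − m` these are the ordered pairs with `dim U = m`). Then every element of `T` of order `r` fixes such a pair (fixes both `U` and `W` for some complementary `U, W` with `dim U = m`) if and only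 if one of: (i) `r = p > 2` and every partition of `n` into parts of size at most `p` contains, as a sub-multiset, a partition of `m`; (ii) `r = p = 2` and `n` is odd or `m` is even; (iii) `r ≠ p`, `i = 1`, and `r ∣ m` or `(q−1)_r ≥ (n)_r` (with `q ≡ 1 (mod 4)` required when `r = 2` and `n` is even); (iv) `r ≠ p`, `2 ≤ i ≤ m` and `n mod i ≥ m mod i`. -/
theorem result {F : Type*} [Field F] [Fintype F] {p : ℕ} [Fact p.Prime] [CharP F p] {q : ℕ} (hq : Fintype.card F = q)
    (n m : ℕ) (hn : 3 ≤ n) (hm : 1 ≤ m) (hmn : 2 * m < n)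
    (r : ℕ) [Fact r.Prime]
    (hrΩ : r ∣ Nat.card {P : Submodule F (Fin n → F) × Submodule F (Fin n → F) // IsCompl P.1 P.2 ∧ Module.finrank F ↥P.1 = m}) :
    (∀ x : Matrix.SpecialLinearGroup (Fin n) F,
      (∃ c : F, ((x ^ r : Matrix.SpecialLinearGroup (Fin n) F) : Matrix (Fin n) (Fin n) F) = c • (1 : Matrix (Fin n) (Fin n) F)) →
      (∀ c : F, (x : Matrix (Fin n) (Fin n) F) ≠ c • (1 : Matrix (Fin n) (Fin n) F)) →
      ∃ U W : Submodule F (Fin n → F), IsCompl U W ∧ Module.finrank F ↥U = m ∧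
        U.map (Matrix.toLin' (x : Matrix (Fin n) (Fin n) F)) ≤ U ∧ W.map (Matrix.toLin' (x : Matrix (Fin n) (Fin n) F)) ≤ W) ↔
    ((r = p ∧ 2 < p ∧ (∀ μ : Multiset ℕ, (∀ a ∈ μ, 0 < a ∧ a ≤ p) → μ.sum = n → ∃ ν : Multiset ℕ, ν ≤ μ ∧ ν.sum = m)) ∨
     (r = p ∧ p = 2 ∧ (Odd n ∨ Even m)) ∨
     (r ≠ p ∧
      ((orderOf (q : ZMod r) = 1 ∧ (r ∣ m ∨ (padicValNat r n ≤ padicValNat r (q - 1) ∧ (r = 2 → Even n → q % 4 = 1)))) ∨
       (2 ≤ orderOf (q : ZMod r) ∧ orderOf (q : ZMod r) ≤ m ∧ m % orderOf (q : ZMod r) ≤ n % orderOf (q : ZMod r))))) := by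
  subst hq
  have hr : r.Prime := Fact.out
  have hV : finrank F (Fin n → F) = n := by simp
  simp only [iv_iff]
  rw [forall_SL_iff (P := fun a => ∃ U W : Submodule F (Fin n → F), IsCompl U W ∧ finrank F U = m ∧ Iv a U ∧ Iv a W)]
  have hP : ∀ w : F, w ≠ 0 → ∀ a, (∃ U W : Submodule F (Fin n → F), IsCompl U W ∧ finrank F U = m ∧ Iv a U ∧ Iv a W) →
      ∃ U W : Submodule F (Fin n → F), IsCompl U W ∧ finrank F U = m ∧ Iv (w • a) U ∧ Iv (w • a) W :=
    fun w _ a ⟨U, W, h1, h2, h3, h4⟩ => ⟨U, W, h1, h2, h3.smul w, h4.smul w⟩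
  by_cases hrp : r = p
  · subst hrp
    rw [forall_po_unip hP (Q := fun μ => ∃ ν ≤ μ, ν.sum = m) fun u μ h1 h2 => by
      rw [exists_compl_iff, h2, le_map_upp h1], hV]
    have h1 : ∀ s e b d, b ≤ s → d ≤ e → ∃ ν ≤ Multiset.replicate e 1 + .replicate s 2, ν.sum = d + 2 * b :=
      fun s e b d h1 h2 => ⟨.replicate d 1 + .replicate b 2, add_le_add ((Multiset.replicate_le_replicate _).2 h2)
        ((Multiset.replicate_le_replicate _).2 h1), by simp [mul_comm]⟩
    rcases hr.two_le.eq_or_lt with rfl | h2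
    · simp only [lt_self_iff_false, false_and, true_and, false_or, ne_eq, not_true, or_false]
      constructor
      · intro H
        rcases Nat.even_or_odd n with ⟨k, hk⟩ | h
        · obtain ⟨ν, h3, rfl⟩ := H (.replicate k 2) (by simp +contextual [Multiset.mem_replicate]) (by simp; omega)
            ⟨2, Multiset.mem_replicate.2 ⟨by omega, rfl⟩, one_lt_two⟩
          obtain ⟨l, -, rfl⟩ := Multiset.le_replicate_iff.1 h3
          simp
        · exact .inl h
      · intro H μ h3 h4 _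
        rw [H13.eq_replicate_add h3] at h4 ⊢
        generalize 2 * μ.card - μ.sum = e at *
        generalize μ.sum - μ.card = s at *
        simp only [Multiset.sum_add, Multiset.sum_replicate, smul_eq_mul] at h4
        by_cases h5 : m / 2 ≤ s
        · rw [← Nat.mod_add_div m 2]
          exact h1 _ _ _ _ h5 (by rw [Nat.odd_iff, Nat.even_iff] at H; omega)
        · rw [show m = m - 2 * s + 2 * s by omega]
          exact h1 _ _ _ _ le_rfl (by omega)
    · simp only [h2, h2.ne', false_and, true_and, ne_eq, not_true, or_false]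
      refine ⟨fun H μ h3 h4 => ?_, fun H μ h3 h4 _ => H μ h3 h4⟩
      by_cases h5 : ∃ k ∈ μ, 1 < k
      · exact H μ h3 h4 h5
      · have h6 : μ = .replicate μ.card 1 := Multiset.eq_replicate_card.2 fun k hk => by
          have := (h3 k hk).1; have := mt (fun h => ⟨k, hk, h⟩) h5; omega
        rw [h6] at h4 ⊢
        simpa using h1 0 μ.card 0 m le_rfl (by simp at h4; omega)
  simp only [hrp, false_and, false_or, ne_eq, not_false_iff, true_and]
  rw [ss_sub_iff hr hrp hm (by omega) hP (fun a g _ _ => exists_compl_iff m) fun h => ?_, hV]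
  refine absurd hrΩ (not_dvd_card_of_fixed (G := (Fin n → F) ≃ₗ[F] (Fin n → F)) (fun g W hW =>
    ⟨(Submodule.orderIsoMapComap g).isCompl hW.1, (LinearEquiv.finrank_map_eq g W.1).trans hW.2⟩) (fun U W h1 h2 => ?_)
    fun R hR => ?_)
  · have := Submodule.finrank_add_eq_of_isCompl h1.1
    have := Submodule.finrank_add_eq_of_isCompl h2.1
    obtain ⟨g, -, -, h3, h4⟩ := exists_map_compl h1.1 h2.1 (LinearEquiv.ofFinrankEq _ _ (h1.2.trans h2.2.symm))
      (LinearEquiv.ofFinrankEq _ _ (by omega))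
    exact ⟨g, Prod.ext h3 h4⟩
  obtain ⟨T, h1, h2⟩ := exists_le_finrank (h.trans (mod_le_finrank_fixR (not_dvd_card_of_ne hr hrp) hR (leq R)))
  obtain ⟨S, h3, h4⟩ := exists_compl_fixR (natCast_card_ne_zero hrp hR) (leq R)
  obtain ⟨C, h5⟩ := T.exists_isCompl
  refine ⟨(T, (C ⊓ fixR (leq R)) ⊔ S), ⟨⟨?_, ?_⟩, h2⟩, fun g hg => Prod.ext (smul_eq_of_iv (iv_of_le_fixR h1) g hg)
    (smul_eq_of_iv (fun g => iv_of_sub_mem (h4 g) le_sup_right) g hg)⟩
  · exact Disjoint.disjoint_sup_right_of_disjoint_sup_left (h5.disjoint.mono_right inf_le_left)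
      (h3.disjoint.mono_left (sup_le h1 inf_le_right))
  · rw [codisjoint_iff, ← sup_assoc, ← sup_inf_assoc_of_le _ h1, h5.sup_eq_top, top_inf_eq, h3.sup_eq_top]

end Cfsg.Agent.S5950
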