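import Cfsg.Statements.S5951
import Cfsg.Agent.H28.Elu3

set_option autoImplicit false
open scoped MatrixGroups
open Cfsg

namespace Cfsg.Agent.S5951

open H28 Module
open scoped Pointwise

theorem split {F : Type*} [Field F] {N M : Multiset (PP F)} {e c : ℕ} (hN : ∀ x ∈ N, x.dg = c)
    (h : M ≤ N + .replicate e (H13.upp F 1)) :
    tdg M = (M.filter (¬ ·.dg = 1)).card * c + (M.filter (·.dg = 1)).card := by
  conv_lhs => rw [← Multiset.filter_add_not (·.dg = 1) M, add_comm, tdg_add]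
  rw [tdg_of_const (c := c), tdg_of_const (c := 1) fun x hx => (Multiset.mem_filter.1 hx).2, mul_one]
  intro x hx
  obtain ⟨h1, h2⟩ := Multiset.mem_filter.1 hx
  exact (Multiset.mem_add.1 (Multiset.mem_of_le h h1)).elim (hN x) fun h3 =>
    absurd (Multiset.eq_of_mem_replicate h3 ▸ upp_dg one_pos) h2

theorem split2 {F : Type*} [Field F] {N : Multiset (PP F)} {e c : ℕ} (hN : ∀ x ∈ N, x.dg = c) (hc : c ≠ 1) :
    ((N + .replicate e (H13.upp F 1)).filter (¬ ·.dg = 1)).card = N.card ∧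
      ((N + .replicate e (H13.upp F 1)).filter (·.dg = 1)).card = e := by
  have h1 : ∀ x ∈ N, ¬ x.dg = 1 := fun x hx => hN x hx ▸ hc
  have h2 : ∀ x ∈ Multiset.replicate e (H13.upp F 1), x.dg = 1 := fun x hx =>
    Multiset.eq_of_mem_replicate hx ▸ upp_dg one_pos
  rw [Multiset.filter_add, Multiset.filter_add, Multiset.filter_eq_self.2 h1, Multiset.filter_eq_self.2 h2,
    Multiset.filter_eq_nil.2 h1, Multiset.filter_eq_nil.2 fun x hx => not_not.2 (h2 x hx)]
  simp

theorem arith {n m c : ℕ} (h0 : 0 < c) (hm : 0 < m) (hmn : 2 * m < n) (hc : 2 * m ≤ n % c → False) :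
    (∀ b e, 0 < b → b * c + e = n → ∃ b₁ b₂ d₁ d₂, b₁ ≤ b₂ ∧ b₂ ≤ b ∧ d₁ ≤ d₂ ∧ d₂ ≤ e ∧ b₁ * c + d₁ = m ∧
      b₂ * c + d₂ = n - m) ↔ c ≤ m ∧ 2 * (m % c) ≤ n % c := by
  have h2 := Nat.div_add_mod' n c
  have h3 := Nat.mod_lt n h0
  constructor
  · intro H
    have h4 : 0 < n / c := Nat.pos_of_ne_zero fun e => by rw [e] at h2; exact hc (by omega)
    obtain ⟨b₁, b₂, d₁, d₂, -, -, h5, h6, rfl, h7⟩ := H _ _ h4 h2
    have h8 : (d₁ + d₂) % c = n % c := by
      rw [show n = (b₁ + b₂) * c + (d₁ + d₂) by rw [add_mul]; omega, Nat.mul_add_mod']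
    have h9 : d₁ + d₂ = n % c := by
      by_cases h : d₁ + d₂ < c
      · rwa [Nat.mod_eq_of_lt h] at h8
      · rw [Nat.mod_eq_sub_mod (by omega), Nat.mod_eq_of_lt (by omega)] at h8; omega
    rw [Nat.mul_add_mod', Nat.mod_eq_of_lt (show d₁ < c by omega)]
    refine ⟨?_, by omega⟩
    rcases b₁ with _ | b
    · exact (hc (by omega)).elim
    · rw [add_mul]; omega
  · rintro ⟨-, h4⟩ b e - rfl
    rw [Nat.mul_add_mod'] at h4
    have h5 := Nat.div_add_mod' m c
    have h6 := Nat.mod_le e c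
    by_cases h7 : 2 * (m / c) ≤ b
    · obtain ⟨k, rfl⟩ := Nat.exists_eq_add_of_le h7
      exact ⟨m / c, m / c + k, m % c, e - m % c, by omega, by omega, by omega, by omega, h5, by
        simp only [add_mul, mul_assoc]; omega⟩
    · obtain ⟨s, t, rfl, h8, h9⟩ : ∃ s t, b = s + t ∧ s ≤ m / c ∧ t ≤ m / c := ⟨b / 2, b - b / 2, by omega, by omega, by omega⟩
      have := Nat.mul_le_mul_right c h8
      have := Nat.mul_le_mul_right c h9
      rw [add_mul] at *
      exact ⟨s, s, m - s * c, e - (m - t * c), le_rfl, by omega, by omega, by omega, by omega, by omega⟩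

/-- Elements of prime order of PSL_n(q) fixing no pair of subspaces `U < W` with `dim U = m`, `dim W = n − m`. Here `T = PSL_n(F)` for a field `F` with `q = p^f` elements (`n ≥ 2`, `(n, q) ≠ (2, 2), (2, 3)`); an element of `T` of prime order `r` is represented by a matrix `x` of determinant 1 with `x^r` scalar and `x` not scalar; `i` denotes the multiplicative order of `q` modulo `r` (when `r ≠ p`), and `(a)_r` the `r`-part of `a`. Let `1 ≤ m < n/2` and let `r` be a prime dividing the number of such pairs. Then every element of `T` of order `r` fixes such a pair (both `U` and `W`) if and only if `r ≠ p` and either (i) `i = 1` and (`r ∣ m`, or `(q−1)_r ≥ (n)_r` with `q ≡ 1 (mod 4)` required when `r = 2` and `n` is even), or (ii) `2 ≤ i ≤ m` and `n mod i ≥ 2 (m mod i)`. -/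
theorem result {F : Type*} [Field F] [Fintype F] {p : ℕ} [Fact p.Prime] [CharP F p] {q : ℕ} (hq : Fintype.card F = q)
    (n m : ℕ) (hn : 2 ≤ n) (hT : (n, q) ≠ (2, 2) ∧ (n, q) ≠ (2, 3)) (hm : 1 ≤ m) (hmn : 2 * m < n)
    (r : ℕ) [Fact r.Prime]
    (hrΩ : r ∣ Nat.card {P : Submodule F (Fin n → F) × Submodule F (Fin n → F) //
        P.1 ≤ P.2 ∧ Module.finrank F ↥P.1 = m ∧ Module.finrank F ↥P.2 = n - m}) :
    (∀ x : Matrix.SpecialLinearGroup (Fin n) F,
      (∃ c : F, ((x ^ r : Matrix.SpecialLinearGroup (Fin n) F) : Matrix (Fin n) (Fin n) F) = c • (1 : Matrix (Fin n) (Fin n) F)) →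
      (∀ c : F, (x : Matrix (Fin n) (Fin n) F) ≠ c • (1 : Matrix (Fin n) (Fin n) F)) →
      ∃ U W : Submodule F (Fin n → F), U ≤ W ∧ Module.finrank F ↥U = m ∧ Module.finrank F ↥W = n - m ∧
        U.map (Matrix.toLin' (x : Matrix (Fin n) (Fin n) F)) ≤ U ∧ W.map (Matrix.toLin' (x : Matrix (Fin n) (Fin n) F)) ≤ W) ↔
    (r ≠ p ∧
      ((orderOf (q : ZMod r) = 1 ∧ (r ∣ m ∨ (padicValNat r n ≤ padicValNat r (q - 1) ∧ (r = 2 → Even n → q % 4 = 1)))) ∨
       (2 ≤ orderOf (q : ZMod r) ∧ orderOf (q : ZMod r) ≤ m ∧ 2 * (m % orderOf (q : ZMod r)) ≤ n % orderOf (q : ZMod r)))) := by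
  subst hq
  have hr : r.Prime := Fact.out
  have hV : finrank F (Fin n → F) = n := by simp
  have key : ¬ ∀ R : Subgroup ((Fin n → F) ≃ₗ[F] (Fin n → F)), IsPGroup r R →
      ∃ U W : Submodule F (Fin n → F), U ≤ W ∧ finrank F U = m ∧ finrank F W = n - m ∧ (∀ g, Iv (leq R g) U) ∧
        ∀ g, Iv (leq R g) W := fun h =>
    not_dvd_card_of_fixed (G := (Fin n → F) ≃ₗ[F] (Fin n → F)) (fun g W hW => ⟨Submodule.map_mono hW.1,
      (LinearEquiv.finrank_map_eq g W.1).trans hW.2.1, (LinearEquiv.finrank_map_eq g W.2).trans hW.2.2⟩)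
      (fun U W h1 h2 => let ⟨g, h3, h4⟩ := exists_map_flag h1.1 h2.1 (h1.2.1.trans h2.2.1.symm) (h1.2.2.trans h2.2.2.symm)
        ⟨g, Prod.ext h3 h4⟩) (fun R hR => let ⟨U, W, h1, h2, h3, h4, h5⟩ := h R hR
        ⟨(U, W), ⟨h1, h2, h3⟩, fun g hg => Prod.ext (smul_eq_of_iv h4 g hg) (smul_eq_of_iv h5 g hg)⟩) hrΩ
  have hrp : r ≠ p := by
    rintro rfl
    refine key fun R hR => ?_
    obtain ⟨W, -, -, h1, h2⟩ := exists_iv_between hR (leq R) (fun _ => iv_bot _) (fun _ => iv_top _) le_top (k := n - m)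
      (by simp)
    rw [finrank_bot, zero_add] at h1
    obtain ⟨T, -, h3, h4, h5⟩ := exists_iv_between hR (leq R) (fun _ => iv_bot _) h2 bot_le (k := m)
      (by simp; omega)
    exact ⟨T, W, h3, by simpa using h4, h1, h5, h2⟩
  have hc : 2 * m ≤ n % orderOf (Fintype.card F : ZMod r) → False := fun h => key fun R hR => by
    have h0 := mod_le_finrank_fixR (not_dvd_card_of_ne hr hrp) hR (leq R)
    rw [hV] at h0
    obtain ⟨S, h3, h4⟩ := exists_compl_fixR (natCast_card_ne_zero hrp hR) (leq R)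
    obtain ⟨T', h5, h6⟩ := exists_le_finrank (Nat.sub_le (finrank F (fixR (leq R))) m)
    obtain ⟨T, h7, h8⟩ := exists_le_finrank (U := T') (m := m) (by omega)
    have h1 := Submodule.finrank_add_eq_of_isCompl h3
    have h2 := Submodule.finrank_sup_add_finrank_inf_eq T' S
    rw [(h3.disjoint.mono_left h5).eq_bot, finrank_bot] at h2
    exact ⟨T, T' ⊔ S, le_sup_of_le_left h7, h8, by omega, iv_of_le_fixR (h7.trans h5),
      fun g => iv_of_sub_mem (h4 g) le_sup_right⟩
  simp only [iv_iff]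
  rw [and_iff_right hrp, forall_SL_iff (P := fun a => ∃ U W : Submodule F (Fin n → F), U ≤ W ∧ finrank F U = m ∧
    finrank F W = n - m ∧ Iv a U ∧ Iv a W)]
  have hP : ∀ w : F, w ≠ 0 → ∀ a, (∃ U W : Submodule F (Fin n → F), U ≤ W ∧ finrank F U = m ∧
      finrank F W = n - m ∧ Iv a U ∧ Iv a W) → ∃ U W : Submodule F (Fin n → F), U ≤ W ∧ finrank F U = m ∧
      finrank F W = n - m ∧ Iv (w • a) U ∧ Iv (w • a) W :=
    fun w _ a ⟨U, W, h1, h2, h3, h4, h5⟩ => ⟨U, W, h1, h2, h3, h4.smul w, h5.smul w⟩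
  have h0 := orderOf_card_pos (F := F) hrp
  have hr0 := cast_ne_zero_of_ne (F := F) hr hrp
  have h1 := fun (a : End F (Fin n → F)) (h : a ^ r = 1) => exists_flag_iff (squarefree_X_pow_sub_C hr0 one_ne_zero)
    (aeval_X_pow_sub_C (show a ^ r = _ by rw [h, one_smul])) m (n - m)
  by_cases h : orderOf (Fintype.card F : ZMod r) = 1
  · rw [or_iff_left (by omega), and_iff_right h]
    refine (forall_po_one hr (orderOf_eq_one_iff_dvd.1 h) (by omega) hP (fun y hy => (h1 y hy).2 ?_)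
      fun z hz a k h2 h3 h4 => ?_).trans (by rw [hV])
    · obtain ⟨N, h2, h3⟩ := exists_le_card (N := ed y) (b := n - m) (by
        rw [← exists_le_of_one hr hrp h hy le_rfl, tdg_ed]; omega)
      obtain ⟨M, h4, h5⟩ := exists_le_card (N := N) (b := m) (by omega)
      exact ⟨M, N, h4, h2, (exists_le_of_one hr hrp h hy (h4.trans h2)).trans h5,
        (exists_le_of_one hr hrp h hy h2).trans h3⟩
    · rw [exists_flag_iff (kpp hr hz).irred.squarefree (aeval_X_pow_sub_C h2), h3]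
      constructor
      · rintro ⟨M, N, h5, h6, h7, -⟩
        simpa [kpp_dg] using (le_replicate_tdg (by rw [kpp_dg]; omega)).1 ⟨M, h5.trans h6, h7⟩
      · rintro ⟨l, rfl⟩
        have : 2 * l ≤ k := Nat.le_of_mul_le_mul_right (by rw [mul_assoc, mul_comm l]; omega) hr.pos
        exact ⟨.replicate l _, .replicate (k - l) _, (Multiset.replicate_le_replicate _).2 (by omega),
          (Multiset.replicate_le_replicate _).2 (by omega), by simp [kpp_dg, mul_comm], by
            simp [kpp_dg, Nat.sub_mul, ← h4, mul_comm l]⟩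
  · rw [or_iff_right (by omega), forall_po_two hr (mt orderOf_eq_one_iff_dvd.2 h) hP,
      forall_pow_iff hr hrp (T := fun b e => ∃ b₁ b₂ d₁ d₂, b₁ ≤ b₂ ∧ b₂ ≤ b ∧ d₁ ≤ d₂ ∧ d₂ ≤ e ∧
        b₁ * orderOf (Fintype.card F : ZMod r) + d₁ = m ∧ b₂ * orderOf (Fintype.card F : ZMod r) + d₂ = n - m), hV,
      arith h0 hm hmn hc, and_iff_right (show 2 ≤ orderOf (Fintype.card F : ZMod r) by omega)]
    intro a N e h2 h3 h4
    rw [h1 a h2, h3]
    constructor
    · rintro ⟨M, M', h5, h6, h7, h8⟩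
      rw [split h4 (h5.trans h6)] at h7
      rw [split h4 h6] at h8
      exact ⟨_, _, _, _, Multiset.card_le_card (Multiset.filter_le_filter _ h5),
        (split2 (e := e) h4 h).1 ▸ Multiset.card_le_card (Multiset.filter_le_filter _ h6),
        Multiset.card_le_card (Multiset.filter_le_filter _ h5),
        (Multiset.card_le_card (Multiset.filter_le_filter _ h6)).trans (split2 h4 h).2.le, h7, h8⟩
    · rintro ⟨b₁, b₂, d₁, d₂, h5, h6, h7, h8, h9, h10⟩
      obtain ⟨N₂, h11, rfl⟩ := exists_le_card h6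
      obtain ⟨N₁, h12, rfl⟩ := exists_le_card h5
      exact ⟨N₁ + .replicate d₁ _, N₂ + .replicate d₂ _, add_le_add h12 ((Multiset.replicate_le_replicate _).2 h7),
        add_le_add h11 ((Multiset.replicate_le_replicate _).2 h8),
        by rw [tdg_add, tdg_of_const fun x hx => h4 x (Multiset.mem_of_le (h12.trans h11) hx), ← h9]; simp [upp_dg],
        by rw [tdg_add, tdg_of_const fun x hx => h4 x (Multiset.mem_of_le h11 hx), ← h10]; simp [upp_dg]⟩

end Cfsg.Agent.S5951
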