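import Cfsg.Statements.S5952
import Mathlib

set_option autoImplicit false
open Cfsg

namespace Cfsg.Agent.S5952

open Module in
theorem exists_sup {F V ι : Type*} [Field F] [AddCommGroup V] [Module F V] [FiniteDimensional F V]
    {f : V →ₗ[F] V} {a : ℕ} {U : ι → Submodule F V} (h1 : ∀ j, (U j).map f ≤ U j)
    (h2 : ∀ j, finrank F (U j) = a)
    (h3 : ∀ j, ∀ W : Submodule F V, W ≤ U j → W.map f ≤ W → W = ⊥ ∨ W = U j) (T : Finset ι)
    {Z : Submodule F V} (hZ : Z.map f ≤ Z) : ∃ t, finrank F ↥(Z ⊔ T.sup U) = finrank F Z + a * t := by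
  classical
  induction T using Finset.induction_on generalizing Z with
  | empty => exact ⟨0, by rw [Finset.sup_empty, sup_bot_eq]; rfl⟩
  | insert j T _ ih =>
    obtain ⟨t, ht⟩ := ih (Z := Z ⊔ U j) (by rw [Submodule.map_sup]; exact sup_le_sup hZ (h1 j))
    rw [Finset.sup_insert, ← sup_assoc, ht]
    rcases h3 j (Z ⊓ U j) inf_le_right ((Submodule.map_inf_le _).trans (inf_le_inf hZ (h1 j))) with h | h
    · have := Submodule.finrank_sup_add_finrank_inf_eq Z (U j)
      rw [h, finrank_bot, h2] at this
      exact ⟨t + 1, by rw [mul_add]; omega⟩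
    · exact ⟨t, by rw [sup_eq_left.2 (inf_eq_right.1 h)]⟩

/-- Which dimensions of invariant subspaces a semisimple linear map has. Let `V` be a finite-dimensional vector space over a field `F` and `f` an invertible semisimple linear map of `V`. Suppose `V` is the internal direct sum of the fixed space `C_V(f)` (the eigenspace for 1) and subspaces `U_1, …, U_s`, each `f`-invariant of dimension `a ≥ 1` on which `f` acts irreducibly (no `f`-invariant subspaces other than 0 and `U_j`). Let `0 < m < dim V` and `ℓ = m mod a`. Then `f` leaves some `m`-dimensional subspace invariant if and only if `dim C_V(f) ≥ m`, or `a ≤ m` and `dim C_V(f) ≥ ℓ`. -/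
theorem result {F V : Type*} [Field F] [AddCommGroup V] [Module F V]
    [FiniteDimensional F V] (f : V →ₗ[F] V) (hf : Function.Bijective f) (hss : Module.End.IsSemisimple f)
    {s a : ℕ} (ha : 1 ≤ a) (U : Fin s → Submodule F V)
    (hUinv : ∀ j, (U j).map f ≤ U j) (hUdim : ∀ j, Module.finrank F ↥(U j) = a)
    (hUirr : ∀ j, ∀ W : Submodule F V, W ≤ U j → W.map f ≤ W → W = ⊥ ∨ W = U j)
    (hdec : DirectSum.IsInternal (fun o : Option (Fin s) => o.elim (Module.End.eigenspace f 1) U))
    (m : ℕ) (hm : 0 < m) (hmV : m < Module.finrank F V) :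
    (∃ W : Submodule F V, Module.finrank F ↥W = m ∧ W.map f ≤ W) ↔
    (m ≤ Module.finrank F ↥(Module.End.eigenspace f 1) ∨
      (a ≤ m ∧ m % a ≤ Module.finrank F ↥(Module.End.eigenspace f 1))) := by
  classical
  set E := Module.End.eigenspace f 1
  have hE : ∀ W ≤ E, W.map f ≤ W := by
    rintro W hW _ ⟨x, hx, rfl⟩
    rwa [Module.End.mem_eigenspace_iff.1 (hW hx), one_smul]
  have h1 : E ⊔ Finset.univ.sup U = ⊤ := by
    rw [← hdec.submodule_iSup_eq_top, iSup_option, Finset.sup_univ_eq_iSup]; rfl
  have h2 : ∀ (T : Finset (Fin s)), ∀ W ≤ E,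
      Module.finrank F ↥(W ⊔ T.sup U) = Module.finrank F W + a * T.card := fun T W hW => by
    induction T using Finset.induction_on with
    | empty => rw [Finset.sup_empty, sup_bot_eq]; rfl
    | insert j T hj ih =>
      have := Submodule.finrank_sup_add_finrank_inf_eq (U j) (W ⊔ T.sup U)
      have hd : Disjoint (U j) (W ⊔ T.sup U) :=
        (hdec.submodule_iSupIndep (some j)).mono_right (sup_le (hW.trans
          (le_iSup₂_of_le none (by simp) le_rfl)) (Finset.sup_le fun i hi =>
            le_iSup₂_of_le (some i) (by rintro ⟨⟩; exact hj hi) le_rfl))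
      rw [hd.eq_bot, finrank_bot, hUdim, ih] at this
      rw [Finset.sup_insert, sup_left_comm, Finset.card_insert_of_notMem hj, mul_add]
      omega
  have h3 := h2 Finset.univ E le_rfl
  rw [h1, finrank_top, Finset.card_univ, Fintype.card_fin] at h3
  constructor
  · rintro ⟨W, rfl, hW⟩
    obtain ⟨t, ht⟩ := exists_sup hUinv hUdim hUirr Finset.univ (Z := W ⊔ E)
      (by rw [Submodule.map_sup]; exact sup_le_sup hW (hE E le_rfl))
    rw [sup_assoc, h1, sup_top_eq, finrank_top] at ht
    have h4 := Submodule.finrank_sup_add_finrank_inf_eq W E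
    have h5 := Submodule.finrank_mono (inf_le_right : W ⊓ E ≤ E)
    have h6 := Submodule.finrank_mono (le_sup_right : E ≤ W ⊔ E)
    obtain ⟨k, rfl⟩ := Nat.exists_eq_add_of_le (Nat.le_of_mul_le_mul_left (show a * t ≤ a * s by omega) ha)
    have h7 : Module.finrank F W = Module.finrank F ↥(W ⊓ E) + a * k := by rw [mul_add] at h3; omega
    rcases k with _ | k
    · left; omega
    · right
      rw [h7, Nat.add_mul_mod_self_left]
      exact ⟨by rw [mul_add]; omega, (Nat.mod_le _ _).trans h5⟩
  · intro h
    obtain ⟨t, h4, h5, h6⟩ : ∃ t ≤ s, a * t ≤ m ∧ m - a * t ≤ Module.finrank F E := by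
      rcases h with h | ⟨-, h⟩
      · exact ⟨0, by omega, by omega, by omega⟩
      · have := Nat.div_add_mod m a
        by_cases h4 : m / a ≤ s
        · exact ⟨m / a, h4, by omega, by omega⟩
        · have := Nat.mul_le_mul_left a (le_of_not_ge h4)
          exact ⟨s, le_rfl, by omega, by omega⟩
    obtain ⟨T, -, hT⟩ := Finset.exists_subset_card_eq (s := Finset.univ) (n := t) (α := Fin s) (by simpa)
    obtain ⟨W, hW, hW'⟩ : ∃ W ≤ E, Module.finrank F W = m - a * t := by
      obtain ⟨v, hv⟩ := exists_linearIndependent_of_le_finrank h6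
      exact ⟨_, Submodule.map_subtype_le E (.span F (.range v)), by
        rw [Submodule.finrank_map_subtype_eq, finrank_span_eq_card hv, Fintype.card_fin]⟩
    refine ⟨W ⊔ T.sup U, by rw [h2 T W hW, hT]; omega, ?_⟩
    rw [Submodule.map_sup, Finset.sup_eq_iSup, Submodule.map_iSup]
    refine sup_le_sup (hE W hW) (iSup_mono fun i => ?_)
    rw [Submodule.map_iSup]
    exact iSup_mono fun _ => hUinv i

end Cfsg.Agent.S5952
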