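import Cfsg.Statements.S5957
import Cfsg.Agent.H28.Elu4

set_option autoImplicit false
open scoped MatrixGroups
open Cfsg

namespace Cfsg.Agent.S5957

open H28 Module

/-- Involutions of PSL_n(q) and imprimitive subgroups. Here `T = PSL_n(F)` for a field `F` with `q = p^f` elements (`n ≥ 2`, `(n, q) ≠ (2, 2), (2, 3)`), `n = a·t` with `t ≥ 2`, and Ω is the set of direct-sum decompositions of `F^n` into `t` subspaces of dimension `a` (unordered; their number is the number of ordered ones divided by `t!`), whose stabilizers are the imprimitive subgroups of type GL_a(q) ≀ S_t (maximal except in some small cases; maximality is not assumed); an element of `T` of prime order `r` (a matrix `x` of determinant 1 with `x^r` scalar, `x` not scalar) fixes a point of Ω when it permutes the summands of some such decomposition. If the number of such decompositions is even, then every involution of `T` stabilizes one of them (the action is 2-elusive). -/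
theorem result {F : Type*} [Field F] [Fintype F] {p : ℕ} [Fact p.Prime] [CharP F p] {q : ℕ} (hq : Fintype.card F = q)
    (n a t : ℕ) (hn : 2 ≤ n) (hT : (n, q) ≠ (2, 2) ∧ (n, q) ≠ (2, 3)) (hat : n = a * t) (ha : 1 ≤ a) (ht : 2 ≤ t)
    (hΩ : 2 ∣ Nat.card {D : Fin t → Submodule F (Fin n → F) // Cfsg.Geo.IsMDecomposition a D} / Nat.factorial t)
    (x : Matrix.SpecialLinearGroup (Fin n) F)
    (hx1 : ∃ z : F, ((x ^ 2 : Matrix.SpecialLinearGroup (Fin n) F) : Matrix (Fin n) (Fin n) F) = z • (1 : Matrix (Fin n) (Fin n) F))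
    (hx2 : ∀ z : F, (x : Matrix (Fin n) (Fin n) F) ≠ z • (1 : Matrix (Fin n) (Fin n) F)) :
    ∃ D : Fin t → Submodule F (Fin n → F), Cfsg.Geo.IsMDecomposition a D ∧
        ∃ σ : Equiv.Perm (Fin t), ∀ j, (D j).map (Matrix.toLin' (x : Matrix (Fin n) (Fin n) F)) = D (σ j) := by
  have hV : finrank F (Fin n → F) = a * t := by simp [hat]
  suffices h : PD (Matrix.toLin' x.1) a (Fin t) by
    obtain ⟨D, h1, h2, h3, h4⟩ := h
    exact ⟨D, ⟨ht, ha, h1, h2, h3⟩, h4⟩
  have h0 : Function.Injective (Matrix.toLin' x.1) := inj_of_det (by simp [LinearMap.det_toLin'])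
  obtain ⟨w, hw, y, h1, h2, -⟩ | ⟨z, hz, h1⟩ := po_cases two_ne_zero h0 ((po_toLin' _ _).2 ⟨hx1, hx2⟩)
  · have h3 : Function.Injective y := fun u v e => h0 (by simp [h1, e])
    rw [h1]
    refine PD.smul ?_ hw
    by_cases hp : 2 = p
    · subst hp
      obtain ⟨μ, h4, -, h5⟩ := ed_of_pow_char h2
      rw [H13.eq_replicate_add h4, add_comm] at h5
      exact pd_two h3 frE_char (by simpa using h5) ha hV
    · refine pd_one h3 (fun x hx => ?_) hV
      have := orderOf_le_card_univ (x := Units.mk0 (Fintype.card F : ZMod 2)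
        (mt (ZMod.natCast_eq_zero_iff _ _).1 (not_dvd_card_of_ne Nat.prime_two hp)))
      rw [← orderOf_units, Units.val_mk0, ZMod.card_units] at this
      simpa using exists_le_of_one Nat.prime_two hp (le_antisymm this (orderOf_card_pos hp)) h2 (Multiset.singleton_le.2 hx)
  · obtain ⟨k, h2, -⟩ := ed_of_nonpow Nat.prime_two hz h1
    exact pd_two h0 (e := 0) (frE_eq (x := kpp Nat.prime_two hz) (pow_one _)) (by simpa using h2) ha hV

end Cfsg.Agent.S5957
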