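import Cfsg.Statements.S5958
import Cfsg.Agent.H28.Elu4

set_option autoImplicit false
open scoped MatrixGroups
open Cfsg

namespace Cfsg.Agent.S5958

open H28 Module Polynomial
open scoped Pointwise

/-- Elements of odd prime order of PSL_n(q) and imprimitive subgroups. Here `T = PSL_n(F)` for a field `F` with `q = p^f` elements (`n ≥ 2`, `(n, q) ≠ (2, 2), (2, 3)`), `n = a·t` with `t ≥ 2`, and Ω is the set of direct-sum decompositions of `F^n` into `t` subspaces of dimension `a` (unordered; their number is the number of ordered ones divided by `t!`), whose stabilizers are the imprimitive subgroups of type GL_a(q) ≀ S_t (maximal except in some small cases; maximality is not assumed); an element of `T` of prime order `r` (a matrix `x` of determinant 1 with `x^r` scalar, `x` not scalar) fixes a point of Ω when it permutes the summands of some such decomposition. Let `r ≠ p` be an odd prime dividing the number of such decompositions, let `c` be the multiplicative order of `q` modulo `r`, and write `k = n mod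 c`, `ℓ = a mod c`. Then every element of `T` of order `r` stabilizes such a decomposition if and only if either `a = 1`, `c = r − 1 > 1` and `n ≤ k·r`, or `c ≤ a` and `k = t·ℓ`. -/
theorem result {F : Type*} [Field F] [Fintype F] {p : ℕ} [Fact p.Prime] [CharP F p] {q : ℕ} (hq : Fintype.card F = q)
    (n a t : ℕ) (hn : 2 ≤ n) (hT : (n, q) ≠ (2, 2) ∧ (n, q) ≠ (2, 3)) (hat : n = a * t) (ha : 1 ≤ a) (ht : 2 ≤ t)
    (r : ℕ) [Fact r.Prime] (hr2 : r ≠ 2) (hrp : r ≠ p) (hΩ : r ∣ Nat.card {D : Fin t → Submodule F (Fin n → F) // Cfsg.Geo.IsMDecomposition a D} / Nat.factorial t)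
    (c : ℕ) (hc : c = orderOf (q : ZMod r)) :
    (∀ x : Matrix.SpecialLinearGroup (Fin n) F,
      (∃ z : F, ((x ^ r : Matrix.SpecialLinearGroup (Fin n) F) : Matrix (Fin n) (Fin n) F) = z • (1 : Matrix (Fin n) (Fin n) F)) →
      (∀ z : F, (x : Matrix (Fin n) (Fin n) F) ≠ z • (1 : Matrix (Fin n) (Fin n) F)) →
      ∃ D : Fin t → Submodule F (Fin n → F), Cfsg.Geo.IsMDecomposition a D ∧
        ∃ σ : Equiv.Perm (Fin t), ∀ j, (D j).map (Matrix.toLin' (x : Matrix (Fin n) (Fin n) F)) = D (σ j)) ↔
    ((a = 1 ∧ 1 < c ∧ c = r - 1 ∧ n ≤ (n % c) * r) ∨ (c ≤ a ∧ n % c = t * (a % c))) := by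
  subst hq
  have hr : r.Prime := Fact.out
  have hV : finrank F (Fin n → F) = a * t := by simp [hat]
  have e1 : ∀ u : End F (Fin n → F), (∃ D : Fin t → Submodule F (Fin n → F), Geo.IsMDecomposition a D ∧
      ∃ σ : Equiv.Perm (Fin t), ∀ j, (D j).map u = D (σ j)) ↔ PD u a (Fin t) := fun u =>
    ⟨fun ⟨D, h, h1⟩ => ⟨D, h.finrank_eq, h.indep, h.iSup_eq_top, h1⟩, fun ⟨D, h1, h2, h3, h4⟩ => ⟨D, ⟨ht, ha, h1, h2, h3⟩, h4⟩⟩
  simp only [e1]
  refine (forall_SL_iff (P := fun u : End F (Fin n → F) => PD u a (Fin t))).trans ?_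
  have h0 : 0 < c := hc ▸ orderOf_card_pos (F := F) hrp
  obtain ⟨s, rfl⟩ : ∃ s, r = s + 1 := ⟨r - 1, by have := hr.pos; omega⟩
  have hi : ∀ y : End F (Fin n → F), ∀ z : F, z ≠ 0 → y ^ (s + 1) = z • 1 → Function.Injective y := fun y z hz h u v e => by
    have := congrArg (y ^ s) e
    rwa [← End.mul_apply, ← End.mul_apply, ← pow_succ, h, LinearMap.smul_apply, LinearMap.smul_apply,
      (smul_right_injective _ hz).eq_iff] at this
  have hi1 : ∀ y : End F (Fin n → F), y ^ (s + 1) = 1 → Function.Injective y := fun y h => hi y 1 one_ne_zero (by simp [h])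
  by_cases h1 : c = 1
  · refine iff_of_true ((forall_po_one (A := True) hr (orderOf_eq_one_iff_dvd.1 (hc ▸ h1)) (by rw [← hat] at hV; omega)
      (fun w hw a h => h.smul hw) (fun y hy => pd_one (hi1 y hy) (fun x hx => ?_) hV)
      fun z hz y k h2 h3 h4 => iff_true_intro ?_).2 (.inl trivial)) (.inr ⟨by omega, by simp [h1, Nat.mod_one]⟩)
    · simpa using exists_le_of_one hr hrp (hc ▸ h1) hy (Multiset.singleton_le.2 hx)
    have h5 := hi y z (fun e => hz 0 (by simp [e])) h2
    rw [hV] at h4
    obtain ⟨l, rfl⟩ | ⟨l, rfl⟩ := (Nat.Prime.dvd_mul hr).1 (h4 ▸ dvd_mul_left _ _ : s + 1 ∣ a * t)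
    · obtain rfl : k = l * t := Nat.eq_of_mul_eq_mul_right hr.pos (by rw [← h4]; ring)
      exact pd_of_ed h5 (k := 0) (s := s) (z := z) (l := t) (fun _ => .replicate l (kpp hr hz))
        (fun _ => by simp [kpp_dg, mul_comm]) (by simp [h3, Multiset.nsmul_replicate, mul_comm]) (by simp)
    · obtain rfl : k = l * a := Nat.eq_of_mul_eq_mul_right hr.pos (by rw [← h4]; ring)
      exact pd_of_ed h5 (k := l) (s := s) (z := z) (l := 0) Fin.elim0 (fun j => j.elim0)
        (by simp [h3, frE_eq (s := s) (x := kpp hr hz) (pow_one _), Multiset.nsmul_singleton]) (by simp [mul_comm])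
  rw [forall_po_two hr (fun h => h1 (hc ▸ orderOf_eq_one_iff_dvd.2 h)) fun w hw a h => h.smul hw]
  have hn' : c ≤ n := by
    have h2 := dvd_card_of_dvd_div (fun D h => injective_of_iSupIndep h.indep h.finrank_eq ha) (fun D σ h =>
      ⟨ht, ha, fun _ => h.finrank_eq _, h.indep.comp σ.injective, (σ.iSup_comp (g := D)).trans h.iSup_eq_top⟩) hΩ
    by_contra! h3
    obtain ⟨D, h4, h5, h6, -⟩ := pd_one (a := (1 : End F (Fin n → F))) (fun _ _ h => h) (fun x hx => by
      have := (pow_eq_one_iff_ed (1 : End F (Fin n → F)) 1).1 (by simp) x hx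
      have := natDegree_le_of_dvd this (by simpa using H13.irreducible_X_sub_one.ne_zero)
      rw [pow_one, deg_X_sub_one, PP.natDegree_poly] at this
      exact le_antisymm this x.dg_pos) hV
    refine not_dvd_card_of_fixed (G := (Fin n → F) ≃ₗ[F] (Fin n → F)) (P := fun D : Fin t → Submodule F (Fin n → F) =>
      Geo.IsMDecomposition a D) (fun g D h => ⟨ht, ha, fun i =>
      (LinearEquiv.finrank_map_eq g _).trans (h.finrank_eq i), h.indep.map_orderIso (Submodule.orderIsoMapComap g), ?_⟩)
      (fun D D' h h' => ?_) (fun R hR => ⟨D, ⟨ht, ha, h4, h5, h6⟩, fun g hg => funext fun j =>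
        smul_eq_of_iv (iv_of_le_fixR ?_) g hg⟩) h2
    · exact (Submodule.map_iSup g.toLinearMap D).symm.trans (by rw [h.iSup_eq_top, Submodule.map_top, LinearEquiv.range])
    · obtain ⟨g, -, h7⟩ := exists_map_family h.indep h.iSup_eq_top h'.indep h'.iSup_eq_top fun i =>
        LinearEquiv.ofFinrankEq _ _ ((h.finrank_eq i).trans (h'.finrank_eq i).symm)
      exact ⟨g, funext h7⟩
    · have := mod_le_finrank_fixR (not_dvd_card_of_ne hr hrp) hR (leq R)
      rw [← hc, Nat.mod_eq_of_lt (by simpa)] at this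
      rw [Submodule.eq_top_of_finrank_eq (le_antisymm (Submodule.finrank_le _) this)]
      exact le_top
  have hE : ∀ x ∈ frE s (1 : F), x.k = 1 := fun x hx =>
    ((poly_dvd_iff hr hrp x).1 ((dvd_iff_frE s 1 _).1 (by simp) x hx)).1
  have hE1 : H13.upp F 1 ∈ frE s (1 : F) := by
    obtain ⟨x, h2, h3⟩ := exists_mem_frE (s := s) (z := (1 : F)) H13.monic_X_sub_one H13.irreducible_X_sub_one
      (by simpa using sub_one_dvd_pow_sub_one (X : F[X]) (s + 1))
    rwa [← hE x h2, H13.upp_k h3]
  obtain ⟨x, hx⟩ := exists_cyc_pp (F := F) hr hrp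
  have hx1 := (dg_of_cyc hr hrp hx).trans hc.symm
  have hx2 : x ≠ H13.upp F 1 := fun e => h1 (by rw [← hx1, e, upp_dg one_pos])
  have hE2 : x ∈ frE s (1 : F) := by
    obtain ⟨y, h2, h3⟩ := exists_mem_frE (s := s) (z := (1 : F)) x.monic x.irred
      (hx.2.trans (by simpa using cyclotomic.dvd_X_pow_sub_one (s + 1) F))
    rwa [show x = y from PP.ext h3.symm (hx.1.trans (hE y h2).symm)]
  have hE3 : x ::ₘ {H13.upp F 1} ≤ frE s (1 : F) := (Multiset.le_iff_subset (by simpa using hx2)).2 (by
    simp [Multiset.cons_subset, hE1, hE2])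
  have hE4 : c = s → frE s (1 : F) = x ::ₘ {H13.upp F 1} := fun h => by
    obtain ⟨M, h2⟩ := Multiset.le_iff_exists_add.1 hE3
    have := congrArg tdg h2
    rw [tdg_frE, tdg_add, tdg_cons, tdg_singleton, upp_dg one_pos, hx1] at this
    rw [h2, tdg_eq_zero (M := M) (by omega), add_zero]
  have h2 := Nat.div_add_mod' n c
  have h3 := Nat.mod_lt n h0
  constructor
  · intro H
    have key : ∀ b e, 0 < b → b * c + e = n → ∃ k l, k * (s + 1) + l = t ∧ (k = 0 ∨ c = s) ∧ k * a ≤ b ∧
        k * a + l * (a % c) ≤ e := fun b e hb h4 => by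
      obtain ⟨y, h5, h6⟩ := exists_ntr (V := Fin n → F) hr hrp (M := .replicate b x)
        (fun y hy => Multiset.eq_of_mem_replicate hy ▸ hx) (by simp [← hc]; omega)
      obtain ⟨-, e', h7, h8⟩ := ed_eq_ntr hr hrp h5
      rw [h6] at h7 h8
      obtain rfl : e' = e := by simp [← hc] at h8; omega
      obtain ⟨D, h9, h10, h11, σ, h12⟩ := H y h5 fun e => by
        simpa [h6, hb.ne'] using congrArg Multiset.card ((ntr_eq_zero hr hrp h5).2 e)
      obtain ⟨k, h13, h14⟩ := ed_of_perm h10 h11 h9 ha h12 hr one_ne_zero (by rw [h5, one_smul])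
      have h15 := congrArg (Multiset.count x) (h7.symm.trans h14)
      have h16 := congrArg (Multiset.count (H13.upp F 1)) (h7.symm.trans h14)
      simp only [Multiset.count_add, Multiset.count_replicate, hx2, hx2.symm, if_true, if_false, Multiset.count_nsmul,
        Multiset.count_sum'] at h15 h16
      have h17 := Nat.mul_le_mul_left (k * a) (Multiset.one_le_count_iff_mem.2 hE1)
      have h18 := Nat.mul_le_mul_left (k * a) (Multiset.one_le_count_iff_mem.2 hE2)
      have h19 := Finset.card_nsmul_le_sum (Finset.univ.filter fun j => σ j = j)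
        (fun j => (edOn y (D j)).count (H13.upp F 1)) (a % c) fun j hj => by
          have h20 : edOn y (D j) ≤ .replicate b x + .replicate e' (H13.upp F 1) := by
            rw [← h7, h14]
            exact le_add_left (Finset.single_le_sum (f := fun j => edOn y (D j)) (fun _ _ => zero_le) hj)
          have h21 := tdg_edOn (iv_iff.1 (by rw [h12, (Finset.mem_filter.1 hj).2] : (D j).map y ≤ D j))
          rw [← Multiset.filter_add_not (H13.upp F 1 = ·) (edOn y (D j)), tdg_add, Multiset.filter_eq, tdg_replicate, upp_dg one_pos,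
            tdg_of_const (c := c) fun u hu => by
              obtain ⟨h22, h23⟩ := Multiset.mem_filter.1 hu
              exact (Multiset.mem_add.1 (Multiset.mem_of_le h20 h22)).elim (fun h => Multiset.eq_of_mem_replicate h ▸ hx1)
                fun h => absurd (Multiset.eq_of_mem_replicate h).symm h23, h9, mul_one] at h21
          rw [← h21, Nat.add_mul_mod_self_right]
          exact Nat.mod_le _ _
      refine ⟨k, _, by simpa using h13, or_iff_not_imp_left.2 fun hk => ?_, by omega, by rw [smul_eq_mul] at h19; omega⟩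
      have h20 : X ^ (s + 1) - C (1 : F) ∣ x.poly * (H13.upp F 1).poly := (dvd_iff_frE s 1 _).2 fun u hu => by
        have : u ∈ ed y := h14 ▸ Multiset.mem_add.2 (.inl (Multiset.mem_nsmul.2 ⟨Nat.mul_ne_zero hk (by omega), hu⟩))
        rw [h7, Multiset.mem_add] at this
        exact this.elim (fun h => Multiset.eq_of_mem_replicate h ▸ dvd_mul_right _ _)
          fun h => Multiset.eq_of_mem_replicate h ▸ dvd_mul_left _ _
      have h21 := natDegree_le_of_dvd h20 (x.poly_monic.mul (PP.poly_monic _)).ne_zero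
      rw [x.poly_monic.natDegree_mul (PP.poly_monic _), natDegree_X_pow_sub_C, PP.natDegree_poly, PP.natDegree_poly] at h21
      have h22 := tdg_frE s (1 : F)
      obtain ⟨M, h23⟩ := Multiset.le_iff_exists_add.1 hE3
      rw [h23, tdg_add, tdg_cons, tdg_singleton] at h22
      have := upp_dg (F := F) one_pos
      simp only [PP.dg] at *
      omega
    obtain ⟨k, l, h4, h5, h6, h7⟩ := key _ _ (Nat.div_pos hn' h0) h2
    rcases Nat.eq_zero_or_pos k with rfl | hk
    · obtain rfl : l = t := by omega
      have h8 : n % c = l * (a % c) := by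
        rw [hat, mul_comm, ← Nat.mul_mod_mod, Nat.mod_eq_of_lt (by omega)]
      refine .inr ⟨by_contra fun h9 => ?_, h8⟩
      rw [Nat.mod_eq_of_lt (not_le.1 h9), mul_comm] at h8
      omega
    obtain rfl : c = s := by omega
    have h8 := Nat.mul_le_mul_right a hk
    rw [Nat.mod_eq_of_lt (show a < c by omega)] at h7
    have h9 : n / c ≤ n % c := by
      have : n / c * c ≤ k * a * c := by
        have : n = k * a * c + k * a + l * a := by rw [hat, ← h4]; ring
        omega
      have := Nat.le_of_mul_le_mul_right this h0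
      omega
    refine .inl ⟨by_contra fun h10 => ?_, by omega, rfl, by
      have := Nat.mul_le_mul_right c h9; rw [mul_add]; omega⟩
    obtain ⟨k', l', h11, -, h12, h13⟩ := key 1 (n - c) one_pos (by omega)
    obtain rfl : k' = 0 := by
      by_contra h0
      have := Nat.mul_le_mul_right a (Nat.one_le_iff_ne_zero.2 h0)
      omega
    obtain rfl : l' = t := by omega
    rw [Nat.mod_eq_of_lt (show a < c by omega), mul_comm l'] at h13
    omega
  · intro H y h4 h5
    obtain ⟨h6, e, h7, h8⟩ := ed_eq_ntr hr hrp h4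
    rw [← hc, finrank_fin_fun] at h8
    have h9 : n % c ≤ e := by rw [← h8, Nat.mul_add_mod']; exact Nat.mod_le _ _
    obtain ⟨rfl, -, h13, h10⟩ | ⟨h10, h11⟩ := H
    · obtain rfl : s = c := by omega
      have h11 : ntr y = .replicate (ntr y).card x := Multiset.eq_replicate_card.2 fun u hu => by
        have h12 : ∀ u : PP F, u.k = 1 ∧ u.f ∣ cyclotomic (s + 1) F → u.f = cyclotomic (s + 1) F := fun u hu =>
          eq_of_monic_of_dvd_of_natDegree_le u.monic (cyclotomic.monic _ _) hu.2 (by
            rw [natDegree_cyclotomic, Nat.totient_prime hr, natDegree_of_dvd_cyc hr hrp u.irred hu.2, ← hc]; rfl) |>.symm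
        exact PP.ext ((h12 u (h6 u hu)).trans (h12 x hx).symm) ((h6 u hu).1.trans hx.1.symm)
      generalize (ntr y).card = b at *
      have h12 : b ≤ e := Nat.le_of_mul_le_mul_right (by
        have := Nat.mul_le_mul_right (s + 1) h9; rw [mul_add e] at this; omega) h0
      refine pd_of_ed (hi1 y h4) (k := b) (s := s) (z := 1) (l := e - b) (fun _ => {H13.upp F 1}) (fun _ => by simp [upp_dg])
        ?_ (by simp [mul_add]; omega)
      rw [h7, h11, hE4 rfl, ← Multiset.singleton_add, nsmul_add]
      simp [Multiset.nsmul_singleton, add_assoc, ← Multiset.replicate_add, h12]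
    · obtain ⟨ν, h12, h13⟩ := exists_boxes (N := ntr y) (c := c) (e := e) (d := a) (l := t)
        (fun u hu => (dg_of_cyc hr hrp (h6 u hu)).trans hc.symm) (by rw [h8, hat, mul_comm])
        (Nat.le_of_mul_le_mul_right (by
          have := congrArg (t * ·) (Nat.div_add_mod' a c)
          simp only [mul_add, ← mul_assoc, mul_comm t a] at this
          omega) h0)
      exact pd_of_ed (hi1 y h4) (k := 0) (s := s) (z := 1) ν h12 (by simp [h7, h13]) (by simp)

end Cfsg.Agent.S5958
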