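import Cfsg.Statements.S5959
import Cfsg.Agent.H28.Elu4

set_option autoImplicit false
open scoped MatrixGroups
open Cfsg

namespace Cfsg.Agent.S5959

open H28 Module

/-- Elements of order `p` of PSL_n(q) and imprimitive subgroups: a necessary condition. Here `T = PSL_n(F)` for a field `F` with `q = p^f` elements (`n ≥ 2`, `(n, q) ≠ (2, 2), (2, 3)`), `n = a·t` with `t ≥ 2`, and Ω is the set of direct-sum decompositions of `F^n` into `t` subspaces of dimension `a` (unordered; their number is the number of ordered ones divided by `t!`), whose stabilizers are the imprimitive subgroups of type GL_a(q) ≀ S_t (maximal except in some small cases; maximality is not assumed); an element of `T` of prime order `r` (a matrix `x` of determinant 1 with `x^r` scalar, `x` not scalar) fixes a point of Ω when it permutes the summands of some such decomposition. Suppose `p > 2` divides the number of such decompositions. If every element of `T` of order `p` stabilizes such a decomposition, then every partition of `n` into parts of size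 at most `p` in which the part `p` occurs fewer than `a` times contains (as a sub-multiset) a partition of `a`. -/
theorem result {F : Type*} [Field F] [Fintype F] {p : ℕ} [Fact p.Prime] [CharP F p] {q : ℕ} (hq : Fintype.card F = q)
    (n a t : ℕ) (hn : 2 ≤ n) (hT : (n, q) ≠ (2, 2) ∧ (n, q) ≠ (2, 3)) (hat : n = a * t) (ha : 1 ≤ a) (ht : 2 ≤ t)
    (hp : 2 < p) (hΩ : p ∣ Nat.card {D : Fin t → Submodule F (Fin n → F) // Cfsg.Geo.IsMDecomposition a D} / Nat.factorial t)
    (h : ∀ x : Matrix.SpecialLinearGroup (Fin n) F,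
      (∃ z : F, ((x ^ p : Matrix.SpecialLinearGroup (Fin n) F) : Matrix (Fin n) (Fin n) F) = z • (1 : Matrix (Fin n) (Fin n) F)) →
      (∀ z : F, (x : Matrix (Fin n) (Fin n) F) ≠ z • (1 : Matrix (Fin n) (Fin n) F)) →
      ∃ D : Fin t → Submodule F (Fin n → F), Cfsg.Geo.IsMDecomposition a D ∧
        ∃ σ : Equiv.Perm (Fin t), ∀ j, (D j).map (Matrix.toLin' (x : Matrix (Fin n) (Fin n) F)) = D (σ j)) :
    (∀ μ : Multiset ℕ, (∀ b ∈ μ, 0 < b ∧ b ≤ p) → μ.sum = n → μ.count p < a → ∃ ν : Multiset ℕ, ν ≤ μ ∧ ν.sum = a) := by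
  intro μ h1 h2 h3
  obtain ⟨s, rfl⟩ : ∃ s, p = s + 1 := ⟨p - 1, by omega⟩
  by_cases h4 : ∃ k ∈ μ, 1 < k
  swap
  · refine ⟨.replicate a 1, ?_, by simp⟩
    rw [eq_replicate_one (fun k hk => (h1 k hk).1) h4, Multiset.replicate_le_replicate, h2, hat]
    exact Nat.le_mul_of_pos_right _ (by omega)
  rw [forall_SL_iff (P := fun u => ∃ D : Fin t → Submodule F (Fin n → F), Geo.IsMDecomposition a D ∧
      ∃ σ : Equiv.Perm (Fin t), ∀ j, (D j).map u = D (σ j)), forall_po_two Fact.out not_dvd_card_sub_one
    fun w hw u h => by simpa only [map_smul_eq hw] using h] at h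
  obtain ⟨u, h5, h6, h7⟩ := exists_unip_pow (F := F) (V := Fin n → F) h1 (by simpa) h4
  obtain ⟨D, hD, σ, h8⟩ := h u h5 h6
  obtain ⟨k, h9, h10⟩ := ed_of_perm hD.indep hD.iSup_eq_top hD.finrank_eq ha h8 Fact.out one_ne_zero
    (by rw [h5, one_smul])
  have h11 := congrArg (Multiset.count (H13.upp F (s + 1))) h10
  rw [h7, count_map_upp (fun k hk => (h1 k hk).1) (Nat.add_one_pos s), frE_char, Multiset.count_add, Multiset.count_nsmul,
    Multiset.count_singleton_self, mul_one] at h11
  obtain rfl : k = 0 := by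
    by_contra h0
    have := Nat.mul_le_mul_right a (Nat.one_le_iff_ne_zero.2 h0)
    omega
  obtain ⟨j, hj⟩ := Finset.card_pos.1 (show 0 < (Finset.univ.filter fun j => σ j = j).card by simp at h9; omega)
  rw [← le_map_upp (F := F) fun k hk => (h1 k hk).1, ← h7, h10, ← hD.finrank_eq j]
  exact ⟨_, le_add_left (Finset.single_le_sum (f := fun j => edOn u (D j)) (fun _ _ => zero_le) hj),
    tdg_edOn (iv_iff.1 (by rw [h8, (Finset.mem_filter.1 hj).2]))⟩

end Cfsg.Agent.S5959
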